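/-
Hall–Higman: the critical factorisation of `Cfsg.Agent.Core.HallHigman.Algebra` (same proof), exporting in
addition the index of the scalar subgroup.
-/
import Cfsg.Agent.Core.HallHigman.Algebra

set_option autoImplicit false
set_option linter.style.haveILetI false
set_option linter.unusedSectionVars false
set_option maxSynthPendingDepth 4

namespace Cfsg.Agent.Transfer.HHFactor

open Module Cfsg.Agent.Core.HH

universe u v

variable {K : Type u} [Field K] [IsAlgClosed K] {W : Type v} [AddCommGroup W] [Module K W]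
  [FiniteDimensional K W] [Nontrivial W] {Q : Type*} [Group Q] [Finite Q]

set_option maxHeartbeats 1000000 in
/-- The critical factorisation, exporting also the index of the scalar subgroup. -/
theorem exists_factor_index {q : ℕ} [Fact q.Prime] (hQ : IsPGroup q Q)
    (ρ : Q →* Module.End K W) (T : Module.End K W) (τ : MulAut Q) (P : ℕ) (hP : 1 < P) (hT : T ^ P = 1)
    (hTρ : ∀ x, T * ρ x = ρ (τ x) * T)
    (hcomm : ∀ a b, ∃ c : K, ρ a * ρ b = c • (ρ b * ρ a))
    (hscal : ∀ r, (∀ w, Commute (ρ r) (ρ w)) → ∃ c : K, ρ r = c • 1)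
    (hfpf : ∀ x, ∀ i, 0 < i → i < P → (∃ c : K, ρ ((τ ^ i) x) = c • ρ x) → ∃ c : K, ρ x = c • 1)
    (hne : ∃ x, ∀ c : K, ρ x ≠ c • 1) :
    ∃ N e : ℕ, 2 ≤ N ∧ N ^ 2 = q ^ e ∧ (∀ R' : Subgroup Q, (∀ x, x ∈ R' ↔ ∃ c : K, ρ x = c • 1) → R'.index = N ^ 2) ∧ ∃ u : Module.End K (Fin N → K), u ^ P = 1 ∧
      P * finrank K (cent u) + 1 ≤ N ^ 2 + P ∧
      ∀ f : Polynomial K, Polynomial.aeval T f = 0 → Polynomial.aeval u f = 0 := by
  classical
  -- scalar elements
  let R : Subgroup Q :=
    { carrier := {x | ∃ c : K, ρ x = c • 1}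
      one_mem' := ⟨1, by rw [map_one, one_smul]⟩
      mul_mem' := fun {a b} ⟨c, hc⟩ ⟨d, hd⟩ => ⟨c * d, by rw [map_mul, hc, hd, smul_mul_smul_comm, mul_one]⟩
      inv_mem' := fun {a} ⟨c, hc⟩ => ⟨c⁻¹, by
        have h := ρ.map_mul a⁻¹ a
        rw [inv_mul_cancel, map_one, hc, mul_smul_comm, mul_one] at h
        have hc0 : c ≠ 0 := fun h0 => by rw [h0, zero_smul] at h; exact one_ne_zero h
        calc ρ a⁻¹ = c⁻¹ • (c • ρ a⁻¹) := by rw [smul_smul, inv_mul_cancel₀ hc0, one_smul]
          _ = c⁻¹ • (1 : Module.End K W) := by rw [← h]⟩ }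
  have hinv : ∀ x, ρ x * ρ x⁻¹ = 1 ∧ ρ x⁻¹ * ρ x = 1 := fun x => by
    rw [← map_mul, ← map_mul, mul_inv_cancel, inv_mul_cancel, map_one]; exact ⟨rfl, rfl⟩
  haveI hRn : R.Normal := ⟨fun r ⟨c, hc⟩ g => ⟨c, by
    rw [map_mul, map_mul, hc, mul_smul_comm, mul_one, smul_mul_assoc, (hinv g).1]⟩⟩
  let I := Q ⧸ R
  haveI : Fintype I := Fintype.ofFinite _
  let b : I → Module.End K W := fun i => ρ i.out
  have hrep : ∀ x : Q, ∃ c : K, ρ x = c • b (x : I) := fun x => by
    obtain ⟨r, hr⟩ := QuotientGroup.mk_out_eq_mul R x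
    obtain ⟨c, hc⟩ := R.inv_mem r.2
    refine ⟨c, ?_⟩
    calc ρ x = ρ (Quotient.out (x : I) * (r : Q)⁻¹) := by congr 1; rw [hr, mul_inv_cancel_right]
      _ = c • b (x : I) := by rw [map_mul, hc, mul_smul_comm, mul_one]
  have hbne : ∀ i, b i ≠ 0 := fun i h => by
    have h1 := (hinv i.out).1
    rw [show ρ i.out = 0 from h, zero_mul] at h1
    exact zero_ne_one h1
  -- distinct cosets are separated by conjugation
  have hsep : ∀ i j : I, i ≠ j → ∃ (w : Q) (c d : K), c ≠ d ∧ ρ w * b i = c • (b i * ρ w) ∧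
      ρ w * b j = d • (b j * ρ w) := by
    intro i j hij
    have hnR : i.out⁻¹ * j.out ∉ R := fun h => hij (by
      rw [← QuotientGroup.out_eq' i, ← QuotientGroup.out_eq' j]
      exact (QuotientGroup.eq).mpr h)
    obtain ⟨w, hw⟩ : ∃ w, ¬ Commute (ρ (i.out⁻¹ * j.out)) (ρ w) := by
      by_contra h
      exact hnR (hscal _ fun w => not_not.mp (not_exists.mp h w))
    obtain ⟨c, hc⟩ := hcomm w i.out
    obtain ⟨d, hd⟩ := hcomm w j.out
    refine ⟨w, c, d, fun hcd => hw ?_, hc, hd⟩
    subst hcd
    have hc0 : c ≠ 0 := fun h0 => by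
      rw [h0, zero_smul] at hc
      have := congrArg (fun z => ρ w⁻¹ * z) hc
      simp only [mul_zero, ← mul_assoc, (hinv w).2, one_mul] at this
      exact hbne i this
    have hci : ρ i.out⁻¹ * ρ w = c • (ρ w * ρ i.out⁻¹) := by
      have h1 := congrArg (fun z => ρ i.out⁻¹ * z * ρ i.out⁻¹) hc
      simp only [mul_smul_comm, smul_mul_assoc, mul_assoc, (hinv i.out).1, mul_one] at h1
      rw [← mul_assoc (ρ i.out⁻¹) (ρ i.out), (hinv i.out).2, one_mul] at h1
      exact h1
    show ρ (i.out⁻¹ * j.out) * ρ w = ρ w * ρ (i.out⁻¹ * j.out)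
    rw [map_mul, mul_assoc, show ρ j.out * ρ w = c⁻¹ • (ρ w * ρ j.out) by
      rw [hd, smul_smul, inv_mul_cancel₀ hc0, one_smul], mul_smul_comm, ← mul_assoc, hci, smul_mul_assoc,
      smul_smul, inv_mul_cancel₀ hc0, one_smul, mul_assoc]
  -- a bimodule containing a combination contains a basis element
  have hkey : ∀ (S : Submodule K (Module.End K W)), (∀ w, ∀ X ∈ S, ρ w * X ∈ S ∧ X * ρ w ∈ S) →
      ∀ (s : Finset I) (x : I → K), ∑ i ∈ s, x i • b i ∈ S → ∀ j ∈ s, x j ≠ 0 → ∃ k, b k ∈ S := by
    intro S hS s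
    induction s using Finset.strongInduction with
    | _ s ih =>
      intro x hx j hj hxj
      by_cases hone : ∀ i ∈ s, i = j
      · rw [Finset.sum_eq_single_of_mem j hj (fun i hi hne' => absurd (hone i hi) hne')] at hx
        exact ⟨j, (S.smul_mem_iff hxj).mp hx⟩
      · simp only [not_forall] at hone
        obtain ⟨i, hi, hij⟩ := hone
        obtain ⟨w, c, d, hcd, hc, hd⟩ := hsep i j hij
        choose coef hcoef using fun k : I => hcomm w k.out
        have hmem : (ρ w * (∑ k ∈ s, x k • b k) - c • ((∑ k ∈ s, x k • b k) * ρ w)) * ρ w⁻¹ ∈ S :=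
          (hS w⁻¹ _ (S.sub_mem (hS w _ hx).1 (S.smul_mem c (hS w _ hx).2))).2
        have heq : (ρ w * (∑ k ∈ s, x k • b k) - c • ((∑ k ∈ s, x k • b k) * ρ w)) * ρ w⁻¹ =
            ∑ k ∈ s, ((coef k - c) * x k) • b k := by
          rw [Finset.mul_sum, Finset.sum_mul, Finset.smul_sum, ← Finset.sum_sub_distrib, Finset.sum_mul]
          refine Finset.sum_congr rfl fun k _ => ?_
          rw [mul_smul_comm, show ρ w * b k = coef k • (b k * ρ w) from hcoef k, smul_mul_assoc, smul_smul,
            smul_smul, ← sub_smul, smul_mul_assoc, mul_assoc, (hinv w).1, mul_one]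
          congr 1
          ring
        rw [heq, ← Finset.add_sum_erase s _ hi, show coef i = c by
          refine smul_left_injective K (m := b i * ρ w) ?_ ((hcoef i).symm.trans hc)
          intro h0
          have h2 := congrArg (fun z => z * ρ w⁻¹) h0
          simp only [mul_assoc, (hinv w).1, mul_one, zero_mul] at h2
          exact hbne i h2, sub_self, zero_mul, zero_smul, zero_add] at hmem
        refine ih _ (Finset.erase_ssubset hi) _ hmem j (Finset.mem_erase.mpr ⟨Ne.symm hij, hj⟩) ?_
        refine mul_ne_zero (sub_ne_zero.mpr fun h => hcd ?_) hxj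
        have hne' : b j * ρ w ≠ 0 := fun h0 => by
          have h2 := congrArg (fun z => z * ρ w⁻¹) h0
          simp only [mul_assoc, (hinv w).1, mul_one, zero_mul] at h2
          exact hbne j h2
        rw [← h]
        exact (smul_left_injective K hne' (hd.symm.trans (hcoef j))).symm
  have hli : LinearIndependent K b := by
    rw [Fintype.linearIndependent_iff]
    intro x hx i
    by_contra hxi
    obtain ⟨k, hk⟩ := hkey ⊥ (fun w X hX => by
      rw [Submodule.mem_bot] at hX; subst hX; simp) Finset.univ x (by rw [hx]; exact zero_mem _) i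
      (Finset.mem_univ i) hxi
    exact hbne k ((Submodule.mem_bot K).mp hk)
  -- the algebra
  let A0 : Submodule K (Module.End K W) := Submodule.span K (Set.range b)
  have hρA : ∀ x, ρ x ∈ A0 := fun x => by
    obtain ⟨c, hc⟩ := hrep x
    rw [hc]; exact A0.smul_mem c (Submodule.subset_span (Set.mem_range_self _))
  have hmul : ∀ X Y, X ∈ A0 → Y ∈ A0 → X * Y ∈ A0 := by
    intro X Y hX hY
    refine Submodule.span_induction (p := fun X _ => X * Y ∈ A0) ?_ ?_ ?_ ?_ hX
    · rintro _ ⟨i, rfl⟩
      refine Submodule.span_induction (p := fun Y _ => b i * Y ∈ A0) ?_ ?_ ?_ ?_ hY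
      · rintro _ ⟨j, rfl⟩; rw [show b i * b j = ρ (i.out * j.out) from (map_mul ρ _ _).symm]; exact hρA _
      · simp
      · intro a c _ _ ha hc; rw [mul_add]; exact add_mem ha hc
      · intro a c _ hc; rw [mul_smul_comm]; exact A0.smul_mem a hc
    · simp
    · intro a c _ _ ha hc; rw [add_mul]; exact add_mem ha hc
    · intro a c _ hc; rw [smul_mul_assoc]; exact A0.smul_mem a hc
  let A : Subalgebra K (Module.End K W) := A0.toSubalgebra (map_one ρ ▸ hρA 1) hmul
  let bA : Module.Basis I K A := Module.Basis.span hli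
  have hbA : ∀ i, (bA i : Module.End K W) = b i := fun i => by
    exact congrArg Subtype.val (Module.Basis.span_apply hli i)
  haveI : FiniteDimensional K A := bA.finiteDimensional_of_finite
  have hexpand : ∀ X : A, ∑ i, bA.repr X i • b i = (X : Module.End K W) := fun X => by
    conv_rhs => rw [← bA.sum_repr X]
    simp only [AddSubmonoidClass.coe_finset_sum, SetLike.val_smul, hbA]
  haveI : IsSimpleRing A := by
    refine IsSimpleRing.of_eq_bot_or_eq_top fun J => or_iff_not_imp_left.mpr fun hJ => ?_
    obtain ⟨X, hXJ, hX0⟩ : ∃ X ∈ J, X ≠ 0 := by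
      by_contra h
      simp only [not_exists, not_and, not_not] at h
      exact hJ (SetLike.ext fun X => ⟨fun hX => (TwoSidedIdeal.mem_bot A).mpr (h X hX),
        fun hX => by rw [(TwoSidedIdeal.mem_bot A).mp hX]; exact J.zero_mem⟩)
    let S : Submodule K (Module.End K W) :=
      { carrier := {Y | ∃ h : Y ∈ A, (⟨Y, h⟩ : A) ∈ J}
        zero_mem' := ⟨zero_mem A, J.zero_mem⟩
        add_mem' := by rintro a c ⟨ha, ha'⟩ ⟨hc, hc'⟩; exact ⟨add_mem ha hc, J.add_mem ha' hc'⟩
        smul_mem' := by
          rintro c a ⟨ha, ha'⟩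
          refine ⟨A.smul_mem ha c, ?_⟩
          have := J.mul_mem_left (algebraMap K A c) _ ha'
          convert this using 1
          exact Subtype.ext (Algebra.smul_def c a) }
    obtain ⟨j, hj⟩ : ∃ j, bA.repr X j ≠ 0 := by
      by_contra h
      simp only [not_exists, not_not] at h
      exact hX0 (bA.repr.map_eq_zero_iff.mp (Finsupp.ext h))
    have hSmem : ∀ w, ∀ Y ∈ S, ρ w * Y ∈ S ∧ Y * ρ w ∈ S := by
      rintro w Y ⟨hY, hY'⟩
      exact ⟨⟨A.mul_mem (hρA w) hY, J.mul_mem_left ⟨_, hρA w⟩ _ hY'⟩,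
        ⟨A.mul_mem hY (hρA w), J.mul_mem_right _ ⟨_, hρA w⟩ hY'⟩⟩
    obtain ⟨k, hk, hkJ⟩ := hkey S hSmem Finset.univ (fun i => bA.repr X i)
      (by rw [hexpand]; exact ⟨X.2, hXJ⟩) j (Finset.mem_univ j) hj
    have h1 := J.mul_mem_left ⟨_, hρA k.out⁻¹⟩ _ hkJ
    rw [show (⟨_, hρA k.out⁻¹⟩ : A) * ⟨b k, hk⟩ = 1 from Subtype.ext (hinv k.out).2] at h1
    exact (TwoSidedIdeal.one_mem_iff J).mp h1
  obtain ⟨N, hN0, ⟨e0⟩⟩ := IsSimpleRing.exists_algEquiv_matrix_of_isAlgClosed K A
  let e : A ≃ₐ[K] Module.End K (Fin N → K) := e0.trans Matrix.toLinAlgEquiv'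
  have hcardN : Fintype.card I = N ^ 2 := by
    rw [← Module.finrank_eq_card_basis bA, e.toLinearEquiv.finrank_eq, Module.finrank_linearMap,
      Module.finrank_pi, Fintype.card_fin, sq]
  obtain ⟨k, hk⟩ := IsPGroup.iff_card.mp (hQ.to_quotient R)
  rw [Nat.card_eq_fintype_card] at hk
  have hN2 : 2 ≤ N := by
    obtain ⟨x, hx⟩ := hne
    have hxR : x ∉ R := fun ⟨c, hc⟩ => hx c hc
    have h2 : 1 < Fintype.card I := Fintype.one_lt_card_iff.mpr
      ⟨(x : I), ((1 : Q) : I), fun h => hxR (by simpa using QuotientGroup.eq.mp h)⟩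
    rw [hcardN] at h2
    nlinarith
  refine ⟨N, k, hN2, hcardN ▸ hk, fun R' hR' => ?_, ?_⟩
  · rw [show R' = R from SetLike.ext fun x => hR' x, Subgroup.index, Nat.card_eq_fintype_card]
    exact hcardN
  -- conjugation by `T`
  have hTinv : T * T ^ (P - 1) = 1 ∧ T ^ (P - 1) * T = 1 := by
    rw [← pow_succ', ← pow_succ, Nat.sub_add_cancel hP.le, hT]; exact ⟨rfl, rfl⟩
  have hTconj : ∀ x, T * ρ x * T ^ (P - 1) = ρ (τ x) := fun x => by rw [hTρ, mul_assoc, hTinv.1, mul_one]
  have hTconj' : ∀ x, T ^ (P - 1) * ρ x * T = ρ (τ⁻¹ x) := fun x => by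
    rw [mul_assoc, show ρ x = ρ (τ (τ⁻¹ x)) by simp, ← hTρ, ← mul_assoc, hTinv.2, one_mul]
  have hAdA : ∀ X ∈ A0, T * X * T ^ (P - 1) ∈ A0 ∧ T ^ (P - 1) * X * T ∈ A0 := by
    intro X hX
    induction hX using Submodule.span_induction with
    | mem y hy =>
      obtain ⟨i, rfl⟩ := hy
      exact ⟨by rw [show T * b i * T ^ (P - 1) = ρ (τ i.out) from hTconj _]; exact hρA _,
        by rw [show T ^ (P - 1) * b i * T = ρ (τ⁻¹ i.out) from hTconj' _]; exact hρA _⟩
    | zero => simp
    | add a c _ _ ha hc => simp only [mul_add, add_mul]; exact ⟨add_mem ha.1 hc.1, add_mem ha.2 hc.2⟩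
    | smul a c _ hc => simp only [mul_smul_comm, smul_mul_assoc]; exact ⟨A0.smul_mem a hc.1, A0.smul_mem a hc.2⟩
  let ad : A ≃ₐ[K] A :=
    AlgEquiv.ofLinearEquiv
      { toFun := fun X => ⟨T * X * T ^ (P - 1), (hAdA _ X.2).1⟩
        invFun := fun X => ⟨T ^ (P - 1) * X * T, (hAdA _ X.2).2⟩
        map_add' := fun X Y => Subtype.ext (by simp [mul_add, add_mul])
        map_smul' := fun c X => Subtype.ext (by simp [mul_smul_comm, smul_mul_assoc])
        left_inv := fun X => Subtype.ext (by
          show T ^ (P - 1) * (T * (X : Module.End K W) * T ^ (P - 1)) * T = X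
          simp only [← mul_assoc, hTinv.2, one_mul]
          rw [mul_assoc, hTinv.2, mul_one])
        right_inv := fun X => Subtype.ext (by
          show T * (T ^ (P - 1) * (X : Module.End K W) * T) * T ^ (P - 1) = X
          simp only [← mul_assoc, hTinv.1, one_mul]
          rw [mul_assoc, hTinv.1, mul_one]) }
      (Subtype.ext (show T * 1 * T ^ (P - 1) = 1 by rw [mul_one, hTinv.1]))
      (fun X Y => Subtype.ext (by
        show T * ((X : Module.End K W) * Y) * T ^ (P - 1) = T * X * T ^ (P - 1) * (T * Y * T ^ (P - 1))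
        simp only [← mul_assoc]
        rw [mul_assoc (T * (X : Module.End K W)) (T ^ (P - 1)) T, hTinv.2, mul_one]))
  let g : Module.End K (Fin N → K) ≃ₐ[K] Module.End K (Fin N → K) := e.symm.trans (ad.trans e)
  obtain ⟨L, hL⟩ := g.eq_linearEquivConjAlgEquiv
  let u0 : Module.End K (Fin N → K) := L.toLinearMap
  have hu0 : ∀ M, g M * u0 = u0 * M := fun M => by
    rw [hL]
    refine LinearMap.ext fun x => ?_
    simp [u0, LinearEquiv.conjAlgEquiv_apply]
  let ι : Module.End K (Fin N → K) →ₐ[K] Module.End K W := A.val.comp e.symm.toAlgHom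
  have hι : ∀ M, T * ι M = ι (g M) * T := fun M => by
    have h1 : ι (g M) = T * ι M * T ^ (P - 1) := by
      show ((e.symm (e (ad (e.symm M))) : A) : Module.End K W) = _
      rw [AlgEquiv.symm_apply_apply]; rfl
    rw [h1, mul_assoc, hTinv.2, mul_one]
  have hιinj : Function.Injective ι := Subtype.val_injective.comp e.symm.injective
  -- `u0 ^ P` is a scalar
  haveI : Nontrivial (Fin N → K) := Module.nontrivial_of_finrank_pos (R := K) (by
    rw [Module.finrank_pi, Fintype.card_fin]; omega)
  have hiter : ∀ (j : ℕ) M, ∃ M', u0 ^ j * M = M' * u0 ^ j ∧ T ^ j * ι M = ι M' * T ^ j := by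
    intro j
    induction j with
    | zero => exact fun M => ⟨M, by simp, by simp⟩
    | succ j ihj =>
      intro M
      obtain ⟨M', h1, h2⟩ := ihj M
      refine ⟨g M', ?_, ?_⟩
      · rw [pow_succ', mul_assoc, h1, ← mul_assoc, ← hu0, mul_assoc]
      · rw [pow_succ', mul_assoc, h2, ← mul_assoc, hι, mul_assoc]
  obtain ⟨μ, hμ⟩ := scalar_of_commute_all (u0 ^ P) fun M => by
    obtain ⟨M', h1, h2⟩ := hiter P M
    rw [hT, one_mul, mul_one] at h2
    rwa [← hιinj h2] at h1
  have hu0inj : ∀ j x, (u0 ^ j) x = 0 → x = 0 := by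
    intro j
    induction j with
    | zero => intro x hx; simpa using hx
    | succ j ihj => intro x hx; rw [pow_succ', Module.End.mul_apply] at hx; exact ihj x (L.map_eq_zero_iff.mp hx)
  have hμ0 : μ ≠ 0 := fun h => by
    obtain ⟨x, hx⟩ := exists_ne (0 : Fin N → K)
    exact hx (hu0inj P x (by rw [hμ, h, zero_smul, LinearMap.zero_apply]))
  obtain ⟨s, hs⟩ := IsAlgClosed.exists_pow_nat_eq μ (by omega : 0 < P)
  have hs0 : s ≠ 0 := fun h => hμ0 (by rw [← hs, h, zero_pow (by omega)])
  let u1 := s⁻¹ • u0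
  have hu1 : u1 ^ P = 1 := by
    simp only [u1, smul_pow, inv_pow, hs, hμ, smul_smul, inv_mul_cancel₀ hμ0, one_smul]
  have hgu1 : ∀ M, g M * u1 = u1 * M := fun M => by
    simp only [u1, mul_smul_comm, smul_mul_assoc, hu0]
  have hu1inv : u1 * u1 ^ (P - 1) = 1 ∧ u1 ^ (P - 1) * u1 = 1 := by
    rw [← pow_succ', ← pow_succ, Nat.sub_add_cancel hP.le, hu1]; exact ⟨rfl, rfl⟩
  have hgfix : g u1 = u1 := by
    calc g u1 = g u1 * u1 * u1 ^ (P - 1) := by rw [mul_assoc, hu1inv.1, mul_one]
      _ = u1 := by rw [hgu1, mul_assoc, hu1inv.1, mul_one]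
  let z := ι (u1 ^ (P - 1)) * T
  have hTu : Commute T (ι u1) := by
    show T * ι u1 = ι u1 * T
    rw [hι, hgfix]
  have hzP : z ^ P = 1 := by
    have hc : Commute (ι (u1 ^ (P - 1))) T := by rw [map_pow]; exact (hTu.symm).pow_left _
    rw [show z = ι (u1 ^ (P - 1)) * T from rfl, hc.mul_pow, hT, mul_one, ← map_pow, ← pow_mul, mul_comm,
      pow_mul, hu1, one_pow, map_one]
  have hzι : ∀ M, z * ι M = ι M * z := fun M => by
    show ι (u1 ^ (P - 1)) * T * ι M = ι M * (ι (u1 ^ (P - 1)) * T)
    rw [mul_assoc, hι, ← mul_assoc, ← map_mul, ← mul_assoc, ← map_mul]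
    congr 2
    calc u1 ^ (P - 1) * g M = u1 ^ (P - 1) * (g M * u1) * u1 ^ (P - 1) := by
          rw [mul_assoc, mul_assoc (g M), hu1inv.1, mul_one]
      _ = M * u1 ^ (P - 1) := by rw [hgu1, ← mul_assoc, hu1inv.2, one_mul]
  obtain ⟨lam, hlam⟩ := Module.End.exists_eigenvalue z
  obtain ⟨w0, hw0⟩ := hlam.exists_hasEigenvector
  have hlamP : lam ^ P = 1 := by
    have h := hw0.pow_apply P
    rw [hzP, Module.End.one_apply] at h
    refine smul_left_injective K hw0.2 ?_
    show lam ^ P • w0 = (1 : K) • w0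
    rw [← h, one_smul]
  have hlam0 : lam ≠ 0 := fun h => by rw [h, zero_pow (by omega)] at hlamP; exact zero_ne_one hlamP
  let u := lam • u1
  refine ⟨u, by simp only [u, smul_pow, hlamP, hu1, one_smul], ?_, ?_⟩
  · -- orbit count
    have hτR : R ≤ R.comap τ.toMonoidHom := fun x ⟨c, hc⟩ => ⟨c, by
      show ρ (τ x) = _
      rw [← hTconj, hc, mul_smul_comm, smul_mul_assoc, mul_one, hTinv.1]⟩
    let π : I →* I := QuotientGroup.map R R τ.toMonoidHom hτR
    have hπ : ∀ (j : ℕ) (x : Q), π^[j] (x : I) = (((τ ^ j) x : Q) : I) := by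
      intro j
      induction j with
      | zero => simp
      | succ j ihj =>
        intro x
        rw [Function.iterate_succ_apply', ihj, pow_succ']
        rfl
    have hτP : ∀ x, ρ ((τ ^ P) x) = ρ x := by
      have h : ∀ j x, T ^ j * ρ x = ρ ((τ ^ j) x) * T ^ j := by
        intro j
        induction j with
        | zero => simp
        | succ j ihj => intro x; rw [pow_succ', mul_assoc, ihj, ← mul_assoc, hTρ, mul_assoc, pow_succ', MulAut.mul_apply]
      intro x
      have := h P x
      rw [hT, one_mul, mul_one] at this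
      exact this.symm
    have hπP : ∀ i : I, π^[P] i = i := fun i => by
      obtain ⟨x, rfl⟩ := QuotientGroup.mk_surjective i
      rw [hπ]
      refine QuotientGroup.eq.mpr ?_
      refine ⟨1, ?_⟩
      rw [map_mul, one_smul, ← hτP x, (hinv ((τ ^ P) x)).2]
    let orb : I → Finset I := fun i => (Finset.range P).image fun j => π^[j] i
    have horb1 : ∀ i, i ∈ orb i := fun i => Finset.mem_image.mpr ⟨0, Finset.mem_range.mpr (by omega), rfl⟩
    have hmem : ∀ i (j : ℕ), π^[j] i ∈ orb i := fun i j => by
      refine Finset.mem_image.mpr ⟨j % P, Finset.mem_range.mpr (Nat.mod_lt _ (by omega)), ?_⟩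
      exact Function.IsPeriodicPt.iterate_mod_apply (hπP i) j
    have horbeq : ∀ i j, j ∈ orb i → orb j = orb i := by
      intro i j hj
      obtain ⟨a, ha, rfl⟩ := Finset.mem_image.mp hj
      have haP := Finset.mem_range.mp ha
      have hsub : ∀ i a, orb (π^[a] i) ⊆ orb i := by
        intro i a y hy
        obtain ⟨c, -, rfl⟩ := Finset.mem_image.mp hy
        rw [← Function.iterate_add_apply]; exact hmem i _
      refine Finset.Subset.antisymm (hsub i a) ?_
      conv_lhs => rw [show i = π^[P - a] (π^[a] i) by rw [← Function.iterate_add_apply, Nat.sub_add_cancel haP.le, hπP]]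
      exact hsub _ _
    have hcard1 : ∀ i : I, i ≠ 1 → (orb i).card = P := by
      intro i hi
      rw [Finset.card_image_of_injOn, Finset.card_range]
      intro a ha c hc hac
      by_contra hne'
      wlog hlt : a < c generalizing a c with H
      · exact H hc ha hac.symm (Ne.symm hne') (by omega)
      obtain ⟨x, rfl⟩ := QuotientGroup.mk_surjective i
      have h1 : π^[c - a] (x : I) = x := by
        have hc' := Finset.mem_range.mp hc
        have := congrArg (π^[P - a]) hac
        simp only [← Function.iterate_add_apply] at this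
        rw [Nat.sub_add_cancel (by omega), hπP] at this
        conv_rhs => rw [this, show P - a + c = (c - a) + P by omega, Function.iterate_add_apply, hπP]
      rw [hπ] at h1
      obtain ⟨d, hd⟩ := hrep ((τ ^ (c - a)) x)
      obtain ⟨d', hd'⟩ := hrep x
      rw [h1] at hd
      have hd'0 : d' ≠ 0 := fun h0 => by
        rw [h0, zero_smul] at hd'
        have := (hinv x).1
        rw [hd', zero_mul] at this
        exact zero_ne_one this
      obtain ⟨c', hc'⟩ := hfpf x (c - a) (by omega) (by have := Finset.mem_range.mp hc; omega)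
        ⟨d * d'⁻¹, by rw [hd, hd', smul_smul, mul_assoc, inv_mul_cancel₀ hd'0, mul_one]⟩
      exact hi ((QuotientGroup.eq_one_iff x).mpr ⟨c', hc'⟩)
    let O := (Finset.univ : Finset I).image orb
    have hcount : P * O.card + 1 = Fintype.card I + P := by
      have h1 : orb 1 = {1} := by
        refine Finset.eq_singleton_iff_unique_mem.mpr ⟨horb1 1, fun y hy => ?_⟩
        obtain ⟨a, -, rfl⟩ := Finset.mem_image.mp hy
        exact iterate_map_one π a
      have h2 := Finset.card_eq_sum_card_image orb (Finset.univ : Finset I)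
      rw [Finset.card_univ] at h2
      have h3 : ∀ o ∈ O, ((Finset.univ : Finset I).filter fun i => orb i = o) = o := by
        intro o ho
        obtain ⟨i, -, rfl⟩ := Finset.mem_image.mp ho
        ext j
        simp only [Finset.mem_filter, Finset.mem_univ, true_and]
        exact ⟨fun h => h ▸ horb1 j, fun h => horbeq i j h⟩
      rw [Finset.sum_congr rfl fun o ho => by rw [h3 o ho]] at h2
      have h4 : orb 1 ∈ O := Finset.mem_image_of_mem _ (Finset.mem_univ _)
      rw [← Finset.add_sum_erase O _ h4, h1, Finset.card_singleton, Finset.sum_eq_card_nsmul (b := P)] at h2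
      · have h5 : O.card = (O.erase {1}).card + 1 := (Finset.card_erase_add_one (h1 ▸ h4)).symm
        rw [h2, h5, smul_eq_mul]
        ring
      · intro o ho
        obtain ⟨hne', ho'⟩ := Finset.mem_erase.mp ho
        obtain ⟨i, -, rfl⟩ := Finset.mem_image.mp ho'
        exact hcard1 i fun h => hne' (h ▸ h1)
    rw [← hcardN, ← hcount]
    refine Nat.add_le_add_right (Nat.mul_le_mul_left P ?_) 1
    -- the fixed space
    choose rep hrepO using fun o : O => Finset.mem_image.mp o.2
    let Φ : cent u →ₗ[K] (O → K) :=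
      { toFun := fun M o => bA.repr (e.symm (M : Module.End K (Fin N → K))) (rep o)
        map_add' := fun M M' => by ext o; simp
        map_smul' := fun c M => by ext o; simp }
    have hΦ : Function.Injective Φ := by
      rw [injective_iff_map_eq_zero]
      intro M hM
      have hMu : (M : Module.End K (Fin N → K)) * u1 = u1 * (M : Module.End K (Fin N → K)) := by
        have h := mem_cent.mp M.2
        simp only [u, mul_smul_comm, smul_mul_assoc] at h
        exact smul_right_injective _ hlam0 h
      have hgM : g M = M := by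
        calc g M = g M * u1 * u1 ^ (P - 1) := by rw [mul_assoc, hu1inv.1, mul_one]
          _ = M := by rw [hgu1, ← hMu, mul_assoc, hu1inv.1, mul_one]
      have hadX : ad (e.symm M) = e.symm M := by
        have := congrArg e.symm hgM
        simpa [g] using this
      set X := e.symm (M : Module.End K (Fin N → K)) with hX
      set x := fun i => bA.repr X i with hxdef
      have hlin : ad.toLinearMap X = ∑ i, x i • ad (bA i) := by
        conv_lhs => rw [← bA.sum_repr X]
        rw [map_sum]
        exact Finset.sum_congr rfl fun i _ => by rw [map_smul]; rfl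
      have hadb : ∀ i, ∃ c : K, ad (bA i) = c • bA (π i) := fun i => by
        obtain ⟨c, hc⟩ := hrep (τ i.out)
        refine ⟨c, Subtype.ext ?_⟩
        show T * (bA i : Module.End K W) * T ^ (P - 1) = c • (bA (π i) : Module.End K W)
        rw [hbA, hbA, show T * b i * T ^ (P - 1) = ρ (τ i.out) from hTconj _, hc]
        conv_rhs => rw [← QuotientGroup.out_eq' i]
        rfl
      choose cc hcc using hadb
      have hπinj : Function.Injective π := fun i j hij => by
        have := congrArg (π^[P - 1]) hij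
        rw [← Function.iterate_succ_apply, ← Function.iterate_succ_apply, Nat.succ_eq_add_one,
          Nat.sub_add_cancel hP.le, hπP, hπP] at this
        exact this
      have hstep : ∀ i, x (π i) = x i * cc i := fun i => by
        have h2 := congrArg (fun Y => bA.repr Y (π i)) hlin
        simp only [map_sum, map_smul, hcc, Finsupp.coe_finset_sum, Finsupp.coe_smul, Finset.sum_apply,
          Pi.smul_apply, Module.Basis.repr_self, smul_eq_mul] at h2
        rw [Finset.sum_eq_single i] at h2
        · simp only [Finsupp.single_eq_same, mul_one] at h2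
          rw [← h2]
          show bA.repr X (π i) = bA.repr (ad X) (π i)
          rw [hadX]
        · intro j _ hj
          rw [Finsupp.single_eq_of_ne (fun h => hj (hπinj h.symm)), mul_zero, mul_zero]
        · exact fun h => absurd (Finset.mem_univ i) h
      have hall : ∀ i, x i = 0 := by
        intro i
        let o : O := ⟨orb i, Finset.mem_image_of_mem _ (Finset.mem_univ i)⟩
        have h0 : x (rep o) = 0 := congrFun hM o
        have hi : i ∈ orb (rep o) := by rw [(hrepO o).2]; exact horb1 i
        obtain ⟨a, -, ha⟩ := Finset.mem_image.mp hi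
        rw [← ha]
        have hz : ∀ n : ℕ, x (π^[n] (rep o)) = 0 := by
          intro n
          induction n with
          | zero => exact h0
          | succ n ihn => rw [Function.iterate_succ_apply', hstep, ihn, zero_mul]
        exact hz a
      have hX0 : X = 0 := bA.repr.map_eq_zero_iff.mp (Finsupp.ext hall)
      exact Subtype.ext ((map_eq_zero_iff e.symm e.symm.injective).mp hX0)
    have h := LinearMap.finrank_le_finrank_of_injective hΦ
    rwa [Module.finrank_pi, Fintype.card_coe] at h
  · -- transfer of polynomial identities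
    intro f hf
    let W' := Module.End.eigenspace z lam
    have hιW' : ∀ M, ∀ x ∈ W', ι M x ∈ W' := fun M x hx => by
      rw [Module.End.mem_eigenspace_iff] at hx ⊢
      rw [← Module.End.mul_apply, hzι, Module.End.mul_apply, hx, map_smul]
    have hTW' : ∀ x ∈ W', T x = ι u x := fun x hx => by
      have h1 : T = ι u1 * z := by
        show T = ι u1 * (ι (u1 ^ (P - 1)) * T)
        rw [← mul_assoc, ← map_mul, hu1inv.1, map_one, one_mul]
      rw [Module.End.mem_eigenspace_iff] at hx
      rw [h1, Module.End.mul_apply, hx, map_smul, show ι u = lam • ι u1 from map_smul ι lam u1, LinearMap.smul_apply]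
    have hpoly : ∀ f : Polynomial K, ∀ x ∈ W', Polynomial.aeval T f x = ι (Polynomial.aeval u f) x := by
      intro f
      induction f using Polynomial.induction_on' with
      | add f f' h h' => intro x hx; simp [h x hx, h' x hx]
      | monomial n c =>
        have hpw : ∀ n, ∀ x ∈ W', (T ^ n) x = ι (u ^ n) x := by
          intro n
          induction n with
          | zero => simp
          | succ n ihn =>
            intro x hx
            rw [pow_succ', Module.End.mul_apply, ihn x hx, hTW' _ (hιW' _ x hx), pow_succ', map_mul,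
              Module.End.mul_apply]
        intro x hx
        simp only [Polynomial.aeval_monomial, ← Algebra.smul_def, map_smul, LinearMap.smul_apply, hpw n x hx]
    let S : Submodule K (Module.End K W) :=
      { carrier := {Y | ∀ x ∈ W', Y x = 0}
        zero_mem' := fun x _ => rfl
        add_mem' := fun ha hc x hx => by rw [LinearMap.add_apply, ha x hx, hc x hx, add_zero]
        smul_mem' := fun c a ha x hx => by rw [LinearMap.smul_apply, ha x hx, smul_zero] }
    have hρW' : ∀ w, ∀ x ∈ W', ρ w x ∈ W' := fun w x hx => by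
      have h := hιW' (e ⟨ρ w, hρA w⟩) x hx
      simpa [ι] using h
    by_contra hne0
    set X := e.symm (Polynomial.aeval u f) with hX
    obtain ⟨j, hj⟩ : ∃ j, bA.repr X j ≠ 0 := by
      by_contra h
      simp only [not_exists, not_not] at h
      exact hne0 ((map_eq_zero_iff e.symm e.symm.injective).mp (bA.repr.map_eq_zero_iff.mp (Finsupp.ext h)))
    obtain ⟨k, hk⟩ := hkey S (fun w Y hY => ⟨fun x hx => by rw [Module.End.mul_apply, hY x hx, map_zero],
        fun x hx => by rw [Module.End.mul_apply]; exact hY _ (hρW' w x hx)⟩) Finset.univ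
      (fun i => bA.repr X i) (by
        intro x hx
        rw [hexpand]
        show ι (Polynomial.aeval u f) x = 0
        rw [← hpoly f x hx, hf, LinearMap.zero_apply]) j (Finset.mem_univ j) hj
    have h1 := congrArg (ρ k.out⁻¹) (hk w0 hw0.1)
    rw [map_zero, ← Module.End.mul_apply, (hinv k.out).2, Module.End.one_apply] at h1
    exact hw0.2 h1

end Cfsg.Agent.Transfer.HHFactor
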