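/-
Weight spaces of a finite abelian group of order prime to the characteristic over an algebraically
closed field, and the effect of a group of operators normalizing it.
-/
import Mathlib.GroupTheory.FiniteAbelian.Duality
import Mathlib.RingTheory.RootsOfUnity.AlgebraicallyClosed
import Mathlib.RingTheory.IntegralDomain
import Mathlib.LinearAlgebra.FiniteDimensional.Basic
import Mathlib.LinearAlgebra.Dimension.Constructions
import Mathlib.FieldTheory.IsAlgClosed.Basic

set_option autoImplicit false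
set_option linter.style.haveILetI false
set_option linter.unusedSectionVars false

namespace Cfsg.Agent.Transfer.WeightSpace

open Module

universe u v w

variable {K : Type u} [Field K] [IsAlgClosed K] {V : Type v} [AddCommGroup V] [Module K V]
  {B : Type w} [CommGroup B] [Finite B]

/-- A weight `χ` as a function to `K`. -/
def wt (χ : B →* Kˣ) (b : B) : K := (χ b : K)

theorem finite_weights : Finite (B →* Kˣ) := by
  haveI : NeZero (Monoid.exponent B) := ⟨Monoid.exponent_ne_zero_of_finite⟩
  let f : (B →* Kˣ) → (B → rootsOfUnity (Monoid.exponent B) K) := fun χ b => ⟨χ b, by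
    rw [mem_rootsOfUnity, ← map_pow, Monoid.pow_exponent_eq_one, map_one]⟩
  exact Finite.of_injective f fun χ χ' h => MonoidHom.ext fun b => congrArg Subtype.val (congrFun h b)

theorem exists_weight_ne_one (hB : (Nat.card B : K) ≠ 0) {b : B} (hb : b ≠ 1) :
    ∃ χ : B →* Kˣ, χ b ≠ 1 := by
  haveI : NeZero ((Monoid.exponent B : ℕ) : K) := ⟨fun h => hB (by
    obtain ⟨c, hc⟩ := Group.exponent_dvd_nat_card (G := B)
    rw [hc, Nat.cast_mul, h, zero_mul])⟩
  exact CommGroup.exists_apply_ne_one_of_hasEnoughRootsOfUnity B K hb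

theorem sum_weight_eq_zero [Fintype (B →* Kˣ)] (hB : (Nat.card B : K) ≠ 0) {b : B} (hb : b ≠ 1) :
    ∑ χ : B →* Kˣ, wt χ b = 0 := by
  obtain ⟨χ₀, h0⟩ := exists_weight_ne_one (K := K) hB hb
  refine sum_hom_units_eq_zero (⟨⟨fun χ => wt χ b, ?_⟩, ?_⟩ : (B →* Kˣ) →* K) ?_
  · simp [wt]
  · intro χ χ'; simp [wt]
  · intro h
    exact h0 (Units.ext (DFunLike.congr_fun h χ₀))

theorem card_weights (hB : (Nat.card B : K) ≠ 0) : Nat.card (B →* Kˣ) = Nat.card B := by
  haveI : NeZero ((Monoid.exponent B : ℕ) : K) := ⟨fun h => hB (by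
    obtain ⟨c, hc⟩ := Group.exponent_dvd_nat_card (G := B)
    rw [hc, Nat.cast_mul, h, zero_mul])⟩
  exact CommGroup.card_monoidHom_of_hasEnoughRootsOfUnity B K

/-- The projection onto the weight space of `χ`. -/
noncomputable def proj [Fintype B] (ρ : B →* Module.End K V) (χ : B →* Kˣ) : Module.End K V :=
  (Nat.card B : K)⁻¹ • ∑ b : B, wt χ b⁻¹ • ρ b

variable [Fintype B] (ρ : B →* Module.End K V)

theorem rho_mul_proj (χ : B →* Kˣ) (c : B) : ρ c * proj ρ χ = wt χ c • proj ρ χ := by
  rw [proj, mul_smul_comm, smul_comm (wt χ c)]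
  congr 1
  rw [Finset.mul_sum, Finset.smul_sum]
  refine Fintype.sum_equiv (Equiv.mulLeft c) _ _ fun b => ?_
  simp only [Equiv.coe_mulLeft, mul_smul_comm, map_mul, wt, smul_smul, mul_inv_rev, Units.val_mul]
  congr 1
  rw [map_inv, map_inv, mul_comm ((χ b)⁻¹ : Kˣ).val, ← mul_assoc, ← Units.val_mul, mul_inv_cancel,
    Units.val_one, one_mul]

theorem rho_apply_proj (χ : B →* Kˣ) (c : B) (v : V) : ρ c (proj ρ χ v) = wt χ c • proj ρ χ v := by
  rw [← Module.End.mul_apply, rho_mul_proj, LinearMap.smul_apply]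

theorem proj_mul_rho (χ : B →* Kˣ) (c : B) : proj ρ χ * ρ c = wt χ c • proj ρ χ := by
  rw [← rho_mul_proj]
  have h : Commute (ρ c) (proj ρ χ) := by
    rw [proj]
    refine Commute.smul_right (Commute.sum_right _ _ _ fun b _ => Commute.smul_right ?_ _) _
    show ρ c * ρ b = ρ b * ρ c
    rw [← map_mul, ← map_mul, mul_comm]
  exact h.eq.symm

/-- The weight space of `χ`. -/
def IsWeightVector (χ : B →* Kˣ) (v : V) : Prop := ∀ b, ρ b v = wt χ b • v

theorem proj_isWeightVector (χ : B →* Kˣ) (v : V) : IsWeightVector ρ χ (proj ρ χ v) :=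
  fun b => rho_apply_proj ρ χ b v

theorem proj_apply_self (hB : (Nat.card B : K) ≠ 0) {χ : B →* Kˣ} {v : V}
    (hv : IsWeightVector ρ χ v) : proj ρ χ v = v := by
  rw [proj, LinearMap.smul_apply, LinearMap.sum_apply, Finset.sum_congr rfl (g := fun _ => v) fun b _ => by
    rw [LinearMap.smul_apply, hv b, smul_smul, wt, wt, ← Units.val_mul, ← map_mul, inv_mul_cancel,
      map_one, Units.val_one, one_smul]]
  rw [Finset.sum_const, Finset.card_univ, ← Nat.card_eq_fintype_card, ← Nat.cast_smul_eq_nsmul K,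
    smul_smul, inv_mul_cancel₀ hB, one_smul]

theorem proj_apply_ne {χ χ' : B →* Kˣ} (h : χ' ≠ χ) {v : V} (hv : IsWeightVector ρ χ v) :
    proj ρ χ' v = 0 := by
  rw [proj, LinearMap.smul_apply, LinearMap.sum_apply, Finset.sum_congr rfl
    (g := fun b => ((((χ * χ'⁻¹) b : Kˣ)) : K) • v) fun b _ => by
      rw [LinearMap.smul_apply, hv b, smul_smul, wt, wt, ← Units.val_mul, MonoidHom.mul_apply,
        MonoidHom.inv_apply, map_inv, mul_comm]]
  rw [← Finset.sum_smul]
  have h0 := sum_hom_units_eq_zero ((Units.coeHom K).comp (χ * χ'⁻¹)) (fun h' => h (by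
    refine MonoidHom.ext fun b => ?_
    have h2 : ((χ * χ'⁻¹) b : K) = 1 := DFunLike.congr_fun h' b
    rw [Units.val_eq_one, MonoidHom.mul_apply, MonoidHom.inv_apply, mul_inv_eq_one] at h2
    exact h2.symm))
  simp only [MonoidHom.comp_apply, Units.coeHom_apply] at h0
  rw [h0, zero_smul, smul_zero]

theorem proj_proj_ne {χ χ' : B →* Kˣ} (h : χ' ≠ χ) (v : V) : proj ρ χ' (proj ρ χ v) = 0 :=
  proj_apply_ne ρ h (proj_isWeightVector ρ χ v)

theorem sum_proj [Fintype (B →* Kˣ)] (hB : (Nat.card B : K) ≠ 0) (v : V) :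
    ∑ χ : B →* Kˣ, proj ρ χ v = v := by
  simp only [proj, LinearMap.smul_apply, LinearMap.sum_apply, ← Finset.smul_sum]
  rw [Finset.sum_comm, Finset.sum_eq_single (1 : B)]
  · simp only [inv_one, wt, map_one, Units.val_one, one_smul, Module.End.one_apply, Finset.sum_const,
      Finset.card_univ, ← Nat.card_eq_fintype_card, card_weights hB, ← Nat.cast_smul_eq_nsmul K,
      smul_smul, inv_mul_cancel₀ hB]
  · intro b _ hb
    rw [← Finset.sum_smul, sum_weight_eq_zero hB (inv_ne_one.mpr hb), zero_smul]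
  · exact fun h => absurd (Finset.mem_univ _) h

theorem exists_proj_ne_zero (hB : (Nat.card B : K) ≠ 0) {v : V} (hv : v ≠ 0) :
    ∃ χ : B →* Kˣ, proj ρ χ v ≠ 0 := by
  haveI := finite_weights (K := K) (B := B)
  haveI := Fintype.ofFinite (B →* Kˣ)
  by_contra h
  push Not at h
  exact hv (by rw [← sum_proj ρ hB v, Finset.sum_eq_zero fun χ _ => h χ])

/-- A nontrivially acting element is seen by some occurring weight. -/
theorem exists_weight_of_ne_one (hB : (Nat.card B : K) ≠ 0) {b : B} (hb : ρ b ≠ 1) :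
    ∃ χ : B →* Kˣ, χ b ≠ 1 ∧ ∃ v, v ≠ 0 ∧ IsWeightVector ρ χ v := by
  haveI := finite_weights (K := K) (B := B)
  haveI := Fintype.ofFinite (B →* Kˣ)
  by_contra h
  push Not at h
  refine hb (LinearMap.ext fun v => ?_)
  conv_lhs => rw [← sum_proj ρ hB v, map_sum]
  conv_rhs => rw [← sum_proj ρ hB v, map_sum]
  refine Finset.sum_congr rfl fun χ _ => ?_
  rw [rho_apply_proj, Module.End.one_apply]
  by_cases h1 : χ b = 1
  · rw [wt, h1, Units.val_one, one_smul]
  · by_cases h2 : proj ρ χ v = 0
    · rw [h2, smul_zero]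
    · exact absurd (proj_isWeightVector ρ χ v) (h χ h1 _ h2)

/-- An operator compatible with an automorphism `t` sends weight vectors to weight vectors. -/
theorem isWeightVector_map {T : Module.End K V} {t : MulAut B} (hT : ∀ b, T * ρ b = ρ (t b) * T)
    {χ : B →* Kˣ} {v : V} (hv : IsWeightVector ρ χ v) :
    IsWeightVector ρ (χ.comp (t⁻¹ : MulAut B).toMonoidHom) (T v) := by
  intro b
  have h := LinearMap.congr_fun (hT ((t⁻¹ : MulAut B) b)) v
  rw [Module.End.mul_apply, Module.End.mul_apply, hv, map_smul, MulAut.apply_inv_self] at h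
  exact h.symm

/-- If the operators `T a` sum to zero, so do those of the stabilizer of a weight on its weight
vectors. -/
theorem sum_stabilizer_eq_zero (hB : (Nat.card B : K) ≠ 0) {A : Type*} [Group A] [Fintype A]
    (α : A →* MulAut B) (T : A → Module.End K V) (hT : ∀ a b, T a * ρ b = ρ (α a b) * T a)
    (hsum : ∑ a, T a = 0) {χ : B →* Kˣ} {v : V} (hv : IsWeightVector ρ χ v)
    (S : Finset A) (hS : ∀ a, a ∈ S ↔ ∀ b, χ (α a b) = χ b) :
    ∑ a ∈ S, T a v = 0 := by
  classical
  have h := congrArg (proj ρ χ) (LinearMap.congr_fun hsum v)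
  rw [LinearMap.sum_apply, map_sum, LinearMap.zero_apply, map_zero] at h
  rw [← h, ← Finset.sum_filter_add_sum_filter_not Finset.univ (fun a => a ∈ S)]
  have h2 : ∑ a ∈ Finset.univ.filter (fun a => ¬ a ∈ S), proj ρ χ (T a v) = 0 := by
    refine Finset.sum_eq_zero fun a ha => proj_apply_ne ρ (fun he => (Finset.mem_filter.mp ha).2
      ((hS a).mpr fun b => ?_)) (isWeightVector_map ρ (hT a) hv)
    have := DFunLike.congr_fun he (α a b)
    simpa using this
  rw [h2, add_zero, Finset.filter_mem_eq_inter, Finset.univ_inter]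
  refine Finset.sum_congr rfl fun a ha => ?_
  refine (proj_apply_self ρ hB ?_).symm
  have e : χ.comp ((α a)⁻¹ : MulAut B).toMonoidHom = χ := MonoidHom.ext fun b => by
    have := (hS a).mp ha ((α a)⁻¹ b)
    simpa using this.symm
  exact e ▸ isWeightVector_map ρ (hT a) hv

/-- No occurring weight has trivial stabilizer when the operators sum to zero. -/
theorem exists_stab_ne_one (hB : (Nat.card B : K) ≠ 0) {A : Type*} [Group A] [Fintype A]
    (α : A →* MulAut B) (T : A → Module.End K V) (hT : ∀ a b, T a * ρ b = ρ (α a b) * T a)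
    (hsum : ∑ a, T a = 0) (hone : T 1 = 1) {χ : B →* Kˣ} {v : V} (hv0 : v ≠ 0)
    (hv : IsWeightVector ρ χ v) : ∃ a : A, a ≠ 1 ∧ ∀ b, χ (α a b) = χ b := by
  classical
  by_contra h
  push Not at h
  have hS : ∀ a, a ∈ ({1} : Finset A) ↔ ∀ b, χ (α a b) = χ b := fun a => by
    rw [Finset.mem_singleton]
    refine ⟨fun ha b => by simp [ha], fun ha => ?_⟩
    by_contra ha1
    obtain ⟨b, hb⟩ := h a ha1
    exact hb (ha b)
  have := sum_stabilizer_eq_zero ρ hB α T hT hsum hv {1} hS
  rw [Finset.sum_singleton, hone, Module.End.one_apply] at this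
  exact hv0 this

/-- If `t` is fixed-point-free of prime order `p` on `B`, which has no fixed vectors, then the fixed
space of the compatible operator `T` has dimension at most `dim V / p`. -/
theorem finrank_fixed_mul_le [FiniteDimensional K V] (hB : (Nat.card B : K) ≠ 0) {p : ℕ}
    (hp : p.Prime) (t : MulAut B) (htp : t ^ p = 1) (hfpf : ∀ b, t b = b → b = 1)
    (T : Module.End K V) (hTp : T ^ p = 1) (hT : ∀ b, T * ρ b = ρ (t b) * T)
    (h0 : ∀ v, (∀ b, ρ b v = v) → v = 0) :
    p * finrank K (LinearMap.ker (T - 1)) ≤ finrank K V := by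
  classical
  haveI := finite_weights (K := K) (B := B)
  haveI := Fintype.ofFinite (B →* Kˣ)
  haveI : NeZero p := ⟨hp.ne_zero⟩
  let c : ℕ → (B →* Kˣ) → (B →* Kˣ) := fun j χ => χ.comp (t ^ j : MulAut B).toMonoidHom
  have hc : ∀ i j χ, c i (c j χ) = c (j + i) χ := fun i j χ => MonoidHom.ext fun b => by
    simp [c, pow_add]
  have hcp : ∀ j χ, c j χ = c (j % p) χ := fun j χ => by
    simp only [c]; rw [← pow_mod_orderOf]
    congr 2
    rw [← pow_mod_orderOf (n := j % p)]
    congr 1
    exact (Nat.mod_mod_of_dvd _ (orderOf_dvd_of_pow_eq_one htp)).symm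
  have hc0 : ∀ χ, c 0 χ = χ := fun χ => MonoidHom.ext fun b => by simp [c]
  have hfree : ∀ χ : B →* Kˣ, χ ≠ 1 → ∀ i, 0 < i → i < p → c i χ ≠ χ := by
    intro χ hχ i hi hip he
    obtain ⟨j, hj⟩ := Nat.exists_mul_mod_eq_one_of_coprime
      ((Nat.coprime_of_lt_prime hi.ne' hip hp).symm) hp.one_lt
    have hk : ∀ k, c (i * k) χ = χ := by
      intro k
      induction k with
      | zero => rw [Nat.mul_zero]; exact hc0 χ
      | succ k ih => rw [Nat.mul_succ, ← hc, ih, he]
    have h1 : c 1 χ = χ := by rw [← hj.2, ← hcp, hk]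
    refine hχ (MonoidHom.ext fun b => ?_)
    obtain ⟨y, hy⟩ := (Finite.injective_iff_surjective (f := fun y : B => y⁻¹ * t y)).mp (by
      intro a a' h
      have h' : a⁻¹ * t a = a'⁻¹ * t a' := h
      refine (inv_mul_eq_one.mp (hfpf (a'⁻¹ * a) ?_)).symm
      rw [map_mul, map_inv]
      calc (t a')⁻¹ * t a = (t a')⁻¹ * (a * (a⁻¹ * t a)) := by group
        _ = (t a')⁻¹ * (a * (a'⁻¹ * t a')) := by rw [h']
        _ = a'⁻¹ * a := by simp [mul_comm, mul_assoc, mul_left_comm]) b
    have h2 := DFunLike.congr_fun h1 y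
    simp only [c, MonoidHom.comp_apply, MulEquiv.coe_toMonoidHom, pow_one] at h2
    rw [← hy, map_mul, map_inv, h2, inv_mul_cancel, MonoidHom.one_apply]
  let e := Fintype.equivFin (B →* Kˣ)
  let S : Finset (B →* Kˣ) := Finset.univ.filter fun χ => χ ≠ 1 ∧ ∀ j, j < p → e χ ≤ e (c j χ)
  let P : Module.End K V := ∑ χ ∈ S, proj ρ χ
  have hPT : ∀ m, 0 < m → m < p → ∀ u, P ((T ^ m) (P u)) = 0 := by
    intro m hm hmp u
    simp only [P, LinearMap.sum_apply, map_sum]
    refine Finset.sum_eq_zero fun χ hχ => Finset.sum_eq_zero fun χ' hχ' => ?_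
    have htm : ∀ b, (T ^ m) * ρ b = ρ ((t ^ m) b) * (T ^ m) := by
      intro b
      clear hm hmp
      induction m generalizing b with
      | zero => simp
      | succ m ihm => rw [pow_succ, mul_assoc, hT, ← mul_assoc, ihm, pow_succ, MulAut.mul_apply, mul_assoc]
    refine proj_apply_ne ρ ?_ (isWeightVector_map ρ htm (proj_isWeightVector ρ _ u))
    intro he
    have hcm : ∀ {x y : B →* Kˣ}, x = y.comp ((t ^ m)⁻¹ : MulAut B).toMonoidHom → c m x = y := by
      intro x y hxy
      subst hxy
      exact MonoidHom.ext fun b => by simp [c]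
    have e2 := hcm he
    obtain ⟨hS1, hS2⟩ := (Finset.mem_filter.mp hχ).2
    obtain ⟨hS1', hS2'⟩ := (Finset.mem_filter.mp hχ').2
    first
    | (have e3 : c (p - m) χ' = χ := by
        rw [← e2, hc, Nat.add_sub_cancel' hmp.le, hcp, Nat.mod_self, hc0]
       have l1 := hS2 m hmp
       have l2 := hS2' (p - m) (by omega)
       rw [e2] at l1; rw [e3] at l2
       exact hfree χ hS1 m hm hmp (by rw [e2]; exact e.injective (le_antisymm l2 l1)))
    | (have e3 : c (p - m) χ = χ' := by
        rw [← e2, hc, Nat.add_sub_cancel' hmp.le, hcp, Nat.mod_self, hc0]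
       have l1 := hS2' m hmp
       have l2 := hS2 (p - m) (by omega)
       rw [e2] at l1; rw [e3] at l2
       exact hfree χ' hS1' m hm hmp (by rw [e2]; exact e.injective (le_antisymm l2 l1)))
  let C := LinearMap.ker (T - 1)
  have hTC : ∀ x ∈ C, T x = x := fun x hx => sub_eq_zero.mp (by simpa [C] using hx)
  have hP0 : ∀ x ∈ C, P x = 0 → x = 0 := by
    intro x hx hPx
    have hS0 : ∀ χ ∈ S, proj ρ χ x = 0 := by
      intro χ hχ
      have h := congrArg (proj ρ χ) hPx
      simp only [P, LinearMap.sum_apply, map_sum, map_zero] at h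
      rw [Finset.sum_eq_single χ (fun χ' _ hne => proj_proj_ne ρ (Ne.symm hne) x)
        (fun hn => absurd hχ hn), proj_apply_self ρ hB (proj_isWeightVector ρ χ x)] at h
      exact h
    have hpow : ∀ j, (T ^ j) x = x := by
      intro j
      induction j with
      | zero => simp
      | succ j ih => rw [pow_succ', Module.End.mul_apply, ih, hTC x hx]
    rw [← sum_proj ρ hB x]
    refine Finset.sum_eq_zero fun χ _ => ?_
    by_cases hχ1 : χ = 1
    · subst hχ1
      refine h0 _ fun b => ?_
      rw [rho_apply_proj]; simp [wt]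
    obtain ⟨j, hj, hjmin⟩ := Finset.exists_min_image (Finset.range p) (fun j => e (c j χ))
      ⟨0, Finset.mem_range.mpr hp.pos⟩
    have hjS : c j χ ∈ S := by
      refine Finset.mem_filter.mpr ⟨Finset.mem_univ _, fun h1 => hχ1 ?_, fun i hi => ?_⟩
      · refine MonoidHom.ext fun b => ?_
        have h2 := DFunLike.congr_fun h1 ((t ^ j)⁻¹ b)
        simpa [c] using h2
      · rw [hc, hcp (j + i)]
        exact hjmin _ (Finset.mem_range.mpr (Nat.mod_lt _ hp.pos))
    have htj : ∀ b, (T ^ j) * ρ b = ρ ((t ^ j) b) * (T ^ j) := by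
      intro b
      clear hj hjmin hjS
      induction j generalizing b with
      | zero => simp
      | succ j ihj => rw [pow_succ, mul_assoc, hT, ← mul_assoc, ihj, pow_succ, MulAut.mul_apply, mul_assoc]
    -- the component at `χ` is moved to a component in `S`
    have hcomp : (T ^ j) (proj ρ (c j χ) x) = proj ρ χ x := by
      have hcommute : (T ^ j) * proj ρ (c j χ) = proj ρ χ * (T ^ j) := by
        simp only [proj, mul_smul_comm, smul_mul_assoc, Finset.mul_sum, Finset.sum_mul]
        congr 1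
        refine Fintype.sum_equiv (t ^ j : MulAut B).toEquiv _ _ fun b => ?_
        rw [htj]
        simp [wt, c]
      have h := LinearMap.congr_fun hcommute x
      rw [Module.End.mul_apply, Module.End.mul_apply, hpow] at h
      exact h
    rw [← hcomp, hS0 _ hjS, map_zero]
  have hTT : ∀ (a b : ℕ) (u : V), (T ^ a) ((T ^ b) u) = (T ^ (a + b)) u := fun a b u => by
    rw [pow_add, Module.End.mul_apply]
  let Φ : (Fin p → C) →ₗ[K] V := ∑ i : Fin p, ((T ^ (i : ℕ)).comp (P.comp (C.subtype.comp (LinearMap.proj i))))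
  have hΦ : Function.Injective Φ := by
    rw [injective_iff_map_eq_zero]
    intro f hf
    funext i
    have h := congrArg (fun y => P ((T ^ (p - (i : ℕ))) y)) hf
    simp only [Φ, LinearMap.sum_apply, LinearMap.comp_apply, LinearMap.proj_apply, Submodule.coe_subtype,
      map_sum, map_zero] at h
    rw [Finset.sum_eq_single i] at h
    · rw [hTT, Nat.sub_add_cancel i.2.le, hTp, Module.End.one_apply] at h
      refine Subtype.ext (hP0 _ (f i).2 ?_)
      have hPP : ∀ u, P (P u) = P u := fun u => by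
        simp only [P, LinearMap.sum_apply, map_sum]
        refine Finset.sum_congr rfl fun χ hχ => ?_
        rw [Finset.sum_eq_single χ (fun χ' _ hne => proj_proj_ne ρ hne u) (fun hn => absurd hχ hn),
          proj_apply_self ρ hB (proj_isWeightVector ρ χ u)]
      rwa [hPP] at h
    · intro k _ hk
      rw [hTT]
      have hne : (p - (i : ℕ) + (k : ℕ)) % p ≠ 0 := by
        intro h0'
        obtain ⟨m, hm⟩ := Nat.dvd_of_mod_eq_zero h0'
        have hi := i.2
        have hk' := k.2
        rcases Nat.lt_or_ge m 2 with hm2 | hm2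
        · interval_cases m
          · omega
          · exact hk (Fin.ext (by omega))
        · have : p * 2 ≤ p * m := Nat.mul_le_mul_left p hm2
          omega
      have : (T ^ (p - (i : ℕ) + (k : ℕ))) = T ^ ((p - (i : ℕ) + (k : ℕ)) % p) := by
        conv_lhs => rw [← Nat.div_add_mod (p - (i : ℕ) + (k : ℕ)) p, pow_add, pow_mul, hTp, one_pow, one_mul]
      rw [this]
      exact hPT _ (Nat.pos_of_ne_zero hne) (Nat.mod_lt _ hp.pos) _
    · exact fun hn => absurd (Finset.mem_univ i) hn
  have h := LinearMap.finrank_le_finrank_of_injective hΦ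
  rwa [finrank_pi_fintype, Finset.sum_const, Finset.card_univ, Fintype.card_fin, smul_eq_mul] at h

end Cfsg.Agent.Transfer.WeightSpace
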