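/-
Hall–Higman: an automorphism of prime order r without fixed points on a module, acting nontrivially on a
q-group, forces q = 2, r = 2^n + 1 and a nonabelian group.
-/
import Cfsg.Agent.Transfer.HHFactor
import Cfsg.Agent.Transfer.WeightSpace
import Mathlib.RingTheory.RootsOfUnity.Basic
import Mathlib.LinearAlgebra.Eigenspace.Minpoly
import Mathlib.Algebra.Ring.GeomSum
import Mathlib.GroupTheory.Nilpotent
import Mathlib.GroupTheory.Solvable

set_option autoImplicit false
set_option linter.style.haveILetI false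
set_option linter.unusedSectionVars false
set_option maxSynthPendingDepth 4

namespace Cfsg.Agent.Transfer.HHExceptional

open Module Cfsg.Agent.Core.HH
open scoped commutatorElement

universe u v

variable {K : Type u} [Field K] [IsAlgClosed K] {W : Type v} [AddCommGroup W] [Module K W]
  [FiniteDimensional K W] {Q : Type*} [Group Q] [Finite Q]

theorem pow_eq_one_of_sum {R : Type*} [Ring R] {T : R} {r : ℕ} (h : ∑ i ∈ Finset.range r, T ^ i = 0) :
    T ^ r = 1 := by
  have h2 := geom_sum_mul T r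
  rw [h, zero_mul] at h2
  exact sub_eq_zero.mp h2.symm

theorem conj_pow {ρ : Q →* Module.End K W} {T : Module.End K W} {τ : MulAut Q}
    (hTρ : ∀ x, T * ρ x = ρ (τ x) * T) (i : ℕ) : ∀ x, T ^ i * ρ x = ρ ((τ ^ i) x) * T ^ i := by
  induction i with
  | zero => simp
  | succ i ih =>
    intro x
    rw [pow_succ, mul_assoc, hTρ, ← mul_assoc, ih, pow_succ, MulAut.mul_apply, mul_assoc]

theorem isUnit_rho (ρ : Q →* Module.End K W) (x : Q) : IsUnit (ρ x) :=
  ⟨⟨ρ x, ρ x⁻¹, by rw [← map_mul, mul_inv_cancel, map_one], by rw [← map_mul, inv_mul_cancel, map_one]⟩, rfl⟩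

theorem smul_rho_injective [Nontrivial W] (ρ : Q →* Module.End K W) (x : Q) {c d : K}
    (h : c • ρ x = d • ρ x) : c = d := by
  refine smul_left_injective K ?_ h
  exact (isUnit_rho ρ x).ne_zero

/-- Hall–Higman's exceptional case, with scalar centre. -/
theorem exceptional [Nontrivial W] {q r : ℕ} [hq : Fact q.Prime] (hr : r.Prime) (hrK : (r : K) ≠ 0)
    (hQ : IsPGroup q Q) (ρ : Q →* Module.End K W) (T : Module.End K W) (τ : MulAut Q)
    (hT : ∑ i ∈ Finset.range r, T ^ i = 0) (hTρ : ∀ x, T * ρ x = ρ (τ x) * T)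
    (hcomm : ∀ a b, ∃ c : K, ρ a * ρ b = c • (ρ b * ρ a))
    (hscal : ∀ z, (∀ w, Commute (ρ z) (ρ w)) → ∃ c : K, ρ z = c • 1)
    (hfix : ∀ x, (∃ c : K, ρ (τ x) = c • ρ x) → ∃ c : K, ρ x = c • 1)
    (hne : ∃ x, ∀ c : K, ρ x ≠ c • 1) :
    q = 2 ∧ ∃ n, 1 ≤ n ∧ r = 2 ^ n + 1 ∧
      ∀ R : Subgroup Q, (∀ x, x ∈ R ↔ ∃ c : K, ρ x = c • 1) → R.index = 2 ^ (2 * n) := by
  classical
  have hTr := pow_eq_one_of_sum hT
  have hTinj : ∀ i, IsUnit (T ^ i) := fun i => by
    refine (IsUnit.pow i ⟨⟨T, T ^ (r - 1), ?_, ?_⟩, rfl⟩)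
    · rw [← pow_succ', Nat.sub_add_cancel hr.one_lt.le, hTr]
    · rw [← pow_succ, Nat.sub_add_cancel hr.one_lt.le, hTr]
  have hτr : ∀ x, ρ ((τ ^ r) x) = ρ x := fun x => by
    have h := conj_pow hTρ r x
    rw [hTr, one_mul, mul_one] at h
    exact h.symm
  have hfpf : ∀ x, ∀ i, 0 < i → i < r → (∃ c : K, ρ ((τ ^ i) x) = c • ρ x) →
      ∃ c : K, ρ x = c • 1 := by
    rintro x i hi hir ⟨c, hc⟩
    obtain ⟨j, hj⟩ := Nat.exists_mul_mod_eq_one_of_coprime
      ((Nat.coprime_of_lt_prime hi.ne' hir hr).symm) hr.one_lt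
    have hk : ∀ k, ∃ d : K, ρ ((τ ^ (i * k)) x) = d • ρ x := by
      intro k
      induction k with
      | zero => exact ⟨1, by simp⟩
      | succ k ih =>
        obtain ⟨d, hd⟩ := ih
        refine ⟨d * c, ?_⟩
        have h := conj_pow hTρ i ((τ ^ (i * k)) x)
        rw [hd, mul_smul_comm, conj_pow hTρ i x, hc, smul_mul_assoc, smul_smul] at h
        rw [← MulAut.mul_apply, ← pow_add, show i + i * k = i * (k + 1) by ring, ← smul_mul_assoc] at h
        exact ((hTinj i).mul_left_injective h).symm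
    obtain ⟨d, hd⟩ := hk j
    refine hfix x ⟨d, ?_⟩
    rw [← hd]
    have hper : ∀ m y, ρ ((τ ^ (r * m)) y) = ρ y := by
      intro m
      induction m with
      | zero => simp
      | succ m ih => intro y; rw [Nat.mul_succ, pow_add, MulAut.mul_apply, ih, hτr]
    rw [← Nat.div_add_mod (i * j) r, hj.2, pow_add, MulAut.mul_apply, hper, pow_one]
  obtain ⟨N, e, hN2, hNe, hidx, u, hu, hcent, hpoly⟩ :=
    Transfer.HHFactor.exists_factor_index hQ ρ T τ r hr.one_lt hTr hTρ hcomm hscal hfpf hne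
  set s := (Module.End.finite_hasEigenvalue u).toFinset with hs
  have hmem : ∀ μ, μ ∈ s ↔ u.HasEigenvalue μ := fun μ => Set.Finite.mem_toFinset _
  have hsN : s.card ≤ N := by
    choose v hv using fun μ : s => ((hmem μ).mp μ.2).exists_hasEigenvector
    have hli := Module.End.eigenvectors_linearIndependent' u (fun μ : s => (μ : K)) Subtype.val_injective v hv
    have := hli.fintype_card_le_finrank
    rwa [Fintype.card_coe, Module.finrank_pi, Fintype.card_fin] at this
  have hsr : s.card < r := by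
    have hroot : ∀ μ ∈ s, ∑ i ∈ Finset.range r, μ ^ i = 0 := by
      intro μ hμ
      obtain ⟨v, hv⟩ := ((hmem μ).mp hμ).exists_hasEigenvector
      have h := hpoly (∑ i ∈ Finset.range r, Polynomial.X ^ i) (by simpa [map_sum, map_pow] using hT)
      simp only [map_sum, map_pow, Polynomial.aeval_X] at h
      have h2 := LinearMap.congr_fun h v
      rw [LinearMap.sum_apply, LinearMap.zero_apply, Finset.sum_congr rfl (fun i _ => hv.pow_apply i),
        ← Finset.sum_smul] at h2
      exact (smul_eq_zero.mp h2).resolve_right hv.2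
    have hsub : s ⊆ (Polynomial.nthRootsFinset r (1 : K)).erase 1 := by
      intro μ hμ
      refine Finset.mem_erase.mpr ⟨fun h => ?_, (Polynomial.mem_nthRootsFinset hr.pos (1 : K)).mpr
        (pow_eq_one_of_sum (hroot μ hμ))⟩
      have := hroot μ hμ
      rw [h] at this
      simp [hrK] at this
    have h1 : (1 : K) ∈ Polynomial.nthRootsFinset r (1 : K) :=
      (Polynomial.mem_nthRootsFinset hr.pos (1 : K)).mpr (one_pow r)
    have h2 : (Polynomial.nthRootsFinset r (1 : K)).card ≤ r := by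
      rw [Polynomial.nthRootsFinset]
      exact (Multiset.toFinset_card_le _).trans (Polynomial.card_nthRoots r 1)
    have := Finset.card_le_card hsub
    rw [Finset.card_erase_of_mem h1] at this
    have := hr.two_le
    omega
  have hC := sq_finrank_le_of_semisimple u r hrK hu s fun μ hμ => (hmem μ).mpr hμ
  rw [Module.finrank_pi, Fintype.card_fin] at hC
  obtain ⟨hNr, -⟩ := hh_arith hN2 hsN hsr hcent hC
  have hNdvd : N ∣ q ^ e := hNe ▸ dvd_pow_self N two_ne_zero
  obtain ⟨n, hn, rfl⟩ := (Nat.dvd_prime_pow hq.out).mp hNdvd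
  have hn1 : 1 ≤ n := by
    by_contra h
    simp [Nat.lt_one_iff.mp (not_le.mp h)] at hN2
  have hq2 : q = 2 := by
    rcases hr.eq_two_or_odd' with h | h
    · omega
    · have hev : Even (q ^ n) := by
        rcases Nat.even_or_odd (q ^ n) with h' | h'
        · exact h'
        · exact absurd h (Nat.not_odd_iff_even.mpr (hNr ▸ h'.add_one))
      exact (Nat.prime_dvd_prime_iff_eq Nat.prime_two hq.out).mp
        (Nat.prime_two.dvd_of_dvd_pow (even_iff_two_dvd.mp hev)) |>.symm
  subst hq2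
  refine ⟨rfl, n, hn1, hNr.symm, fun R hR => ?_⟩
  rw [hidx R hR, ← pow_mul, mul_comm]

/-- Restriction of a representation to an invariant subspace. -/
def restrictRep (ρ : Q →* Module.End K W) (U : Submodule K W) (hU : ∀ x, ∀ w ∈ U, ρ x w ∈ U) :
    Q →* Module.End K U where
  toFun x := (ρ x).restrict (hU x)
  map_one' := LinearMap.ext fun w => Subtype.ext (by simp [LinearMap.restrict_apply])
  map_mul' x y := LinearMap.ext fun w => Subtype.ext (by simp [LinearMap.restrict_apply])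

theorem restrictRep_apply (ρ : Q →* Module.End K W) (U : Submodule K W)
    (hU : ∀ x, ∀ w ∈ U, ρ x w ∈ U) (x : Q) (w : U) : ((restrictRep ρ U hU x w : U) : W) = ρ x w := rfl

theorem sum_pow_restrict {T : Module.End K W} {U : Submodule K W} (hU : ∀ w ∈ U, T w ∈ U) {r : ℕ}
    (hT : ∑ i ∈ Finset.range r, T ^ i = 0) : ∑ i ∈ Finset.range r, (T.restrict hU) ^ i = 0 := by
  refine LinearMap.ext fun w => Subtype.ext ?_
  rw [LinearMap.sum_apply, LinearMap.zero_apply, Submodule.coe_zero, Submodule.coe_sum]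
  have h2 : ∀ i, (((T.restrict hU) ^ i) w : W) = (T ^ i) w := by
    intro i
    induction i with
    | zero => simp
    | succ i ih => rw [pow_succ', pow_succ', Module.End.mul_apply, Module.End.mul_apply, LinearMap.coe_restrict_apply, ih]
  simp only [h2]
  simpa using LinearMap.congr_fun hT (w : W)

theorem eq_one_of_fixed_quot (σ : MulAut Q) {r : ℕ} (hσ : σ ^ r = 1) {x z : Q}
    (hz : σ z = z) (hx : σ x = x * z) (hcop : (Nat.card Q).Coprime r) : σ x = x := by
  have h : ∀ i, (σ ^ i) x = x * z ^ i := by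
    intro i
    induction i with
    | zero => simp
    | succ i ih => rw [pow_succ', MulAut.mul_apply, ih, map_mul, map_pow, hx, hz, mul_assoc, ← pow_succ']
  have hz1 : z ^ r = 1 := by
    have := h r
    rw [hσ, MulAut.one_apply, left_eq_mul] at this
    exact this
  have : z = 1 := orderOf_eq_one_iff.mp
    (Nat.eq_one_of_dvd_coprimes hcop (orderOf_dvd_natCard z) (orderOf_dvd_of_pow_eq_one hz1))
  rw [hx, this, mul_one]

/-- In a minimal situation (all proper invariant subgroups are fixed) the fixed subgroup is central and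
contains the derived group. -/
theorem fixed_central {σ : MulAut Q} {r : ℕ} (hσ : σ ^ r = 1) (hcop : (Nat.card Q).Coprime r)
    [Group.IsSolvable Q] (hne : ∃ x, σ x ≠ x)
    (hmin : ∀ M : Subgroup Q, M ≠ ⊤ → (∀ x ∈ M, σ x ∈ M) → ∀ x ∈ M, σ x = x) :
    (∀ d, σ d = d → ∀ x, d * x = x * d) ∧ ∀ x y : Q, σ ⁅x, y⁆ = ⁅x, y⁆ := by
  haveI : Nontrivial Q := by
    obtain ⟨x, hx⟩ := hne
    exact nontrivial_of_ne _ _ hx
  have hder : ∀ x y : Q, σ ⁅x, y⁆ = ⁅x, y⁆ := by
    have hcσ : ∀ x ∈ commutator Q, σ x ∈ commutator Q := fun x hx => by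
      have h : (commutator Q).map σ.toMonoidHom ≤ commutator Q := by
        rw [commutator_def, Subgroup.map_commutator]
        exact Subgroup.commutator_mono le_top le_top
      exact h ⟨x, hx, rfl⟩
    intro x y
    exact hmin (commutator Q) (Group.IsSolvable.commutator_lt_top_of_nontrivial Q).ne hcσ _
      (Subgroup.commutator_mem_commutator (Subgroup.mem_top x) (Subgroup.mem_top y))
  refine ⟨fun d hd x => ?_, hder⟩
  let C := Subgroup.centralizer ({d | σ d = d} : Set Q)
  have hC : C = ⊤ := by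
    by_contra hC
    obtain ⟨x, hx⟩ := hne
    have hCσ : ∀ c ∈ C, σ c ∈ C := fun c hc => Subgroup.mem_centralizer_iff.mpr fun e he => by
      have := congrArg σ (Subgroup.mem_centralizer_iff.mp hc e he)
      simpa [map_mul, (show σ e = e from he)] using this
    refine hx (eq_one_of_fixed_quot σ hσ (z := x⁻¹ * σ x) (hmin C hC hCσ _ ?_) (by group) hcop)
    rw [Subgroup.mem_centralizer_iff]
    intro e he
    have he' : σ e = e := he
    have h1 : σ (x * e * x⁻¹) = x * e * x⁻¹ := by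
      rw [show x * e * x⁻¹ = ⁅x, e⁆ * e by rw [commutatorElement_def]; group, map_mul, hder, he']
    simp only [map_mul, map_inv, he'] at h1
    calc e * (x⁻¹ * σ x) = x⁻¹ * (x * e * x⁻¹) * σ x := by group
      _ = x⁻¹ * (σ x * e * (σ x)⁻¹) * σ x := by rw [h1]
      _ = _ := by group
  have := Subgroup.mem_centralizer_iff.mp (hC.ge (Subgroup.mem_top x)) d hd
  exact this

theorem exceptional_min {r q : ℕ} [hq : Fact q.Prime] (hr : r.Prime) (hrq : r ≠ q)
    (hqK : (q : K) ≠ 0) (hrK : (r : K) ≠ 0)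
    (hQ : IsPGroup q Q) (ρ : Q →* Module.End K W) (hρ : Function.Injective ρ) (T : Module.End K W)
    (σ : MulAut Q) (hσ : σ ^ r = 1) (hne : ∃ x, σ x ≠ x)
    (hmin : ∀ M : Subgroup Q, M ≠ ⊤ → (∀ x ∈ M, σ x ∈ M) → ∀ x ∈ M, σ x = x)
    (hT : ∑ i ∈ Finset.range r, T ^ i = 0) (hTρ : ∀ x, T * ρ x = ρ (σ x) * T) :
    q = 2 ∧ ∃ n, 1 ≤ n ∧ r = 2 ^ n + 1 ∧ ∃ x y : Q, x * y ≠ y * x := by
  classical
  obtain ⟨k, hk⟩ := IsPGroup.iff_card.mp hQ
  have hcop : (Nat.card Q).Coprime r := by
    rw [hk]; exact ((Nat.coprime_primes hq.out hr).mpr (Ne.symm hrq)).pow_left k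
  haveI : Group.IsNilpotent Q := hQ.isNilpotent
  obtain ⟨hcen, hder⟩ := fixed_central hσ hcop hne hmin
  obtain ⟨x₀, hx₀⟩ := hne
  have hQK : ∀ B : Subgroup Q, (Nat.card B : K) ≠ 0 := fun B h => by
    obtain ⟨m, hm⟩ := IsPGroup.iff_card.mp (hQ.to_subgroup B)
    rw [hm, Nat.cast_pow] at h
    exact hqK (eq_zero_of_pow_eq_zero h)
  by_cases hab : ∀ x y : Q, x * y = y * x
  · exfalso
    letI : CommGroup Q := { (inferInstance : Group Q) with mul_comm := hab }
    haveI := Fintype.ofFinite Q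
    have hQc : (Nat.card Q : K) ≠ 0 := by
      rw [hk, Nat.cast_pow]; exact pow_ne_zero _ hqK
    have hx1 : ρ (x₀⁻¹ * σ x₀) ≠ 1 := fun h => hx₀ (by
      have := hρ (h.trans (map_one ρ).symm)
      exact (inv_mul_eq_one.mp this).symm)
    obtain ⟨χ, hχ, v, hv0, hv⟩ := WeightSpace.exists_weight_of_ne_one ρ hQc hx1
    haveI : Fact r.Prime := ⟨hr⟩
    haveI : NeZero r := ⟨hr.ne_zero⟩
    have hor : orderOf σ = r := orderOf_eq_prime hσ fun h => hx₀ (by rw [h]; rfl)
    haveI := Fintype.ofFinite (Subgroup.zpowers σ)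
    let Tz : Subgroup.zpowers σ → Module.End K W := fun a =>
      T ^ ((finEquivZPowers (isOfFinOrder_of_finite σ)).symm a : ℕ)
    have hsum : ∑ a, Tz a = 0 := by
      rw [← (finEquivZPowers (isOfFinOrder_of_finite σ)).sum_comp]
      simp only [Tz, Equiv.symm_apply_apply]
      rw [Fin.sum_univ_eq_sum_range (fun i => T ^ i), hor, hT]
    have hval : ∀ a : Subgroup.zpowers σ,
        σ ^ ((finEquivZPowers (isOfFinOrder_of_finite σ)).symm a : ℕ) = (a : MulAut Q) := fun a => by
      conv_rhs => rw [← (finEquivZPowers (isOfFinOrder_of_finite σ)).apply_symm_apply a]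
      rfl
    obtain ⟨a, ha1, ha⟩ := WeightSpace.exists_stab_ne_one ρ hQc (Subgroup.zpowers σ).subtype Tz
      (fun a b => by
        show T ^ _ * ρ b = ρ ((a : MulAut Q) b) * T ^ _
        rw [conj_pow hTρ, hval])
      hsum (by
        show T ^ _ = 1
        have h1 : (finEquivZPowers (isOfFinOrder_of_finite σ)).symm 1 = ⟨0, by rw [hor]; exact hr.pos⟩ := by
          rw [Equiv.symm_apply_eq]; exact Subtype.ext (pow_zero σ).symm
        rw [h1, pow_zero]) hv0 hv
    have hgen : σ ∈ Subgroup.zpowers (a : MulAut Q) := by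
      have hoa : orderOf (a : MulAut Q) = r := orderOf_eq_prime
        (orderOf_dvd_iff_pow_eq_one.mp (hor ▸ orderOf_dvd_of_mem_zpowers a.2))
        (fun h => ha1 (Subtype.ext h))
      have : Subgroup.zpowers (a : MulAut Q) = Subgroup.zpowers σ :=
        Subgroup.eq_of_le_of_card_ge (Subgroup.zpowers_le.mpr a.2)
          (by rw [Nat.card_zpowers, Nat.card_zpowers, hoa, hor])
      rw [this]; exact Subgroup.mem_zpowers σ
    obtain ⟨m, hm⟩ := (IsOfFinOrder.mem_powers_iff_mem_zpowers (isOfFinOrder_of_finite _)).mpr hgen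
    have hfix : ∀ b, χ (σ b) = χ b := by
      intro b
      rw [← hm]
      induction m generalizing b with
      | zero => simp
      | succ m ih =>
        have : ∀ b, χ (((a : MulAut Q) ^ m) b) = χ b := by
          clear hm ih
          induction m with
          | zero => simp
          | succ m ih => intro b; rw [pow_succ', MulAut.mul_apply]; exact (ha _).trans (ih b)
        show χ (((a : MulAut Q) ^ (m + 1)) b) = χ b
        rw [pow_succ', MulAut.mul_apply]; exact (ha _).trans (this b)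
    exact hχ (by rw [map_mul, map_inv, hfix, inv_mul_cancel])
  push Not at hab
  obtain ⟨x, y, hxy⟩ := hab
  let D : Subgroup Q := (σ.toMonoidHom).eqLocus (MonoidHom.id Q)
  have hD : ∀ d, d ∈ D ↔ σ d = d := fun d => Iff.rfl
  letI : CommGroup D :=
    { (inferInstance : Group D) with mul_comm := fun a b => Subtype.ext (hcen a a.2 b) }
  haveI := Fintype.ofFinite D
  let c : D := ⟨⁅x, y⁆, hder x y⟩
  have hc1 : (ρ.comp D.subtype) c ≠ 1 := fun h => hxy (commutatorElement_eq_one_iff_mul_comm.mp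
    (hρ (h.trans (map_one ρ).symm)))
  obtain ⟨χ, hχ, v, hv0, hv⟩ := WeightSpace.exists_weight_of_ne_one (ρ.comp D.subtype) (hQK D) hc1
  let U : Submodule K W :=
    { carrier := {w | ∀ d : D, ρ (d : Q) w = WeightSpace.wt χ d • w}
      zero_mem' := fun d => by simp
      add_mem' := fun {a b} ha hb d => by rw [map_add, ha d, hb d, smul_add]
      smul_mem' := fun e a ha d => by rw [map_smul, ha d, smul_comm] }
  have hUρ : ∀ g, ∀ w ∈ U, ρ g w ∈ U := fun g w hw d => by
    rw [← Module.End.mul_apply, ← map_mul, hcen d d.2 g, map_mul, Module.End.mul_apply, hw d, map_smul]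
  have hUT : ∀ w ∈ U, T w ∈ U := fun w hw d => by
    have h := LinearMap.congr_fun (hTρ (d : Q)) w
    rw [Module.End.mul_apply, Module.End.mul_apply, hw d, map_smul, show σ (d : Q) = d from d.2] at h
    exact h.symm
  haveI : Nontrivial U := ⟨⟨⟨v, hv⟩, 0, fun h => hv0 (congrArg Subtype.val h)⟩⟩
  set ρU := restrictRep ρ U hUρ with hρU
  have hscalD : ∀ d : D, ρU (d : Q) = WeightSpace.wt χ d • 1 := fun d =>
    LinearMap.ext fun w => Subtype.ext (w.2 d)
  let Z : Subgroup Q :=
    { carrier := {z | ∀ w, Commute (ρU z) (ρU w)}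
      one_mem' := fun w => by rw [map_one]; exact Commute.one_left _
      mul_mem' := fun {a b} ha hb w => by rw [map_mul]; exact (ha w).mul_left (hb w)
      inv_mem' := fun {a} ha w => by
        have : Commute (ρU a⁻¹ * ρU a) (ρU w) := by rw [← map_mul, inv_mul_cancel, map_one]; exact Commute.one_left _
        show ρU a⁻¹ * ρU w = ρU w * ρU a⁻¹
        calc ρU a⁻¹ * ρU w = ρU a⁻¹ * (ρU w * ρU a) * ρU a⁻¹ := by
              rw [mul_assoc, mul_assoc, ← map_mul ρU a, mul_inv_cancel, map_one, mul_one]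
          _ = ρU a⁻¹ * (ρU a * ρU w) * ρU a⁻¹ := by rw [(ha w).eq]
          _ = _ := by rw [← mul_assoc, ← map_mul, inv_mul_cancel, map_one, one_mul] }
  have hcomm : ∀ a b, ∃ e : K, ρU a * ρU b = e • (ρU b * ρU a) := fun a b =>
    ⟨WeightSpace.wt χ ⟨⁅a, b⁆, hder a b⟩, by
      rw [← one_mul (ρU b * ρU a), ← smul_mul_assoc, ← hscalD, ← map_mul, ← map_mul, ← map_mul]
      congr 1
      show a * b = ⁅a, b⁆ * (b * a)
      rw [commutatorElement_def]; group⟩
  have hTU : ∀ g, T.restrict hUT * ρU g = ρU (σ g) * T.restrict hUT := fun g =>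
    LinearMap.ext fun w => Subtype.ext (LinearMap.congr_fun (hTρ g) (w : W))
  have hZσ : ∀ z ∈ Z, σ z ∈ Z := by
    intro z hz w
    obtain ⟨w', rfl⟩ := σ.surjective w
    have hu : IsUnit (T.restrict hUT) := by
      have h := pow_eq_one_of_sum (sum_pow_restrict hUT hT)
      obtain ⟨Tu, hTu⟩ : ∃ Tu : Module.End K U, Tu = T.restrict hUT := ⟨_, rfl⟩
      rw [← hTu] at h ⊢
      refine ⟨⟨Tu, Tu ^ (r - 1), ?_, ?_⟩, rfl⟩
      · rw [← pow_succ', Nat.sub_add_cancel hr.one_lt.le, h]
      · rw [← pow_succ, Nat.sub_add_cancel hr.one_lt.le, h]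
    refine hu.mul_left_injective ?_
    show ρU (σ z) * ρU (σ w') * T.restrict hUT = ρU (σ w') * ρU (σ z) * T.restrict hUT
    rw [mul_assoc, ← hTU, ← mul_assoc, ← hTU, mul_assoc, mul_assoc, ← hTU, ← mul_assoc _ (T.restrict hUT),
      ← hTU, mul_assoc, (hz w').eq]
  have hZne : Z ≠ ⊤ := by
    intro h
    have hx : x ∈ Z := h ▸ Subgroup.mem_top x
    have h2 : ρU ⁅x, y⁆ = 1 := by
      rw [commutatorElement_def, map_mul, map_mul, map_mul, (hx y).eq, mul_assoc (ρU y),
        ← map_mul ρU x, mul_inv_cancel, map_one, mul_one, ← map_mul, mul_inv_cancel, map_one]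
    rw [show ⁅x, y⁆ = (c : Q) from rfl, hscalD] at h2
    have h3 : WeightSpace.wt χ c = 1 := by
      have := congrArg Subtype.val (LinearMap.congr_fun h2 ⟨v, hv⟩)
      simp only [LinearMap.smul_apply, Module.End.one_apply, Submodule.coe_smul] at this
      exact smul_left_injective K hv0 (this.trans (one_smul K v).symm)
    exact hχ (Units.ext h3)
  have hZD : ∀ z ∈ Z, ∃ e : K, ρU z = e • 1 := fun z hz =>
    ⟨_, hscalD ⟨z, hmin Z hZne hZσ z hz⟩⟩
  obtain ⟨h2, n, hn, hrn, -⟩ := exceptional hr hrK hQ ρU (T.restrict hUT) σ (sum_pow_restrict hUT hT) hTU hcomm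
    (fun z hz => hZD z hz)
    (fun g ⟨e, he⟩ => by
      refine ⟨WeightSpace.wt χ ⟨g, ?_⟩, hscalD ⟨g, ?_⟩⟩
      all_goals
        refine eq_one_of_fixed_quot σ hσ (z := g⁻¹ * σ g) (hmin Z hZne hZσ _ fun w => ?_) (by group) hcop
        rw [map_mul, he, mul_smul_comm, ← map_mul, inv_mul_cancel, map_one]
        exact (Commute.one_left _).smul_left e)
    (by
      by_contra h
      push Not at h
      refine hZne (eq_top_iff.mpr fun z _ w => ?_)
      obtain ⟨e, he⟩ := h z
      rw [he]; exact (Commute.one_left _).smul_left e)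
  exact ⟨h2, n, hn, hrn, x, y, hxy⟩

/-- Hall–Higman: a nontrivial coprime action with fixed-point-free module forces the exceptional case. -/
theorem exceptional_of_action {r q : ℕ} [hq : Fact q.Prime] (hr : r.Prime) (hrq : r ≠ q)
    (hqK : (q : K) ≠ 0) (hrK : (r : K) ≠ 0)
    (hQ : IsPGroup q Q) (ρ : Q →* Module.End K W) (hρ : Function.Injective ρ) (T : Module.End K W)
    (σ : MulAut Q) (hσ : σ ^ r = 1) (hne : ∃ x, σ x ≠ x)
    (hT : ∑ i ∈ Finset.range r, T ^ i = 0) (hTρ : ∀ x, T * ρ x = ρ (σ x) * T) :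
    q = 2 ∧ ∃ n, 1 ≤ n ∧ r = 2 ^ n + 1 ∧ ∃ x y : Q, x * y ≠ y * x := by
  classical
  obtain ⟨M, ⟨hMσ, hMne⟩, hMmin⟩ := (Set.toFinite
    {M : Subgroup Q | (∀ x ∈ M, σ x ∈ M) ∧ ∃ x ∈ M, σ x ≠ x}).exists_minimal
    ⟨⊤, fun x _ => Subgroup.mem_top _, by obtain ⟨x, hx⟩ := hne; exact ⟨x, Subgroup.mem_top x, hx⟩⟩
  have hmap : M.map σ.toMonoidHom = M := Subgroup.eq_of_le_of_card_ge
    (Subgroup.map_le_iff_le_comap.mpr hMσ) (Subgroup.card_map_of_injective σ.injective).ge
  let σM : MulAut M := (σ.subgroupMap M).trans (MulEquiv.subgroupCongr hmap)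
  have hσM : ∀ x : M, ((σM x : M) : Q) = σ x := fun x => rfl
  have hσMpow : ∀ (i : ℕ) (x : M), (((σM ^ i) x : M) : Q) = (σ ^ i) (x : Q) := by
    intro i
    induction i with
    | zero => simp
    | succ i ih => intro x; rw [pow_succ, pow_succ, MulAut.mul_apply, MulAut.mul_apply, ih, hσM]
  obtain ⟨h2, n, hn, hrn, x, y, hxy⟩ := exceptional_min hr hrq hqK hrK (hQ.to_subgroup M) (ρ.comp M.subtype)
    (hρ.comp M.subtype_injective) T σM
    (MulEquiv.ext fun x => Subtype.ext (by rw [hσMpow, hσ]; rfl))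
    (by obtain ⟨x, hx, hxne⟩ := hMne; exact ⟨⟨x, hx⟩, fun h => hxne (congrArg Subtype.val h)⟩)
    (fun L hL hLσ x hx => by
      by_contra hne'
      refine hL ?_
      have hle : L.map M.subtype ≤ M := Subgroup.map_subtype_le L
      have heq : L.map M.subtype = M := le_antisymm hle (hMmin (y := L.map M.subtype) ⟨by
          rintro _ ⟨a, ha, rfl⟩; exact ⟨σM a, hLσ a ha, hσM a⟩,
        ⟨x, ⟨x, hx, rfl⟩, fun h => hne' (Subtype.ext (by rw [hσM]; exact h))⟩⟩ hle)
      refine Subgroup.map_injective M.subtype_injective ?_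
      rw [heq, ← MonoidHom.range_eq_map, Subgroup.range_subtype])
    hT (fun x => hTρ x)
  exact ⟨h2, n, hn, hrn, x, y, fun h => hxy (Subtype.ext h)⟩

end Cfsg.Agent.Transfer.HHExceptional
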