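/-
An elementary abelian subgroup as a module over the algebraic closure of the prime field.
-/
import Cfsg.Prelude.Def_Transfer
import Mathlib.FieldTheory.IsAlgClosed.AlgebraicClosure
import Mathlib.Algebra.Module.ZMod
import Mathlib.Algebra.Field.ZMod
import Mathlib.RingTheory.Flat.Basic
import Mathlib.LinearAlgebra.FreeModule.Finite.Matrix
import Mathlib.LinearAlgebra.TensorProduct.Finiteness
import Mathlib.RingTheory.TensorProduct.Finite

set_option autoImplicit false
set_option linter.style.haveILetI false
set_option linter.unusedSectionVars false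

namespace Cfsg.Agent.Transfer.ModuleBC

open scoped TensorProduct

variable {M : Type*} [CommGroup M] (p : ℕ) [Fact p.Prime] [Module (ZMod p) (Additive M)]

/-- An automorphism as a linear map. -/
def toEnd : MulAut M →* Module.End (ZMod p) (Additive M) where
  toFun e := (MonoidHom.toAdditive (e : M →* M)).toZModLinearMap p
  map_one' := by ext; rfl
  map_mul' e f := by ext; rfl

theorem toEnd_apply (e : MulAut M) (m : M) : toEnd p e (Additive.ofMul m) = Additive.ofMul (e m) := rfl

theorem toEnd_injective : Function.Injective (toEnd (M := M) p) := fun e f h =>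
  MulEquiv.ext fun m => by
    have := LinearMap.congr_fun h (Additive.ofMul m)
    rw [toEnd_apply, toEnd_apply] at this
    exact Additive.ofMul.injective this

/-- The algebraic closure of the prime field. -/
abbrev Kbar := AlgebraicClosure (ZMod p)

/-- The extended representation of the automorphism group. -/
noncomputable def bcRep : MulAut M →* Module.End (Kbar p) (Kbar p ⊗[ZMod p] Additive M) :=
  (Module.End.baseChangeHom (ZMod p) (Kbar p) (Additive M)).toMonoidHom.comp (toEnd p)

theorem bcRep_injective : Function.Injective (bcRep (M := M) p) :=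
  (LinearMap.baseChangeHom_injective (R := ZMod p) (S := Kbar p) (M := Additive M) (N := Additive M)).comp (toEnd_injective p)

theorem natCast_ne_zero {n : ℕ} (h : ¬ p ∣ n) : (n : Kbar p) ≠ 0 := fun h0 => h (by
  rw [← map_natCast (algebraMap (ZMod p) (Kbar p)), map_eq_zero] at h0
  exact (ZMod.natCast_eq_zero_iff n p).mp h0)

theorem nontrivial_bc [Nontrivial M] : Nontrivial (Kbar p ⊗[ZMod p] Additive M) := by
  obtain ⟨m, hm⟩ := exists_ne (1 : M)
  refine nontrivial_of_ne (1 ⊗ₜ[ZMod p] Additive.ofMul m) 0 fun h => hm ?_
  have := (Module.Flat.tensorProduct_mk_injective (ZMod p) (Additive M) (Kbar p))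
    (h.trans (TensorProduct.tmul_zero _ (1 : Kbar p)).symm)
  exact Additive.ofMul.injective this

/-- The sum of the powers of a fixed-point-free automorphism vanishes. -/
theorem sum_toEnd_eq_zero (e : MulAut M) {r : ℕ} (he : e ^ r = 1) (hfpf : ∀ m, e m = m → m = 1) :
    ∑ i ∈ Finset.range r, toEnd p e ^ i = 0 := by
  refine LinearMap.ext fun a => ?_
  rw [LinearMap.zero_apply, LinearMap.sum_apply]
  obtain ⟨m, rfl⟩ := Additive.ofMul.surjective a
  set s := ∑ i ∈ Finset.range r, (toEnd p e ^ i) (Additive.ofMul m) with hs
  have hfix : toEnd p e s = s := by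
    rw [hs, map_sum]
    have e1 := Finset.sum_range_succ' (fun i => (toEnd p e ^ i) (Additive.ofMul m)) r
    have e2 := Finset.sum_range_succ (fun i => (toEnd p e ^ i) (Additive.ofMul m)) r
    rw [e2, ← map_pow (toEnd p) e r, he, map_one, pow_zero] at e1
    rw [← add_right_cancel e1.symm]
    exact Finset.sum_congr rfl fun i _ => by rw [pow_succ', Module.End.mul_apply]
  obtain ⟨n, hn⟩ := Additive.ofMul.surjective s
  rw [← hn, toEnd_apply] at hfix
  rw [← hn, hfpf n (Additive.ofMul.injective hfix)]
  rfl

theorem sum_bcRep_eq_zero (e : MulAut M) {r : ℕ} (he : e ^ r = 1) (hfpf : ∀ m, e m = m → m = 1) :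
    ∑ i ∈ Finset.range r, bcRep p e ^ i = 0 := by
  have h := congrArg (Module.End.baseChangeHom (ZMod p) (Kbar p) (Additive M)) (sum_toEnd_eq_zero p e he hfpf)
  simpa [map_sum, map_pow, bcRep] using h

/-- The module structure on an elementary abelian group. -/
@[instance_reducible]
def modOfExp {N : Type*} [CommGroup N] {p : ℕ} (h : ∀ x : N, x ^ p = 1) : Module (ZMod p) (Additive N) :=
  AddCommGroup.zmodModule fun a => by
    rw [← ofMul_toMul a, ← ofMul_pow, h, ofMul_one]

end Cfsg.Agent.Transfer.ModuleBC
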