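/-
Hall–Higman's exceptional case for subgroups of a finite group.
-/
import Cfsg.Agent.Transfer.HHExceptional
import Cfsg.Agent.Transfer.ModuleBC

set_option autoImplicit false
set_option linter.style.haveILetI false
set_option linter.unusedSectionVars false
set_option maxSynthPendingDepth 4

namespace Cfsg.Agent.Transfer.HHGroup

open Cfsg
open scoped TensorProduct

universe u

/-- The data: a group `Q` and an automorphism, represented over an algebraically closed field. -/
theorem exists_setup {G : Type u} [Group G] [Finite G] {p q r : ℕ} [Fact p.Prime] (hr : r.Prime)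
    (hpq : ¬ p ∣ q) (hpr : ¬ p ∣ r) (X Q V : Subgroup G) (hX : Nat.card X = r)
    (hXQ : X ≤ Subgroup.normalizer (Q : Set G)) (hV : IsElementaryAbelian p V) (hV1 : V ≠ ⊥)
    (hXV : X ≤ Subgroup.normalizer (V : Set G)) (hQV : Q ≤ Subgroup.normalizer (V : Set G))
    (hfaith : (X ⊔ Q) ⊓ Subgroup.centralizer (V : Set G) = ⊥)
    (hCV : V ⊓ Subgroup.centralizer (X : Set G) = ⊥) :
    ∃ (K : Type) (_ : Field K) (_ : IsAlgClosed K) (W : Type u) (_ : AddCommGroup W) (_ : Module K W)
      (_ : FiniteDimensional K W) (_ : Nontrivial W) (ρ : Q →* Module.End K W) (T : Module.End K W)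
      (σ : MulAut Q),
      (q : K) ≠ 0 ∧ (r : K) ≠ 0 ∧ Function.Injective ρ ∧ σ ^ r = 1 ∧
      (∀ y : Q, σ y = y ↔ (y : G) ∈ Subgroup.centralizer (X : Set G)) ∧
      ∑ i ∈ Finset.range r, T ^ i = 0 ∧ (∀ y, T * ρ y = ρ (σ y) * T) := by
  classical
  haveI : Fact r.Prime := ⟨hr⟩
  haveI := hV.1
  letI : CommGroup V := { (inferInstance : Group V) with mul_comm := hV.1.1.1 }
  letI : Module (ZMod p) (Additive V) := ModuleBC.modOfExp fun x : V => Subtype.ext (hV.2 x x.2)
  haveI : Finite (Additive V) := inferInstanceAs (Finite V)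
  haveI : FiniteDimensional (ZMod p) (Additive V) := Module.Finite.of_finite
  haveI : Nontrivial V := (Subgroup.nontrivial_iff_ne_bot V).mpr hV1
  haveI := ModuleBC.nontrivial_bc (M := V) p
  let cjV : ↥(Subgroup.normalizer (V : Set G)) →* MulAut V := V.normalizerMonoidHom
  let cjQ : ↥(Subgroup.normalizer (Q : Set G)) →* MulAut Q := Q.normalizerMonoidHom
  obtain ⟨x, hxX, hx1⟩ : ∃ x ∈ X, x ≠ 1 := by
    by_contra h
    push Not at h
    rw [(Subgroup.eq_bot_iff_forall X).mpr h, Subgroup.card_bot] at hX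
    exact hr.ne_one hX.symm
  have hxr : x ^ r = 1 := by
    have := congrArg Subtype.val (pow_card_eq_one' (G := X) (x := ⟨x, hxX⟩))
    rwa [hX] at this
  have hgen : ∀ z ∈ X, ∃ i : ℕ, x ^ i = z := fun z hz => by
    have := mem_powers_of_prime_card (G := X) hX (g := ⟨x, hxX⟩) (g' := ⟨z, hz⟩) (by simpa using hx1)
    obtain ⟨i, hi⟩ := this
    exact ⟨i, congrArg Subtype.val hi⟩
  have hcent : ∀ g : G, g ∈ Subgroup.centralizer (X : Set G) ↔ x * g = g * x := fun g => by
    rw [Subgroup.mem_centralizer_iff]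
    refine ⟨fun h => h x hxX, fun h z hz => ?_⟩
    obtain ⟨i, rfl⟩ := hgen z hz
    exact (Commute.pow_left h i).eq
  refine ⟨ModuleBC.Kbar p, inferInstance, inferInstance, ModuleBC.Kbar p ⊗[ZMod p] Additive V,
    inferInstance, inferInstance, inferInstance, inferInstance,
    ((ModuleBC.bcRep p).comp cjV).comp (Subgroup.inclusion hQV), ModuleBC.bcRep p (cjV ⟨x, hXV hxX⟩),
    cjQ ⟨x, hXQ hxX⟩, ModuleBC.natCast_ne_zero p hpq, ModuleBC.natCast_ne_zero p hpr, ?_, ?_, ?_, ?_, ?_⟩
  · refine (injective_iff_map_eq_one _).mpr fun y hy => ?_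
    have h1 : cjV (Subgroup.inclusion hQV y) = 1 :=
      ModuleBC.bcRep_injective p (hy.trans (map_one (ModuleBC.bcRep p)).symm)
    refine Subtype.ext ((Subgroup.eq_bot_iff_forall _).mp hfaith (y : G)
      ⟨le_sup_right (a := X) y.2, Subgroup.mem_centralizer_iff.mpr fun v hv => ?_⟩)
    have h2 := congrArg (fun f : MulAut V => ((f ⟨v, hv⟩ : V) : G)) h1
    exact (mul_inv_eq_iff_eq_mul.mp h2).symm
  · rw [← map_pow, show (⟨x, hXQ hxX⟩ : ↥(Subgroup.normalizer (Q : Set G))) ^ r = 1 from Subtype.ext hxr, map_one]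
  · intro y
    rw [hcent]
    constructor
    · intro h; exact mul_inv_eq_iff_eq_mul.mp (congrArg Subtype.val h)
    · intro h; exact Subtype.ext (mul_inv_eq_iff_eq_mul.mpr h)
  · refine ModuleBC.sum_bcRep_eq_zero p _ ?_ fun v hv => ?_
    · rw [← map_pow, show (⟨x, hXV hxX⟩ : ↥(Subgroup.normalizer (V : Set G))) ^ r = 1 from Subtype.ext hxr, map_one]
    · refine Subtype.ext ((Subgroup.eq_bot_iff_forall _).mp hCV (v : G) ⟨v.2, ?_⟩)
      show (v : G) ∈ Subgroup.centralizer (X : Set G)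
      rw [hcent]
      exact mul_inv_eq_iff_eq_mul.mp (congrArg Subtype.val hv)
  · intro y
    simp only [MonoidHom.comp_apply, ← map_mul]
    congr 2
    refine Subtype.ext ?_
    show x * (y : G) = x * y * x⁻¹ * x
    group

end Cfsg.Agent.Transfer.HHGroup
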