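import Cfsg.Agent.Transfer.PGroupNormal
import Cfsg.Agent.S0130

/-!
Normal elementary abelian subgroups of order `p ^ 4`.
-/

set_option autoImplicit false

namespace Cfsg.Agent.Transfer.RankFour

open Cfsg

universe u

variable {G : Type u} [Group G] [Finite G] {p : ℕ} [hp : Fact p.Prime]

theorem comm_step (hG : IsPGroup p G) {M N : Subgroup G} (hM : M.Normal) (hN : N.Normal) (hle : M ≤ N)
    (hc : Nat.card N ≤ Nat.card M * p) {n : G} (hn : n ∈ N) (g : G) : g * n * g⁻¹ * n⁻¹ ∈ M := by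
  rcases eq_or_lt_of_le hle with e | hlt
  · exact mul_mem (hM.conj_mem n (e ▸ hn) g) (inv_mem (e ▸ hn))
  obtain ⟨z, hzN, -, -, hzg, -, hcard⟩ := PNormal.exists_central_step hG hM hN hlt
  haveI := hM
  have hz : M ⊔ Subgroup.zpowers z = N := Subgroup.eq_of_le_of_card_ge
    (sup_le hlt.le (Subgroup.zpowers_le.mpr hzN)) (by rw [hcard]; exact hc)
  let K : Subgroup G := (Subgroup.center (G ⧸ M)).comap (QuotientGroup.mk' M)
  have hMK : M ≤ K := fun x hx => by
    show (x : G ⧸ M) ∈ Subgroup.center (G ⧸ M)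
    rw [(QuotientGroup.eq_one_iff x).2 hx]; exact one_mem _
  have hzK : z ∈ K := by
    show (z : G ⧸ M) ∈ Subgroup.center (G ⧸ M)
    rw [Subgroup.mem_center_iff]
    intro w
    induction w using QuotientGroup.induction_on with
    | H x =>
      have h1 := (QuotientGroup.eq_one_iff (z * x * z⁻¹ * x⁻¹)).2 (hzg x)
      simp only [QuotientGroup.mk_mul, QuotientGroup.mk_inv] at h1
      exact (mul_inv_eq_iff_eq_mul.1 (mul_inv_eq_one.1 h1)).symm
  have hnK : (n : G ⧸ M) ∈ Subgroup.center (G ⧸ M) := (sup_le hMK (Subgroup.zpowers_le.2 hzK)) (hz ▸ hn)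
  rw [← QuotientGroup.eq_one_iff]
  simp only [QuotientGroup.mk_mul, QuotientGroup.mk_inv]
  rw [Subgroup.mem_center_iff.1 hnK (g : G ⧸ M), mul_inv_cancel_right, mul_inv_cancel]

theorem card_sup_zpowers_eq (hG : IsPGroup p G) {D A : Subgroup G} (hDA : D ≤ A) (hA : Nat.card A ≤ Nat.card D * p)
    {a : G} (ha : a ∈ A) (haD : a ∉ D) : D ⊔ Subgroup.zpowers a = A := by
  have hle : D ⊔ Subgroup.zpowers a ≤ A := sup_le hDA (Subgroup.zpowers_le.2 ha)
  have hlt : D < D ⊔ Subgroup.zpowers a := lt_of_le_of_ne le_sup_left fun e =>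
    haD (e.symm ▸ Subgroup.mem_sup_right (Subgroup.mem_zpowers a) : a ∈ D)
  refine Subgroup.eq_of_le_of_card_ge hle (hA.trans ?_)
  obtain ⟨i, hi⟩ := IsPGroup.iff_card.1 (hG.to_subgroup D)
  obtain ⟨j, hj⟩ := IsPGroup.iff_card.1 (hG.to_subgroup (D ⊔ Subgroup.zpowers a))
  have h1 : Nat.card D < Nat.card (D ⊔ Subgroup.zpowers a : Subgroup G) :=
    lt_of_le_of_ne (Subgroup.card_le_of_le hlt.le) fun e => hlt.ne (Subgroup.eq_of_le_of_card_ge hlt.le e.ge)
  rw [hi, hj] at h1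
  rw [hi, hj, ← pow_succ]
  exact Nat.pow_le_pow_right hp.out.pos ((Nat.pow_lt_pow_iff_right hp.out.one_lt).1 h1)

theorem main (hp2 : p ≠ 2) (hG : IsPGroup p G) (E : Subgroup G) (hE : Cfsg.IsElementaryAbelian p E)
    (hE4 : Nat.card E = p ^ 4) :
    ∃ A : Subgroup G, A.Normal ∧ Cfsg.IsElementaryAbelian p A ∧ Nat.card A = p ^ 4 := by
  classical
  have hprime : p.Prime := hp.out
  haveI := hG.isNilpotent
  have hEc : ∀ x ∈ E, ∀ y ∈ E, Commute x y := fun x hx y hy =>
    congrArg Subtype.val (hE.1.is_comm.comm (⟨x, hx⟩ : E) ⟨y, hy⟩)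
  obtain ⟨A, ⟨hAn, hAab, hAe⟩, hAmax⟩ := Set.Finite.exists_maximalFor (fun T : Subgroup G => Nat.card T)
    {T : Subgroup G | T.Normal ∧ IsMulCommutative T ∧ ∀ x ∈ T, x ^ p = 1} (Set.toFinite _)
    ⟨⊥, inferInstance, ⟨⟨fun a b => Subsingleton.elim _ _⟩⟩, fun x hx => by
      rw [Subgroup.mem_bot.1 hx, one_pow]⟩
  haveI := hAn
  by_cases hbig : p ^ 4 ≤ Nat.card A
  · obtain ⟨M, hMn, hMA, hMc⟩ := PNormal.exists_normal_card hG hAn 4 hbig
    refine ⟨M, hMn, ⟨⟨⟨fun a b => Subtype.ext ?_⟩⟩, fun m hm => hAe m (hMA hm)⟩, hMc⟩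
    show (a : G) * b = b * a
    exact congrArg Subtype.val (hAab.is_comm.comm (⟨a, hMA a.2⟩ : A) ⟨b, hMA b.2⟩)
  have hAc : ∀ x ∈ A, ∀ y ∈ A, Commute x y := fun x hx y hy =>
    congrArg Subtype.val (hAab.is_comm.comm (⟨x, hx⟩ : A) ⟨y, hy⟩)
  set C := Subgroup.centralizer (A : Set G) with hC
  have hΩ : ∀ x ∈ C, x ^ p = 1 → x ∈ A := fun x hx hxp =>
    Cfsg.Agent.S0130.result hG 1 (by rw [pow_one]; exact hp2) A hAab (fun a ha => by rw [pow_one]; exact hAe a ha)
      (fun B hBn hBc hBe hle => by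
        refine (Subgroup.eq_of_le_of_card_ge hle (hAmax (j := B) ⟨hBn, hBc, fun b hb => ?_⟩
          (Subgroup.card_le_of_le hle))).symm
        have := hBe b hb; rwa [pow_one] at this) x hx (by rw [pow_one]; exact hxp)
  obtain ⟨k, hk⟩ := IsPGroup.iff_card.1 (hG.to_subgroup A)
  have hk3 : k ≤ 3 := by
    by_contra h
    exact hbig (hk ▸ Nat.pow_le_pow_right hprime.pos (by omega))
  obtain ⟨M, -, hMA, hMc, hMi⟩ := PNormal.exists_normal_index_centralizer hG hAn k hk.ge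
  obtain rfl : M = A := Subgroup.eq_of_le_of_card_ge hMA (by rw [hMc, hk])
  rw [← hC] at hMi
  set D := E ⊓ M with hD
  have hED : E ⊓ C = D := le_antisymm (fun x hx => ⟨hx.1, hΩ x hx.2 (hE.2 x hx.1)⟩)
    (inf_le_inf_left E fun x hx => Subgroup.mem_centralizer_iff.2 fun y hy => (hAc y hy x hx).eq)
  have hEmul : Nat.card D * C.relIndex E = p ^ 4 := by
    have h1 := Subgroup.card_mul_index (D.subgroupOf E)
    rw [Nat.card_congr (Subgroup.subgroupOfEquivOfLe (inf_le_left : D ≤ E)).toEquiv, hE4] at h1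
    rw [← Subgroup.inf_relIndex_right C E, inf_comm, hED]
    exact h1
  obtain ⟨d, hd⟩ := IsPGroup.iff_card.1 (hG.to_subgroup D)
  have hdk : d ≤ k := (Nat.pow_le_pow_iff_right hprime.one_lt).1 (hd ▸ hk ▸ Subgroup.card_le_of_le inf_le_right)
  have hdA : ¬ d = k := by
    intro e
    have hDM : D = M := Subgroup.eq_of_le_of_card_ge inf_le_right (by rw [hd, hk, e])
    have hle : E ≤ M := fun x hx => hΩ x (Subgroup.mem_centralizer_iff.2 fun y hy =>
      (hEc y ((hDM.symm ▸ hy : y ∈ D).1) x hx).eq) (hE.2 x hx)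
    exact hbig (hE4 ▸ Subgroup.card_le_of_le hle)
  have hrel : C.relIndex E ≤ C.index := Nat.le_of_dvd (Nat.pos_of_ne_zero Subgroup.index_ne_zero_of_finite)
    (Subgroup.relIndex_dvd_index_of_normal C E)
  have hd2 : 2 ≤ d ∧ k = 3 := by
    have h1 : p ^ 4 ≤ p ^ d * p ^ (k * (k - 1) / 2) := by
      rw [← hEmul, hd]; exact Nat.mul_le_mul_left _ (hrel.trans hMi)
    rw [← pow_add, Nat.pow_le_pow_iff_right hprime.one_lt] at h1
    have hk3' : k = 3 := by
      interval_cases k <;> omega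
    subst hk3'
    refine ⟨?_, rfl⟩
    by_contra hd1
    have hd1' : d = 1 := by omega
    -- an abelian group of order `p ^ 3` acting faithfully
    obtain ⟨B, hBn, hBM, hBc⟩ := PNormal.exists_normal_card hG hAn 2 (by rw [hk]; exact Nat.pow_le_pow_right hprime.pos (by norm_num))
    obtain ⟨Z, hZn, hZB, hZc⟩ := PNormal.exists_normal_card hG hBn 1 (by rw [hBc]; exact Nat.pow_le_pow_right hprime.pos (by norm_num))
    obtain ⟨a, haM, haB⟩ := SetLike.exists_of_lt (lt_of_le_of_ne hBM fun e => by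
      rw [e, hk] at hBc; exact absurd (Nat.pow_right_injective hprime.two_le hBc) (by norm_num))
    obtain ⟨b, hbB, hbZ⟩ := SetLike.exists_of_lt (lt_of_le_of_ne hZB fun e => by
      rw [e, hBc] at hZc; exact absurd (Nat.pow_right_injective hprime.two_le hZc) (by norm_num))
    have hsa : B ⊔ Subgroup.zpowers a = M := card_sup_zpowers_eq hG hBM (by rw [hk, hBc, ← pow_succ]) haM haB
    have hsb : Z ⊔ Subgroup.zpowers b = B := card_sup_zpowers_eq hG hZB (by rw [hBc, hZc, ← pow_succ]) hbB hbZ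
    have hZcen : ∀ z ∈ Z, ∀ g : G, g * z = z * g := fun z hz g =>
      mul_inv_eq_iff_eq_mul.1 (mul_inv_eq_one.1 (Subgroup.mem_bot.1 (comm_step hG inferInstance hZn bot_le
        (by rw [hZc, Subgroup.card_bot, one_mul, pow_one]) hz g)))
    let Ψ : G → B × Z := fun g =>
      (⟨g * a * g⁻¹ * a⁻¹, comm_step hG hBn hAn hBM (by rw [hk, hBc, ← pow_succ]) haM g⟩,
        ⟨g * b * g⁻¹ * b⁻¹, comm_step hG hZn hBn hZB (by rw [hBc, hZc, ← pow_succ]) hbB g⟩)
    let f : E ⧸ D.subgroupOf E → B × Z := fun q => Ψ (q.out : E)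
    have hf : Function.Injective f := by
      intro q q' h
      have ha' : (q.out : G) * a * (q.out : G)⁻¹ = (q'.out : G) * a * (q'.out : G)⁻¹ :=
        mul_right_cancel (congrArg (fun w : B × Z => (w.1 : G)) h)
      have hb' : (q.out : G) * b * (q.out : G)⁻¹ = (q'.out : G) * b * (q'.out : G)⁻¹ :=
        mul_right_cancel (congrArg (fun w : B × Z => (w.2 : G)) h)
      set c : G := (q.out : G)⁻¹ * q'.out with hc
      have hca : c * a * c⁻¹ = a := by
        calc c * a * c⁻¹ = (q.out : G)⁻¹ * ((q'.out : G) * a * (q'.out : G)⁻¹) * q.out := by rw [hc]; group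
          _ = a := by rw [← ha']; group
      have hcb : c * b * c⁻¹ = b := by
        calc c * b * c⁻¹ = (q.out : G)⁻¹ * ((q'.out : G) * b * (q'.out : G)⁻¹) * q.out := by rw [hc]; group
          _ = b := by rw [← hb']; group
      have hcC : c ∈ C := by
        have hle : M ≤ Subgroup.centralizer ({c} : Set G) := by
          rw [← hsa, ← hsb]
          refine sup_le (sup_le (fun z hz => ?_) (Subgroup.zpowers_le.2 ?_)) (Subgroup.zpowers_le.2 ?_)
          · exact Subgroup.mem_centralizer_singleton_iff.2 (hZcen z hz c).symm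
          · exact Subgroup.mem_centralizer_singleton_iff.2 (mul_inv_eq_iff_eq_mul.1 hcb).symm
          · exact Subgroup.mem_centralizer_singleton_iff.2 (mul_inv_eq_iff_eq_mul.1 hca).symm
        exact Subgroup.mem_centralizer_iff.2 fun y hy => Subgroup.mem_centralizer_singleton_iff.1 (hle hy)
      have hcD : (q.out⁻¹ * q'.out : E) ∈ D.subgroupOf E := by
        rw [Subgroup.mem_subgroupOf]
        exact hED.le ⟨(q.out⁻¹ * q'.out : E).2, hcC⟩
      have := QuotientGroup.eq.2 hcD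
      rwa [QuotientGroup.out_eq', QuotientGroup.out_eq'] at this
    have hcardq : Nat.card (E ⧸ D.subgroupOf E) = Nat.card (B × Z) := by
      have h1 := Subgroup.card_mul_index (D.subgroupOf E)
      rw [Nat.card_congr (Subgroup.subgroupOfEquivOfLe (inf_le_left : D ≤ E)).toEquiv, hE4, hd, hd1',
        Subgroup.index_eq_card, show (p : ℕ) ^ 4 = p ^ 1 * p ^ 3 by rw [← pow_add]] at h1
      rw [Nat.eq_of_mul_eq_mul_left (pow_pos hprime.pos 1) h1, Nat.card_prod, hBc, hZc, ← pow_add]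
    have hsurj := ((Nat.bijective_iff_injective_and_card f).2 ⟨hf, hcardq⟩).2
    obtain ⟨⟨z, hzZ⟩, hz0⟩ := (Subgroup.ne_bot_iff_exists_ne_one (H := Z)).1 (fun e => by
      rw [e, Subgroup.card_bot, pow_one] at hZc; exact hprime.ne_one hZc.symm)
    have hz1 : z ≠ 1 := fun e => hz0 (Subtype.ext e)
    obtain ⟨q, hq⟩ := hsurj (⟨b, hbB⟩, 1)
    obtain ⟨q', hq'⟩ := hsurj (1, ⟨z, hzZ⟩)
    set e := (q.out : G)
    set e' := (q'.out : G)
    have e1 : e * a * e⁻¹ * a⁻¹ = b := congrArg (fun w : B × Z => (w.1 : G)) hq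
    have e2 : e * b * e⁻¹ * b⁻¹ = 1 := congrArg (fun w : B × Z => (w.2 : G)) hq
    have e3 : e' * a * e'⁻¹ * a⁻¹ = 1 := congrArg (fun w : B × Z => (w.1 : G)) hq'
    have e4 : e' * b * e'⁻¹ * b⁻¹ = z := congrArg (fun w : B × Z => (w.2 : G)) hq'
    have hee : e * e' = e' * e := hEc e q.out.2 e' q'.out.2
    have h5 : e * (e' * a * e'⁻¹) * e⁻¹ = e' * (e * a * e⁻¹) * e'⁻¹ := by
      calc e * (e' * a * e'⁻¹) * e⁻¹ = (e * e') * a * (e * e')⁻¹ := by group
        _ = (e' * e) * a * (e' * e)⁻¹ := by rw [hee]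
        _ = e' * (e * a * e⁻¹) * e'⁻¹ := by group
    rw [mul_inv_eq_one.1 e3, mul_inv_eq_iff_eq_mul.1 e1, show e' * (b * a) * e'⁻¹ = (e' * b * e'⁻¹) * (e' * a * e'⁻¹) by group,
      mul_inv_eq_one.1 e3, mul_inv_eq_iff_eq_mul.1 e4] at h5
    exact hz1 (mul_eq_right.1 (mul_right_cancel h5).symm)
  obtain ⟨hd2, rfl⟩ := hd2
  obtain rfl : d = 2 := by omega
  -- `D` is normal
  have hMD : Nat.card M ≤ Nat.card D * p := by rw [hk, hd, ← pow_succ]
  have hCE : ∀ x ∈ M, (∀ e ∈ E, e * x = x * e) → x ∈ D := by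
    intro x hx hc
    by_contra hxD
    refine hdA ?_
    have hle : E ≤ C := fun e he => Subgroup.mem_centralizer_iff.2 fun y hy => by
      have hyy : y ∈ Subgroup.centralizer ({e} : Set G) := by
        have hs := card_sup_zpowers_eq hG (inf_le_right : D ≤ M) hMD hx hxD
        refine (sup_le (fun d (hd : d ∈ D) => Subgroup.mem_centralizer_singleton_iff.2 (hEc d hd.1 e he).eq)
          (Subgroup.zpowers_le.2 (Subgroup.mem_centralizer_singleton_iff.2 (hc e he).symm))) (hs.symm ▸ hy)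
      exact Subgroup.mem_centralizer_singleton_iff.1 hyy
    have h1 : D = E := le_antisymm inf_le_left (hED ▸ le_inf le_rfl hle)
    rw [h1, hE4] at hd
    exact absurd (Nat.pow_right_injective hprime.two_le hd) (by norm_num)
  have hECn : (E ⊔ C).Normal := by
    obtain ⟨i, hi⟩ := hG.index (E ⊔ C)
    have h1 := Subgroup.relIndex_mul_index (le_sup_right : C ≤ E ⊔ C)
    rw [Subgroup.relIndex_sup_right] at h1
    rw [hd] at hEmul
    have h2 : C.relIndex E = p ^ 2 := Nat.eq_of_mul_eq_mul_left (pow_pos hprime.pos 2) (hEmul.trans (by rw [← pow_add]))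
    rw [h2, hi, ← pow_add] at h1
    have h3 : 2 + i ≤ 3 := (Nat.pow_le_pow_iff_right hprime.one_lt).1 (h1 ▸ hMi)
    rcases Nat.eq_zero_or_pos i with e | e
    · rw [e, pow_zero, Subgroup.index_eq_one] at hi; rw [hi]; infer_instance
    · refine Subgroup.normal_of_index_eq_minFac_card ?_
      obtain ⟨m, hm⟩ := hG.exists_card_eq
      have hm0 : m ≠ 0 := fun h => by
        have := (E ⊔ C).index_dvd_card
        rw [hi, show i = 1 by omega, hm, h, pow_one, pow_zero, Nat.dvd_one] at this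
        exact hprime.ne_one this
      rw [hi, show i = 1 by omega, pow_one, hm, Nat.pow_minFac hm0, hprime.minFac_eq]
  haveI hDn : D.Normal := by
    constructor
    intro x hx g
    refine hCE _ (hAn.conj_mem x hx.2 g) fun e he => ?_
    have h1 : g⁻¹ * e * g ∈ E ⊔ C := by simpa using hECn.conj_mem e (Subgroup.mem_sup_left he) g⁻¹
    have h2 : g⁻¹ * e * g ∈ Subgroup.centralizer ({x} : Set G) :=
      (sup_le (fun e' he' => Subgroup.mem_centralizer_singleton_iff.2 (hEc e' he' x hx.1).eq)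
        (fun c hc => Subgroup.mem_centralizer_singleton_iff.2 (Subgroup.mem_centralizer_iff.1 hc x hx.2).symm) :
          E ⊔ C ≤ Subgroup.centralizer ({x} : Set G)) h1
    have h3 := Subgroup.mem_centralizer_singleton_iff.1 h2
    calc e * (g * x * g⁻¹) = g * ((g⁻¹ * e * g) * x) * g⁻¹ := by group
      _ = g * x * g⁻¹ * e := by rw [h3]; group
  have hstep : ∀ x ∈ M, ∀ g : G, g * x * g⁻¹ * x⁻¹ ∈ D := fun x hx g =>
    comm_step hG hDn hAn inf_le_right hMD hx g
  -- `E` is normal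
  refine ⟨E, ?_, hE, hE4⟩
  have hAN : M ≤ Subgroup.normalizer (E : Set G) := by
    intro x hx
    have key : ∀ y ∈ M, ∀ e ∈ E, y * e * y⁻¹ ∈ E := by
      intro y hy e he
      rw [show y * e * y⁻¹ = (e * y * e⁻¹ * y⁻¹)⁻¹ * e by group]
      exact mul_mem (inv_mem (hstep y hy e).1) he
    refine Subgroup.mem_normalizer_iff.2 fun e => ⟨key x hx e, fun h => ?_⟩
    simpa [mul_assoc] using key x⁻¹ (inv_mem hx) _ h
  rw [← Subgroup.normalizer_eq_top_iff]
  by_contra hne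
  obtain ⟨g, hgN, hgE⟩ := SetLike.exists_of_lt
    (Group.normalizerCondition_of_isNilpotent (G := G) _ (lt_top_iff_ne_top.2 hne))
  set N := Subgroup.normalizer (E : Set G) with hN
  have hEN : E ≤ N := Subgroup.le_normalizer
  have hgEN : ∀ e ∈ E, g * e * g⁻¹ ∈ N := fun e he => (Subgroup.mem_normalizer_iff.1 hgN e).1 (hEN he)
  -- conjugates of `E` lie in `E A`
  have hEA : ∀ e ∈ E, ∃ e0 ∈ E, ∃ a ∈ M, g * e * g⁻¹ = e0 * a := by
    intro e he
    set f := g * e * g⁻¹ with hf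
    have hfEC : f ∈ ((E ⊔ C : Subgroup G) : Set G) := hECn.conj_mem e (Subgroup.mem_sup_left he) g
    rw [Subgroup.mul_normal] at hfEC
    obtain ⟨e0, he0, c, hc, hfe⟩ := hfEC
    refine ⟨e0, he0, c, hΩ c hc ?_, hfe.symm⟩
    rw [eq_inv_mul_of_mul_eq hfe]
    set k := f * e0⁻¹ * f⁻¹ * e0⁻¹⁻¹ with hk'
    have hkE : k ∈ E := mul_mem ((Subgroup.mem_normalizer_iff.1 (hgEN e he) _).1 (inv_mem he0)) (inv_mem (inv_mem he0))
    have hk1 : g⁻¹ * k * g ∈ E := by
      have h1 : g⁻¹ * e0⁻¹ * g ∈ N := by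
        have := (Subgroup.mem_normalizer_iff.1 (inv_mem hgN) e0⁻¹).1 (hEN (inv_mem he0))
        simpa using this
      have h2 : g⁻¹ * k * g = e * ((g⁻¹ * e0⁻¹ * g) * e⁻¹ * (g⁻¹ * e0⁻¹ * g)⁻¹) := by rw [hk', hf]; group
      rw [h2]
      exact mul_mem he ((Subgroup.mem_normalizer_iff.1 h1 _).1 (inv_mem he))
    have hkf : Commute k f := by
      have := (hEc _ hk1 e he).eq
      have h3 : g * (g⁻¹ * k * g * e) * g⁻¹ = g * (e * (g⁻¹ * k * g)) * g⁻¹ := by rw [this]
      show k * f = f * k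
      rw [hf]
      calc k * (g * e * g⁻¹) = g * (g⁻¹ * k * g * e) * g⁻¹ := by group
        _ = _ := by rw [h3]; group
    rw [Cfsg.Agent.OddLocal.pow_mul_class_two (x := e0⁻¹) (d := f) (c := k) (by rw [hk']; group)
      (hEc k hkE _ (inv_mem he0)) hkf p]
    obtain ⟨j, hj⟩ := hprime.dvd_choose_self (by norm_num : (2 : ℕ) ≠ 0) (lt_of_le_of_ne hprime.two_le (Ne.symm hp2))
    rw [inv_pow, hE.2 e0 he0, inv_one, one_mul, hj, pow_mul, hE.2 k hkE, one_pow, mul_one, hf, conj_pow,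
      hE.2 e he, mul_one, mul_inv_cancel]
  have hdc : ∀ d ∈ D, ∀ e ∈ E, Commute d e := fun d hd e he => hEc d hd.1 e he
  have hdm : ∀ d ∈ D, ∀ a ∈ M, Commute d a := fun d hd a ha => hAc d hd.2 a ha
  by_cases hall : ∀ e ∈ E, g * e * g⁻¹ ∈ E
  · refine hgE (Subgroup.mem_normalizer_iff.2 fun x => ⟨hall x, fun hx => ?_⟩)
    have hmap : E.map (MulAut.conj g).toMonoidHom = E := Subgroup.eq_of_le_of_card_ge
      (by rintro _ ⟨e, he, rfl⟩; exact hall e he)
      (by rw [← Nat.card_congr (E.equivMapOfInjective _ (MulAut.conj g).injective).toEquiv])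
    obtain ⟨e, he, hee⟩ := hmap.ge hx
    have : e = x := (MulAut.conj g).injective hee
    exact this ▸ he
  push Not at hall
  obtain ⟨e₁, he₁, hne₁⟩ := hall
  obtain ⟨e, he, a, ha, hea⟩ := hEA e₁ he₁
  have haD : a ∉ D := fun h => hne₁ (hea ▸ mul_mem he h.1)
  have hMa : D ⊔ Subgroup.zpowers a = M := card_sup_zpowers_eq hG inf_le_right hMD ha haD
  set ψ : G → G := fun x => x * a * x⁻¹ * a⁻¹ with hψ
  set f := e * a with hfdef
  have hsub : E.map (MulAut.conj g).toMonoidHom ≤ D ⊔ Subgroup.zpowers f := by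
    rintro _ ⟨x, hx, rfl⟩
    show g * x * g⁻¹ ∈ _
    obtain ⟨e', he', a', ha', hea'⟩ := hEA x hx
    rw [hea']
    rw [← hMa, Subgroup.mem_sup_of_normal_left] at ha'
    obtain ⟨d, hd', _, ⟨i, rfl⟩, rfl⟩ := ha'
    have hai : (d * a ^ i) ∈ M := mul_mem hd'.2 (M.zpow_mem ha i)
    -- the commutation relation
    have hcom : (e * a) * (e' * (d * a ^ i)) = (e' * (d * a ^ i)) * (e * a) := by
      show f * (e' * (d * a ^ i)) = (e' * (d * a ^ i)) * f
      rw [← hea, ← hea']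
      calc g * e₁ * g⁻¹ * (g * x * g⁻¹) = g * (e₁ * x) * g⁻¹ := by group
        _ = g * x * g⁻¹ * (g * e₁ * g⁻¹) := by rw [(hEc e₁ he₁ x hx).eq]; group
    have hc1 : ∀ y ∈ E, ∀ m ∈ M, m * y = (y * m * y⁻¹ * m⁻¹)⁻¹ * (y * m) := fun y _ m _ => by group
    have hψD : ∀ y, ψ y ∈ D := fun y => hstep a ha y
    have hpowψ : e * a ^ i * e⁻¹ * (a ^ i)⁻¹ = ψ e ^ i := by
      have h1 : e * a * e⁻¹ = ψ e * a := by rw [hψ]; group
      rw [← conj_zpow, h1, (hdm _ (hψD e) a ha).mul_zpow, mul_inv_cancel_right]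
    have hL : (e * a) * (e' * (d * a ^ i)) = (ψ e')⁻¹ * (e * e' * (a * (d * a ^ i))) := by
      have h1 := hc1 e' he' a ha
      have h2 := (hdc _ (inv_mem (hψD e')) e he).eq
      calc (e * a) * (e' * (d * a ^ i)) = e * (a * e') * (d * a ^ i) := by group
        _ = (e * (ψ e')⁻¹) * (e' * a) * (d * a ^ i) := by rw [h1, hψ]; group
        _ = _ := by rw [← h2]; group
    have hR : (e' * (d * a ^ i)) * (e * a) = ((ψ e) ^ i)⁻¹ * (e' * e * ((d * a ^ i) * a)) := by
      have h1 := hc1 e he (d * a ^ i) hai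
      have hval : e * (d * a ^ i) * e⁻¹ * (d * a ^ i)⁻¹ = ψ e ^ i := by
        rw [show e * (d * a ^ i) * e⁻¹ * (d * a ^ i)⁻¹ = (e * d * e⁻¹) * (e * a ^ i * e⁻¹ * (a ^ i)⁻¹) * d⁻¹ by group,
          hpowψ, ← (hdc d hd' e he).eq, mul_inv_cancel_right, (hdc d hd' _ (D.zpow_mem (hψD e) i).1).eq, mul_inv_cancel_right]
      rw [hval] at h1
      have h2 := (hdc _ (inv_mem (D.zpow_mem (hψD e) i)) e' he').eq
      calc (e' * (d * a ^ i)) * (e * a) = e' * ((d * a ^ i) * e) * a := by group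
        _ = (e' * (ψ e ^ i)⁻¹) * (e * (d * a ^ i)) * a := by rw [h1]; group
        _ = _ := by rw [← h2]; group
    rw [hL, hR, (hEc e he e' he').eq, (hAc a ha _ hai).eq] at hcom
    have hψeq : ψ e' = ψ e ^ i := inv_injective (mul_right_cancel hcom)
    -- hence `e' ∈ e ^ i D`
    have hψi : ψ (e ^ i) = ψ e ^ i := by
      let χ : E →* D := MonoidHom.mk' (fun y => ⟨ψ y, hψD y⟩) (fun y z => Subtype.ext (by
        show (y : G) * z * a * ((y : G) * z)⁻¹ * a⁻¹ = ((y : G) * a * (y : G)⁻¹ * a⁻¹) * ((z : G) * a * (z : G)⁻¹ * a⁻¹)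
        have h1 := (hdc _ (hψD z) y y.2).eq
        simp only [hψ] at h1
        calc (y : G) * z * a * ((y : G) * z)⁻¹ * a⁻¹ = ((y : G) * ((z : G) * a * (z : G)⁻¹ * a⁻¹)) * a * (y : G)⁻¹ * a⁻¹ := by group
          _ = ((z : G) * a * (z : G)⁻¹ * a⁻¹) * ((y : G) * a * (y : G)⁻¹ * a⁻¹) := by rw [← h1]; group
          _ = _ := hAc _ (hψD z).2 _ (hψD y).2))
      have := congrArg Subtype.val (map_zpow χ ⟨e, he⟩ i)
      simpa [χ] using this
    have hdiff : (e ^ i)⁻¹ * e' ∈ D := by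
      refine hED.le ⟨E.mul_mem (E.inv_mem (E.zpow_mem he i)) he', ?_⟩
      have hcent : ((e ^ i)⁻¹ * e') * a * ((e ^ i)⁻¹ * e')⁻¹ = a := by
        have h1 : e' * a * e'⁻¹ = e ^ i * a * (e ^ i)⁻¹ := mul_right_cancel (hψeq.trans hψi.symm)
        calc ((e ^ i)⁻¹ * e') * a * ((e ^ i)⁻¹ * e')⁻¹ = (e ^ i)⁻¹ * (e' * a * e'⁻¹) * e ^ i := by group
          _ = a := by rw [h1]; group
      have hle : M ≤ Subgroup.centralizer ({(e ^ i)⁻¹ * e'} : Set G) := by
        rw [← hMa]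
        exact sup_le (fun y hy => Subgroup.mem_centralizer_singleton_iff.2
          (hdc y hy _ (mul_mem (inv_mem (E.zpow_mem he i)) he')).eq)
          (Subgroup.zpowers_le.2 (Subgroup.mem_centralizer_singleton_iff.2 (mul_inv_eq_iff_eq_mul.1 hcent).symm))
      exact Subgroup.mem_centralizer_iff.2 fun y hy => Subgroup.mem_centralizer_singleton_iff.1 (hle hy)
    have hfi : f ^ i ∈ D ⊔ Subgroup.zpowers f := Subgroup.mem_sup_right (Subgroup.zpow_mem _ (Subgroup.mem_zpowers f) i)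
    have hq : (QuotientGroup.mk' D) (e' * (d * a ^ i)) = (QuotientGroup.mk' D) (f ^ i) := by
      have he'' : (QuotientGroup.mk' D) e' = (QuotientGroup.mk' D) (e ^ i) := (QuotientGroup.eq.2 hdiff).symm
      have hae : Commute ((QuotientGroup.mk' D) e) ((QuotientGroup.mk' D) a) := by
        have := (QuotientGroup.eq_one_iff _).2 (hstep a ha e)
        show (QuotientGroup.mk' D) e * (QuotientGroup.mk' D) a = (QuotientGroup.mk' D) a * (QuotientGroup.mk' D) e
        simp only [QuotientGroup.mk'_apply, QuotientGroup.mk_mul, QuotientGroup.mk_inv] at this ⊢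
        exact mul_inv_eq_iff_eq_mul.1 (mul_inv_eq_one.1 this)
      rw [map_mul, map_mul, he'', show (QuotientGroup.mk' D) d = 1 from (QuotientGroup.eq_one_iff d).2 hd', one_mul,
        map_zpow, map_zpow, map_zpow, hfdef, map_mul, hae.mul_zpow]
    have := QuotientGroup.eq.1 hq.symm
    have h2 := Subgroup.mul_mem _ hfi (Subgroup.mem_sup_left this : _ ∈ D ⊔ Subgroup.zpowers f)
    rwa [mul_inv_cancel_left] at h2
  have hcard : Nat.card (D ⊔ Subgroup.zpowers f : Subgroup G) ≤ p ^ 3 := by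
    have hfp : f ^ p = 1 := by rw [← hea, conj_pow, hE.2 e₁ he₁, mul_one, mul_inv_cancel]
    have h1 := (D.subgroupOf (D ⊔ Subgroup.zpowers f)).card_mul_index
    rw [Nat.card_congr (Subgroup.subgroupOfEquivOfLe le_sup_left).toEquiv] at h1
    rw [← h1, hd, pow_succ p 2]
    refine Nat.mul_le_mul_left _ ?_
    show D.relIndex (D ⊔ Subgroup.zpowers f) ≤ p
    rw [Subgroup.relIndex_sup_left]
    refine le_trans (Nat.le_of_dvd Nat.card_pos (Subgroup.index_dvd_card _)) ?_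
    rw [Nat.card_zpowers]
    exact orderOf_le_of_pow_eq_one hprime.pos hfp
  have h4 := (Subgroup.card_le_of_le hsub).trans hcard
  rw [← Nat.card_congr (E.equivMapOfInjective _ (MulAut.conj g).injective).toEquiv, hE4] at h4
  exact absurd h4 (not_le.2 (Nat.pow_lt_pow_right hprime.one_lt (by norm_num)))

end Cfsg.Agent.Transfer.RankFour
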