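import Cfsg.Prelude.Def_Transfer
import Cfsg.Agent.S0063
import Cfsg.Agent.S0124
import Cfsg.Agent.S3771

/-!
`Ω₁` of `p`-groups of rank at most two, `p > 3`.
-/

set_option autoImplicit false

namespace Cfsg.Agent.Transfer.RankTwoOmega

universe u

theorem omega_exp {p : ℕ} [Fact p.Prime] (hp : 3 < p) : ∀ (N : ℕ) (R : Type u) [Group R] [Finite R],
    Nat.card R = N → IsPGroup p R → (∀ E : Subgroup R, Cfsg.IsElementaryAbelian p E → Nat.card E ≤ p ^ 2) →
    ∀ g ∈ Subgroup.closure {x : R | x ^ p = 1}, g ^ p = 1 := by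
  intro N
  induction N using Nat.strong_induction_on with
  | _ N ih =>
  intro R _ _ hN hR hrk g hg
  have hprime : p.Prime := Fact.out
  induction hg using Subgroup.closure_induction with
  | mem x hx => exact hx
  | one => exact one_pow _
  | inv a _ ha => rw [inv_pow, ha, inv_one]
  | mul x y _ _ hx hy =>
  by_cases hcomm : Commute x y
  · rw [hcomm.mul_pow, hx, hy, one_mul]
  have hsub : ∀ H : Subgroup R, H ≠ ⊤ → ∀ a ∈ Subgroup.closure {x : R | x ∈ H ∧ x ^ p = 1}, a ^ p = 1 := by
    intro H hH a ha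
    have hlt : Nat.card H < N := hN ▸ lt_of_le_of_ne (Subgroup.card_le_card_group H)
      fun e => hH (Subgroup.eq_top_of_card_eq _ e)
    have key := ih _ hlt H rfl (hR.to_subgroup H) fun E hE => by
      rw [Nat.card_congr (E.equivMapOfInjective H.subtype H.subtype_injective).toEquiv]
      refine hrk _ ⟨?_, ?_⟩
      · haveI := hE.1; infer_instance
      · rintro _ ⟨e, he, rfl⟩; rw [← map_pow, hE.2 e he, map_one]
    have hle : Subgroup.closure {x : R | x ∈ H ∧ x ^ p = 1} ≤
        (Subgroup.closure {x : H | x ^ p = 1}).map H.subtype := (Subgroup.closure_le _).2 fun b hb =>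
      ⟨⟨b, hb.1⟩, Subgroup.subset_closure (Subtype.ext hb.2), rfl⟩
    obtain ⟨b, hb, rfl⟩ := hle ha
    rw [← map_pow, key b hb, map_one]
  by_cases htop : Subgroup.closure ({x, y} : Set R) = ⊤
  swap
  · exact hsub _ htop _ (mul_mem (Subgroup.subset_closure ⟨Subgroup.subset_closure (by simp), hx⟩)
      (Subgroup.subset_closure ⟨Subgroup.subset_closure (by simp), hy⟩))
  have hxtop : Subgroup.zpowers x ≠ ⊤ := by
    intro h
    obtain ⟨i, hi⟩ := Subgroup.mem_zpowers_iff.1 (h.ge (Subgroup.mem_top y))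
    exact hcomm (hi ▸ Commute.self_zpow x i)
  obtain ⟨M, hM, hxM⟩ := (eq_top_or_exists_le_coatom (Subgroup.zpowers x)).resolve_left hxtop
  haveI := hR.isNilpotent
  haveI hMn : M.Normal := Subgroup.NormalizerCondition.normal_of_coatom M (Group.normalizerCondition_of_isNilpotent (G := R)) hM
  set A := Subgroup.closure {a : R | a ∈ M ∧ a ^ p = 1} with hA
  haveI hAn : A.Normal := ⟨fun a ha g => by
    have h := Subgroup.mem_map_of_mem (MulAut.conj g).toMonoidHom ha
    rw [MonoidHom.map_closure] at h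
    refine Subgroup.closure_mono ?_ (by simpa using h)
    rintro _ ⟨b, ⟨hb1, hb2⟩, rfl⟩
    exact ⟨by simpa using hMn.conj_mem b hb1 g, by rw [← map_pow, hb2, map_one]⟩⟩
  have hAe : ∀ a ∈ A, a ^ p = 1 := hsub M hM.1
  have hA3 : Nat.card A ≤ p ^ 3 := Cfsg.Agent.S3771.result (hR.to_subgroup A)
    (fun E hEc hEe => by
      rw [Nat.card_congr (E.equivMapOfInjective A.subtype A.subtype_injective).toEquiv]
      refine hrk _ ⟨by haveI := hEc; infer_instance, ?_⟩
      rintro _ ⟨e, he, rfl⟩; rw [← map_pow, hEe e he, map_one])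
    (fun a => Subtype.ext (hAe a a.2))
  have hAy : A ⊔ Subgroup.zpowers y = ⊤ := by
    rw [eq_top_iff, ← htop, Subgroup.closure_le]
    rintro b (rfl | rfl)
    · exact Subgroup.mem_sup_left (Subgroup.subset_closure ⟨hxM (Subgroup.mem_zpowers _), hx⟩)
    · exact Subgroup.mem_sup_right (Subgroup.mem_zpowers _)
  have h4 : Nat.card R ≤ p ^ 4 := by
    have h1 := A.card_mul_index
    have h2 : A.index ≤ p := by
      rw [← Subgroup.relIndex_top_right, ← hAy, Subgroup.relIndex_sup_left]
      refine le_trans (Nat.le_of_dvd Nat.card_pos (Subgroup.index_dvd_card _)) ?_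
      rw [Nat.card_zpowers]
      exact orderOf_le_of_pow_eq_one hprime.pos hy
    calc Nat.card R = Nat.card A * A.index := h1.symm
      _ ≤ p ^ 3 * p := Nat.mul_le_mul hA3 h2
      _ = p ^ 4 := (pow_succ p 3).symm
  obtain ⟨m, hm⟩ := IsPGroup.iff_card.1 hR
  have hm4 : m ≤ 4 := (Nat.pow_le_pow_iff_right hprime.one_lt).1 (hm ▸ h4)
  have hm1 : 1 < m := by
    by_contra h
    have : IsCyclic R := by
      rcases Nat.eq_zero_or_pos m with e | e
      · rw [e, pow_zero] at hm
        haveI := (Nat.card_eq_one_iff_unique.mp hm).1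
        infer_instance
      · rw [show m = 1 by omega, pow_one] at hm
        exact isCyclic_of_prime_card hm
    exact hcomm ((IsCyclic.commGroup (α := R)).mul_comm x y)
  have hcl := Cfsg.Agent.S0063.result p m hm hm1
  have h3 : (⊤ : Subgroup R).lowerCentralSeries 3 = ⊥ :=
    Subgroup.lowerCentralSeries_eq_bot_iff_nilpotencyClass_le.2 (hcl.trans (by omega))
  rw [Subgroup.lowerCentralSeries_succ, Subgroup.lowerCentralSeries_succ, Subgroup.top_lowerCentralSeries_one] at h3
  exact Cfsg.Agent.S0124.result hp hR h3 _ (mul_mem (Subgroup.subset_closure hx) (Subgroup.subset_closure hy))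

end Cfsg.Agent.Transfer.RankTwoOmega
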