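import Mathlib.GroupTheory.PGroup
import Mathlib.GroupTheory.QuotientGroup.Basic
import Mathlib.GroupTheory.Coset.Card
import Mathlib.Data.Set.Card
import Mathlib.Tactic

/-!
A 2-group of automorphisms of an elementary abelian group of order 16 in which no non-identity
element fixes a non-identity element of a given four-subgroup has order at most 4.
-/

set_option autoImplicit false
set_option linter.style.haveILetI false

namespace Cfsg.Agent.Transfer.SemiregularFour

variable {V : Type*} [Group V] [Finite V]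

/-- Fixed points of an automorphism. -/
def fix (p : MulAut V) : Subgroup V := p.toMonoidHom.eqLocus (MonoidHom.id V)

omit [Finite V] in
theorem mem_fix {p : MulAut V} {v : V} : v ∈ fix p ↔ p v = v := Iff.rfl

variable (hc : ∀ a b : V, a * b = b * a) (he : ∀ a : V, a * a = 1)

theorem card_sup (A B : Subgroup V) (hAB : A ⊓ B = ⊥) : Nat.card A * Nat.card B ≤ Nat.card V := by
  rw [← Nat.card_prod]
  refine Nat.card_le_card_of_injective (fun x : A × B => (x.1 : V) * x.2) ?_
  rintro ⟨a, b⟩ ⟨a', b'⟩ h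
  have h1 : (a' : V)⁻¹ * a = b' * (b : V)⁻¹ := by
    have h' : (a : V) * b = a' * b' := h
    rw [eq_mul_inv_iff_mul_eq, mul_assoc, h', inv_mul_cancel_left]
  have h2 : (a' : V)⁻¹ * a ∈ A ⊓ B :=
    ⟨A.mul_mem (A.inv_mem a'.2) a.2, h1 ▸ B.mul_mem b'.2 (B.inv_mem b.2)⟩
  rw [hAB, Subgroup.mem_bot] at h2
  rw [h2, eq_comm] at h1
  rw [Prod.mk.injEq]
  exact ⟨Subtype.ext (inv_mul_eq_one.mp h2).symm, Subtype.ext (mul_inv_eq_one.mp h1).symm⟩

omit [Finite V] in
include he in
theorem eq_mul_of_mul_eq {a b c : V} (h : a * b = c) : a = c * b := by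
  rw [← h, mul_assoc, he, mul_one]

include hc he in
/-- An involutory automorphism fixing no non-identity element of the four-group. -/
theorem involution (hV : Nat.card V = 16) (B : Subgroup V) (hB : Nat.card B = 4) {p : MulAut V}
    (hp : ∀ v, p (p v) = v) (hfix : ∀ b ∈ B, p b = b → b = 1) :
    Nat.card (fix p) = 4 ∧ (∀ v, p v * v ∈ fix p) ∧ ∀ f ∈ fix p, ∃ v, p v * v = f := by
  let d : V →* V :=
    { toFun := fun v => p v * v
      map_one' := by simp
      map_mul' := fun a b => by
        rw [map_mul, mul_assoc, ← mul_assoc (p b), hc (p b) a, mul_assoc a, ← mul_assoc (p a)] }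
  have hker : d.ker = fix p := by
    ext v
    rw [MonoidHom.mem_ker, mem_fix]
    show p v * v = 1 ↔ _
    constructor
    · intro h; rw [eq_mul_of_mul_eq he h, one_mul]
    · intro h; rw [h, he]
  have hmem : ∀ v, p v * v ∈ fix p := fun v => by
    rw [mem_fix, map_mul, hp]; exact hc _ _
  have hle : d.range ≤ fix p := by rintro _ ⟨v, rfl⟩; exact hmem v
  have hdisj : fix p ⊓ B = ⊥ := by
    rw [eq_bot_iff]; rintro b ⟨h1, h2⟩; exact Subgroup.mem_bot.mpr (hfix b h2 h1)
  have h1 := card_sup (fix p) B hdisj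
  have h2 : Nat.card d.range * Nat.card d.ker = Nat.card V := by
    rw [← Subgroup.index_ker, mul_comm, Subgroup.card_mul_index]
  have h3 := Subgroup.card_le_of_le hle
  rw [hB, hV] at h1
  rw [hker, hV] at h2
  have h4 : Nat.card (fix p) = 4 := by nlinarith
  refine ⟨h4, hmem, ?_⟩
  have heq : d.range = fix p := Subgroup.eq_of_le_of_card_ge hle (by rw [h4] at h2 ⊢; omega)
  intro f hf
  rw [← heq] at hf
  exact hf

include hc he in
theorem card_le_four (hV : Nat.card V = 16) (B : Subgroup V) (hB : Nat.card B = 4)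
    (P : Subgroup (MulAut V)) (hP : IsPGroup 2 P)
    (hfix : ∀ p ∈ P, p ≠ 1 → ∀ b ∈ B, p b = b → b = 1) : Nat.card P ≤ 4 := by
  haveI : Fact (Nat.Prime 2) := ⟨Nat.prime_two⟩
  haveI : Finite (MulAut V) := Finite.of_injective (fun p : MulAut V => (p : V → V)) DFunLike.coe_injective
  by_contra hgt
  push Not at hgt
  haveI : Nontrivial P := Finite.one_lt_card_iff_nontrivial.1 (by omega)
  -- a central involution
  obtain ⟨i, hiP, hi1, hi2, hic⟩ : ∃ i ∈ P, i ≠ 1 ∧ i * i = 1 ∧ ∀ p ∈ P, p * i = i * p := by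
    haveI := hP.center_nontrivial
    obtain ⟨k, hk0, hk⟩ := (hP.to_subgroup (Subgroup.center P)).nontrivial_iff_card.1 inferInstance
    obtain ⟨c, hc2⟩ := exists_prime_orderOf_dvd_card' (G := Subgroup.center P) 2
      (by rw [hk]; exact dvd_pow_self 2 hk0.ne')
    have hc1 : c ≠ 1 := fun h => by rw [h, orderOf_one] at hc2; omega
    have hcc : c * c = 1 := by rw [← sq, ← hc2]; exact pow_orderOf_eq_one c
    refine ⟨((c : P) : MulAut V), (c : P).2, fun h => hc1 (Subtype.ext (Subtype.ext h)), ?_,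
      fun p hp => ?_⟩
    · exact congrArg (fun z : Subgroup.center P => ((z : P) : MulAut V)) hcc
    · exact congrArg Subtype.val (Subgroup.mem_center_iff.1 c.2 ⟨p, hp⟩)
  have hii : ∀ v, i (i v) = v := fun v => by rw [← MulAut.mul_apply, hi2, MulAut.one_apply]
  obtain ⟨hF, hiF, hisurj⟩ := involution hc he hV B hB hii (hfix i hiP hi1)
  have hFne : fix i ≠ ⊤ := fun h => by rw [h, Subgroup.card_top, hV] at hF; omega
  obtain ⟨t, ht⟩ : ∃ t, t ∉ fix i := by
    by_contra h; push Not at h; exact hFne (eq_top_iff.2 fun v _ => h v)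
  have hPF : ∀ p ∈ P, ∀ f ∈ fix i, p f ∈ fix i := fun p hp f hf => by
    rw [mem_fix, ← MulAut.mul_apply, ← hic p hp, MulAut.mul_apply, mem_fix.1 hf]
  -- the kernel on the fixed points of `i`
  let K : Set (MulAut V) := {p | p ∈ P ∧ ∀ f ∈ fix i, p f = f}
  have hKd : ∀ k ∈ K, ∀ v, k v * v ∈ fix i := by
    intro k hk v
    rw [mem_fix, map_mul]
    have h1 := hk.2 _ (hiF v)
    rw [map_mul, ← MulAut.mul_apply, hic k hk.1, MulAut.mul_apply] at h1
    rw [eq_mul_of_mul_eq he h1, mul_assoc (i v * v), hc (k v) (i v), ← mul_assoc,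
      mul_assoc (i v) v, hc v (i v), ← mul_assoc (i v), he, one_mul, hc]
  have hKsq : ∀ k ∈ K, ∀ v, k (k v) = v := by
    intro k hk v
    have h := hk.2 _ (hKd k hk v)
    rw [map_mul] at h
    rw [eq_mul_of_mul_eq he h, hc (k v), mul_assoc, he, mul_one]
  have hKfix : ∀ k ∈ K, k ≠ 1 → fix k = fix i := by
    intro k hk hk1
    obtain ⟨h4, -, -⟩ := involution hc he hV B hB (hKsq k hk) (hfix k hk.1 hk1)
    exact (Subgroup.eq_of_le_of_card_ge (fun f hf => hk.2 f hf) (by rw [h4, hF])).symm
  have hiK : i ∈ K := ⟨hiP, fun f hf => hf⟩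
  have hKmul : ∀ k ∈ K, ∀ l ∈ K, k * l ∈ K := fun k hk l hl =>
    ⟨P.mul_mem hk.1 hl.1, fun f hf => by rw [MulAut.mul_apply, hl.2 f hf, hk.2 f hf]⟩
  have hKinj : Set.InjOn (fun k : MulAut V => k t * t) K := by
    intro k hk l hl h
    have h' : k t = l t := mul_right_cancel h
    have h1 : (k * l) t = t := by rw [MulAut.mul_apply, ← h', hKsq k hk]
    by_contra hne
    have h2 : k * l ≠ 1 := fun h0 => hne (by
      ext v
      conv_lhs => rw [← hKsq l hl v, ← MulAut.mul_apply, h0, MulAut.one_apply])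
    exact ht (hKfix _ (hKmul k hk l hl) h2 ▸ mem_fix.2 h1)
  have hKcard : K.ncard ≤ 4 := by
    rw [← hF, ← SetLike.coe_sort_coe, Nat.card_coe_set_eq]
    exact Set.ncard_le_ncard_of_injOn _ (fun k hk => hKd k hk t) hKinj (Set.toFinite _)
  -- a fixed point of `P` in `fix i`
  obtain ⟨u, hu, hu1, hufix⟩ : ∃ u ∈ fix i, u ≠ 1 ∧ ∀ p ∈ P, p u = u := by
    letI : MulAction P ↥(fix i) :=
      { smul := fun p f => ⟨(p : MulAut V) f, hPF p p.2 f f.2⟩
        one_smul := fun f => Subtype.ext rfl
        mul_smul := fun p q f => Subtype.ext rfl }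
    have h1 : (1 : fix i) ∈ MulAction.fixedPoints P ↥(fix i) := fun p => Subtype.ext (map_one (p : MulAut V))
    obtain ⟨u, hu, hne⟩ := hP.exists_fixed_point_of_prime_dvd_card_of_fixed_point (α := ↥(fix i))
      (by rw [hF]; norm_num) h1
    exact ⟨u, u.2, fun h => hne (Subtype.ext h.symm), fun p hp => congrArg Subtype.val (hu ⟨p, hp⟩)⟩
  have hmove : ∀ f ∈ fix i, f ≠ 1 → f ≠ u → ∀ p ∈ P, p ∉ K → p f = f * u := by
    intro f hf hf1 hfu p hp hpK
    have hset : ∀ w ∈ fix i, w = 1 ∨ w = u ∨ w = f ∨ w = f * u := by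
      intro w hw
      by_contra hc4
      push Not at hc4
      obtain ⟨w1, w2, w3, w4⟩ := hc4
      have hfu1 : f * u ≠ 1 := fun h => hfu (by rw [eq_mul_of_mul_eq he h, one_mul])
      have hfuu : f * u ≠ u := fun h => hf1 (mul_eq_right.mp h)
      have hfuf : f * u ≠ f := fun h => hu1 (mul_eq_left.mp h)
      have hsub : ({1, u, f, f * u, w} : Set V) ⊆ (fix i : Set V) := by
        intro z hz
        simp only [Set.mem_insert_iff, Set.mem_singleton_iff] at hz
        rcases hz with rfl | rfl | rfl | rfl | rfl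
        exacts [one_mem _, hu, hf, mul_mem hf hu, hw]
      have := Set.ncard_le_ncard hsub (Set.toFinite _)
      rw [Set.ncard_insert_of_notMem, Set.ncard_insert_of_notMem, Set.ncard_insert_of_notMem,
        Set.ncard_insert_of_notMem, Set.ncard_singleton, ← Nat.card_coe_set_eq, SetLike.coe_sort_coe,
        hF] at this
      · omega
      all_goals simp only [Set.mem_insert_iff, Set.mem_singleton_iff, not_or]
      all_goals
        first
        | exact ⟨Ne.symm hu1, Ne.symm hf1, Ne.symm hfu1, Ne.symm w1⟩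
        | exact ⟨Ne.symm hfu, Ne.symm hfuu, Ne.symm w2⟩
        | exact ⟨Ne.symm hfuf, Ne.symm w3⟩
        | exact Ne.symm w4
    rcases hset (p f) (hPF p hp f hf) with h | h | h | h
    · exact absurd (p.map_eq_one_iff.mp h) hf1
    · exact absurd (p.injective (h.trans (hufix p hp).symm)) hfu
    · exfalso
      refine hpK ⟨hp, fun w hw => ?_⟩
      rcases hset w hw with rfl | rfl | rfl | rfl
      · exact map_one p
      · exact hufix p hp
      · exact h
      · rw [map_mul, h, hufix p hp]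
    · exact h
  have hKinv : ∀ k ∈ K, k⁻¹ = k := fun k hk => inv_eq_of_mul_eq_one_right (by
    ext v; rw [MulAut.mul_apply, hKsq k hk, MulAut.one_apply])
  obtain ⟨v, hv, hv1, hvu⟩ : ∃ v ∈ fix i, v ≠ 1 ∧ v ≠ u := by
    by_contra h
    push Not at h
    have hsub : (fix i : Set V) ⊆ {1, u} := fun w hw => by
      by_cases hw1 : w = 1
      · exact Or.inl hw1
      · exact Or.inr (h w hw hw1)
    have := Set.ncard_le_ncard hsub (Set.toFinite _)
    rw [Set.ncard_pair (Ne.symm hu1), ← Nat.card_coe_set_eq, SetLike.coe_sort_coe, hF] at this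
    omega
  -- involutions lie in `K`
  have hinvK : ∀ g ∈ P, g * g = 1 → g ∈ K := by
    intro g hg hgg
    by_contra hgK
    have hg1 : g ≠ 1 := fun h => hgK (h ▸ ⟨P.one_mem, fun f _ => rfl⟩)
    have hgs : ∀ w, g (g w) = w := fun w => by rw [← MulAut.mul_apply, hgg, MulAut.one_apply]
    obtain ⟨hG4, -, -⟩ := involution hc he hV B hB hgs (hfix g hg hg1)
    obtain ⟨b, ⟨hbB, hbJ⟩, hb1⟩ : ∃ b, (b ∈ B ∧ b ∈ fix i ⊔ fix g) ∧ b ≠ 1 := by
      by_contra h
      push Not at h
      have hd : (fix i ⊔ fix g) ⊓ B = ⊥ := eq_bot_iff.2 fun b hb => Subgroup.mem_bot.2 (h b ⟨hb.2, hb.1⟩)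
      have h1 := card_sup _ B hd
      have h2 : Nat.card (fix i) < Nat.card ↥(fix i ⊔ fix g) := by
        have hdv := Subgroup.card_dvd_of_le (le_sup_left : fix i ≤ fix i ⊔ fix g)
        rcases Nat.lt_or_ge (Nat.card (fix i)) (Nat.card ↥(fix i ⊔ fix g)) with h3 | h3
        · exact h3
        · exfalso
          have := Subgroup.eq_of_le_of_card_ge (le_sup_left : fix i ≤ fix i ⊔ fix g) h3
          have hgi : fix g = fix i := Subgroup.eq_of_le_of_card_ge (this ▸ le_sup_right) (by rw [hG4, hF])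
          exact hgK ⟨hg, fun f hf => by rw [← hgi] at hf; exact hf⟩
      rw [hB, hV] at h1
      omega
    haveI : (fix g).Normal := ⟨fun a ha w => by rw [hc w a, mul_assoc, mul_inv_cancel, mul_one]; exact ha⟩
    obtain ⟨f, hf, h, hh, rfl⟩ := Subgroup.mem_sup_of_normal_right.1 hbJ
    by_cases hfg : g f = f
    · exact hb1 (hfix g hg hg1 _ hbB (by rw [map_mul, hfg, mem_fix.1 hh]))
    by_cases hhi : i h = h
    · exact hb1 (hfix i hiP hi1 _ hbB (by rw [map_mul, mem_fix.1 hf, hhi]))
    have hf1 : f ≠ 1 := fun h0 => hfg (by rw [h0, map_one])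
    have hfu : f ≠ u := fun h0 => hfg (by rw [h0]; exact hufix g hg)
    have hgf := hmove f hf hf1 hfu g hg hgK
    have hw : i h * h = u := by
      have hw1 := hiF h
      have hw2 : g (i h * h) = i h * h := by
        rw [map_mul, mem_fix.1 hh, ← MulAut.mul_apply, hic g hg, MulAut.mul_apply, mem_fix.1 hh]
      have hw3 : i h * h ≠ 1 := fun h0 => hhi (by rw [eq_mul_of_mul_eq he h0, one_mul])
      by_contra hwu
      have := hmove _ hw1 hw3 hwu g hg hgK
      rw [hw2] at this
      exact hu1 (mul_eq_left.mp this.symm)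
    have hig : i * g ≠ 1 := fun h0 => hgK (by
      have h5 : g = i⁻¹ := eq_inv_of_mul_eq_one_right h0
      rw [h5, hKinv i hiK]; exact hiK)
    refine hb1 (hfix (i * g) (P.mul_mem hiP hg) hig _ hbB ?_)
    rw [MulAut.mul_apply, map_mul, hgf, mem_fix.1 hh, map_mul, map_mul, mem_fix.1 hf, mem_fix.1 hu,
      eq_mul_of_mul_eq he hw, mul_assoc f, ← mul_assoc u, he, one_mul]
  -- the quotient by `K` has order at most 2
  obtain ⟨g, hg, hgK⟩ : ∃ g ∈ P, g ∉ K := by
    by_contra h
    push Not at h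
    have h1 : (P : Set (MulAut V)).ncard ≤ K.ncard := Set.ncard_le_ncard h (Set.toFinite _)
    rw [← Nat.card_coe_set_eq, SetLike.coe_sort_coe] at h1
    omega
  have hPK : ∀ p ∈ P, p ∉ K → g⁻¹ * p ∈ K := by
    intro p hp hpK
    refine ⟨P.mul_mem (P.inv_mem hg) hp, fun f hf => ?_⟩
    rw [MulAut.mul_apply]
    apply g.injective
    rw [MulAut.apply_inv_self]
    rcases eq_or_ne f 1 with rfl | hf1
    · rw [map_one, map_one]
    rcases eq_or_ne f u with rfl | hfu
    · rw [hufix p hp, hufix g hg]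
    rw [hmove f hf hf1 hfu p hp hpK, hmove f hf hf1 hfu g hg hgK]
  obtain ⟨k, hk, hk1, hki⟩ : ∃ k ∈ K, k ≠ 1 ∧ k ≠ i := by
    by_contra h
    push Not at h
    have hsubK : K ⊆ {1, i} := fun k hk => by
      by_cases h1 : k = 1
      · exact Or.inl h1
      · exact Or.inr (h k hk h1)
    have hsub : (P : Set (MulAut V)) ⊆ {1, i, g, g * i} := by
      intro p hp
      by_cases hpK : p ∈ K
      · rcases hsubK hpK with h1 | h1
        · exact Or.inl h1
        · exact Or.inr (Or.inl h1)
      · have hp' : p = g * (g⁻¹ * p) := by group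
        rcases hsubK (hPK p hp hpK) with h1 | h1
        · exact Or.inr (Or.inr (Or.inl (by rw [hp', h1, mul_one])))
        · exact Or.inr (Or.inr (Or.inr (by rw [hp', Set.mem_singleton_iff.1 h1]; rfl)))
    have h1 := Set.ncard_le_ncard hsub (Set.toFinite _)
    have h2 : ({1, i, g, g * i} : Set (MulAut V)).ncard ≤ 4 := by
      refine (Set.ncard_insert_le _ _).trans (Nat.add_le_add_right ((Set.ncard_insert_le _ _).trans
        (Nat.add_le_add_right ((Set.ncard_insert_le _ _).trans ?_) 1)) 1)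
      rw [Set.ncard_singleton]
    rw [← Nat.card_coe_set_eq, SetLike.coe_sort_coe] at h1
    omega
  have hKall : ∀ l ∈ K, l = 1 ∨ l = i ∨ l = k ∨ l = i * k := by
    intro l hl
    by_contra hcon
    push Not at hcon
    obtain ⟨l1, l2, l3, l4⟩ := hcon
    have hik : i * k ≠ 1 := fun h0 => hki (by
      rw [eq_inv_of_mul_eq_one_right h0, hKinv i hiK])
    have hiki : i * k ≠ i := fun h0 => hk1 (mul_eq_left.mp h0)
    have hikk : i * k ≠ k := fun h0 => hi1 (mul_eq_right.mp h0)
    have hsub : ({1, i, k, i * k, l} : Set (MulAut V)) ⊆ K := by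
      intro z hz
      simp only [Set.mem_insert_iff, Set.mem_singleton_iff] at hz
      rcases hz with rfl | rfl | rfl | rfl | rfl
      exacts [⟨P.one_mem, fun f _ => rfl⟩, hiK, hk, hKmul i hiK k hk, hl]
    have h1 := Set.ncard_le_ncard hsub (Set.toFinite _)
    rw [Set.ncard_insert_of_notMem, Set.ncard_insert_of_notMem, Set.ncard_insert_of_notMem,
      Set.ncard_insert_of_notMem, Set.ncard_singleton] at h1
    · omega
    all_goals simp only [Set.mem_insert_iff, Set.mem_singleton_iff, not_or]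
    all_goals
      first
      | exact ⟨Ne.symm hi1, Ne.symm hk1, Ne.symm hik, Ne.symm l1⟩
      | exact ⟨Ne.symm hki, Ne.symm hiki, Ne.symm l2⟩
      | exact ⟨Ne.symm hikk, Ne.symm l3⟩
      | exact Ne.symm l4
  have hgg : g * g ∈ K := by
    refine ⟨P.mul_mem hg hg, fun f hf => ?_⟩
    rw [MulAut.mul_apply]
    rcases eq_or_ne f 1 with rfl | hf1
    · rw [map_one, map_one]
    rcases eq_or_ne f u with rfl | hfu
    · rw [hufix g hg, hufix g hg]
    rw [hmove f hf hf1 hfu g hg hgK, map_mul, hmove f hf hf1 hfu g hg hgK, hufix g hg,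
      mul_assoc, he, mul_one]
  have hkg : g * k = k * g := by
    have hconj : g * k * g⁻¹ ∈ K := ⟨P.mul_mem (P.mul_mem hg hk.1) (P.inv_mem hg), fun f hf => by
      rw [MulAut.mul_apply, MulAut.mul_apply, hk.2 _ (hPF g⁻¹ (P.inv_mem hg) f hf), MulAut.apply_inv_self]⟩
    rcases hKall _ hconj with h | h | h | h
    · exact absurd (conj_eq_one_iff.mp h) hk1
    · exfalso
      refine hki ?_
      have h5 : g * k * g⁻¹ = g * i * g⁻¹ := by rw [h, hic g hg, mul_inv_cancel_right]
      exact mul_left_cancel (mul_right_cancel h5)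
    · exact mul_inv_eq_iff_eq_mul.mp h
    · exfalso
      rw [mul_inv_eq_iff_eq_mul] at h
      have hcontra : g * k = k * g → False := fun hh => by
        rw [hh] at h
        exact hi1 (mul_eq_right.mp (mul_right_cancel h).symm)
      rcases hKall _ hgg with h0 | h0 | h0 | h0
      · exact hgK (hinvK g hg h0)
      · have hsq : (g * k) * (g * k) = 1 := by
          calc (g * k) * (g * k) = (i * k * g) * (g * k) := by rw [h]
            _ = i * k * (g * g) * k := by group
            _ = (i * i) * (k * k) := by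
              rw [h0, mul_assoc i k i, hic k hk.1, ← mul_assoc i i k, mul_assoc]
            _ = 1 := by
              rw [hi2, one_mul]
              nth_rewrite 1 [← hKinv k hk]
              exact inv_mul_cancel k
        have hgkK := hinvK _ (P.mul_mem hg hk.1) hsq
        refine hgK ?_
        have := hKmul _ hgkK k hk
        rwa [mul_assoc, show k * k = 1 from by nth_rewrite 1 [← hKinv k hk]; exact inv_mul_cancel k, mul_one] at this
      · exact hcontra (by rw [← h0]; group)
      · refine hcontra ?_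
        have h6 : k = i * (g * g) := by rw [h0, ← mul_assoc, hi2, one_mul]
        rw [h6, ← mul_assoc g i, hic g hg]
        group
  obtain ⟨w, hw⟩ := hisurj v hv
  have hgv := hmove v hv hv1 hvu g hg hgK
  have hiw : i (g w * w) * (g w * w) = u := by
    have h5 : g (i w * w) = g v := congrArg g hw
    rw [map_mul, ← MulAut.mul_apply, hic g hg, MulAut.mul_apply, hgv] at h5
    rw [map_mul]
    calc i (g w) * i w * (g w * w) = (i (g w) * g w) * (i w * w) := by
          rw [mul_assoc, mul_assoc]; congr 1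
          rw [← mul_assoc, hc (i w) (g w), mul_assoc]
      _ = u := by rw [h5, hw, hc v u, mul_assoc, he, mul_one]
  have hw' : g w * w ∉ fix i := fun h0 => hu1 (by rw [← hiw, mem_fix.1 h0, he])
  set w' := g w * w with hw'def
  have hkw : k w * w ∈ fix i := hKd k hk w
  have hkw' : k w' * w' = g (k w * w) * (k w * w) := by
    have h5 : g (k w) = k (g w) := by rw [← MulAut.mul_apply, hkg, MulAut.mul_apply]
    rw [hw'def, map_mul, map_mul, h5, mul_assoc, mul_assoc]
    congr 1
    rw [← mul_assoc, hc (k w) (g w), mul_assoc]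
  have hkw'1 : k w' * w' ≠ 1 := fun h0 => hw' (hKfix k hk hk1 ▸ mem_fix.2
    (by rw [eq_mul_of_mul_eq he h0, one_mul]))
  have ha1 : k w * w ≠ 1 := fun h0 => hkw'1 (by rw [hkw', h0, map_one, one_mul])
  have hau : k w * w ≠ u := fun h0 => hkw'1 (by rw [hkw', h0, hufix g hg, he])
  rw [hmove _ hkw ha1 hau g hg hgK, hc _ u, mul_assoc u, he, mul_one] at hkw'
  have hfin : (i * k) w' = w' := by
    rw [MulAut.mul_apply, eq_mul_of_mul_eq he hkw', map_mul, mem_fix.1 hu,
      eq_mul_of_mul_eq he hiw, ← mul_assoc, he, one_mul]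
  have hik : i * k ≠ 1 := fun h0 => hki (by rw [eq_inv_of_mul_eq_one_right h0, hKinv i hiK])
  exact hw' (hKfix _ (hKmul i hiK k hk) hik ▸ mem_fix.2 hfin)

end Cfsg.Agent.Transfer.SemiregularFour
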