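import Cfsg.Prelude
import Cfsg.Agent.Transfer.SemiregularFour
import Mathlib.GroupTheory.Sylow
import Mathlib.GroupTheory.Nilpotent
import Mathlib.GroupTheory.SpecificGroups.Cyclic

/-!
Groups with a 2-subgroup, self-centralizing with respect to the involutions of a four-subgroup,
have sectional 2-rank at most 4.
-/

set_option autoImplicit false
set_option linter.style.haveILetI false

namespace Cfsg.Agent.Transfer.SectionRankBound

open Subgroup
open scoped commutatorElement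

variable {G : Type*} [Group G] [Finite G]

/-- Elementary abelian sections below `S` have order at most 16. -/
def Rk4 (S : Subgroup G) : Prop :=
  ∀ K N : Subgroup G, K ≤ S → N ≤ K → (∀ a ∈ K, ∀ b ∈ K, ⁅a, b⁆ ∈ N) → (∀ a ∈ K, a * a ∈ N) →
    Nat.card K ≤ 16 * Nat.card N

theorem sectional_of_sylow (S : Sylow 2 G) (h : Rk4 (S : Subgroup G)) :
    Cfsg.SectionalPRankLE 2 4 G := by
  haveI : Fact (Nat.Prime 2) := ⟨Nat.prime_two⟩
  intro H N _ A hA hAp
  let K₀ : Subgroup H := A.comap (QuotientGroup.mk' N)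
  let f₀ : K₀ →* A := (QuotientGroup.mk' N).subgroupComap A
  have hf₀ : Function.Surjective f₀ :=
    MonoidHom.subgroupComap_surjective_of_surjective _ _ (QuotientGroup.mk'_surjective N)
  obtain ⟨Q⟩ : Nonempty (Sylow 2 K₀) := inferInstance
  have hA2 : IsPGroup 2 A := fun a => ⟨1, Subtype.ext (by simpa using hAp a a.2)⟩
  have hQtop : (Q : Subgroup K₀).map f₀ = ⊤ := by
    have h1 : ((Q : Subgroup K₀).map f₀).index ∣ (Q : Subgroup K₀).index :=
      Subgroup.index_map_dvd _ hf₀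
    obtain ⟨k, hk⟩ := hA2.index ((Q : Subgroup K₀).map f₀)
    rw [hk] at h1
    rcases Nat.eq_zero_or_pos k with rfl | hk0
    · exact Subgroup.index_eq_one.1 (by rw [hk, pow_zero])
    · exact absurd ((dvd_pow_self 2 hk0.ne').trans h1) Q.not_dvd_index
  let i₀ : (Q : Subgroup K₀) →* G := H.subtype.comp (K₀.subtype.comp (Q : Subgroup K₀).subtype)
  have hi₀ : Function.Injective i₀ :=
    H.subtype_injective.comp (K₀.subtype_injective.comp (Q : Subgroup K₀).subtype_injective)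
  have hr : IsPGroup 2 i₀.range := Q.isPGroup'.of_surjective i₀.rangeRestrict i₀.rangeRestrict_surjective
  obtain ⟨R, hR⟩ := hr.exists_le_sylow
  obtain ⟨g, hg⟩ := MulAction.exists_smul_eq G R S
  let i : (Q : Subgroup K₀) →* G := (MulAut.conj g).toMonoidHom.comp i₀
  have hi : Function.Injective i := (MulAut.conj g).injective.comp hi₀
  let f : (Q : Subgroup K₀) →* A := f₀.comp (Q : Subgroup K₀).subtype
  have hf : Function.Surjective f := by
    intro a
    obtain ⟨q, hq, hqa⟩ := Subgroup.mem_map.1 (hQtop.symm ▸ Subgroup.mem_top a)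
    exact ⟨⟨q, hq⟩, hqa⟩
  have hcomm : ∀ a b : A, a * b = b * a := fun a b => hA.is_comm.comm a b
  have hb := h i.range (f.ker.map i) ?_ (Subgroup.map_le_range _ _) ?_ ?_
  · rw [Subgroup.card_map_of_injective hi, ← Nat.card_congr (MonoidHom.ofInjective hi).toEquiv,
      ← Subgroup.card_mul_index f.ker, Subgroup.index_ker, MonoidHom.range_eq_top.2 hf,
      Subgroup.card_top, mul_comm] at hb
    exact Nat.le_of_mul_le_mul_right hb Nat.card_pos
  · rintro _ ⟨q, rfl⟩
    rw [← hg]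
    show (MulAut.conj g) (i₀ q) ∈ _
    rw [Sylow.coe_subgroup_smul, MulAut.conj_apply]
    exact ⟨i₀ q, hR ⟨q, rfl⟩, rfl⟩
  · rintro _ ⟨a, rfl⟩ _ ⟨b, rfl⟩
    refine ⟨⁅a, b⁆, ?_, map_commutatorElement i a b⟩
    rw [SetLike.mem_coe, MonoidHom.mem_ker, map_commutatorElement, commutatorElement_eq_one_iff_mul_comm]
    exact hcomm _ _
  · rintro _ ⟨a, rfl⟩
    refine ⟨a * a, ?_, map_mul i a a⟩
    rw [SetLike.mem_coe, MonoidHom.mem_ker, map_mul]
    refine Subtype.ext ?_
    simpa [sq] using hAp (f a) (f a).2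

theorem exists_normalizing_sq {S T : Subgroup G} (hS : IsPGroup 2 S) (hTS : T ≤ S) (hne : T ≠ S) :
    ∃ g ∈ S, g ∉ T ∧ g * g ∈ T ∧ ∀ t ∈ T, g * t * g⁻¹ ∈ T := by
  haveI : Fact (Nat.Prime 2) := ⟨Nat.prime_two⟩
  haveI : Group.IsNilpotent S := hS.isNilpotent
  have hlt : T.subgroupOf S < ⊤ :=
    lt_top_iff_ne_top.2 fun h => hne (le_antisymm hTS (Subgroup.subgroupOf_eq_top.1 h))
  obtain ⟨n, hn, hn'⟩ := SetLike.exists_of_lt
    (Group.normalizerCondition_of_isNilpotent (T.subgroupOf S) hlt)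
  classical
  obtain ⟨k, hk⟩ := hS n
  have hex : ∃ j, n ^ 2 ^ j ∈ T.subgroupOf S := ⟨k, hk.symm ▸ one_mem _⟩
  have hpos : Nat.find hex ≠ 0 := fun e => hn' (by simpa [e] using Nat.find_spec hex)
  refine ⟨((n ^ 2 ^ (Nat.find hex - 1) : S) : G), SetLike.coe_mem _, fun h => ?_, ?_, fun t ht => ?_⟩
  · exact Nat.find_min hex (show Nat.find hex - 1 < Nat.find hex by omega) h
  · have h1 := Nat.find_spec hex
    rw [show 2 ^ Nat.find hex = 2 ^ (Nat.find hex - 1) + 2 ^ (Nat.find hex - 1) by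
      rw [← two_mul, ← pow_succ', Nat.sub_add_cancel (by omega)], pow_add] at h1
    exact h1
  · exact (Subgroup.mem_normalizer_iff.1 (pow_mem hn (2 ^ (Nat.find hex - 1))) ⟨t, hTS ht⟩).1 ht

/-- The case of a cyclic subgroup of index at most 8. -/
theorem rk4_of_cyclic {S C : Subgroup G} [IsCyclic C] (hCS : C ≤ S)
    (hidx : Nat.card S ≤ 8 * Nat.card C) : Rk4 S := by
  intro K N hKS hNK _ hsq
  have h1 : C.relIndex K ≤ 8 := by
    have h2 : C.relIndex K ≤ C.relIndex S :=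
      Subgroup.relIndex_le_of_le_right hKS Subgroup.index_ne_zero_of_finite
    have h3 := Subgroup.card_mul_index (C.subgroupOf S)
    rw [Nat.card_congr (Subgroup.subgroupOfEquivOfLe hCS).toEquiv] at h3
    have : C.relIndex S ≤ 8 := by
      refine Nat.le_of_mul_le_mul_left ?_ (Nat.card_pos (α := C))
      rw [Subgroup.relIndex, h3, mul_comm]; exact hidx
    omega
  haveI : IsCyclic (C ⊓ K : Subgroup G) := Subgroup.isCyclic_of_le (inf_le_left : C ⊓ K ≤ C)
  obtain ⟨c, hc⟩ := IsCyclic.exists_generator (α := (C ⊓ K : Subgroup G))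
  have h4 : Nat.card (C ⊓ K : Subgroup G) ≤ 2 * Nat.card N := by
    rw [← orderOf_eq_card_of_forall_mem_zpowers hc, ← Subgroup.orderOf_coe c]
    have h5 : orderOf ((c : G) ^ 2) ≤ Nat.card N := by
      rw [sq, ← Nat.card_zpowers]
      exact Subgroup.card_le_of_le (Subgroup.zpowers_le.2 (hsq _ c.2.2))
    rw [orderOf_pow] at h5
    have h6 := Nat.gcd_le_right (orderOf (c : G)) (show 0 < 2 by norm_num)
    have h7 := Nat.div_mul_cancel (Nat.gcd_dvd_left (orderOf (c : G)) 2)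
    nlinarith
  have h8 := Subgroup.card_mul_index (C.subgroupOf K)
  have h9 : Nat.card (C.subgroupOf K) = Nat.card (C ⊓ K : Subgroup G) := by
    rw [← Subgroup.inf_subgroupOf_right]
    exact Nat.card_congr (Subgroup.subgroupOfEquivOfLe inf_le_right).toEquiv
  rw [h9, ← Subgroup.relIndex] at h8
  nlinarith

/-- The non-abelian case: `T` is all of `S`. -/
theorem eq_of_cyclic_index_two {S T D B C : Subgroup G} (hS : IsPGroup 2 S) (hTS : T ≤ S)
    (hprod : Cfsg.IsInternalDirectProduct D B T) [IsCyclic C] (hCD : C ≤ D)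
    (hC2 : Nat.card D = 2 * Nat.card C) (hDna : ¬ ∀ a ∈ D, ∀ b ∈ D, a * b = b * a)
    (hB : Nat.card B = 4) (hB2 : ∀ b ∈ B, b * b = 1) (hBc : ∀ a ∈ B, ∀ b ∈ B, a * b = b * a)
    (hcent : ∀ b ∈ B, b ≠ 1 → ∀ s ∈ S, s * b = b * s → s ∈ T) : T = S := by
  haveI : Fact (Nat.Prime 2) := ⟨Nat.prime_two⟩
  obtain ⟨hDT, hBT, hDB, hdisj, hsup⟩ := hprod
  by_contra hne
  obtain ⟨g, hgS, hgT, hgg, hgn⟩ := exists_normalizing_sq hS hTS hne
  have hBn : D ≤ Subgroup.normalizer (B : Set G) := fun d hd => Subgroup.mem_normalizer_iff.2 fun b =>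
    ⟨fun hb => by rw [hDB d hd b hb, mul_inv_cancel_right]; exact hb, fun hb => by
      have := hDB d⁻¹ (D.inv_mem hd) _ hb
      rw [← mul_assoc, ← mul_assoc, inv_mul_cancel, one_mul] at this
      have h2 : d * b * d⁻¹ = b := by
        rw [← mul_right_cancel (this.trans (by group) : b * d⁻¹ = d * b * d⁻¹ * d⁻¹)]
      rwa [h2] at hb⟩
  have hT : ∀ w ∈ T, ∃ d ∈ D, ∃ b ∈ B, d * b = w := fun w hw => by
    rw [← hsup, ← SetLike.mem_coe, Subgroup.coe_mul_of_left_le_normalizer_right D B hBn] at hw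
    exact hw
  have hDp : IsPGroup 2 D := hS.to_le (hDT.trans hTS)
  have hC1 : C.relIndex D = 2 := by
    have h := Subgroup.card_mul_index (C.subgroupOf D)
    rw [Nat.card_congr (Subgroup.subgroupOfEquivOfLe hCD).toEquiv, hC2, mul_comm 2] at h
    exact Nat.eq_of_mul_eq_mul_left Nat.card_pos h
  obtain ⟨cg, hcg⟩ := IsCyclic.exists_generator (α := C)
  have hCc : ∀ a ∈ C, ∀ b ∈ C, a * b = b * a := fun a ha b hb => by
    obtain ⟨i, hi⟩ := Subgroup.mem_zpowers_iff.1 (hcg ⟨a, ha⟩)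
    obtain ⟨j, hj⟩ := Subgroup.mem_zpowers_iff.1 (hcg ⟨b, hb⟩)
    have h5 : (⟨a, ha⟩ : C) * ⟨b, hb⟩ = ⟨b, hb⟩ * ⟨a, ha⟩ := by
      rw [← hi, ← hj]; exact zpow_mul_comm _ _ _
    exact congrArg Subtype.val h5
  have hzC : ∀ z ∈ D, (∀ d ∈ D, z * d = d * z) → z ∈ C := by
    intro z hz hzc
    by_contra hzC
    refine hDna fun a ha b hb => ?_
    have key : ∀ d ∈ D, ∃ c ∈ C, d = c ∨ d = c * z := fun d hd => by
      by_cases hdC : d ∈ C
      · exact ⟨d, hdC, Or.inl rfl⟩
      · refine ⟨d * z⁻¹, ?_, Or.inr (by rw [inv_mul_cancel_right])⟩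
        have h := Subgroup.mul_mem_iff_of_index_two (H := C.subgroupOf D) hC1 (a := ⟨d, hd⟩)
          (b := ⟨z⁻¹, D.inv_mem hz⟩)
        simp only [Subgroup.mem_subgroupOf, Subgroup.coe_mul, inv_mem_iff] at h
        exact h.2 ⟨fun h => absurd h hdC, fun h => absurd h hzC⟩
    obtain ⟨c, hc, h1 | h1⟩ := key a ha <;> obtain ⟨e, he, h2 | h2⟩ := key b hb <;>
      rw [h1, h2]
    · exact hCc c hc e he
    · rw [← mul_assoc, hCc c hc e he, mul_assoc, ← hzc c (hCD hc), ← mul_assoc]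
    · rw [mul_assoc, hzc e (hCD he), ← mul_assoc, hCc c hc e he, mul_assoc]
    · calc c * z * (e * z) = c * (z * e) * z := by group
        _ = c * e * (z * z) := by rw [hzc e (hCD he)]; group
        _ = e * c * (z * z) := by rw [hCc c hc e he]
        _ = e * (z * c) * z := by rw [hzc c (hCD hc)]; group
        _ = e * z * (c * z) := by group
  let W : Set G := {w | w ∈ T ∧ w * w = 1 ∧ ∀ t ∈ T, w * t = t * w}
  have hW : W.ncard ≤ 8 := by
    let E : Set G := {d | d ∈ C ∧ d * d = 1}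
    have hE : E.ncard ≤ 2 := by
      haveI := Fintype.ofFinite C
      classical
      have h := IsCyclic.card_pow_eq_one_le (α := C) (n := 2) (by norm_num)
      refine le_trans (le_of_eq ?_) h
      rw [← Set.ncard_coe_finset, ← Set.ncard_image_of_injective _ (Subtype.val_injective (p := (· ∈ C)))]
      congr 1
      ext d
      simp only [Finset.coe_filter, Finset.mem_univ, true_and, Set.mem_image, Set.mem_setOf_eq, sq, E]
      constructor
      · rintro ⟨h1, h2⟩; exact ⟨⟨d, h1⟩, Subtype.ext h2, rfl⟩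
      · rintro ⟨⟨x, hx⟩, h1, rfl⟩; exact ⟨hx, congrArg Subtype.val h1⟩
    have hsub : W ⊆ (fun x : G × G => x.1 * x.2) '' (E ×ˢ (B : Set G)) := by
      rintro w ⟨hw, hw2, hwc⟩
      obtain ⟨d, hd, b, hb, rfl⟩ := hT w hw
      have hdc : ∀ e ∈ D, d * e = e * d := fun e he => by
        have h := hwc e (hDT he)
        rw [mul_assoc, ← hDB e he b hb, ← mul_assoc, ← mul_assoc] at h
        exact mul_right_cancel h
      refine ⟨(d, b), ⟨⟨hzC d hd hdc, ?_⟩, hb⟩, rfl⟩
      calc d * d = d * b * (d * b) := by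
            rw [mul_assoc d b, ← mul_assoc b d, ← hDB d hd b hb, mul_assoc d b b, hB2 b hb, mul_one]
        _ = 1 := hw2
    refine (Set.ncard_le_ncard hsub (Set.toFinite _)).trans
      ((Set.ncard_image_le (Set.toFinite _)).trans ?_)
    rw [Set.ncard_prod, ← Nat.card_coe_set_eq (B : Set G), SetLike.coe_sort_coe, hB]
    omega
  have hBW : ∀ b ∈ B, b ∈ W := fun b hb => ⟨hBT hb, hB2 b hb, fun t ht => by
    obtain ⟨d, hd, e, he, rfl⟩ := hT t ht
    rw [← mul_assoc, ← hDB d hd b hb, mul_assoc, hBc b hb e he, ← mul_assoc]⟩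
  have hgnT : g ∈ Subgroup.normalizer (T : Set G) := Subgroup.mem_normalizer_fintype hgn
  have hWg : ∀ w ∈ W, g * w * g⁻¹ ∈ W := by
    rintro w ⟨hw, hw2, hwc⟩
    refine ⟨hgn w hw, ?_, fun t ht => ?_⟩
    · calc g * w * g⁻¹ * (g * w * g⁻¹) = g * (w * w) * g⁻¹ := by group
        _ = 1 := by rw [hw2, mul_one, mul_inv_cancel]
    · have h1 : g⁻¹ * t * g ∈ T := by
        have := (Subgroup.mem_normalizer_iff.1 (inv_mem hgnT) t).1 ht
        rwa [inv_inv] at this
      calc g * w * g⁻¹ * t = g * (w * (g⁻¹ * t * g)) * g⁻¹ := by group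
        _ = g * ((g⁻¹ * t * g) * w) * g⁻¹ := by rw [hwc _ h1]
        _ = t * (g * w * g⁻¹) := by group
  have hWmul : ∀ v ∈ W, ∀ w ∈ W, v * w ∈ W := fun v hv w hw => ⟨T.mul_mem hv.1 hw.1, by
      rw [mul_assoc v w, ← mul_assoc w v, hw.2.2 v hv.1, mul_assoc v w w, hw.2.1, mul_one, hv.2.1],
    fun t ht => by rw [mul_assoc, hw.2.2 t ht, ← mul_assoc, hv.2.2 t ht, mul_assoc]⟩
  have hfixed : ∀ b ∈ B, g * b * g⁻¹ = b → b = 1 := fun b hb h => by
    by_contra hb1
    exact hgT (hcent b hb hb1 g hgS (mul_inv_eq_iff_eq_mul.1 h))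
  have hsq2 : ∀ w ∈ W, g * (g * w * g⁻¹) * g⁻¹ = w := fun w hw => by
    calc g * (g * w * g⁻¹) * g⁻¹ = g * g * w * (g * g)⁻¹ := by group
      _ = w := by rw [← hw.2.2 _ hgg, mul_inv_cancel_right]
  let d : G → G := fun c => g * c * g⁻¹ * c
  have hdW : ∀ c ∈ B, d c ∈ W := fun c hc => hWmul _ (hWg c (hBW c hc)) _ (hBW c hc)
  have hdfix : ∀ c ∈ B, g * d c * g⁻¹ = d c := fun c hc => by
    calc g * (g * c * g⁻¹ * c) * g⁻¹ = g * (g * c * g⁻¹) * g⁻¹ * (g * c * g⁻¹) := by group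
      _ = g * c * g⁻¹ * c := by rw [hsq2 c (hBW c hc), (hBW c hc).2.2 _ (hgn c (hBT hc))]
  have hdmul : ∀ a ∈ B, ∀ c ∈ B, d (a * c) = d a * d c := fun a ha c hc => by
    calc g * (a * c) * g⁻¹ * (a * c) = g * a * g⁻¹ * ((g * c * g⁻¹) * a) * c := by group
      _ = g * a * g⁻¹ * (a * (g * c * g⁻¹)) * c := by rw [(hBW a ha).2.2 _ (hgn c (hBT hc))]
      _ = g * a * g⁻¹ * a * (g * c * g⁻¹ * c) := by group
  have h16 : ((B : Set G) ×ˢ (B : Set G)).ncard ≤ W.ncard := by
    refine Set.ncard_le_ncard_of_injOn (fun x : G × G => x.1 * d x.2)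
      (fun x hx => hWmul _ (hBW _ hx.1) _ (hdW _ hx.2)) ?_ (Set.toFinite _)
    rintro ⟨b, c⟩ ⟨hb, hc⟩ ⟨b', c'⟩ ⟨hb', hc'⟩ h
    have h' : b * d c = b' * d c' := h
    have h1 : b' * b = d (c' * c) := by
      have hb'b : b'⁻¹ = b' := inv_eq_of_mul_eq_one_right (hB2 b' hb')
      rw [hdmul c' hc' c hc]
      have h2 : d c' = b' * b * d c := by
        rw [mul_assoc, h', ← mul_assoc, hB2 b' hb', one_mul]
      rw [h2, mul_assoc, (hdW c hc).2.1, mul_one]
    have h2 : b' * b = 1 := hfixed _ (B.mul_mem hb' hb) (by rw [h1, hdfix _ (B.mul_mem hc' hc)])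
    have h3 : c' * c = 1 := by
      refine hfixed _ (B.mul_mem hc' hc) ?_
      have h4 : d (c' * c) = 1 := h1.symm.trans h2
      exact (mul_eq_one_iff_eq_inv.1 h4).trans (inv_eq_of_mul_eq_one_right (hB2 _ (B.mul_mem hc' hc)))
    rw [Prod.mk.injEq]
    exact ⟨(eq_inv_of_mul_eq_one_right h2).trans (inv_eq_of_mul_eq_one_right (hB2 b' hb')),
      (eq_inv_of_mul_eq_one_right h3).trans (inv_eq_of_mul_eq_one_right (hB2 c' hc'))⟩
  rw [Set.ncard_prod, ← Nat.card_coe_set_eq (B : Set G), SetLike.coe_sort_coe, hB] at h16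
  omega

/-- The elementary abelian case. -/
theorem rk4_of_elementary {S T B : Subgroup G} (hS : IsPGroup 2 S) (hTS : T ≤ S) (hBT : B ≤ T)
    (hT : Nat.card T = 16) (hB : Nat.card B = 4) (hTc : ∀ a ∈ T, ∀ b ∈ T, a * b = b * a)
    (hT2 : ∀ a ∈ T, a * a = 1)
    (hcent : ∀ b ∈ B, b ≠ 1 → ∀ s ∈ S, s * b = b * s → s ∈ T) : Rk4 S := by
  classical
  haveI : Fact (Nat.Prime 2) := ⟨Nat.prime_two⟩
  have hinv : ∀ a ∈ T, a⁻¹ = a := fun a ha => inv_eq_of_mul_eq_one_right (hT2 a ha)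
  set N := S ⊓ Subgroup.normalizer (T : Set G) with hN
  have hTN : T ≤ N := le_inf hTS Subgroup.le_normalizer
  have hNconj : ∀ n ∈ N, ∀ t ∈ T, n * t * n⁻¹ ∈ T := fun n hn t ht =>
    (Subgroup.mem_normalizer_iff.1 hn.2 t).1 ht
  let ψ : N →* MulAut T := (T.normalizerMonoidHom).comp (Subgroup.inclusion inf_le_right)
  have hψ : ∀ (n : N) (t : T), ((ψ n t : T) : G) = n * t * (n : G)⁻¹ := fun n t => rfl
  have hTc' : ∀ a b : T, a * b = b * a := fun a b => Subtype.ext (hTc a a.2 b b.2)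
  have hT2' : ∀ a : T, a * a = 1 := fun a => Subtype.ext (hT2 a a.2)
  have hB' : Nat.card (B.subgroupOf T) = 4 :=
    (Nat.card_congr (Subgroup.subgroupOfEquivOfLe hBT).toEquiv).trans hB
  have hfix : ∀ n : N, (n : G) ∉ T → ∀ b ∈ B.subgroupOf T, ψ n b = b → b = 1 := by
    intro n hn b hb h
    by_contra hb1
    refine hn (hcent b hb (fun h0 => hb1 (Subtype.ext h0)) n n.2.1 ?_)
    have := hψ n b
    rw [h] at this
    exact (mul_inv_eq_iff_eq_mul.1 this.symm)
  -- `N` has order at most 64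
  have hNcard : Nat.card N ≤ 64 := by
    have hker : Nat.card ψ.ker ≤ 16 := by
      refine le_trans (Nat.card_le_card_of_injective
        (fun n : ψ.ker => (⟨((n : N) : G), ?_⟩ : T)) ?_) hT.le
      · obtain ⟨b, hb, hb1⟩ : ∃ b ∈ B, b ≠ 1 := by
          by_contra h
          push Not at h
          rw [(Subgroup.eq_bot_iff_forall B).2 h, Subgroup.card_bot] at hB
          omega
        by_contra hn
        exact hb1 (congrArg Subtype.val (hfix n hn ⟨b, hBT hb⟩ hb
          (by rw [MonoidHom.mem_ker.1 n.2]; rfl)))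
      · intro a b h
        exact Subtype.ext (Subtype.ext (by simpa using h))
    have hP : Nat.card ψ.range ≤ 4 := by
      refine SemiregularFour.card_le_four hTc' hT2' hT (B.subgroupOf T) hB' ψ.range
        ((hS.to_le inf_le_left).of_surjective ψ.rangeRestrict ψ.rangeRestrict_surjective) ?_
      rintro _ ⟨n, rfl⟩ hne
      refine hfix n fun hn => hne ?_
      ext t
      rw [hψ, MulAut.one_apply, hTc n hn t t.2, mul_inv_cancel_right]
    rw [← Subgroup.card_mul_index ψ.ker, Subgroup.index_ker]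
    calc _ ≤ 16 * 4 := Nat.mul_le_mul hker hP
      _ = 64 := rfl
  -- the fixed points of an element of order two modulo `T`
  have hF : ∀ y ∈ N, y ∉ T → y * y ∈ T →
      Nat.card (T ⊓ Subgroup.centralizer ({y} : Set G) : Subgroup G) = 4 ∧
        ∀ f ∈ T ⊓ Subgroup.centralizer ({y} : Set G), ∃ t ∈ T, ⁅y, t⁆ = f := by
    intro y hy hyT hyy
    have hp : ∀ v : T, ψ ⟨y, hy⟩ (ψ ⟨y, hy⟩ v) = v := fun v => by
      refine Subtype.ext ?_
      rw [hψ, hψ]
      show y * (y * v * y⁻¹) * y⁻¹ = v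
      calc y * (y * v * y⁻¹) * y⁻¹ = y * y * v * (y * y)⁻¹ := by group
        _ = v := by rw [hTc _ hyy v v.2, mul_inv_cancel_right]
    obtain ⟨h4, -, hsur⟩ := SemiregularFour.involution hTc' hT2' hT (B.subgroupOf T) hB' hp
      (hfix ⟨y, hy⟩ hyT)
    have heq : (SemiregularFour.fix (ψ ⟨y, hy⟩)).map T.subtype = T ⊓ Subgroup.centralizer ({y} : Set G) := by
      ext z
      constructor
      · rintro ⟨v, hv, rfl⟩
        refine ⟨v.2, Subgroup.mem_centralizer_singleton_iff.2 ?_⟩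
        have := hψ ⟨y, hy⟩ v
        rw [SemiregularFour.mem_fix.1 hv] at this
        exact (mul_inv_eq_iff_eq_mul.1 this.symm).symm
      · rintro ⟨hz, hzy⟩
        exact ⟨⟨z, hz⟩, Subtype.ext (by
          show y * z * y⁻¹ = z
          rw [← Subgroup.mem_centralizer_singleton_iff.1 hzy, mul_inv_cancel_right]), rfl⟩
    refine ⟨?_, fun f hf => ?_⟩
    · rw [← heq, Subgroup.card_map_of_injective T.subtype_injective, h4]
    · rw [← heq] at hf
      obtain ⟨v, hv, rfl⟩ := hf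
      obtain ⟨t, ht⟩ := hsur v hv
      refine ⟨t, t.2, ?_⟩
      rw [← ht, commutatorElement_def, hinv t t.2]
      rfl
  have hrel : ∀ H : Subgroup G, H ≤ N → Nat.card H ≤ 4 * Nat.card (T ⊓ H : Subgroup G) := by
    intro H hH
    have h1 : T.relIndex H ≤ 4 := by
      refine le_trans (Subgroup.relIndex_le_of_le_right hH Subgroup.index_ne_zero_of_finite) ?_
      have h := Subgroup.card_mul_index (T.subgroupOf N)
      rw [Nat.card_congr (Subgroup.subgroupOfEquivOfLe hTN).toEquiv, hT, ← Subgroup.relIndex] at h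
      omega
    have h := Subgroup.card_mul_index (T.subgroupOf H)
    rw [← Subgroup.relIndex, ← Subgroup.inf_subgroupOf_right,
      Nat.card_congr (Subgroup.subgroupOfEquivOfLe (inf_le_right : T ⊓ H ≤ H)).toEquiv] at h
    calc Nat.card H = _ := h.symm
      _ ≤ Nat.card (T ⊓ H : Subgroup G) * 4 := Nat.mul_le_mul_left _ h1
      _ = _ := mul_comm _ _
  have hpow : ∀ H : Subgroup G, H ≤ S → ∃ k, Nat.card H = 2 ^ k := fun H hH =>
    IsPGroup.iff_card.1 (hS.to_le hH)
  intro K N₀ hKS hN₀K hcomm hsq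
  by_contra hbig
  push Not at hbig
  obtain ⟨kk, hkk⟩ := hpow K hKS
  obtain ⟨mm, hmm⟩ := hpow N₀ (hN₀K.trans hKS)
  have hkm : mm + 5 ≤ kk := by
    by_contra hlt
    push Not at hlt
    have h := Nat.pow_le_pow_right (show 1 ≤ 2 by norm_num) (show kk ≤ 4 + mm by omega)
    rw [← hkk, pow_add, ← hmm] at h
    omega
  have h32 : 32 * Nat.card N₀ ≤ Nat.card K := by
    rw [hkk, hmm, show 32 = 2 ^ 5 from rfl, ← pow_add]
    exact Nat.pow_le_pow_right (by norm_num) (by omega)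
  have hn₀ : 0 < Nat.card N₀ := Nat.card_pos
  have hKN : ¬ K ≤ N := by
    intro hKN
    have hK64 := (Subgroup.card_le_of_le hKN).trans hNcard
    obtain ⟨y, hyK, hyT, hyy⟩ : ∃ y ∈ K, y ∉ T ∧ y * y ∈ T := by
      obtain ⟨y, hy, hyT⟩ : ∃ y ∈ K, y ∉ T := by
        by_contra h
        push Not at h
        have := Subgroup.card_le_of_le (H := K) (K := T) h
        omega
      obtain ⟨k, hk⟩ := (hS.to_le hKS) ⟨y, hy⟩
      have hex : ∃ j, y ^ 2 ^ j ∈ T := ⟨k, by
        have := congrArg Subtype.val hk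
        push_cast at this
        rw [this]; exact one_mem _⟩
      have hpos : Nat.find hex ≠ 0 := fun e => hyT (by simpa [e] using Nat.find_spec hex)
      refine ⟨y ^ 2 ^ (Nat.find hex - 1), pow_mem hy _, Nat.find_min hex (by omega), ?_⟩
      rw [← pow_add, show 2 ^ (Nat.find hex - 1) + 2 ^ (Nat.find hex - 1) = 2 ^ Nat.find hex by
        rw [← two_mul, ← pow_succ', Nat.sub_add_cancel (by omega)]]
      exact Nat.find_spec hex
    obtain ⟨h4, hcs⟩ := hF y (hKN hyK) hyT hyy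
    have hn2 : Nat.card N₀ = 1 ∨ Nat.card N₀ = 2 := by omega
    rcases hn2 with hn | hn
    · have hN₀ : N₀ = ⊥ := Subgroup.card_eq_one.1 hn
      have hle : T ⊓ K ≤ T ⊓ Subgroup.centralizer ({y} : Set G) := fun z hz => ⟨hz.1, by
        have := hcomm z hz.2 y hyK
        rw [hN₀, Subgroup.mem_bot, commutatorElement_eq_one_iff_mul_comm] at this
        exact Subgroup.mem_centralizer_singleton_iff.2 this⟩
      have h := Subgroup.card_le_of_le hle
      have := hrel K hKN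
      omega
    · have hKeq : K = N := Subgroup.eq_of_le_of_card_ge hKN (by omega)
      have hle : T ⊓ Subgroup.centralizer ({y} : Set G) ≤ N₀ := fun f hf => by
        obtain ⟨t, ht, rfl⟩ := hcs f hf
        exact hcomm y hyK t (hKeq ▸ hTN ht)
      have h := Subgroup.card_le_of_le hle
      omega
  obtain ⟨g, hgS, hgN, -, hgn⟩ := exists_normalizing_sq hS (inf_le_left : N ≤ S)
    (fun h => hKN (hKS.trans h.ge))
  set M := S ⊓ Subgroup.normalizer (N : Set G) with hM
  set T' := T.map (MulAut.conj g).toMonoidHom with hT'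
  have hgM : g ∈ M := ⟨hgS, Subgroup.mem_normalizer_fintype hgn⟩
  have hMN : ∀ h ∈ M, ∀ n ∈ N, h * n * h⁻¹ ∈ N := fun h hh n hn =>
    (Subgroup.mem_normalizer_iff.1 hh.2 n).1 hn
  have hNM : N ≤ M := le_inf inf_le_left Subgroup.le_normalizer
  have hT'mem : ∀ t ∈ T, g * t * g⁻¹ ∈ T' := fun t ht => ⟨t, ht, rfl⟩
  have hT'N : T' ≤ N := by rintro _ ⟨t, ht, rfl⟩; exact hgn t (hTN ht)
  have hT'16 : Nat.card T' = 16 := by
    rw [hT', Subgroup.card_map_of_injective (MulAut.conj g).injective, hT]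
  have hT'c : ∀ a ∈ T', ∀ b ∈ T', a * b = b * a := by
    rintro _ ⟨a, ha, rfl⟩ _ ⟨b, hb, rfl⟩
    rw [← map_mul, ← map_mul, hTc a ha b hb]
  have hT'2 : ∀ a ∈ T', a * a = 1 := by
    rintro _ ⟨a, ha, rfl⟩
    rw [← map_mul, hT2 a ha, map_one]
  have hstab : ∀ h ∈ S, (∀ t ∈ T, h * t * h⁻¹ ∈ T) → h ∈ N := fun h hh hn =>
    ⟨hh, Subgroup.mem_normalizer_fintype hn⟩
  obtain ⟨y₀, hy₀, hy₀T⟩ : ∃ y ∈ T', y ∉ T := by
    by_contra h
    push Not at h
    exact hgN (hstab g hgS fun t ht => h _ (hT'mem t ht))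
  obtain ⟨hT'T, hN64⟩ : Nat.card (T ⊓ T' : Subgroup G) = 4 ∧ Nat.card N = 64 := by
    have hle : T ⊓ T' ≤ T ⊓ Subgroup.centralizer ({y₀} : Set G) := fun z hz =>
      ⟨hz.1, Subgroup.mem_centralizer_singleton_iff.2 (hT'c z hz.2 y₀ hy₀)⟩
    have h := Subgroup.card_le_of_le hle
    rw [(hF y₀ (hT'N hy₀) hy₀T (by rw [hT'2 y₀ hy₀]; exact one_mem _)).1] at h
    have h2 := hrel T' hT'N
    rw [hT'16] at h2
    refine ⟨by omega, ?_⟩
    have h3 := Subgroup.card_mul_index (T.subgroupOf T')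
    rw [← Subgroup.inf_subgroupOf_right, Nat.card_congr
      (Subgroup.subgroupOfEquivOfLe (inf_le_right : T ⊓ T' ≤ T')).toEquiv, hT'16,
      Subgroup.inf_subgroupOf_right, ← Subgroup.relIndex] at h3
    have h4 := Subgroup.card_mul_index (T.subgroupOf N)
    rw [Nat.card_congr (Subgroup.subgroupOfEquivOfLe hTN).toEquiv, hT, ← Subgroup.relIndex] at h4
    have h5 := Subgroup.relIndex_le_of_le_right (H := T) hT'N Subgroup.index_ne_zero_of_finite
    have h6 : Nat.card (T ⊓ T' : Subgroup G) = 4 := by omega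
    rw [h6] at h3
    omega
  have hkey : ∀ t ∈ T, ∀ y ∈ T', t * y = y * t → t ∈ T' ∨ y ∈ T := by
    intro t ht y hy hty
    by_cases hyT : y ∈ T
    · exact Or.inr hyT
    left
    have heq : T ⊓ T' = T ⊓ Subgroup.centralizer ({y} : Set G) := by
      refine Subgroup.eq_of_le_of_card_ge (fun z hz => ⟨hz.1,
        Subgroup.mem_centralizer_singleton_iff.2 (hT'c z hz.2 y hy)⟩) ?_
      rw [hT'T, (hF y (hT'N hy) hyT (by rw [hT'2 y hy]; exact one_mem _)).1]
    have : t ∈ T ⊓ T' := heq ▸ ⟨ht, Subgroup.mem_centralizer_singleton_iff.2 hty⟩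
    exact this.2
  have hsupN : T' ⊔ T = N := by
    refine Subgroup.eq_of_le_of_card_ge (sup_le hT'N hTN) ?_
    have h1 := Subgroup.card_mul_index (T.subgroupOf (T' ⊔ T))
    rw [Nat.card_congr (Subgroup.subgroupOfEquivOfLe (le_sup_right : T ≤ T' ⊔ T)).toEquiv, hT,
      ← Subgroup.relIndex] at h1
    have h2 := Subgroup.relIndex_le_of_le_right (H := T) (le_sup_left : T' ≤ T' ⊔ T)
      Subgroup.index_ne_zero_of_finite
    have h3 := Subgroup.card_mul_index (T.subgroupOf T')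
    rw [← Subgroup.inf_subgroupOf_right, Nat.card_congr
      (Subgroup.subgroupOfEquivOfLe (inf_le_right : T ⊓ T' ≤ T')).toEquiv, hT'16, hT'T,
      Subgroup.inf_subgroupOf_right, ← Subgroup.relIndex] at h3
    omega
  have hinvol : ∀ n ∈ N, n * n = 1 → n ∈ T ∨ n ∈ T' := by
    intro n hn hn2
    have hn' := hn
    rw [← hsupN, ← SetLike.mem_coe, Subgroup.coe_mul_of_left_le_normalizer_right T' T
      (hT'N.trans inf_le_right)] at hn'
    obtain ⟨y, hy, t, ht, rfl⟩ := hn'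
    have hc : t * y = y * t := by
      have h := eq_inv_of_mul_eq_one_right hn2
      rw [mul_inv_rev, hinv t ht, inv_eq_of_mul_eq_one_right (hT'2 y hy)] at h
      exact h.symm
    rcases hkey t ht y hy hc with h | h
    · exact Or.inr (T'.mul_mem hy h)
    · exact Or.inl (T.mul_mem h ht)
  have helem : ∀ W : Subgroup G, W ≤ N → (∀ a ∈ W, ∀ b ∈ W, a * b = b * a) →
      (∀ a ∈ W, a * a = 1) → W ≤ T ∨ W ≤ T' := by
    intro W hW hWc hW2
    by_contra h
    push Not at h
    obtain ⟨a, ha, haT⟩ := SetLike.not_le_iff_exists.1 h.1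
    obtain ⟨c, hc, hcT'⟩ := SetLike.not_le_iff_exists.1 h.2
    have ha' := (hinvol a (hW ha) (hW2 a ha)).resolve_left haT
    have hc' := (hinvol c (hW hc) (hW2 c hc)).resolve_right hcT'
    rcases hkey c hc' a ha' (hWc c hc a ha) with h1 | h1
    · exact hcT' h1
    · exact haT h1
  -- conjugation by elements of `M`
  have hswap : ∀ e ∈ M, e ∉ N → (∀ t ∈ T, e * t * e⁻¹ ∈ T') ∧ ∀ t ∈ T', e * t * e⁻¹ ∈ T := by
    intro e he heN
    have himg : ∀ X : Subgroup G, X ≤ N → (∀ a ∈ X, ∀ b ∈ X, a * b = b * a) →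
        (∀ a ∈ X, a * a = 1) → Nat.card X = 16 →
        X.map (MulAut.conj e).toMonoidHom = T ∨ X.map (MulAut.conj e).toMonoidHom = T' := by
      intro X hXN hXc hX2 hX16
      have h16 : Nat.card (X.map (MulAut.conj e).toMonoidHom) = 16 := by
        rw [Subgroup.card_map_of_injective (MulAut.conj e).injective, hX16]
      rcases helem (X.map (MulAut.conj e).toMonoidHom)
        (by rintro _ ⟨x, hx, rfl⟩; exact hMN e he x (hXN hx))
        (by rintro _ ⟨a, ha, rfl⟩ _ ⟨b, hb, rfl⟩; rw [← map_mul, ← map_mul, hXc a ha b hb])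
        (by rintro _ ⟨a, ha, rfl⟩; rw [← map_mul, hX2 a ha, map_one]) with h | h
      · exact Or.inl (Subgroup.eq_of_le_of_card_ge h (by rw [h16, hT]))
      · exact Or.inr (Subgroup.eq_of_le_of_card_ge h (by rw [h16, hT'16]))
    have h1 : T.map (MulAut.conj e).toMonoidHom = T' := by
      refine (himg T hTN hTc hT2 hT).resolve_left fun h => heN (hstab e he.1 fun t ht => ?_)
      rw [← h]; exact ⟨t, ht, rfl⟩
    have h2 : T'.map (MulAut.conj e).toMonoidHom = T := by
      refine (himg T' hT'N hT'c hT'2 hT'16).resolve_right fun h => hy₀T ?_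
      have h3 : T' = T := Subgroup.map_injective (MulAut.conj e).injective (h.trans h1.symm)
      rwa [h3] at hy₀
    exact ⟨fun t ht => h1 ▸ ⟨t, ht, rfl⟩, fun t ht => h2 ▸ ⟨t, ht, rfl⟩⟩
  have hFswap : ∀ e ∈ M, e ∉ N → ∀ t ∈ T, t ∉ T' → e * t * e⁻¹ ∉ T := by
    intro e he heN t ht htT' h
    have h1 := (hswap e⁻¹ (M.inv_mem he) fun h' => heN (by simpa using N.inv_mem h')).1 _ h
    rw [inv_inv, show e⁻¹ * (e * t * e⁻¹) * e = t by group] at h1
    exact htT' h1
  have hhalf : ∀ H : Subgroup G, H ≤ M → Nat.card H ≤ 2 * Nat.card (N ⊓ H : Subgroup G) := by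
    intro H hH
    by_cases hHN : H ≤ N
    · rw [inf_eq_right.2 hHN]; omega
    obtain ⟨e, he, heN⟩ := SetLike.not_le_iff_exists.1 hHN
    have hcover : (H : Set G) ⊆ (N ⊓ H : Subgroup G) ∪ (fun x => e * x) '' (N ⊓ H : Subgroup G) := by
      intro x hx
      by_cases hxN : x ∈ N
      · exact Or.inl ⟨hxN, hx⟩
      · refine Or.inr ⟨e⁻¹ * x, ⟨hstab _ (S.mul_mem (S.inv_mem (hH he).1) (hH hx).1) fun t ht => ?_,
          H.mul_mem (H.inv_mem he) hx⟩, by group⟩
        have h1 := (hswap e⁻¹ (M.inv_mem (hH he)) fun h' => heN (by simpa using N.inv_mem h')).2 _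
          ((hswap x (hH hx) hxN).1 t ht)
        rw [inv_inv] at h1
        convert h1 using 1
        group
    have h1 := (Set.ncard_le_ncard hcover (Set.toFinite _)).trans (Set.ncard_union_le _ _)
    have h2 := Set.ncard_image_le (f := fun x => e * x) (Set.toFinite ((N ⊓ H : Subgroup G) : Set G))
    simp only [← Nat.card_coe_set_eq, SetLike.coe_sort_coe] at h1 h2
    omega
  -- the Sylow group is `M`
  have hSM : S = M := by
    by_contra hne
    obtain ⟨h, hhS, hhM, -, hhn⟩ := exists_normalizing_sq hS (inf_le_left : M ≤ S) (Ne.symm hne)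
    have himg : ∀ X : Subgroup G, X ≤ N → (∀ a ∈ X, ∀ b ∈ X, a * b = b * a) →
        (∀ a ∈ X, a * a = 1) → Nat.card X = 16 → ∀ x ∈ X, h * x * h⁻¹ ∈ N := by
      intro X hXN hXc hX2 hX16 x hx
      set X' := X.map (MulAut.conj h).toMonoidHom with hX'
      have hX'M : X' ≤ M := by rintro _ ⟨a, ha, rfl⟩; exact hhn a (hNM (hXN ha))
      have hX'16 : Nat.card X' = 16 := by
        rw [hX', Subgroup.card_map_of_injective (MulAut.conj h).injective, hX16]
      have hX'c : ∀ a ∈ X', ∀ b ∈ X', a * b = b * a := by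
        rintro _ ⟨a, ha, rfl⟩ _ ⟨b, hb, rfl⟩; rw [← map_mul, ← map_mul, hXc a ha b hb]
      have hX'2 : ∀ a ∈ X', a * a = 1 := by
        rintro _ ⟨a, ha, rfl⟩; rw [← map_mul, hX2 a ha, map_one]
      by_contra hxN
      have heX : h * x * h⁻¹ ∈ X' := ⟨x, hx, rfl⟩
      have h8 := hhalf X' hX'M
      rw [hX'16] at h8
      have hsub : N ⊓ X' ≤ T ⊓ T' := by
        intro w hw
        have hwe : h * x * h⁻¹ * w * (h * x * h⁻¹)⁻¹ = w := by
          rw [hX'c _ heX w hw.2, mul_inv_cancel_right]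
        have hs := hswap _ (hX'M heX) hxN
        rcases hinvol w hw.1 (hX'2 w hw.2) with h1 | h1
        · exact ⟨h1, hwe ▸ hs.1 w h1⟩
        · exact ⟨hwe ▸ hs.2 w h1, h1⟩
      have := Subgroup.card_le_of_le hsub
      omega
    refine hhM ⟨hhS, Subgroup.mem_normalizer_fintype fun n hn => ?_⟩
    have hle : T' ⊔ T ≤ N.comap (MulAut.conj h).toMonoidHom :=
      sup_le (fun y hy => himg T' hT'N hT'c hT'2 hT'16 y hy) fun t ht => himg T hTN hTc hT2 hT t ht
    rw [hsupN] at hle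
    exact hle hn
  have hK2 := hhalf K (hKS.trans hSM.le)
  have hrW := hrel (N ⊓ K) inf_le_left
  have hW64 : Nat.card (N ⊓ K : Subgroup G) ≤ 64 :=
    hN64 ▸ Subgroup.card_le_of_le inf_le_left
  obtain ⟨e, he, heN⟩ := SetLike.not_le_iff_exists.1 hKN
  have heM : e ∈ M := hSM ▸ hKS he
  by_cases hsub : T ⊓ (N ⊓ K) ≤ T'
  · have hle : T ⊓ (N ⊓ K) ≤ T ⊓ T' := le_inf inf_le_left hsub
    have h4 := Subgroup.card_le_of_le hle
    have hN₀ : N₀ = ⊥ := Subgroup.card_eq_one.1 (by omega)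
    have habel : ∀ a ∈ K, ∀ b ∈ K, a * b = b * a := fun a ha b hb => by
      have := hcomm a ha b hb
      rwa [hN₀, Subgroup.mem_bot, commutatorElement_eq_one_iff_mul_comm] at this
    rcases helem (N ⊓ K) inf_le_left (fun a ha b hb => habel a ha.2 b hb.2) (fun a ha => by
      have := hsq a ha.2
      rwa [hN₀, Subgroup.mem_bot] at this) with h | h
    · rw [inf_eq_right.2 h] at h4
      omega
    · have h' : N ⊓ K ≤ T := fun w hw => by
        have := (hswap e heM heN).2 w (h hw)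
        rwa [habel e he w hw.2, mul_inv_cancel_right] at this
      rw [inf_eq_right.2 h'] at h4
      omega
  · obtain ⟨a, ⟨haT, haN, haK⟩, haT'⟩ := SetLike.not_le_iff_exists.1 hsub
    have hb' := (hswap e heM heN).1 a haT
    have hbT := hFswap e heM heN a haT haT'
    set n := ⁅e, a⁆ with hn
    have hnN₀ : n ∈ N₀ := hcomm e he a haK
    have hnval : n = e * a * e⁻¹ * a := by rw [hn, commutatorElement_def, hinv a haT]
    have hnN : n ∈ N := hnval ▸ N.mul_mem (hT'N hb') (hTN haT)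
    have hnT : n ∉ T := fun h => hbT (by
      have := T.mul_mem h haT
      rwa [hnval, mul_assoc, hT2 a haT, mul_one] at this)
    have hnT' : n ∉ T' := fun h => haT' (by
      have := T'.mul_mem (T'.inv_mem hb') h
      rwa [hnval, ← mul_assoc, inv_mul_cancel, one_mul] at this)
    have hnn : n * n ≠ 1 := fun h => (hinvol n hnN h).elim hnT hnT'
    have hn3 : 3 ≤ Nat.card N₀ := by
      have hn1 : n ≠ 1 := fun h => hnn (by rw [h, one_mul])
      have hnn' : n * n ≠ n := fun h => hn1 (mul_eq_left.mp h)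
      have hsubN : ({1, n, n * n} : Set G) ⊆ (N₀ : Set G) := by
        intro z hz
        simp only [Set.mem_insert_iff, Set.mem_singleton_iff] at hz
        rcases hz with rfl | rfl | rfl
        exacts [one_mem _, hnN₀, mul_mem hnN₀ hnN₀]
      have h := Set.ncard_le_ncard hsubN (Set.toFinite _)
      rw [Set.ncard_insert_of_notMem (by simp [Ne.symm hn1, Ne.symm hnn]),
        Set.ncard_pair (Ne.symm hnn'), ← Nat.card_coe_set_eq, SetLike.coe_sort_coe] at h
      omega
    have hm2 : mm = 2 := by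
      have hK128 : 2 ^ kk ≤ 2 ^ 7 := by rw [← hkk]; norm_num; omega
      have h1 := (Nat.pow_le_pow_iff_right (show 1 < 2 by norm_num)).1 hK128
      rcases Nat.lt_or_ge mm 2 with h | h
      · exfalso
        have h2 := Nat.pow_le_pow_right (show 1 ≤ 2 by norm_num) (show mm ≤ 1 by omega)
        rw [← hmm, pow_one] at h2
        omega
      · omega
    have hN₀4 : Nat.card N₀ = 4 := by rw [hmm, hm2]; norm_num
    have hKN' : N ≤ K := by
      have h := Subgroup.eq_of_le_of_card_ge (inf_le_left : N ⊓ K ≤ N) (by omega)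
      exact h ▸ inf_le_right
    obtain ⟨h4, hcs⟩ := hF y₀ (hT'N hy₀) hy₀T (by rw [hT'2 y₀ hy₀]; exact one_mem _)
    have hle : T ⊓ Subgroup.centralizer ({y₀} : Set G) ≤ N₀ := fun f hf => by
      obtain ⟨t, ht, rfl⟩ := hcs f hf
      exact hcomm y₀ (hKN' (hT'N hy₀)) t (hKN' (hTN ht))
    have heq := Subgroup.eq_of_le_of_card_ge hle (by omega)
    have : n ∈ T ⊓ Subgroup.centralizer ({y₀} : Set G) := heq.symm ▸ hnN₀
    exact hnT this.1

end Cfsg.Agent.Transfer.SectionRankBound
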