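import Cfsg.Agent.Transfer.HHReduction

/-!
Thompson's lemma for a semidirect product acting on a p-group of odd order.
-/

set_option autoImplicit false

namespace Cfsg.Agent.Transfer.ThompsonOdd

open scoped commutatorElement BigOperators

/-- On an abelian `p`-group: if `C(P) ≤ C(Q)` then `Q` acts trivially. -/
theorem fixed_of_abelian {A K : Type*} [CommGroup A] [Finite A] [Group K] [Finite K] {p : ℕ}
    [Fact p.Prime] (hA : IsPGroup p A) (ρ : K →* MulAut A) (P Q : Subgroup K) (hP : IsPGroup p P)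
    (hQ : (Nat.card Q).Coprime p) (hPQ : P ≤ Subgroup.normalizer (Q : Set K))
    (hC : ∀ x : A, (∀ a ∈ P, ρ a x = x) → ∀ b ∈ Q, ρ b x = x) : ∀ x : A, ∀ b ∈ Q, ρ b x = x := by
  classical
  haveI : Fintype Q := Fintype.ofFinite Q
  let e : A →* A := ∏ b : Q, (ρ (b : K)).toMonoidHom
  have he : ∀ x, e x = ∏ b : Q, ρ (b : K) x := fun x => by simp [e, MonoidHom.finsetProd_apply]
  have heq : ∀ a ∈ P, ∀ x, e (ρ a x) = ρ a (e x) := by
    intro a ha x
    have hn : ∀ b : Q, a⁻¹ * (b : K) * a ∈ Q := fun b => by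
      simpa using (Subgroup.mem_normalizer_iff.1 (inv_mem (hPQ ha)) (b : K)).1 b.2
    rw [he, he, map_prod]
    refine Fintype.prod_bijective (fun b : Q => (⟨a⁻¹ * (b : K) * a, hn b⟩ : Q)) ?_ _ _ fun b => ?_
    · refine (Finite.injective_iff_bijective).1 fun b c h => Subtype.ext ?_
      simpa using congrArg Subtype.val h
    · rw [← MulAut.mul_apply, ← MulAut.mul_apply, ← map_mul, ← map_mul]
      congr 2
      group
  letI : MulAction P e.ker :=
    { smul := fun a x => ⟨ρ (a : K) x, by rw [MonoidHom.mem_ker, heq _ a.2, x.2, map_one]⟩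
      one_smul := fun x => Subtype.ext (show ρ ((1 : P) : K) (x : A) = x by simp)
      mul_smul := fun a b x => Subtype.ext (show ρ ((a * b : P) : K) (x : A) = ρ (a : K) (ρ (b : K) x) by simp) }
  have hcop : ∀ y : A, y ^ Nat.card Q = 1 → y = 1 := fun y hy => by
    obtain ⟨k, hk⟩ := IsPGroup.iff_orderOf.1 hA y
    rw [← orderOf_eq_one_iff]
    exact Nat.eq_one_of_dvd_coprimes (hQ.pow_right k) (orderOf_dvd_of_pow_eq_one hy) hk.dvd
  have hker : e.ker = ⊥ := by
    by_contra hne
    haveI := (Subgroup.nontrivial_iff_ne_bot _).2 hne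
    obtain ⟨k, hk⟩ := IsPGroup.iff_card.1 (hA.to_subgroup e.ker)
    have hk0 : k ≠ 0 := by
      rintro rfl
      have := Finite.one_lt_card (α := e.ker)
      rw [hk] at this; simp at this
    obtain ⟨y, hy, hy1⟩ := hP.exists_fixed_point_of_prime_dvd_card_of_fixed_point e.ker
      (hk ▸ dvd_pow_self p hk0) (a := 1) (fun a => Subtype.ext (show ρ (a : K) ((1 : e.ker) : A) = 1 by simp))
    have hfix := hC (y : A) fun a ha => congrArg Subtype.val (hy ⟨a, ha⟩)
    have h2 : (y : A) ^ Nat.card Q = 1 := by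
      have h3 : e (y : A) = 1 := y.2
      rw [he, Finset.prod_congr rfl fun (b : Q) _ => hfix (b : K) b.2, Finset.prod_const, Finset.card_univ,
        ← Nat.card_eq_fintype_card] at h3
      exact h3
    exact hy1 (Subtype.ext (hcop _ h2).symm)
  intro x b hb
  apply (MonoidHom.ker_eq_bot_iff e).1 hker
  rw [he, he]
  refine Fintype.prod_equiv (Equiv.mulRight (⟨b, hb⟩ : Q)) _ _ fun c => ?_
  simp

/-- The Baer group of a class two group of exponent `p`. -/
def Baer (U : Type*) : Type _ := U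

variable {U : Type*} [Group U]

/-- The Baer operation. -/
def op (h : ℕ) (x y : U) : U := x * y * ⁅y, x⁆ ^ h

theorem map_op {V : Type*} [Group V] (f : U →* V) (h : ℕ) (x y : U) :
    f (op h x y) = op h (f x) (f y) := by simp [op, map_commutatorElement]

theorem op_one_left (h : ℕ) (x : U) : op h 1 x = x := by simp [op]

theorem op_one_right (h : ℕ) (x : U) : op h x 1 = x := by simp [op]

theorem op_inv_left (h : ℕ) (x : U) : op h x⁻¹ x = 1 := by
  have : ⁅x, x⁻¹⁆ = 1 := commutatorElement_eq_one_iff_commute.2 (Commute.inv_right (Commute.refl _))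
  simp [op, this]

/-- Transport to the Baer group. -/
def toBaer (x : U) : Baer U := x

/-- Transport from the Baer group. -/
def ofBaer (x : Baer U) : U := x

section

variable (hc : commutator U ≤ Subgroup.center U)
include hc

theorem op_assoc (h : ℕ) (x y z : U) : op h (op h x y) z = op h x (op h y z) := by
  have hcen : ∀ a b : U, ⁅a, b⁆ ∈ Subgroup.center U := FGS3.commutatorElement_mem_center hc
  have kl : ∀ c : U, c ∈ Subgroup.center U → ∀ v : U, ⁅c, v⁆ = 1 := fun c hcc v =>
    commutatorElement_eq_one_iff_mul_comm.2 (Subgroup.mem_center_iff.1 hcc v).symm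
  have kr : ∀ c : U, c ∈ Subgroup.center U → ∀ v : U, ⁅v, c⁆ = 1 := fun c hcc v =>
    commutatorElement_eq_one_iff_mul_comm.2 (Subgroup.mem_center_iff.1 hcc v)
  have e1 : ⁅z, op h x y⁆ = ⁅z, x⁆ * ⁅z, y⁆ := by
    rw [op, FGS3.commutatorElement_mul_right_of_center hc, FGS3.commutatorElement_mul_right_of_center hc,
      kr _ (pow_mem (hcen _ _) _), mul_one]
  have e2 : ⁅op h y z, x⁆ = ⁅y, x⁆ * ⁅z, x⁆ := by
    rw [op, FGS3.commutatorElement_mul_left_of_center hc, FGS3.commutatorElement_mul_left_of_center hc,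
      kl _ (pow_mem (hcen _ _) _), mul_one]
  have cm : ∀ a b : U, ∀ v : U, Commute (⁅a, b⁆ ^ h) v := fun a b v =>
    (Subgroup.mem_center_iff.1 (pow_mem (hcen a b) h) v).symm
  show op h x y * z * ⁅z, op h x y⁆ ^ h = x * op h y z * ⁅op h y z, x⁆ ^ h
  rw [e1, e2, (show Commute ⁅z, x⁆ ⁅z, y⁆ from (Subgroup.mem_center_iff.1 (hcen z y) _)).mul_pow,
    (show Commute ⁅y, x⁆ ⁅z, x⁆ from (Subgroup.mem_center_iff.1 (hcen z x) _)).mul_pow, op, op]
  rw [mul_assoc (x * y) (⁅y, x⁆ ^ h) z, (cm y x z).eq]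
  simp only [mul_assoc]
  congr 3
  rw [← mul_assoc]
  exact (cm z y _).eq.symm

theorem op_comm {p h : ℕ} (hp : ∀ c : U, c ^ p = 1) (hh : 2 * h = p + 1) (x y : U) :
    op h x y = op h y x := by
  have hcen := FGS3.commutatorElement_mem_center hc y x
  have h1 : y * x = x * y * ⁅y, x⁆ := by
    rw [Subgroup.mem_center_iff.1 hcen (x * y), commutatorElement_def]; group
  have h2 : ⁅y, x⁆ ^ h * ⁅y, x⁆ ^ h = ⁅y, x⁆ := by
    rw [← pow_add, ← two_mul, hh, pow_succ, hp, one_mul]
  rw [op, op, h1, ← commutatorElement_inv y x, inv_pow, mul_assoc (x * y)]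
  congr 1
  rw [eq_mul_inv_iff_mul_eq, h2]

end

variable {X : Type*} [Group X] [Finite X] {p : ℕ} [Fact p.Prime]

theorem centralizes (hp : p ≠ 2) (P Q G : Subgroup X) (hP : IsPGroup p P)
    (hQ : (Nat.card Q).Coprime p) (hPQ : P ≤ Subgroup.normalizer (Q : Set X)) (hG : IsPGroup p G)
    (hPG : P ≤ Subgroup.normalizer (G : Set X)) (hQG : Q ≤ Subgroup.normalizer (G : Set X))
    (hC : G ⊓ Subgroup.centralizer (P : Set X) ≤ Subgroup.centralizer (Q : Set X)) : ⁅G, Q⁆ = ⊥ := by
  by_contra hne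
  set B := P ⊔ Q with hB
  obtain ⟨U, ⟨hUG, hBU, hU⟩, hmin⟩ :=
    (Set.toFinite {U : Subgroup X | U ≤ G ∧ B ≤ Subgroup.normalizer (U : Set X) ∧ ⁅U, Q⁆ ≠ ⊥}).exists_minimal
      ⟨G, le_rfl, sup_le hPG hQG, hne⟩
  have hUp : IsPGroup p U := hG.to_le hUG
  obtain ⟨-, htype, -, hexp'⟩ := HHRed.reduction B Q U hUp hBU le_sup_right
    (sup_le hPQ Subgroup.le_normalizer) hQ hU (fun V hV hBV => by
      by_contra h
      exact hV.not_ge (hmin ⟨hV.le.trans hUG, hBV, h⟩ hV.le))
  have hexp : ∀ u : U, u ^ p = 1 := fun u => Subtype.ext (hexp' hp u u.2)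
  have hc : commutator U ≤ Subgroup.center U := by
    rcases htype with hel | hsp
    · intro c _
      rw [Subgroup.mem_center_iff]
      intro g
      haveI := hel.1
      exact Std.Commutative.comm g c
    · exact hsp.2.2.le
  obtain ⟨h, hh⟩ : ∃ h, 2 * h = p + 1 := by
    obtain ⟨k, hk⟩ := (Fact.out : p.Prime).odd_of_ne_two hp
    exact ⟨k + 1, by omega⟩
  letI : CommGroup (Baer U) :=
    { mul := fun x y => op (U := U) h x y
      mul_assoc := op_assoc hc h
      one := (1 : U)
      one_mul := op_one_left (U := U) h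
      mul_one := op_one_right (U := U) h
      inv := fun x => (Inv.inv (α := U) x)
      inv_mul_cancel := op_inv_left (U := U) h
      mul_comm := op_comm hc hexp hh }
  haveI : Finite (Baer U) := (inferInstance : Finite U)
  have hpow : ∀ (n : ℕ) (x : U), toBaer x ^ n = toBaer (x ^ n) := by
    intro n x
    induction n with
    | zero => rw [pow_zero, pow_zero]; rfl
    | succ n ih =>
      rw [pow_succ, ih]
      show op h (x ^ n) x = x ^ (n + 1)
      have hcomm : ⁅x, x ^ n⁆ = 1 :=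
        commutatorElement_eq_one_iff_commute.2 ((Commute.refl x).pow_right n)
      rw [op, hcomm, one_pow, mul_one, pow_succ]
  have hA : IsPGroup p (Baer U) := fun x => ⟨1, by
    rw [pow_one]; exact (hpow p x).trans (hexp x)⟩
  have hmem : ∀ k : B, ∀ u : U, (k : X) * u * (k : X)⁻¹ ∈ U := fun k u =>
    (Subgroup.mem_normalizer_iff.1 (hBU k.2) _).1 u.2
  have hmem' : ∀ k : B, ∀ u : U, (k : X)⁻¹ * u * (k : X) ∈ U := fun k u => by
    simpa using (Subgroup.mem_normalizer_iff.1 (inv_mem (hBU k.2)) (u : X)).1 u.2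
  have hsub : ∀ a b : U, ((op h a b : U) : X) = op h (a : X) (b : X) := map_op U.subtype h
  let ρ : B →* MulAut (Baer U) :=
    { toFun := fun k =>
        { toFun := fun u => (⟨(k : X) * ((ofBaer u : U) : X) * (k : X)⁻¹, hmem k u⟩ : U)
          invFun := fun u => (⟨(k : X)⁻¹ * ((ofBaer u : U) : X) * (k : X), hmem' k u⟩ : U)
          left_inv := fun u => Subtype.ext (by
            show (k : X)⁻¹ * ((k : X) * ((ofBaer u : U) : X) * (k : X)⁻¹) * k = ((ofBaer u : U) : X); group)
          right_inv := fun u => Subtype.ext (by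
            show (k : X) * ((k : X)⁻¹ * ((ofBaer u : U) : X) * (k : X)) * (k : X)⁻¹ = ((ofBaer u : U) : X); group)
          map_mul' := fun u v => Subtype.ext (by
            show MulAut.conj (k : X) ((op h (ofBaer u) (ofBaer v) : U) : X) =
              ((op h (⟨_, hmem k u⟩ : U) (⟨_, hmem k v⟩ : U) : U) : X)
            rw [hsub, hsub]
            exact map_op (MulAut.conj (k : X)).toMonoidHom h _ _) }
      map_one' := MulEquiv.ext fun u => Subtype.ext (by
        show ((1 : B) : X) * ((ofBaer u : U) : X) * ((1 : B) : X)⁻¹ = ((ofBaer u : U) : X); simp)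
      map_mul' := fun k l => MulEquiv.ext fun u => Subtype.ext (by
        show ((k * l : B) : X) * ((ofBaer u : U) : X) * ((k * l : B) : X)⁻¹ =
          (k : X) * ((l : X) * ((ofBaer u : U) : X) * (l : X)⁻¹) * (k : X)⁻¹
        rw [Subgroup.coe_mul]; group) }
  have hfix := fixed_of_abelian hA ρ (P.subgroupOf B) (Q.subgroupOf B)
    (hP.of_equiv (Subgroup.subgroupOfEquivOfLe le_sup_left).symm)
    (by rwa [Nat.card_congr (Subgroup.subgroupOfEquivOfLe (le_sup_right : Q ≤ B)).toEquiv])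
    (fun a ha => by
      rw [Subgroup.mem_normalizer_iff]
      intro b
      show (b : X) ∈ Q ↔ (a : X) * b * (a : X)⁻¹ ∈ Q
      exact Subgroup.mem_normalizer_iff.1 (hPQ ha) b)
    (fun u hu b hb => by
      have h1 : ((ofBaer u : U) : X) ∈ Subgroup.centralizer (Q : Set X) := by
        refine hC ⟨hUG (ofBaer u).2, Subgroup.mem_centralizer_iff.2 fun a ha => ?_⟩
        exact mul_inv_eq_iff_eq_mul.1 (congrArg (fun t : U => (t : X)) (hu ⟨a, le_sup_left (a := P) ha⟩ ha))
      exact Subtype.ext (mul_inv_eq_iff_eq_mul.2 (Subgroup.mem_centralizer_iff.1 h1 (b : X) hb)))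
  apply hU
  rw [Subgroup.commutator_eq_bot_iff_le_centralizer]
  intro u hu
  rw [Subgroup.mem_centralizer_iff]
  intro b hb
  exact mul_inv_eq_iff_eq_mul.1 (congrArg (fun t : U => (t : X)) (hfix (toBaer ⟨u, hu⟩) ⟨b, le_sup_right (a := P) hb⟩ hb))

end Cfsg.Agent.Transfer.ThompsonOdd
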