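import Mathlib
import Cfsg.Agent.FGS3.PGroupFrattini
import Cfsg.Agent.FGS3.ClassTwo

/-!
Sign sums of quadratic maps on 2-groups.
-/

set_option autoImplicit false

namespace Cfsg.Agent.Transfer.Quad

open scoped BigOperators commutatorElement
open Classical

variable {G : Type*} [Group G] [Fintype G]

/-- The square of the sign sum of a quadratic sign map. -/
theorem sum_sq (ε : G → ℤ) (B : G → G → ℤ) (hε : ∀ g, ε g = 1 ∨ ε g = -1)
    (hB : ∀ g h, ε (g * h) = ε g * ε h * B g h)
    (hBl : ∀ g g' h, B (g * g') h = B g h * B g' h)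
    (hBr : ∀ g h h', B g (h * h') = B g h * B g h') :
    (∑ g, ε g) = 0 ∨ ∃ R : Subgroup G, (∀ u, u ∈ R ↔ ∀ g, B g u = 1) ∧ (∀ u ∈ R, ε u = 1) ∧
      (∑ g, ε g) * (∑ g, ε g) = (Nat.card G : ℤ) * (Nat.card R : ℤ) := by
  have hε2 : ∀ g, ε g * ε g = 1 := fun g => by rcases hε g with h | h <;> rw [h] <;> norm_num
  have hB0 : ∀ g h, B g h = 1 ∨ B g h = -1 := fun g h => by
    have := hB g h
    rcases hε (g * h) with a | a <;> rcases hε g with b | b <;> rcases hε h with c | c <;>
      rw [a, b, c] at this <;> omega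
  have hB2 : ∀ g h, B g h * B g h = 1 := fun g h => by rcases hB0 g h with a | a <;> rw [a] <;> norm_num
  let M : Submonoid G :=
    { carrier := {u | ∀ g, B g u = 1}
      mul_mem' := fun {u v} hu hv g => by rw [hBr, hu g, hv g]; norm_num
      one_mem' := fun g => by
        have h := hBr g 1 1
        rw [one_mul, ] at h
        rcases hB0 g 1 with a | a
        · exact a
        · rw [a] at h; norm_num at h }
  have hinv : ∀ u ∈ M, u⁻¹ ∈ M := fun u hu g => by
    have h := hBr g u u⁻¹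
    rw [mul_inv_cancel, M.one_mem g, hu g, one_mul] at h
    exact h.symm
  let R : Subgroup G := { M with inv_mem' := fun {u} hu => hinv u hu }
  have hR : ∀ u, u ∈ R ↔ ∀ g, B g u = 1 := fun u => Iff.rfl
  have hinner : ∀ u, (∑ g, B g u) = if u ∈ R then (Nat.card G : ℤ) else 0 := by
    intro u
    by_cases hu : u ∈ R
    · rw [if_pos hu, Finset.sum_congr rfl (fun g _ => hu g)]
      simp [Nat.card_eq_fintype_card]
    · rw [if_neg hu]
      obtain ⟨w, hw⟩ : ∃ w, B w u ≠ 1 := by simpa [hR] using hu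
      have hw' : B w u = -1 := (hB0 w u).resolve_left hw
      have h := Fintype.sum_equiv (Equiv.mulLeft w) (fun g => B (w * g) u) (fun g => B g u) (fun g => rfl)
      simp only [hBl, hw'] at h
      rw [← Finset.mul_sum] at h
      omega
  have hSS : (∑ g, ε g) * (∑ g, ε g) =
      (Nat.card G : ℤ) * ∑ u, if u ∈ R then ε u else 0 := by
    calc (∑ g, ε g) * (∑ g, ε g) = ∑ g, ∑ u, ε u * B g u := by
          rw [Finset.sum_mul]
          refine Finset.sum_congr rfl fun g _ => ?_
          rw [Finset.mul_sum]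
          refine (Fintype.sum_equiv (Equiv.mulLeft g) _ _ fun u => ?_).symm
          show ε u * B g u = ε g * ε (g * u)
          rw [hB, ← mul_assoc, ← mul_assoc, hε2, one_mul]
      _ = ∑ u, ∑ g, ε u * B g u := Finset.sum_comm
      _ = ∑ u, ε u * (if u ∈ R then (Nat.card G : ℤ) else 0) := by
          simp only [← Finset.mul_sum, hinner]
      _ = (Nat.card G : ℤ) * ∑ u, if u ∈ R then ε u else 0 := by
          rw [Finset.mul_sum]
          refine Finset.sum_congr rfl fun u _ => ?_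
          split_ifs <;> ring
  by_cases hall : ∀ u ∈ R, ε u = 1
  · refine Or.inr ⟨R, hR, hall, hSS.trans ?_⟩
    congr 1
    rw [← Finset.sum_filter, Finset.sum_congr rfl (fun u hu => hall u (Finset.mem_filter.1 hu).2),
      Finset.sum_const, Nat.smul_one_eq_cast, ← Fintype.card_subtype, Nat.card_eq_fintype_card]
  · left
    push Not at hall
    obtain ⟨w, hwR, hw⟩ := hall
    have hw' : ε w = -1 := (hε w).resolve_left hw
    have hz : (∑ u, if u ∈ R then ε u else 0) = 0 := by
      have h := Fintype.sum_equiv (Equiv.mulLeft w) (fun u => if w * u ∈ R then ε (w * u) else 0)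
        (fun u => if u ∈ R then ε u else 0) (fun u => rfl)
      have h2 : ∀ u, (if w * u ∈ R then ε (w * u) else 0) = - (if u ∈ R then ε u else 0) := by
        intro u
        by_cases hu : u ∈ R
        · rw [if_pos (mul_mem hwR hu), if_pos hu, hB, hu w, hw']; ring
        · rw [if_neg hu, if_neg fun h => hu ((Subgroup.mul_mem_cancel_left R hwR).1 h), neg_zero]
      simp only [h2, Finset.sum_neg_distrib] at h
      omega
    rw [hz, mul_zero] at hSS
    exact mul_self_eq_zero.1 hSS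

/-- `2`-valued sign of a unit. -/
noncomputable def pm (u : ℂˣ) : ℤ := if u = 1 then 1 else -1

theorem pm_mul {u v : ℂˣ} (hu : u ^ 2 = 1) (hv : v ^ 2 = 1) : pm (u * v) = pm u * pm v := by
  have key : ∀ w : ℂˣ, w ^ 2 = 1 → w = 1 ∨ w = -1 := fun w hw => by
    have : (w : ℂ) ^ 2 = 1 := by rw [← Units.val_pow_eq_pow_val, hw, Units.val_one]
    rcases sq_eq_one_iff.1 this with h | h
    · exact Or.inl (Units.ext (by simpa using h))
    · exact Or.inr (Units.ext (by simpa using h))
  have hne : (-1 : ℂˣ) ≠ 1 := fun h => by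
    have := congrArg Units.val h
    norm_num at this
  rcases key u hu with rfl | rfl <;> rcases key v hv with rfl | rfl <;> simp [pm, hne]

/-- A quadratic map without nontrivial zeros has at most twice as many variables as values. -/
theorem bound (hG : IsPGroup 2 G) (Φ : Subgroup G) {T : Type*} [CommGroup T] [Finite T]
    (hT : ∀ t : T, t ^ 2 = 1) (q : G → T) (β : G → G → T)
    (hq : ∀ g h, q (g * h) = q g * q h * β g h)
    (hl : ∀ g g' h, β (g * g') h = β g h * β g' h)
    (hr : ∀ g h h', β g (h * h') = β g h * β g h')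
    (hrad : ∀ g, ∀ f ∈ Φ, β g f = 1) (hzero : ∀ g, q g = 1 ↔ g ∈ Φ) :
    Nat.card G ≤ Nat.card Φ * Nat.card T ^ 2 := by
  haveI : Fact (Nat.Prime 2) := ⟨Nat.prime_two⟩
  haveI : Fintype T := Fintype.ofFinite T
  haveI : Finite (T →* ℂˣ) := by
    apply Nat.finite_of_card_ne_zero
    rw [CommGroup.card_monoidHom_of_hasEnoughRootsOfUnity]
    exact Nat.card_pos.ne'
  haveI : Fintype (T →* ℂˣ) := Fintype.ofFinite _
  obtain ⟨N, hN⟩ := IsPGroup.iff_card.1 hG
  obtain ⟨f, hf⟩ := IsPGroup.iff_card.1 (hG.to_subgroup Φ)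
  obtain ⟨m, hm⟩ := IsPGroup.iff_card.1 (show IsPGroup 2 T from fun t => ⟨1, by simpa using hT t⟩)
  rw [hN, hf, hm, ← pow_mul, ← pow_add]
  apply Nat.pow_le_pow_right (by norm_num)
  by_contra hlt
  push Not at hlt
  have hchi : ∀ (χ : T →* ℂˣ) (t : T), χ t ^ 2 = 1 := fun χ t => by rw [← map_pow, hT, map_one]
  have hdiv : ∀ χ : T →* ℂˣ, (2 : ℤ) ^ (f + m + 1) ∣ ∑ g, pm (χ (q g)) := by
    intro χ
    rcases sum_sq (fun g => pm (χ (q g))) (fun g h => pm (χ (β g h)))
      (fun g => by unfold pm; split_ifs <;> simp)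
      (fun g h => by
        rw [hq, map_mul, pm_mul (hchi χ _) (hchi χ _), map_mul, pm_mul (hchi χ _) (hchi χ _)])
      (fun g g' h => by rw [hl, map_mul, pm_mul (hchi χ _) (hchi χ _)])
      (fun g h h' => by rw [hr, map_mul, pm_mul (hchi χ _) (hchi χ _)]) with h | ⟨R, hR, -, h⟩
    · rw [h]; exact dvd_zero _
    obtain ⟨s, hs⟩ := IsPGroup.iff_card.1 (hG.to_subgroup R)
    have hfs : f ≤ s := by
      have hle : Φ ≤ R := fun x hx => (hR x).2 fun g => by simp [pm, hrad g x hx]
      have := Subgroup.card_le_of_le hle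
      rw [hf, hs] at this
      exact (Nat.pow_le_pow_iff_right (by norm_num)).1 this
    set S := ∑ g, pm (χ (q g)) with hS
    have h1 : S.natAbs * S.natAbs = 2 ^ (N + s) := by
      rw [← Int.natAbs_mul, h, hN, hs, ← Nat.cast_mul, Int.natAbs_natCast, pow_add]
    obtain ⟨e, -, he⟩ := (Nat.dvd_prime_pow Nat.prime_two).1 (Dvd.intro _ h1)
    rw [he, ← pow_add] at h1
    have h2 : e + e = N + s := Nat.pow_right_injective le_rfl h1
    have h3 : (2 : ℤ) ^ (f + m + 1) ∣ (S.natAbs : ℤ) := by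
      rw [he]; push_cast; exact pow_dvd_pow 2 (by omega)
    exact Int.dvd_natAbs.1 h3
  have hsum : (∑ χ : T →* ℂˣ, ∑ g, pm (χ (q g))) = ((2 ^ m * 2 ^ f : ℕ) : ℤ) := by
    rw [Finset.sum_comm]
    have hin : ∀ t : T, (∑ χ : T →* ℂˣ, pm (χ t)) = if t = 1 then ((2 ^ m : ℕ) : ℤ) else 0 := by
      intro t
      by_cases ht : t = 1
      · simp only [ht, map_one, pm, if_pos, Finset.sum_const, Finset.card_univ, Nat.smul_one_eq_cast]
        rw [← Nat.card_eq_fintype_card, CommGroup.card_monoidHom_of_hasEnoughRootsOfUnity, hm]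
      · rw [if_neg ht]
        obtain ⟨φ, hφ⟩ := CommGroup.exists_apply_ne_one_of_hasEnoughRootsOfUnity T ℂ ht
        have h := Fintype.sum_equiv (Equiv.mulLeft φ) (fun χ : T →* ℂˣ => pm ((φ * χ) t))
          (fun χ => pm (χ t)) (fun χ => rfl)
        have hp : pm (φ t) = -1 := by simp [pm, hφ]
        simp only [MonoidHom.mul_apply, pm_mul (hchi φ _) (hchi _ _), hp] at h
        rw [← Finset.mul_sum] at h
        omega
    simp only [hin, hzero]
    rw [← Finset.sum_filter, Finset.sum_const, ← Fintype.card_subtype, ← Nat.card_eq_fintype_card,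
      hf, nsmul_eq_mul]
    push_cast; ring
  have h5 : (2 : ℤ) ^ (f + m + 1) ∣ ((2 ^ m * 2 ^ f : ℕ) : ℤ) :=
    hsum ▸ Finset.dvd_sum fun χ _ => hdiv χ
  rw [← pow_add, show (2 : ℤ) ^ (f + m + 1) = ((2 ^ (f + m + 1) : ℕ) : ℤ) from by push_cast; rfl,
    Int.natCast_dvd_natCast, Nat.pow_dvd_pow_iff_le_right (by norm_num)] at h5
  omega

/-- Group form: `U` with squares in `W`, none of them in `K` outside `Φ`. -/
theorem bound_sub {H : Type*} [Group H] [Finite H] (hH : IsPGroup 2 H) (Φ U K W : Subgroup H)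
    (hΦc : Φ ≤ Subgroup.center H) (hΦe : ∀ x ∈ Φ, x ^ 2 = 1) (hcomm : commutator H ≤ Φ)
    (hΦU : Φ ≤ U) (hKW : K ≤ W) (hWΦ : W ≤ Φ) (hsq : ∀ u ∈ U, u ^ 2 ∈ W)
    (hnz : ∀ u ∈ U, u ^ 2 ∈ K → u ∈ Φ) :
    Nat.card U * Nat.card K ^ 2 ≤ Nat.card Φ * Nat.card W ^ 2 := by
  haveI : Fintype U := Fintype.ofFinite U
  have hc : commutator H ≤ Subgroup.center H := hcomm.trans hΦc
  letI : CommGroup W :=
    { (inferInstance : Group W) with
      mul_comm := fun a b => Subtype.ext (Subgroup.mem_center_iff.1 (hΦc (hWΦ b.2)) a) }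
  have hcm : ∀ a b : U, ⁅(b : H), (a : H)⁆ ∈ W := fun a b => by
    have h := FGS3.mul_pow_of_center hc (a : H) b 2
    rw [Nat.choose_self, pow_one] at h
    have h2 : ⁅(b : H), (a : H)⁆ = ((a : H) ^ 2 * (b : H) ^ 2)⁻¹ * ((a : H) * b) ^ 2 := by
      rw [h, inv_mul_cancel_left]
    rw [h2]
    exact mul_mem (inv_mem (mul_mem (hsq _ a.2) (hsq _ b.2))) (hsq _ (mul_mem a.2 b.2))
  let π := QuotientGroup.mk' (K.subgroupOf W)
  have hb := bound (hH.to_subgroup U) (Φ.subgroupOf U) (T := W ⧸ K.subgroupOf W)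
    (fun t => by
      obtain ⟨w, rfl⟩ := QuotientGroup.mk_surjective t
      rw [← QuotientGroup.mk_pow, show w ^ 2 = 1 from Subtype.ext (hΦe _ (hWΦ w.2))]; rfl)
    (fun u => π ⟨(u : H) ^ 2, hsq _ u.2⟩) (fun a b => π ⟨⁅(b : H), (a : H)⁆, hcm a b⟩)
    (fun a b => by
      rw [← map_mul, ← map_mul]
      congr 1
      apply Subtype.ext
      show ((a : H) * b) ^ 2 = _
      rw [FGS3.mul_pow_of_center hc, Nat.choose_self, pow_one]; rfl)
    (fun a a' b => by
      rw [← map_mul]
      congr 1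
      exact Subtype.ext (FGS3.commutatorElement_mul_right_of_center hc _ _ _))
    (fun a b b' => by
      rw [← map_mul]
      congr 1
      exact Subtype.ext (FGS3.commutatorElement_mul_left_of_center hc _ _ _))
    (fun a x hx => by
      rw [← map_one π]
      congr 1
      apply Subtype.ext
      show ⁅(x : H), (a : H)⁆ = 1
      rw [commutatorElement_eq_one_iff_mul_comm]
      exact (Subgroup.mem_center_iff.1 (hΦc hx) _).symm)
    (fun u => by
      refine (QuotientGroup.eq_one_iff _).trans ⟨fun h => hnz _ u.2 h, fun h => ?_⟩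
      show (u : H) ^ 2 ∈ K
      rw [hΦe (u : H) h]; exact one_mem _)
  have e1 : Nat.card W = Nat.card (W ⧸ K.subgroupOf W) * Nat.card K := by
    rw [Subgroup.card_eq_card_quotient_mul_card_subgroup (K.subgroupOf W),
      Nat.card_congr (Subgroup.subgroupOfEquivOfLe hKW).toEquiv]
  rw [Nat.card_congr (Subgroup.subgroupOfEquivOfLe hΦU).toEquiv] at hb
  rw [e1, mul_pow, ← mul_assoc]
  exact Nat.mul_le_mul_right _ hb

end Cfsg.Agent.Transfer.Quad
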