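import Cfsg.Prelude.Def_CaseTheorems
import Cfsg.Agent.Transfer.HHReduction
import Cfsg.Agent.Transfer.QuadSum

/-!
Fixed-point-free cyclic 3-groups on 2-groups of abelian rank two.
-/

set_option autoImplicit false

namespace Cfsg.Agent.Transfer.ThreeFPF

open scoped commutatorElement

variable {X : Type*} [Group X] [Finite X]

theorem mem_zpowers_top_order {d : X} {n : ℕ} (hd : orderOf d = 3 ^ (n + 1)) {k : X}
    (hk : k ∈ Subgroup.zpowers d) (hk1 : k ≠ 1) : d ^ (3 ^ n) ∈ Subgroup.zpowers k := by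
  obtain ⟨i, rfl⟩ := (mem_powers_iff_mem_zpowers (x := d)).2 hk
  have hi : ¬ 3 ^ (n + 1) ∣ i := fun h => hk1 (by
    obtain ⟨j, rfl⟩ := h; show d ^ (3 ^ (n + 1) * j) = 1; rw [pow_mul, ← hd, pow_orderOf_eq_one, one_pow])
  obtain ⟨a, u, hu, rfl⟩ := Nat.exists_eq_pow_mul_and_not_dvd (n := i) (fun h => hi (h ▸ dvd_zero _)) 3 (by norm_num)
  have han : a ≤ n := by
    by_contra h
    exact hi (Dvd.dvd.mul_right (Nat.pow_dvd_pow 3 (by omega)) u)
  refine Subgroup.mem_zpowers_iff.2 ⟨((3 ^ (n - a) * u : ℕ) : ℤ), ?_⟩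
  rw [zpow_natCast, ← pow_mul]
  have h3 : u * u % 3 = 1 := by
    rw [Nat.mul_mod]
    have : u % 3 = 1 ∨ u % 3 = 2 := by omega
    rcases this with h | h <;> rw [h]
  rw [show 3 ^ a * u * (3 ^ (n - a) * u) = 3 ^ n * (u * u) by
    rw [show 3 ^ n = 3 ^ a * 3 ^ (n - a) by rw [← pow_add]; congr 1; omega]; ring]
  rw [pow_mul]
  conv_lhs => rw [← Nat.mod_add_div (u * u) 3, h3]
  rw [pow_add, pow_one, pow_mul]
  have : (d ^ 3 ^ n) ^ 3 = 1 := by rw [← pow_mul, ← pow_succ, ← hd, pow_orderOf_eq_one]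
  rw [this, one_pow, mul_one]

theorem order_three (d : X) (n : ℕ) (hn : 1 ≤ n) (hd : orderOf d = 3 ^ n) (P : Subgroup X)
    (hP : IsPGroup 2 P) (hdP : d ∈ Subgroup.normalizer (P : Set X))
    (hfaith : Subgroup.zpowers d ⊓ Subgroup.centralizer (P : Set X) = ⊥)
    (hfpf : P ⊓ Subgroup.centralizer {d} = ⊥)
    (hrank : ∀ V : Subgroup X, V ≤ P → IsMulCommutative V → Cfsg.PRankLE 2 2 V) : orderOf d = 3 := by
  classical
  haveI : Fact (Nat.Prime 2) := ⟨Nat.prime_two⟩
  obtain ⟨m, rfl⟩ : ∃ m, n = m + 1 := ⟨n - 1, by omega⟩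
  rcases Nat.eq_zero_or_pos m with rfl | hm
  · simpa using hd
  exfalso
  have hrank' : ∀ E : Subgroup X, E ≤ P → IsMulCommutative E → (∀ x ∈ E, x ^ 2 = 1) → Nat.card E ≤ 4 := by
    intro E hEP hEc hE2
    have h := hrank E hEP hEc ⊤ ⟨⟨fun a b => Subtype.ext (Subtype.ext (by
      haveI := hEc
      exact congrArg Subtype.val (Std.Commutative.comm (op := (· * ·)) (a : E) (b : E))))⟩⟩
      fun x _ => Subtype.ext (hE2 x x.2)
    rwa [Subgroup.card_top] at h
  set D := Subgroup.zpowers d with hD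
  set e := d ^ 3 ^ m with he
  set A := Subgroup.zpowers e with hA
  have heD : e ∈ D := pow_mem (Subgroup.mem_zpowers d) _
  have hAD : A ≤ D := Subgroup.zpowers_le.2 heD
  have he1 : e ≠ 1 := fun h => by
    have := Nat.le_of_dvd (by positivity) (orderOf_dvd_of_pow_eq_one h)
    rw [hd, pow_succ] at this
    have := Nat.one_le_pow m 3 (by norm_num)
    omega
  have hAcop : (Nat.card A).Coprime 2 := by
    refine Nat.Coprime.of_dvd_left (Subgroup.card_dvd_of_le hAD) ?_
    rw [hD, Nat.card_zpowers, hd]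
    exact Nat.Coprime.pow_left _ (by norm_num)
  have hne : ⁅P, A⁆ ≠ ⊥ := by
    intro h
    rw [Subgroup.commutator_eq_bot_iff_le_centralizer] at h
    refine he1 ((Subgroup.eq_bot_iff_forall _).1 hfaith e ⟨heD, Subgroup.mem_centralizer_iff.2 fun x hx => ?_⟩)
    exact (Subgroup.mem_centralizer_iff.1 (h hx) e (Subgroup.mem_zpowers e)).symm
  obtain ⟨U, ⟨hUP, hDU, hU⟩, hmin⟩ :=
    (Set.toFinite {U : Subgroup X | U ≤ P ∧ D ≤ Subgroup.normalizer (U : Set X) ∧ ⁅U, A⁆ ≠ ⊥}).exists_minimal
      ⟨P, le_rfl, Subgroup.zpowers_le.2 hdP, hne⟩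
  have hUp : IsPGroup 2 U := hP.to_le hUP
  obtain ⟨hfull, htype, -, -⟩ := HHRed.reduction D A U hUp hDU hAD
    (fun g hg => (Subgroup.centralizer_le_normalizer (A : Set X)) (Subgroup.mem_centralizer_iff.2 fun a ha => by
      obtain ⟨i, rfl⟩ := Subgroup.mem_zpowers_iff.1 hg
      obtain ⟨j, rfl⟩ := Subgroup.mem_zpowers_iff.1 (hAD ha)
      rw [← zpow_add, ← zpow_add, add_comm]))
    hAcop hU (fun V hV hDV => by
      by_contra h
      exact hV.not_ge (hmin ⟨hV.le.trans hUP, hDV, h⟩ hV.le))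
  have hAU : A ≤ Subgroup.normalizer (U : Set X) := hAD.trans hDU
  have hcopU := Coprime.coprime_card_of_isPGroup hUp hAcop
  -- the action of `D` on `U / Φ(U)`
  let φ : D → U ≃* U := fun k =>
    { toFun := fun u => ⟨(k : X) * u * (k : X)⁻¹, (Subgroup.mem_normalizer_iff.1 (hDU k.2) _).1 u.2⟩
      invFun := fun u => ⟨(k : X)⁻¹ * u * (k : X), by
        simpa using (Subgroup.mem_normalizer_iff.1 (inv_mem (hDU k.2)) (u : X)).1 u.2⟩
      left_inv := fun u => Subtype.ext (by show (k : X)⁻¹ * ((k : X) * u * (k : X)⁻¹) * k = u; group)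
      right_inv := fun u => Subtype.ext (by show (k : X) * ((k : X)⁻¹ * u * (k : X)) * (k : X)⁻¹ = u; group)
      map_mul' := fun u v => Subtype.ext (by
        show (k : X) * ((u : X) * v) * (k : X)⁻¹ = (k : X) * u * (k : X)⁻¹ * ((k : X) * v * (k : X)⁻¹); group) }
  haveI : (frattini U).Normal := inferInstance
  let ψ : D → (U ⧸ frattini U) → (U ⧸ frattini U) := fun k =>
    QuotientGroup.map _ _ (φ k).toMonoidHom
      (Subgroup.Characteristic.fixed (H := frattini U) inferInstance (φ k)).ge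
  have hψ : ∀ (k : D) (u : U), ψ k (u : U ⧸ frattini U) = ((φ k u : U) : U ⧸ frattini U) := fun k u => rfl
  let S := {q : U ⧸ frattini U // q ≠ 1}
  have hψne : ∀ (k : D) (q : S), ψ k q.1 ≠ 1 := by
    intro k q h
    obtain ⟨u, hu⟩ := QuotientGroup.mk_surjective q.1
    rw [← hu, hψ, QuotientGroup.eq_one_iff] at h
    apply q.2
    rw [← hu, QuotientGroup.eq_one_iff]
    have h2 := Subgroup.Characteristic.fixed (H := frattini U) inferInstance (φ k)
    rw [← h2]
    exact h
  letI : MulAction D S :=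
    { smul := fun k q => ⟨ψ k q.1, hψne k q⟩
      one_smul := fun q => Subtype.ext (by
        show ψ 1 q.1 = q.1
        obtain ⟨u, hu⟩ := QuotientGroup.mk_surjective q.1
        rw [← hu, hψ]
        congr 1
        exact Subtype.ext (by show ((1 : D) : X) * u * ((1 : D) : X)⁻¹ = u; simp))
      mul_smul := fun k l q => Subtype.ext (by
        show ψ (k * l) q.1 = ψ k (ψ l q.1)
        obtain ⟨u, hu⟩ := QuotientGroup.mk_surjective q.1
        rw [← hu, hψ, hψ, hψ]
        congr 1
        exact Subtype.ext (by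
          show ((k * l : D) : X) * u * ((k * l : D) : X)⁻¹ = (k : X) * ((l : X) * u * (l : X)⁻¹) * (k : X)⁻¹
          rw [Subgroup.coe_mul]; group)) }
  have hfree : ∀ q : S, MulAction.stabilizer D q = ⊥ := by
    intro q
    rw [Subgroup.eq_bot_iff_forall]
    intro k hk
    by_contra hk1
    have hke := mem_zpowers_top_order hd k.2 (fun h => hk1 (Subtype.ext h))
    obtain ⟨i, hi⟩ := Subgroup.mem_zpowers_iff.1 hke
    obtain ⟨u, hu⟩ := QuotientGroup.mk_surjective q.1
    -- `A` fixes the coset of `u`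
    have hfix : ∀ a ∈ A, ⁅(u : X), a⁆ ∈ (frattini U).map U.subtype := by
      intro a ha
      obtain ⟨j, hj⟩ := Subgroup.mem_zpowers_iff.1 ha
      have hmem : (k ^ (i * j) : D) ∈ MulAction.stabilizer D q := zpow_mem hk _
      have h1 : ψ (k ^ (i * j)) q.1 = q.1 := congrArg Subtype.val (MulAction.mem_stabilizer_iff.1 hmem)
      rw [← hu, hψ, QuotientGroup.eq] at h1
      have hka : ((k ^ (i * j) : D) : X) = a := by
        rw [Subgroup.coe_zpow, zpow_mul, hi, ← he, hj]
      refine ⟨u * ((φ (k ^ (i * j)) u)⁻¹), ?_, ?_⟩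
      · exact (inferInstance : (frattini U).Normal).mem_comm h1
      · show (u : X) * (((k ^ (i * j) : D) : X) * u * ((k ^ (i * j) : D) : X)⁻¹)⁻¹ = _
        rw [hka, commutatorElement_def]; group
    haveI : Group.IsSolvable A := inferInstance
    obtain ⟨mm, hmm, c, hc, huc⟩ := Coprime.exists_mul_centralizer hAU hcopU (Subgroup.map_subtype_le _)
      (hAU.trans (HHRed.normalizer_map_char _)) u.2 hfix
    obtain ⟨w, hw, rfl⟩ := hmm
    have hcΦ : (⟨c, hc.1⟩ : U) ∈ frattini U := HHRed.mem_of_fixed hAU hcopU hfull _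
      (FGS3.commutator_le_frattini hUp) fun a ha => (Subgroup.mem_centralizer_iff.1 hc.2 a ha)
    apply q.2
    rw [← hu, QuotientGroup.eq_one_iff]
    rw [show u = w * ⟨c, hc.1⟩ from Subtype.ext huc]
    exact mul_mem hw hcΦ
  have hdvd : Nat.card D ∣ Nat.card S := by
    rw [Nat.card_congr (MulAction.selfEquivSigmaOrbitsQuotientStabilizer D S)]
    haveI := Fintype.ofFinite (Quotient (MulAction.orbitRel D S))
    rw [Nat.card_sigma]
    refine Finset.dvd_sum fun o _ => ?_
    rw [← Subgroup.index_eq_card, hfree, Subgroup.index_bot]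
  have hUne : U ≠ ⊥ := fun h => hU (by rw [h]; exact Subgroup.commutator_bot_left A)
  haveI : Nontrivial U := (Subgroup.nontrivial_iff_ne_bot U).2 hUne
  obtain ⟨k, hk⟩ := IsPGroup.iff_card.1 (hUp.to_quotient (frattini U))
  have hk0 : k ≠ 0 := by
    rintro rfl
    have htop : frattini U = ⊤ := by
      rw [← Subgroup.index_eq_one, Subgroup.index_eq_card, hk, pow_zero]
    exact bot_ne_top (α := Subgroup U) (frattini_nongenerating (K := ⊥) (by rw [htop, bot_sup_eq]))
  have hScard : Nat.card S = 2 ^ k - 1 := by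
    haveI := Fintype.ofFinite (U ⧸ frattini U)
    rw [Nat.card_eq_fintype_card, Fintype.card_subtype, Finset.filter_ne', Finset.card_erase_of_mem (Finset.mem_univ _),
      Finset.card_univ, ← Nat.card_eq_fintype_card, hk]
  have h9 : 9 ∣ 2 ^ k - 1 := by
    rw [← hScard]
    refine dvd_trans ?_ hdvd
    rw [hD, Nat.card_zpowers, hd, show (9 : ℕ) = 3 ^ 2 from rfl]
    exact Nat.pow_dvd_pow 3 (by omega)
  have hk6 : 6 ≤ k := by
    by_contra h
    interval_cases k <;> omega
  have hcardU : Nat.card U = 2 ^ k * Nat.card (frattini U) := by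
    rw [← (frattini U).card_mul_index, Subgroup.index_eq_card, hk, mul_comm]
  have hpow : 64 ≤ 2 ^ k := le_trans (by norm_num) (Nat.pow_le_pow_right (by norm_num) hk6)
  rcases htype with hel | ⟨-, hΦZ, hder⟩
  · have h1 := hrank' U hUP hel.1 fun x hx => hel.2 x hx
    have h2 : 0 < Nat.card (frattini U) := Nat.card_pos
    rw [hcardU] at h1
    nlinarith
  · have hc : commutator U ≤ Subgroup.center U := hder.le
    have hsq : ∀ y : U, y ^ 2 ∈ Subgroup.center U := fun y => hΦZ ▸ FGS3.pow_mem_frattini hUp y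
    let T : Subgroup U :=
      { carrier := {y | y ∈ Subgroup.center U ∧ y ^ 2 = 1}
        mul_mem' := fun {y z} hy hz => ⟨mul_mem hy.1 hz.1, by
          rw [Commute.mul_pow ((Subgroup.mem_center_iff.1 hz.1 y)), hy.2, hz.2, one_mul]⟩
        one_mem' := ⟨one_mem _, one_pow _⟩
        inv_mem' := fun {y} hy => ⟨inv_mem hy.1, by rw [inv_pow, hy.2, inv_one]⟩ }
    have hT : commutator U ≤ T := by
      show ⁅(⊤ : Subgroup U), ⊤⁆ ≤ T
      rw [Subgroup.commutator_le]
      intro y _ z _
      refine ⟨hc (Subgroup.commutator_mem_commutator (Subgroup.mem_top _) (Subgroup.mem_top _)), ?_⟩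
      rw [← FGS3.commutatorElement_pow_left hc, commutatorElement_eq_one_iff_mul_comm]
      exact (Subgroup.mem_center_iff.1 (hsq y) z).symm
    have hΦe : ∀ x ∈ frattini U, x ^ 2 = 1 := fun x hx => (hT (hder.ge (hΦZ ▸ hx))).2
    have hΦc : frattini U ≤ Subgroup.center U := hΦZ.le
    have hΦ4 : Nat.card (frattini U) ≤ 4 := by
      rw [← Subgroup.card_map_of_injective U.subtype_injective]
      refine hrank' _ ((Subgroup.map_subtype_le _).trans hUP) ⟨⟨?_⟩⟩ ?_
      · rintro ⟨_, a, ha, rfl⟩ ⟨_, b, hb, rfl⟩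
        have h : a * b = b * a := Subgroup.mem_center_iff.1 (hΦc hb) a
        exact Subtype.ext (show (a : X) * (b : X) = (b : X) * (a : X) from congrArg Subtype.val h)
      · rintro _ ⟨a, ha, rfl⟩
        exact congrArg Subtype.val (hΦe a ha)
    have hΦ2 : 4 ≤ Nat.card (frattini U) := by
      obtain ⟨a, ha⟩ := IsPGroup.iff_card.1 (hUp.to_subgroup (frattini U))
      have hcn : Nontrivial (Subgroup.center U) := hUp.center_nontrivial
      have h1 := Finite.one_lt_card (α := frattini U) (h := hΦZ ▸ hcn)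
      rw [ha] at h1 ⊢
      by_contra h
      have ha1 : a = 1 := by
        rcases a with _ | _ | a
        · simp at h1
        · rfl
        · exact absurd (show 4 ≤ 2 ^ (a + 2) by rw [pow_add]; have := Nat.one_le_two_pow (n := a); omega) h
      rw [ha1, pow_one] at ha
      obtain ⟨x, y, hxy, hu⟩ := Nat.card_eq_two_iff.1 ha
      obtain ⟨z, hz⟩ : ∃ z : frattini U, z ≠ 1 := by
        rcases eq_or_ne x 1 with h | h
        · exact ⟨y, fun h' => hxy (h.trans h'.symm)⟩
        · exact ⟨x, h⟩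
      have hall : ∀ w : frattini U, w = 1 ∨ w = z := fun w => by
        have e1 : (1 : frattini U) ∈ ({x, y} : Set (frattini U)) := hu ▸ Set.mem_univ _
        have e2 : z ∈ ({x, y} : Set (frattini U)) := hu ▸ Set.mem_univ _
        have e3 : w ∈ ({x, y} : Set (frattini U)) := hu ▸ Set.mem_univ _
        simp only [Set.mem_insert_iff, Set.mem_singleton_iff] at e1 e2 e3
        rcases e1 with e1 | e1 <;> rcases e2 with e2 | e2 <;> rcases e3 with e3 | e3 <;>
          first
          | exact Or.inl (e3.trans e1.symm)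
          | exact Or.inr (e3.trans e2.symm)
          | exact absurd (e2.trans e1.symm) hz
      have hdz : φ ⟨d, Subgroup.mem_zpowers d⟩ (z : U) ∈ frattini U := by
        have h2 := Subgroup.Characteristic.fixed (H := frattini U) inferInstance (φ ⟨d, Subgroup.mem_zpowers d⟩)
        exact h2.ge z.2
      rcases hall ⟨_, hdz⟩ with h | h
      · exact hz (Subtype.ext ((map_eq_one_iff _ (MulEquiv.injective _)).1 (congrArg Subtype.val h)))
      · have h3 : ((z : U) : X) ∈ P ⊓ Subgroup.centralizer {d} := by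
          refine ⟨hUP (z : U).2, Subgroup.mem_centralizer_singleton_iff.2 ?_⟩
          exact (mul_inv_eq_iff_eq_mul.1 (congrArg (fun t : frattini U => ((t : U) : X)) h)).symm
        rw [hfpf, Subgroup.mem_bot] at h3
        exact hz (Subtype.ext (Subtype.ext h3))
    have hnz : ∀ u ∈ (⊤ : Subgroup U), u ^ 2 ∈ (⊥ : Subgroup U) → u ∈ frattini U := by
      intro u _ hu
      by_contra hnot
      rw [Subgroup.mem_bot] at hu
      set E : Subgroup U := frattini U ⊔ Subgroup.zpowers u with hE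
      have hEform : ∀ x ∈ E, ∃ f ∈ frattini U, ∃ i : ℤ, x = f * u ^ i := by
        intro x hx
        obtain ⟨f, hf, g, hg, rfl⟩ := Subgroup.mem_sup_of_normal_left.1 hx
        obtain ⟨i, rfl⟩ := Subgroup.mem_zpowers_iff.1 hg
        exact ⟨f, hf, i, rfl⟩
      have hlt : frattini U < E := lt_of_le_of_ne le_sup_left fun h =>
        hnot (h.symm.le (Subgroup.mem_sup_right (Subgroup.mem_zpowers u)))
      have h8 : 4 < Nat.card E := by
        rcases (Subgroup.card_le_of_le hlt.le).lt_or_eq with h | h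
        · omega
        · exact absurd (Subgroup.eq_of_le_of_card_ge hlt.le h.ge) hlt.ne
      have h4 : Nat.card E ≤ 4 := by
        rw [← Subgroup.card_map_of_injective U.subtype_injective]
        refine hrank' _ ((Subgroup.map_subtype_le _).trans hUP) ⟨⟨?_⟩⟩ ?_
        · rintro ⟨_, a, ha, rfl⟩ ⟨_, b, hb, rfl⟩
          obtain ⟨f, hf, i, rfl⟩ := hEform a ha
          obtain ⟨g, hg, j, rfl⟩ := hEform b hb
          have hfc : ∀ {f : U}, f ∈ frattini U → ∀ v, Commute f v := fun hf v =>
            (Subgroup.mem_center_iff.1 (hΦc hf) v).symm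
          have h : f * u ^ i * (g * u ^ j) = g * u ^ j * (f * u ^ i) :=
            (Commute.mul_left (hfc hf _) (Commute.mul_right (hfc hg _).symm (Commute.zpow_zpow_self u i j))).eq
          exact Subtype.ext (show ((f * u ^ i : U) : X) * ((g * u ^ j : U) : X) =
            ((g * u ^ j : U) : X) * ((f * u ^ i : U) : X) from congrArg Subtype.val h)
        · rintro _ ⟨a, ha, rfl⟩
          obtain ⟨f, hf, i, rfl⟩ := hEform a ha
          have : (f * u ^ i) ^ 2 = 1 := by
            rw [Commute.mul_pow ((Subgroup.mem_center_iff.1 (hΦc hf) _).symm), hΦe f hf, one_mul,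
              ← zpow_natCast, ← zpow_mul, mul_comm, zpow_mul, zpow_natCast, hu, one_zpow]
          exact congrArg Subtype.val this
      omega
    have hb := Quad.bound_sub hUp (frattini U) ⊤ ⊥ (frattini U) hΦc hΦe
      (FGS3.commutator_le_frattini hUp) le_top bot_le le_rfl
      (fun u _ => FGS3.pow_mem_frattini hUp u) hnz
    rw [Subgroup.card_top, Subgroup.card_bot, one_pow, mul_one, hcardU] at hb
    have h16 : Nat.card (frattini U) ^ 2 ≤ 16 := by nlinarith
    nlinarith [Nat.mul_le_mul_left (Nat.card (frattini U)) h16, Nat.mul_le_mul_right (Nat.card (frattini U)) hpow]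

end Cfsg.Agent.Transfer.ThreeFPF
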