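import Cfsg.Agent.Core.Cores
import Cfsg.Agent.Coprime.Generation
import Cfsg.Agent.Transfer.ThreeGroupFPF

/-!
Rank three from an element of order six and a fixed-point-free 3-element.
-/

set_option autoImplicit false

namespace Cfsg.Agent.Transfer.SixRank

variable {G : Type*} [Group G] [Finite G]

theorem card_four_unique {Z : Subgroup G} (hZ : Nat.card Z = 4) {a b x : G} (ha : a ∈ Z) (hb : b ∈ Z)
    (hx : x ∈ Z) (ha1 : a ≠ 1) (hb1 : b ≠ 1) (hab : a ≠ b) (hab2 : a * b ≠ 1) (hx1 : x ≠ 1)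
    (hxa : x ≠ a) (hxb : x ≠ b) : x = a * b := by
  by_contra hne
  classical
  haveI := Fintype.ofFinite Z
  have h5 : ({(1 : Z), ⟨a, ha⟩, ⟨b, hb⟩, ⟨a, ha⟩ * ⟨b, hb⟩, ⟨x, hx⟩} : Finset Z).card = 5 := by
    have h1 : (⟨a, ha⟩ * ⟨b, hb⟩ : Z) = ⟨a * b, Z.mul_mem ha hb⟩ := rfl
    rw [h1, show (1 : Z) = ⟨1, Z.one_mem⟩ from rfl]
    rw [Finset.card_insert_of_notMem, Finset.card_insert_of_notMem, Finset.card_insert_of_notMem,
      Finset.card_insert_of_notMem, Finset.card_singleton] <;>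
      simp only [Finset.mem_insert, Finset.mem_singleton, Subtype.mk.injEq, not_or]
    · exact fun h => hne h.symm
    · exact ⟨fun h => ha1 (mul_right_cancel (h.symm.trans (one_mul b).symm)), hxb.symm⟩
    · exact ⟨hab, fun h => hb1 (mul_eq_left.1 h.symm), hxa.symm⟩
    · exact ⟨ha1.symm, hb1.symm, hab2.symm, hx1.symm⟩
  have := Finset.card_le_univ ({(1 : Z), ⟨a, ha⟩, ⟨b, hb⟩, ⟨a, ha⟩ * ⟨b, hb⟩, ⟨x, hx⟩} : Finset Z)
  rw [h5, ← Nat.card_eq_fintype_card, hZ] at this
  omega

theorem commute_sup {E F : Subgroup G} (hE : IsMulCommutative E) (hF : IsMulCommutative F)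
    (h : ∀ e ∈ E, ∀ f ∈ F, e * f = f * e) :
    IsMulCommutative (E ⊔ F : Subgroup G) ∧ ∀ n : ℕ, (∀ e ∈ E, e ^ n = 1) → (∀ f ∈ F, f ^ n = 1) →
      ∀ x ∈ E ⊔ F, x ^ n = 1 := by
  have hEc : ∀ e ∈ E, ∀ e' ∈ E, e * e' = e' * e := fun e he e' he' =>
    congrArg Subtype.val (hE.is_comm.comm ⟨e, he⟩ ⟨e', he'⟩)
  have hFc : ∀ e ∈ F, ∀ e' ∈ F, e * e' = e' * e := fun e he e' he' =>
    congrArg Subtype.val (hF.is_comm.comm ⟨e, he⟩ ⟨e', he'⟩)
  have hform : ∀ x ∈ E ⊔ F, ∃ e ∈ E, ∃ f ∈ F, x = e * f := by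
    intro x hx
    have hn : F ≤ Subgroup.normalizer (E : Set G) := fun f hf =>
      (Subgroup.centralizer_le_normalizer (E : Set G)) (Subgroup.mem_centralizer_iff.2 fun e he => h e he f hf)
    rw [← SetLike.mem_coe, Subgroup.coe_mul_of_right_le_normalizer_left E F hn] at hx
    obtain ⟨e, he, f, hf, rfl⟩ := Set.mem_mul.1 hx
    exact ⟨e, he, f, hf, rfl⟩
  refine ⟨⟨⟨fun x y => ?_⟩⟩, fun n hn1 hn2 x hx => ?_⟩
  · obtain ⟨e, he, f, hf, hx⟩ := hform x x.2
    obtain ⟨e', he', f', hf', hy⟩ := hform y y.2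
    refine Subtype.ext ?_
    show (x : G) * y = y * x
    rw [hx, hy]
    have c1 : Commute e (e' * f') := Commute.mul_right (hEc e he e' he') (h e he f' hf')
    have c2 : Commute f (e' * f') := Commute.mul_right (h e' he' f hf).symm (hFc f hf f' hf')
    exact (c1.mul_left c2).eq
  · obtain ⟨e, he, f, hf, rfl⟩ := hform x hx
    rw [Commute.mul_pow (h e he f hf), hn1 e he, hn2 f hf, mul_one]

theorem exists_eight (hchar : Subgroup.centralizer (Cfsg.pCore 2 G : Set G) ≤ Cfsg.pCore 2 G)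
    (hsix : ∃ g : G, orderOf g = 6) (d : G) (hd1 : d ≠ 1) (hd : IsPGroup 3 (Subgroup.zpowers d))
    (W : Subgroup G) (hW : Cfsg.IsElementaryAbelian 2 W) (hW1 : W ≠ ⊥)
    (hdW : d ∈ Subgroup.normalizer (W : Set G)) (hfpf : W ⊓ Subgroup.centralizer {d} = ⊥) :
    ∃ E : Subgroup G, Cfsg.IsElementaryAbelian 2 E ∧ Nat.card E = 8 := by
  classical
  haveI : Fact (Nat.Prime 2) := ⟨Nat.prime_two⟩
  haveI : Fact (Nat.Prime 3) := ⟨Nat.prime_three⟩
  by_contra hno
  -- every elementary abelian 2-subgroup has order at most four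
  have hsmall : ∀ E : Subgroup G, IsMulCommutative E → (∀ x ∈ E, x ^ 2 = 1) → Nat.card E ≤ 4 := by
    intro E hEc hE2
    by_contra hlt
    have hp : IsPGroup 2 E := fun x => ⟨1, Subtype.ext (by simpa using hE2 x x.2)⟩
    obtain ⟨k, hk⟩ := IsPGroup.iff_card.1 hp
    have hk3 : 3 ≤ k := by
      by_contra h
      rw [hk] at hlt
      exact hlt (le_trans (Nat.pow_le_pow_right (by norm_num) (by omega : k ≤ 2)) le_rfl)
    obtain ⟨K, hK⟩ := Sylow.exists_subgroup_card_pow_prime (G := E) 2 (n := 3) (hk ▸ Nat.pow_dvd_pow 2 hk3)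
    refine hno ⟨K.map E.subtype, ⟨⟨⟨?_⟩⟩, ?_⟩, by rw [Subgroup.card_map_of_injective E.subtype_injective, hK]; norm_num⟩
    · rintro ⟨_, a, -, rfl⟩ ⟨_, b, -, rfl⟩
      exact Subtype.ext (show (a : G) * b = (b : G) * a from congrArg Subtype.val (hEc.is_comm.comm a b))
    · rintro _ ⟨a, -, rfl⟩
      exact hE2 a a.2
  set Q := Cfsg.pCore 2 G with hQ
  have hQp : IsPGroup 2 Q := Core.isPGroup_pCore 2 G
  haveI hQn : Q.Normal := inferInstance
  -- `W` has order four
  have hWp : IsPGroup 2 W := fun x => ⟨1, Subtype.ext (by simpa using hW.2 x x.2)⟩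
  have hW4 : Nat.card W = 4 := by
    obtain ⟨k, hk⟩ := IsPGroup.iff_card.1 hWp
    have h4 := hsmall W hW.1 hW.2
    have hk0 : k ≠ 0 := by rintro rfl; exact hW1 (Subgroup.eq_bot_of_card_eq W (by simpa using hk))
    have hk1 : k ≠ 1 := by
      rintro rfl
      haveI := (Subgroup.nontrivial_iff_ne_bot W).2 hW1
      obtain ⟨x, hx⟩ := exists_ne (1 : W)
      have hxd : d * (x : G) * d⁻¹ ∈ W := (Subgroup.mem_normalizer_iff.1 hdW _).1 x.2
      have hall : ∀ y : W, y = 1 ∨ y = x := by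
        intro y
        rw [pow_one] at hk
        obtain ⟨a, b, hab, hu⟩ := Nat.card_eq_two_iff.1 hk
        have e1 : (1 : W) ∈ ({a, b} : Set W) := hu ▸ Set.mem_univ _
        have e2 : x ∈ ({a, b} : Set W) := hu ▸ Set.mem_univ _
        have e3 : y ∈ ({a, b} : Set W) := hu ▸ Set.mem_univ _
        simp only [Set.mem_insert_iff, Set.mem_singleton_iff] at e1 e2 e3
        rcases e1 with e1 | e1 <;> rcases e2 with e2 | e2 <;> rcases e3 with e3 | e3 <;>
          first
          | exact Or.inl (e3.trans e1.symm)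
          | exact Or.inr (e3.trans e2.symm)
          | exact absurd (e2.trans e1.symm) hx
      rcases hall ⟨_, hxd⟩ with h | h
      · exact hx (Subtype.ext (conj_eq_one_iff.1 (congrArg Subtype.val h)))
      · have : (x : G) ∈ W ⊓ Subgroup.centralizer {d} := ⟨x.2, Subgroup.mem_centralizer_singleton_iff.2
          (mul_inv_eq_iff_eq_mul.1 (congrArg Subtype.val h)).symm⟩
        rw [hfpf, Subgroup.mem_bot] at this
        exact hx (Subtype.ext this)
    rw [hk] at h4 ⊢
    have : k ≤ 2 := (Nat.pow_le_pow_iff_right (a := 2) (by norm_num)).1 h4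
    interval_cases k <;> simp_all
  -- `Z = Ω₁(Z(Q))`
  let Z : Subgroup G :=
    { carrier := {x | x ∈ Q ∧ x ^ 2 = 1 ∧ ∀ y ∈ Q, y * x = x * y}
      mul_mem' := fun {a b} ha hb => ⟨Q.mul_mem ha.1 hb.1,
        by rw [Commute.mul_pow (hb.2.2 a ha.1), ha.2.1, hb.2.1, one_mul],
        fun y hy => (Commute.mul_right (ha.2.2 y hy) (hb.2.2 y hy))⟩
      one_mem' := ⟨Q.one_mem, one_pow _, fun y _ => by simp⟩
      inv_mem' := fun {a} ha => ⟨Q.inv_mem ha.1, by rw [inv_pow, ha.2.1, inv_one],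
        fun y hy => (Commute.inv_right (ha.2.2 y hy))⟩ }
  haveI hZn : Z.Normal := ⟨fun x hx g => by
    refine ⟨hQn.conj_mem x hx.1 g, by rw [conj_pow, hx.2.1]; simp, fun y hy => ?_⟩
    have h := hx.2.2 (g⁻¹ * y * g) (by simpa using hQn.conj_mem y hy g⁻¹)
    calc y * (g * x * g⁻¹) = g * ((g⁻¹ * y * g) * x) * g⁻¹ := by group
      _ = g * (x * (g⁻¹ * y * g)) * g⁻¹ := by rw [h]
      _ = g * x * g⁻¹ * y := by group⟩
  have hZe : IsMulCommutative Z := ⟨⟨fun a b => Subtype.ext (b.2.2.2 a a.2.1)⟩⟩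
  have hZ2 : ∀ x ∈ Z, x ^ 2 = 1 := fun x hx => hx.2.1
  have hZp : IsPGroup 2 Z := hQp.to_le fun x hx => hx.1
  have hQne : Q ≠ ⊥ := by
    intro h
    apply hd1
    have : d ∈ Subgroup.centralizer (Q : Set G) := Subgroup.mem_centralizer_iff.2 fun y hy => by
      rw [h, Subgroup.coe_bot, Set.mem_singleton_iff] at hy
      simp [hy]
    have := hchar this
    rwa [h, Subgroup.mem_bot] at this
  have hZne : Z ≠ ⊥ := by
    haveI : Nontrivial Q := (Subgroup.nontrivial_iff_ne_bot Q).2 hQne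
    haveI := hQp.center_nontrivial
    obtain ⟨k, hk⟩ := IsPGroup.iff_card.1 (hQp.to_subgroup (Subgroup.center Q))
    have hk0 : k ≠ 0 := by rintro rfl; exact absurd hk (by simpa using (Finite.one_lt_card (α := Subgroup.center Q)).ne')
    obtain ⟨z, hz⟩ := exists_prime_orderOf_dvd_card' (G := Subgroup.center Q) 2 (hk ▸ dvd_pow_self 2 hk0)
    intro h
    have hzZ : ((z : Q) : G) ∈ Z := ⟨(z : Q).2, by
      rw [← hz, ← Subgroup.orderOf_coe, ← Subgroup.orderOf_coe]; exact pow_orderOf_eq_one _,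
      fun y hy => congrArg Subtype.val (Subgroup.mem_center_iff.1 z.2 ⟨y, hy⟩)⟩
    rw [h, Subgroup.mem_bot] at hzZ
    rw [show z = 1 from Subtype.ext (Subtype.ext hzZ), orderOf_one] at hz
    omega
  -- `W = Z`
  have hZW : Z = W := by
    have hbig : ∀ E : Subgroup G, E ≤ Subgroup.centralizer (Z : Set G) → IsMulCommutative E →
        (∀ x ∈ E, x ^ 2 = 1) → Nat.card (Z ⊔ E : Subgroup G) ≤ 4 := by
      intro E hE hEc hE2
      obtain ⟨h1, h2⟩ := commute_sup hZe hEc fun e he f hf => Subgroup.mem_centralizer_iff.1 (hE hf) e he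
      exact hsmall _ h1 (h2 2 hZ2 hE2)
    obtain ⟨k, hk⟩ := IsPGroup.iff_card.1 hZp
    have hk0 : k ≠ 0 := by rintro rfl; exact hZne (Subgroup.eq_bot_of_card_eq Z (by simpa using hk))
    have hk2 : k ≤ 2 := (Nat.pow_le_pow_iff_right (a := 2) (by norm_num)).1 (hk ▸ hsmall Z hZe hZ2)
    by_cases hk1 : k = 1
    · exfalso
      subst hk1
      rw [pow_one] at hk
      obtain ⟨a, b, hab, hu⟩ := Nat.card_eq_two_iff.1 hk
      haveI := (Subgroup.nontrivial_iff_ne_bot Z).2 hZne
      obtain ⟨z, hz⟩ := exists_ne (1 : Z)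
      have hall : ∀ y : Z, y = 1 ∨ y = z := by
        intro y
        have e1 : (1 : Z) ∈ ({a, b} : Set Z) := hu ▸ Set.mem_univ _
        have e2 : z ∈ ({a, b} : Set Z) := hu ▸ Set.mem_univ _
        have e3 : y ∈ ({a, b} : Set Z) := hu ▸ Set.mem_univ _
        simp only [Set.mem_insert_iff, Set.mem_singleton_iff] at e1 e2 e3
        rcases e1 with e1 | e1 <;> rcases e2 with e2 | e2 <;> rcases e3 with e3 | e3 <;>
          first
          | exact Or.inl (e3.trans e1.symm)
          | exact Or.inr (e3.trans e2.symm)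
          | exact absurd (e2.trans e1.symm) hz
      have hcen : ∀ g : G, g * (z : G) * g⁻¹ = z := fun g => by
        rcases hall ⟨_, hZn.conj_mem _ z.2 g⟩ with h | h
        · exact absurd (Subtype.ext (conj_eq_one_iff.1 (congrArg Subtype.val h))) hz
        · exact congrArg Subtype.val h
      have hWC : W ≤ Subgroup.centralizer (Z : Set G) := fun w _ => Subgroup.mem_centralizer_iff.2 fun y hy => by
        rcases hall ⟨y, hy⟩ with h | h
        · rw [show y = 1 from congrArg Subtype.val h]; simp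
        · rw [show y = (z : G) from congrArg Subtype.val h]; exact (mul_inv_eq_iff_eq_mul.1 (hcen w)).symm
      have hlt : Nat.card W < Nat.card (Z ⊔ W : Subgroup G) := by
        rcases (Subgroup.card_le_of_le (le_sup_right : W ≤ Z ⊔ W)).lt_or_eq with h | h
        · exact h
        · exfalso
          have h2 := Subgroup.eq_of_le_of_card_ge (le_sup_right : W ≤ Z ⊔ W) h.ge
          have hzW : (z : G) ∈ W ⊓ Subgroup.centralizer {d} := ⟨h2.symm.le (Subgroup.mem_sup_left z.2),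
            Subgroup.mem_centralizer_singleton_iff.2 (mul_inv_eq_iff_eq_mul.1 (hcen d)).symm⟩
          rw [hfpf, Subgroup.mem_bot] at hzW
          exact hz (Subtype.ext hzW)
      have := hbig W hWC hW.1 hW.2
      omega
    have hk' : k = 2 := by omega
    subst hk'
    norm_num at hk
    -- a point of `Z` fixed by `W`
    letI : MulAction W Z :=
      { smul := fun w x => ⟨(w : G) * x * (w : G)⁻¹, hZn.conj_mem _ x.2 _⟩
        one_smul := fun x => Subtype.ext (show ((1 : W) : G) * (x : G) * ((1 : W) : G)⁻¹ = x by simp)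
        mul_smul := fun u v x => Subtype.ext (by
          show ((u * v : W) : G) * (x : G) * ((u * v : W) : G)⁻¹ = (u : G) * ((v : G) * x * (v : G)⁻¹) * (u : G)⁻¹
          rw [Subgroup.coe_mul]; group) }
    obtain ⟨a, ha, ha1⟩ := hWp.exists_fixed_point_of_prime_dvd_card_of_fixed_point Z (hk ▸ by norm_num) (a := 1)
      (fun w => Subtype.ext (show (w : G) * ((1 : Z) : G) * (w : G)⁻¹ = ((1 : Z) : G) by simp))
    have haW : ∀ w ∈ W, w * (a : G) = a * w := fun w hw =>
      mul_inv_eq_iff_eq_mul.1 (congrArg Subtype.val (ha ⟨w, hw⟩))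
    have ha1' : (a : G) ≠ 1 := fun h => ha1 (Subtype.ext h.symm)
    obtain ⟨b, hbZ, hba⟩ : ∃ b ∈ Z, b ∉ Subgroup.zpowers (a : G) := by
      refine SetLike.not_le_iff_exists.1 fun h => ?_
      have := Subgroup.card_le_of_le h
      rw [hk, Nat.card_zpowers, orderOf_eq_prime a.2.2.1 ha1'] at this
      omega
    have hb1 : b ≠ 1 := fun h => hba (h ▸ one_mem _)
    have hba' : (a : G) ≠ b := fun h => hba (h ▸ Subgroup.mem_zpowers _)
    have hab2 : (a : G) * b ≠ 1 := fun h => hba (by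
      rw [eq_inv_of_mul_eq_one_right h]; exact inv_mem (Subgroup.mem_zpowers _))
    have hmove : ∀ w ∈ W, w * b * w⁻¹ ≠ b → w * b * w⁻¹ = a * b := by
      intro w hw hne
      refine card_four_unique hk a.2 hbZ (hZn.conj_mem b hbZ w) ha1' hb1 hba' hab2 ?_ ?_ hne
      · exact fun h => hb1 (conj_eq_one_iff.1 h)
      · intro h
        apply hba'
        have h1 : w * b * w⁻¹ = w * (a : G) * w⁻¹ := by rw [h, haW w hw, mul_inv_cancel_right]
        exact (mul_left_cancel (mul_right_cancel h1)).symm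
    -- some nontrivial element of `W` centralises `Z`
    have hCW : ∃ w ∈ W, w ≠ 1 ∧ w * b * w⁻¹ = b := by
      by_contra hcon
      simp only [not_exists, not_and] at hcon
      haveI := (Subgroup.nontrivial_iff_ne_bot W).2 hW1
      obtain ⟨w1, hw1⟩ := exists_ne (1 : W)
      obtain ⟨w2, hw2, hw12⟩ : ∃ w2 : W, w2 ≠ 1 ∧ w2 ≠ w1 := by
        by_contra hc
        simp only [not_exists, not_and, not_not] at hc
        have : Nat.card W ≤ 2 := by
          haveI := Fintype.ofFinite W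
          rw [Nat.card_eq_fintype_card, ← Finset.card_univ]
          refine le_trans (Finset.card_le_card (t := {1, w1}) fun x _ => ?_) Finset.card_le_two
          by_cases hx : x = 1
          · simp [hx]
          · simp [hc x hx]
        omega
      have e1 := hmove w1 w1.2 (hcon w1 w1.2 fun h => hw1 (Subtype.ext h))
      have e2 := hmove w2 w2.2 (hcon w2 w2.2 fun h => hw2 (Subtype.ext h))
      refine hcon ((w2 : G)⁻¹ * w1) (mul_mem (inv_mem w2.2) w1.2) (fun h => hw12 (Subtype.ext (inv_mul_eq_one.1 h))) ?_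
      rw [show (w2 : G)⁻¹ * w1 * b * ((w2 : G)⁻¹ * w1)⁻¹ = (w2 : G)⁻¹ * ((w1 : G) * b * (w1 : G)⁻¹) * w2 by group,
        e1, ← e2]
      group
    obtain ⟨w, hwW, hw1, hwb⟩ := hCW
    -- the centraliser of `Z` in `W` is `d`-invariant, so everything
    set C := W ⊓ Subgroup.centralizer (Z : Set G) with hC
    have hwC : w ∈ C := by
      refine ⟨hwW, Subgroup.mem_centralizer_iff.2 fun y hy => ?_⟩
      have hya : ∀ y ∈ Z, y = 1 ∨ y = a ∨ y = b ∨ y = a * b := by
        intro y hy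
        by_cases h1 : y = 1
        · exact Or.inl h1
        by_cases h2 : y = a
        · exact Or.inr (Or.inl h2)
        by_cases h3 : y = b
        · exact Or.inr (Or.inr (Or.inl h3))
        exact Or.inr (Or.inr (Or.inr (card_four_unique hk a.2 hbZ hy ha1' hb1 hba' hab2 h1 h2 h3)))
      have hwb' : Commute w b := mul_inv_eq_iff_eq_mul.1 hwb
      have hwa' : Commute w (a : G) := haW w hwW
      rcases hya y hy with h | h | h | h <;> rw [h]
      · simp
      · exact hwa'.symm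
      · exact hwb'.symm
      · exact (hwa'.mul_right hwb').symm
    have hCd : C.map (MulAut.conj d).toMonoidHom = C := by
      have e1 : W.map (MulAut.conj d).toMonoidHom = W := Subgroup.mem_normalizer_iff_map_conj_eq.1 hdW
      have e2 : (Subgroup.centralizer (Z : Set G)).map (MulAut.conj d).toMonoidHom =
          Subgroup.centralizer (Z : Set G) := Subgroup.mem_normalizer_iff_map_conj_eq.1
        ((Subgroup.normalizer_eq_top (H := Subgroup.centralizer (Z : Set G))).symm ▸ Subgroup.mem_top d)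
      rw [hC, Subgroup.map_inf _ _ _ (MulAut.conj d).injective, e1, e2]
    have hCW' : C = W := by
      refine Subgroup.eq_of_le_of_card_ge inf_le_left ?_
      obtain ⟨j, hj⟩ := IsPGroup.iff_card.1 (hWp.to_le (inf_le_left : C ≤ W))
      have hj0 : j ≠ 0 := by
        rintro rfl
        have := Subgroup.eq_bot_of_card_eq C (hj.trans (pow_zero 2))
        rw [this, Subgroup.mem_bot] at hwC
        exact hw1 hwC
      have hj1 : j ≠ 1 := by
        rintro rfl
        rw [pow_one] at hj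
        have hdw : d * w * d⁻¹ ∈ C := hCd.le ⟨w, hwC, rfl⟩
        obtain ⟨x, y, hxy, hu⟩ := Nat.card_eq_two_iff.1 hj
        have e1 : (1 : C) ∈ ({x, y} : Set C) := hu ▸ Set.mem_univ _
        have e2 : (⟨w, hwC⟩ : C) ∈ ({x, y} : Set C) := hu ▸ Set.mem_univ _
        have e3 : (⟨_, hdw⟩ : C) ∈ ({x, y} : Set C) := hu ▸ Set.mem_univ _
        simp only [Set.mem_insert_iff, Set.mem_singleton_iff] at e1 e2 e3
        have key : (⟨_, hdw⟩ : C) = 1 ∨ (⟨_, hdw⟩ : C) = ⟨w, hwC⟩ := by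
          rcases e1 with e1 | e1 <;> rcases e2 with e2 | e2 <;> rcases e3 with e3 | e3 <;>
            first
            | exact Or.inl (e3.trans e1.symm)
            | exact Or.inr (e3.trans e2.symm)
            | exact absurd (congrArg Subtype.val (e2.trans e1.symm)) hw1
        rcases key with h | h
        · exact hw1 (conj_eq_one_iff.1 (congrArg Subtype.val h))
        · have : w ∈ W ⊓ Subgroup.centralizer {d} := ⟨hwW, Subgroup.mem_centralizer_singleton_iff.2
            (mul_inv_eq_iff_eq_mul.1 (congrArg Subtype.val h)).symm⟩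
          rw [hfpf, Subgroup.mem_bot] at this
          exact hw1 this
      rw [hW4, hj]
      exact le_trans (by norm_num) (Nat.pow_le_pow_right (by norm_num) (by omega : 2 ≤ j))
    have h4 := hbig W (fun x hx => (hCW'.symm.le hx).2) hW.1 hW.2
    have e1 := Subgroup.eq_of_le_of_card_ge (le_sup_left : Z ≤ Z ⊔ W) (by omega)
    have e2 := Subgroup.eq_of_le_of_card_ge (le_sup_right : W ≤ Z ⊔ W) (by omega)
    exact e1.trans e2.symm
  have hWn : W.Normal := hZW ▸ hZn
  have hZ4 : Nat.card Z = 4 := by rw [hZW, hW4]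
  -- all involutions of `Q` lie in `Z`
  have hinvQ : ∀ t ∈ Q, t ^ 2 = 1 → t ∈ Z := by
    intro t ht ht2
    obtain ⟨h1, h2⟩ := commute_sup (F := Subgroup.zpowers t) hZe inferInstance fun e he f hf => (he.2.2 f
      ((Subgroup.zpowers_le.2 ht : Subgroup.zpowers t ≤ Q) hf)).symm
    have h4 := hsmall _ h1 (h2 2 hZ2 fun f hf => by
      obtain ⟨i, rfl⟩ := Subgroup.mem_zpowers_iff.1 hf
      rw [← zpow_natCast, ← zpow_mul, mul_comm, zpow_mul, zpow_natCast, ht2, one_zpow])
    have e1 := Subgroup.eq_of_le_of_card_ge (le_sup_left : Z ≤ Z ⊔ Subgroup.zpowers t) (by omega)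
    exact e1.symm.le (Subgroup.mem_sup_right (Subgroup.mem_zpowers t))
  have hfpfQ : ∀ e : G, Z ⊓ Subgroup.centralizer {e} = ⊥ → Q ⊓ Subgroup.centralizer {e} = ⊥ := by
    intro e he
    by_contra hne
    haveI := (Subgroup.nontrivial_iff_ne_bot _).2 hne
    obtain ⟨k, hk⟩ := IsPGroup.iff_card.1 (hQp.to_le (inf_le_left : Q ⊓ Subgroup.centralizer {e} ≤ Q))
    have hk0 : k ≠ 0 := by
      rintro rfl
      exact absurd hk (by simpa using (Finite.one_lt_card (α := (Q ⊓ Subgroup.centralizer {e} : Subgroup G))).ne')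
    obtain ⟨x, hx⟩ := exists_prime_orderOf_dvd_card' (G := (Q ⊓ Subgroup.centralizer {e} : Subgroup G)) 2
      (hk ▸ dvd_pow_self 2 hk0)
    have hx2 : (x : G) ^ 2 = 1 := by rw [← hx, ← Subgroup.orderOf_coe]; exact pow_orderOf_eq_one _
    have : (x : G) ∈ Z ⊓ Subgroup.centralizer {e} := ⟨hinvQ _ x.2.1 hx2, x.2.2⟩
    rw [he, Subgroup.mem_bot] at this
    rw [show x = 1 from Subtype.ext this, orderOf_one] at hx
    omega
  have hfpfZ : Z ⊓ Subgroup.centralizer {d} = ⊥ := by rw [hZW]; exact hfpf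
  obtain ⟨n, hn⟩ := IsPGroup.iff_orderOf.1 hd ⟨d, Subgroup.mem_zpowers d⟩
  rw [Subgroup.orderOf_mk] at hn
  have hn1 : 1 ≤ n := by
    rcases n with _ | n
    · exact absurd (orderOf_eq_one_iff.1 (by simpa using hn)) hd1
    · omega
  have hd3 : orderOf d = 3 := ThreeFPF.order_three d n hn1 hn Q hQp
    (Subgroup.normalizer_eq_top (H := Q) ▸ Subgroup.mem_top d) (by
      rw [Subgroup.eq_bot_iff_forall]
      rintro x ⟨hxd, hxc⟩
      have hxQ : x ∈ Q := hchar hxc
      have h1 : IsPGroup 3 (Subgroup.zpowers x) := hd.to_le (Subgroup.zpowers_le.2 hxd)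
      obtain ⟨i, hi⟩ := IsPGroup.iff_orderOf.1 h1 ⟨x, Subgroup.mem_zpowers x⟩
      obtain ⟨j, hj⟩ := IsPGroup.iff_orderOf.1 hQp ⟨x, hxQ⟩
      rw [Subgroup.orderOf_mk] at hi hj
      rw [← orderOf_eq_one_iff]
      exact Nat.eq_one_of_dvd_coprimes (Nat.Coprime.pow i j (show Nat.Coprime 3 2 by norm_num)) hi.dvd hj.dvd)
    (hfpfQ d hfpfZ) fun V hVQ hVc A hA hA2 => by
      have := hsmall (A.map V.subtype) ⟨⟨fun a b => ?_⟩⟩ ?_
      · rwa [Subgroup.card_map_of_injective V.subtype_injective] at this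
      · obtain ⟨_, a', ha', rfl⟩ := a
        obtain ⟨_, b', hb', rfl⟩ := b
        exact Subtype.ext (show (a' : G) * b' = (b' : G) * a' from congrArg Subtype.val (hVc.is_comm.comm a' b'))
      · rintro _ ⟨a', ha', rfl⟩
        exact congrArg Subtype.val (hA2 a' ha')
  -- a 3-element outside `Q` centralising `Z`
  set K := Subgroup.centralizer (Z : Set G) with hK
  haveI hKn : K.Normal := inferInstance
  have hfix3 : ∀ c : G, orderOf c = 3 → ∀ a ∈ Z, a ≠ 1 → c * a = a * c → c ∈ K := by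
    intro c hc a ha ha1 hca
    rw [hK, Subgroup.mem_centralizer_iff]
    intro y hy
    by_contra hne
    have hy1 : y ≠ 1 := fun h => hne (by rw [h]; simp)
    have hya : a ≠ y := fun h => hne (by rw [← h]; exact hca.symm)
    have hya2 : a * y ≠ 1 := fun h => hne (by
      rw [eq_inv_of_mul_eq_one_right h]; exact (Commute.inv_right (hca : Commute c a)).symm.eq)
    have himg : ∀ x ∈ Z, x ≠ 1 → x ≠ a → x ≠ y → x = a * y := fun x hx h1 h2 h3 =>
      card_four_unique hZ4 ha hy hx ha1 hy1 hya hya2 h1 h2 h3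
    have hc1 : c * y * c⁻¹ = a * y := by
      refine himg _ (hZn.conj_mem y hy c) (fun h => hy1 (conj_eq_one_iff.1 h)) (fun h => hya ?_)
        fun h => hne (mul_inv_eq_iff_eq_mul.1 h).symm
      have h1 : c * y * c⁻¹ = c * a * c⁻¹ := by rw [h, hca, mul_inv_cancel_right]
      exact (mul_left_cancel (mul_right_cancel h1)).symm
    have hc3 : c ^ 3 = 1 := by rw [← hc, pow_orderOf_eq_one]
    have h2 : c ^ 2 * y * (c ^ 2)⁻¹ = y := by
      have haa : a * a = 1 := by rw [← sq]; exact ha.2.1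
      calc c ^ 2 * y * (c ^ 2)⁻¹ = c * (c * y * c⁻¹) * c⁻¹ := by rw [sq]; group
        _ = c * (a * y) * c⁻¹ := by rw [hc1]
        _ = c * a * c⁻¹ * (c * y * c⁻¹) := by group
        _ = a * (a * y) := by rw [hca, mul_inv_cancel_right, hc1]
        _ = y := by rw [← mul_assoc, haa, one_mul]
    apply hne
    have h3 : Commute (c ^ 2) y := mul_inv_eq_iff_eq_mul.1 h2
    have h4 : Commute ((c ^ 2) ^ 2) y := h3.pow_left 2
    rw [← pow_mul, show 2 * 2 = 3 + 1 from rfl, pow_succ, hc3, one_mul] at h4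
    exact h4.symm.eq
  obtain ⟨g, hg⟩ := hsix
  have hc3 : orderOf (g ^ 2) = 3 := by rw [orderOf_pow' g two_ne_zero, hg]; rfl
  have ht2 : orderOf (g ^ 3) = 2 := by rw [orderOf_pow' g three_ne_zero, hg]; rfl
  have hcK : g ^ 2 ∈ K := by
    set t := g ^ 3 with ht
    have hct : Commute (g ^ 2) t := (Commute.refl g).pow_pow 2 3
    have ht1 : t ≠ 1 := fun h => by rw [h, orderOf_one] at ht2; omega
    have htsq : t ^ 2 = 1 := by rw [← ht2]; exact pow_orderOf_eq_one t
    by_cases htQ : t ∈ Q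
    · exact hfix3 _ hc3 t (hinvQ t htQ htsq) ht1 hct
    have htK : t ∉ K := by
      intro h
      obtain ⟨h1, h2⟩ := commute_sup (F := Subgroup.zpowers t) hZe inferInstance fun e he f hf =>
        Subgroup.mem_centralizer_iff.1 ((Subgroup.zpowers_le.2 h : Subgroup.zpowers t ≤ K) hf) e he
      have h4 := hsmall _ h1 (h2 2 hZ2 fun f hf => by
        obtain ⟨i, rfl⟩ := Subgroup.mem_zpowers_iff.1 hf
        rw [← zpow_natCast, ← zpow_mul, mul_comm, zpow_mul, zpow_natCast, htsq, one_zpow])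
      have e1 := Subgroup.eq_of_le_of_card_ge (le_sup_left : Z ≤ Z ⊔ Subgroup.zpowers t) (by omega)
      exact htQ (e1.symm.le (Subgroup.mem_sup_right (Subgroup.mem_zpowers t))).1
    rw [hK, Subgroup.mem_centralizer_iff] at htK
    simp only [not_forall] at htK
    obtain ⟨y, hy, hyt⟩ := htK
    set a := y * (t * y * t⁻¹) with ha
    have hyZ : t * y * t⁻¹ ∈ Z := hZn.conj_mem y hy t
    have haZ : a ∈ Z := Z.mul_mem hy hyZ
    have ha1 : a ≠ 1 := fun h => hyt (by
      have hyy : y * y = 1 := by rw [← sq]; exact hZ2 y hy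
      exact (mul_inv_eq_iff_eq_mul.1 (mul_left_cancel (a := y) (h.trans hyy.symm))).symm)
    have hat : Commute t a := by
      have htinv : t⁻¹ = t := inv_eq_of_mul_eq_one_right (by rw [← sq]; exact htsq)
      have hcom : y * (t * y * t⁻¹) = t * y * t⁻¹ * y :=
        congrArg Subtype.val (hZe.is_comm.comm ⟨y, hy⟩ ⟨_, hyZ⟩)
      show t * a = a * t
      apply mul_inv_eq_iff_eq_mul.1
      calc t * a * t⁻¹ = t * y * t⁻¹ * (t * (t * y * t⁻¹) * t⁻¹) := by rw [ha]; group
        _ = t * y * t⁻¹ * y := by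
            rw [show t * (t * y * t⁻¹) * t⁻¹ = (t * t) * y * (t * t)⁻¹ by group, ← sq, htsq]; simp
        _ = a := hcom.symm
    have hca : Commute t (g ^ 2 * a * (g ^ 2)⁻¹) :=
      (hct.symm.mul_right hat).mul_right hct.symm.inv_right
    by_cases hsame : g ^ 2 * a * (g ^ 2)⁻¹ = a
    · exact hfix3 _ hc3 a haZ ha1 (mul_inv_eq_iff_eq_mul.1 hsame)
    exfalso
    apply hyt
    have haZ' := hZn.conj_mem a haZ (g ^ 2)
    set a' := g ^ 2 * a * (g ^ 2)⁻¹
    have ha'1 : a' ≠ 1 := fun h => ha1 (conj_eq_one_iff.1 h)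
    have haa : a * a' ≠ 1 := fun h => hsame (by
      have : a * a = 1 := by rw [← sq]; exact hZ2 a haZ
      exact mul_left_cancel (a := a) (h.trans this.symm))
    by_cases h1 : y = 1
    · rw [h1]; simp
    by_cases h2 : y = a
    · rw [h2]; exact hat.symm.eq
    by_cases h3 : y = a'
    · rw [h3]; exact hca.symm.eq
    rw [card_four_unique hZ4 haZ haZ' hy ha1 ha'1 (Ne.symm hsame) haa h1 h2 h3]
    exact (hat.mul_right hca).symm.eq
  -- move it into a Sylow subgroup containing `d`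
  have hzd : IsPGroup 3 (Subgroup.zpowers d) := hd
  obtain ⟨T, hT⟩ := hzd.exists_le_sylow
  have hzc : IsPGroup 3 (Subgroup.zpowers (g ^ 2)) := IsPGroup.of_card (n := 1) (by rw [Nat.card_zpowers, hc3]; rfl)
  obtain ⟨T', hT'⟩ := hzc.exists_le_sylow
  obtain ⟨h, rfl⟩ := MulAction.exists_smul_eq G T' T
  have hne : ((h • T' : Sylow 3 G) : Subgroup G) ⊓ K ≠ ⊥ := by
    intro hbot
    have hx : MulAut.conj h (g ^ 2) ∈ ((h • T' : Sylow 3 G) : Subgroup G) ⊓ K := by
      refine ⟨?_, hKn.conj_mem _ hcK h⟩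
      rw [Sylow.coe_subgroup_smul]
      exact ⟨g ^ 2, hT' (Subgroup.mem_zpowers _), rfl⟩
    rw [hbot, Subgroup.mem_bot, map_eq_one_iff _ (MulAut.conj h).injective] at hx
    rw [hx, orderOf_one] at hc3
    omega
  set S : Subgroup G := ((h • T' : Sylow 3 G) : Subgroup G)
  have hSp : IsPGroup 3 S := (h • T' : Sylow 3 G).isPGroup'
  obtain ⟨N, ⟨hNle, hSN, hN1⟩, hNmin⟩ :=
    (Set.toFinite {N : Subgroup G | N ≤ S ⊓ K ∧ S ≤ Subgroup.normalizer (N : Set G) ∧ N ≠ ⊥}).exists_minimal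
      ⟨S ⊓ K, le_rfl, (le_inf Subgroup.le_normalizer ((Subgroup.normalizer_eq_top (H := K)).symm ▸ le_top)).trans
        (Subgroup.inf_normalizer_le_normalizer_inf), hne⟩
  have hNS : ⁅N, S⁆ = ⊥ := by
    by_contra hcon
    have hlt := Coprime.commutator_lt_of_isPGroup (hSp.to_le (hNle.trans inf_le_left)) hSp hSN hN1
    exact hlt.not_ge (hNmin ⟨hlt.le.trans hNle, Subgroup.normalizer_commutator_ge_right N S, hcon⟩ hlt.le)
  haveI := (Subgroup.nontrivial_iff_ne_bot N).2 hN1
  obtain ⟨k, hk⟩ := IsPGroup.iff_card.1 (hSp.to_le (hNle.trans inf_le_left))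
  have hk0 : k ≠ 0 := by rintro rfl; exact absurd hk (by simpa using (Finite.one_lt_card (α := N)).ne')
  obtain ⟨c, hc⟩ := exists_prime_orderOf_dvd_card' (G := N) 3 (hk ▸ dvd_pow_self 3 hk0)
  rw [← Subgroup.orderOf_coe] at hc
  have hdS : d ∈ S := hT (Subgroup.mem_zpowers d)
  have hcd : (c : G) * d = d * c :=
    (Subgroup.mem_centralizer_iff.1 (Subgroup.commutator_eq_bot_iff_le_centralizer.1 hNS c.2) d hdS).symm
  have hcK' : (c : G) ∈ K := (hNle c.2).2
  set E := Subgroup.zpowers (c : G) ⊔ Subgroup.zpowers d with hE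
  obtain ⟨hEc, hEexp⟩ := commute_sup (E := Subgroup.zpowers (c : G)) (F := Subgroup.zpowers d) inferInstance inferInstance
    fun e he f hf => by
      obtain ⟨i, rfl⟩ := Subgroup.mem_zpowers_iff.1 he
      obtain ⟨j, rfl⟩ := Subgroup.mem_zpowers_iff.1 hf
      exact ((show Commute (c : G) d from hcd).zpow_zpow i j).eq
  have hexp3 : ∀ x : G, orderOf x = 3 → ∀ f ∈ Subgroup.zpowers x, f ^ 3 = 1 := fun x hx f hf => by
    obtain ⟨i, rfl⟩ := Subgroup.mem_zpowers_iff.1 hf
    rw [← zpow_natCast, ← zpow_mul, mul_comm, zpow_mul, zpow_natCast, ← hx, pow_orderOf_eq_one, one_zpow]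
  have hE3 : ∀ x ∈ E, x ^ 3 = 1 := hEexp 3 (hexp3 _ hc) (hexp3 _ hd3)
  have hdK : ∀ x ∈ Subgroup.zpowers d, x ∈ K → x = 1 := by
    intro x hx hxK
    by_contra hx1
    have hdx : d ∈ Subgroup.zpowers x := by
      haveI : Fact (Nat.Prime 3) := ⟨Nat.prime_three⟩
      have := mem_zpowers_of_prime_card (G := Subgroup.zpowers d) (p := 3)
        (by rw [Nat.card_zpowers, hd3]) (g := ⟨x, hx⟩) (g' := ⟨d, Subgroup.mem_zpowers d⟩)
        (fun h => hx1 (congrArg Subtype.val h))
      obtain ⟨i, hi⟩ := Subgroup.mem_zpowers_iff.1 this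
      exact Subgroup.mem_zpowers_iff.2 ⟨i, congrArg Subtype.val hi⟩
    have hdK' : d ∈ K := (Subgroup.zpowers_le.2 hxK) hdx
    apply hZne
    rw [Subgroup.eq_bot_iff_forall]
    intro z hz
    have : z ∈ Z ⊓ Subgroup.centralizer {d} :=
      ⟨hz, Subgroup.mem_centralizer_singleton_iff.2 (Subgroup.mem_centralizer_iff.1 hdK' z hz)⟩
    rwa [hfpfZ, Subgroup.mem_bot] at this
  have hncyc : ¬ IsCyclic E := by
    intro hcyc
    obtain ⟨⟨x, hx⟩, hxgen⟩ := IsCyclic.exists_generator (α := E)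
    have hxd : (c : G) ∈ Subgroup.zpowers d := by
      have hx3 := hE3 x hx
      have hdx : d ∈ Subgroup.zpowers x := by
        obtain ⟨i, hi⟩ := Subgroup.mem_zpowers_iff.1 (hxgen ⟨d, Subgroup.mem_sup_right (Subgroup.mem_zpowers d)⟩)
        exact Subgroup.mem_zpowers_iff.2 ⟨i, congrArg Subtype.val hi⟩
      have hcx : (c : G) ∈ Subgroup.zpowers x := by
        obtain ⟨i, hi⟩ := Subgroup.mem_zpowers_iff.1 (hxgen ⟨c, Subgroup.mem_sup_left (Subgroup.mem_zpowers _)⟩)
        exact Subgroup.mem_zpowers_iff.2 ⟨i, congrArg Subtype.val hi⟩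
      rwa [Subgroup.eq_of_le_of_card_ge (Subgroup.zpowers_le.2 hdx) (by
        rw [Nat.card_zpowers, Nat.card_zpowers, hd3]
        exact Nat.le_of_dvd (by norm_num) (orderOf_dvd_of_pow_eq_one hx3))]
    have := hdK _ hxd hcK'
    rw [this, orderOf_one] at hc
    omega
  have hEQ : E ≤ Subgroup.normalizer (Q : Set G) := (Subgroup.normalizer_eq_top (H := Q)).symm ▸ le_top
  have hEcop : (Nat.card E).Coprime (Nat.card Q) := by
    obtain ⟨a, ha⟩ := IsPGroup.iff_card.1 (show IsPGroup 3 E from fun x => ⟨1, Subtype.ext (by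
      simpa using hE3 x x.2)⟩)
    obtain ⟨b, hb⟩ := IsPGroup.iff_card.1 hQp
    rw [ha, hb]
    exact Nat.Coprime.pow a b (by norm_num)
  have hgen := Coprime.eq_centralizerJoin (N := Q) (A := E) hncyc hEQ hEcop
  have hle : Q ≤ Q ⊓ Subgroup.centralizer {(c : G)} := by
    refine hgen.ge.trans ?_
    refine iSup_le fun e => ?_
    obtain ⟨e, heE, he1⟩ := e
    show Q ⊓ Subgroup.centralizer {e} ≤ Q ⊓ Subgroup.centralizer {(c : G)}
    by_cases heK : e ∈ K
    · have hec : e ∈ Subgroup.zpowers (c : G) := by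
        have hn : Subgroup.zpowers d ≤ Subgroup.normalizer (Subgroup.zpowers (c : G) : Set G) := fun f hf =>
          (Subgroup.centralizer_le_normalizer _) (Subgroup.mem_centralizer_iff.2 fun e he => by
            obtain ⟨i, rfl⟩ := Subgroup.mem_zpowers_iff.1 he
            obtain ⟨j, rfl⟩ := Subgroup.mem_zpowers_iff.1 hf
            exact ((show Commute (c : G) d from hcd).zpow_zpow i j).eq)
        rw [← SetLike.mem_coe, hE, Subgroup.coe_mul_of_right_le_normalizer_left _ _ hn] at heE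
        obtain ⟨u, hu, v, hv, rfl⟩ := Set.mem_mul.1 heE
        have huK : u ∈ K := (Subgroup.zpowers_le.2 hcK') hu
        have hv1 := hdK v hv ((Subgroup.mul_mem_cancel_left K huK).1 heK)
        rw [hv1, mul_one]; exact hu
      have hce : (c : G) ∈ Subgroup.zpowers e := by
        rw [Subgroup.eq_of_le_of_card_ge (Subgroup.zpowers_le.2 hec) (by
          rw [Nat.card_zpowers, Nat.card_zpowers, hc, orderOf_eq_prime (hexp3 _ hc e hec) he1])]
        exact Subgroup.mem_zpowers _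
      refine inf_le_inf_left Q fun q hq => ?_
      rw [Subgroup.mem_centralizer_singleton_iff] at hq ⊢
      obtain ⟨i, hi⟩ := Subgroup.mem_zpowers_iff.1 hce
      rw [← hi]
      exact ((show Commute q e from hq).zpow_right i).eq
    · have he3 : orderOf e = 3 := orderOf_eq_prime (hE3 e heE) he1
      rw [hfpfQ e ?_]
      · exact bot_le
      rw [Subgroup.eq_bot_iff_forall]
      rintro z ⟨hz, hze⟩
      by_contra hz1
      exact heK (hfix3 e he3 z hz hz1 (Subgroup.mem_centralizer_singleton_iff.1 hze).symm)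
  have hcQ : (c : G) ∈ Q := hchar (Subgroup.mem_centralizer_iff.2 fun q hq =>
    Subgroup.mem_centralizer_singleton_iff.1 (hle hq).2)
  obtain ⟨j, hj⟩ := IsPGroup.iff_orderOf.1 hQp ⟨c, hcQ⟩
  rw [Subgroup.orderOf_mk, hc] at hj
  have : (3 : ℕ) ∣ 2 := Nat.prime_three.dvd_of_dvd_pow (m := 2) (n := j) (hj ▸ dvd_refl 3)
  norm_num at this

end Cfsg.Agent.Transfer.SixRank
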