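import Cfsg.Agent.Dickson.Basic
import Cfsg.Agent.Linear.SL2Facts
import Cfsg.Agent.S0257

/-!
A `p`-element of `SL₂` normalizing a `p'`-subgroup.
-/

set_option autoImplicit false

namespace Cfsg.Agent.Transfer.SL2Norm

open Cfsg.Agent.Dickson
open scoped Matrix

universe u

variable {F : Type u} [Field F]

local notation "S" => Matrix.SpecialLinearGroup (Fin 2) F

/-- Conjugation by an invertible matrix. -/
def conjHom (P : (Matrix (Fin 2) (Fin 2) F)ˣ) : S →* S where
  toFun g := ⟨(↑P⁻¹ : Matrix (Fin 2) (Fin 2) F) * g.1 * (P : Matrix (Fin 2) (Fin 2) F), by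
    rw [Matrix.det_mul, Matrix.det_mul, g.2, mul_one, ← Matrix.det_mul, Units.inv_mul, Matrix.det_one]⟩
  map_one' := Subtype.ext (by simp)
  map_mul' a b := Subtype.ext (by
    refine Eq.trans ?_ (Matrix.SpecialLinearGroup.coe_mul _ _).symm
    simp [mul_assoc])

theorem conjHom_inj (P : (Matrix (Fin 2) (Fin 2) F)ˣ) : Function.Injective (conjHom P) := by
  intro a b h
  have h1 : (↑P⁻¹ : Matrix (Fin 2) (Fin 2) F) * a.1 * (P : Matrix (Fin 2) (Fin 2) F) =
      (↑P⁻¹ : Matrix (Fin 2) (Fin 2) F) * b.1 * (P : Matrix (Fin 2) (Fin 2) F) := congrArg Subtype.val h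
  exact Subtype.ext (P⁻¹.mul_right_inj.1 (P.mul_left_inj.1 h1))

theorem tr_sq_of_dvd [Finite F] {p : ℕ} [Fact p.Prime] [CharP F p] (hp : p ≠ 2) {g : S} (h : p ∣ orderOf g) :
    (tr g) ^ 2 = 4 := by
  set t := g ^ (orderOf g / p) with ht
  have hto : orderOf t = p := orderOf_pow_orderOf_div (orderOf_pos g).ne' h
  have htr : tr t = 2 := tr_of_pow (p := p) (k := 1) (by rw [pow_one, ← hto, pow_orderOf_eq_one])
  have hsc : ¬ IsScal t := by
    intro hs
    rcases hs.eq_one_or with e | e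
    · rw [e, orderOf_one] at hto; exact (Fact.out : p.Prime).one_lt.ne hto
    · rw [e, tr_neg, tr_one] at htr
      have : (4 : F) = 0 := by linear_combination -htr
      refine two_ne_zero' (F := F) hp ?_
      exact mul_self_eq_zero.1 (show (2 : F) * 2 = 0 by linear_combination this)
  obtain ⟨a, b, e1, e2, e3, e4⟩ := exists_of_commute hsc (show t * g = g * t from (Commute.pow_self g _).eq)
  have hd := det_eq g
  rw [e1, e2, e3, e4] at hd
  simp only [tr] at htr ⊢
  rw [e1, e4]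
  linear_combination 4 * hd + b ^ 2 * (t 0 0 + t 1 1 + 2) * htr - 4 * b ^ 2 * det_eq t

/-- A product of conjugates of `a` lying in a coset outside `R` has order divisible by `p`. -/
theorem dvd_order [Finite F] {p : ℕ} [Fact p.Prime] (R : Subgroup S) (hR : (Nat.card R).Coprime p) {a : S}
    (hap : orderOf a = p) (haR : a ∈ Subgroup.normalizer (R : Set S)) {r : S} (hr : r ∈ R) {i j : ℕ}
    (hij : ¬ p ∣ i + j) : p ∣ orderOf (a ^ i * (r * a ^ j * r⁻¹)) := by
  set g := a ^ i * (r * a ^ j * r⁻¹)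
  set N := Subgroup.normalizer (R : Set S)
  have han : ∀ k : ℕ, ∀ x ∈ R, a ^ k * x * (a ^ k)⁻¹ ∈ R := fun k x hx =>
    (Subgroup.mem_normalizer_iff.1 (pow_mem haR k) x).1 hx
  have hg : (a ^ (i + j))⁻¹ * g ∈ R := by
    have : (a ^ (i + j))⁻¹ * g = (a ^ j)⁻¹ * r * a ^ j * r⁻¹ := by
      rw [show g = a ^ i * (r * a ^ j * r⁻¹) from rfl, pow_add]; group
    rw [this]
    refine mul_mem ?_ (inv_mem hr)
    have := (Subgroup.mem_normalizer_iff.1 (inv_mem (pow_mem haR j)) r).1 hr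
    simpa using this
  have hpow : ∀ n : ℕ, (a ^ ((i + j) * n))⁻¹ * g ^ n ∈ R := by
    intro n
    induction n with
    | zero => simp
    | succ n ih =>
      set c := a ^ ((i + j) * n) with hc
      rw [Nat.mul_succ, pow_add, ← hc, pow_succ, show (c * a ^ (i + j))⁻¹ * (g ^ n * g) =
        ((a ^ (i + j))⁻¹ * (c⁻¹ * g ^ n) * (a ^ (i + j))⁻¹⁻¹) * ((a ^ (i + j))⁻¹ * g) by group]
      exact mul_mem ((Subgroup.mem_normalizer_iff.1 (inv_mem (pow_mem haR _)) _).1 ih) hg
  by_contra hnd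
  have h1 := hpow (orderOf g)
  rw [pow_orderOf_eq_one, mul_one] at h1
  have h2 : orderOf (a ^ ((i + j) * orderOf g)) ∣ Nat.card R := by
    rw [← orderOf_inv]; exact Subgroup.orderOf_dvd_natCard R h1
  have h3 : orderOf (a ^ ((i + j) * orderOf g)) ∣ p := hap ▸ orderOf_pow_dvd _
  have h4 := Nat.eq_one_of_dvd_coprimes hR h2 h3
  rw [orderOf_eq_one_iff, ← orderOf_dvd_iff_pow_eq_one, hap] at h4
  rcases (Fact.out : p.Prime).dvd_mul.1 h4 with h | h
  · exact hij h
  · exact hnd h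

theorem lel_pow (c : F) (n : ℕ) : lel c ^ n = lel (n * c) := by
  induction n with
  | zero => simp [lel_zero]
  | succ n ih => rw [pow_succ, ih, ← lel_add]; congr 1; push_cast; ring

theorem sq_eq [Finite F] {p : ℕ} [Fact p.Prime] [CharP F p] (hp : p ≠ 2) (R : Subgroup S)
    (hR : (Nat.card R).Coprime p) (ha : lel (1 : F) ∈ Subgroup.normalizer (R : Set S)) {r : S} (hr : r ∈ R)
    (hq : r 0 1 ≠ 0) : p = 3 ∧ (r 0 1) ^ 2 = 1 := by
  have hap : orderOf (lel (1 : F)) = p := orderOf_eq_prime (pow_p_of_tr _ (by simp [tr]; norm_num))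
    fun e => one_ne_zero (α := F) (by simpa using congrArg (fun g : S => g 1 0) e)
  have hp' : p.Prime := Fact.out
  have key : ∀ i : ℕ, ¬ p ∣ i + i → ((i : F) * i * (r 0 1) ^ 2) * ((i : F) * i * (r 0 1) ^ 2 - 4) = 0 := by
    intro i hi
    have h := tr_sq_of_dvd hp (dvd_order R hR hap ha hr hi)
    simp only [tr, lel_pow, mul_one, mul_apply2, inv00, inv01, inv10, inv11, lel00, lel01, lel10, lel11] at h
    have hd := det_eq r
    linear_combination h - (4 * (r 0 0 * r 1 1 - r 0 1 * r 1 0) + 4 - 4 * (i : F) * i * (r 0 1) ^ 2) * hd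
  have h2p : ¬ p ∣ 2 := fun h => hp ((Nat.prime_dvd_prime_iff_eq hp' Nat.prime_two).1 h)
  have h2 : (2 : F) ≠ 0 := two_ne_zero' hp
  have e1 : (r 0 1) ^ 2 = 4 := by
    have := key 1 h2p
    simpa [hq, sub_eq_zero] using this
  have e2 : (r 0 1) ^ 2 = 1 := by
    have := key 2 (fun h => h2p ((hp'.dvd_mul.1 (show p ∣ 2 * 2 from h)).elim id id))
    have h4 : (4 : F) ≠ 0 := by
      rw [show (4 : F) = 2 * 2 by norm_num]; exact mul_ne_zero h2 h2
    push_cast at this
    rcases mul_eq_zero.1 this with h | h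
    · exact absurd h (mul_ne_zero (mul_ne_zero h2 h2) (pow_ne_zero 2 hq))
    · have h' : (4 : F) * ((r 0 1) ^ 2 - 1) = 0 := by linear_combination h
      exact sub_eq_zero.1 ((mul_eq_zero.1 h').resolve_left h4)
  refine ⟨?_, e2⟩
  have h3 : ((3 : ℕ) : F) = 0 := by push_cast; linear_combination e2 - e1
  exact ((Nat.prime_dvd_prime_iff_eq hp' Nat.prime_three).1 ((CharP.cast_eq_zero_iff F p 3).1 h3))

theorem zpow_lel_of_commuting [Finite F] {p : ℕ} [Fact p.Prime] [CharP F p] (R : Subgroup S)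
    (hR : (Nat.card R).Coprime p) (ha : lel (1 : F) ∈ Subgroup.normalizer (R : Set S)) {c : F}
    (hc : lel c ∈ R ⊔ Subgroup.zpowers (lel (1 : F))) : lel c ∈ Subgroup.zpowers (lel (1 : F)) := by
  set H := R ⊔ Subgroup.zpowers (lel (1 : F))
  have hp' : p.Prime := Fact.out
  let T : Subgroup S :=
    { carrier := {g | g ∈ H ∧ ∃ d : F, g = lel d}
      one_mem' := ⟨one_mem _, 0, lel_zero.symm⟩
      mul_mem' := by
        rintro x y ⟨hx, d, rfl⟩ ⟨hy, d', rfl⟩
        exact ⟨mul_mem hx hy, d + d', (lel_add d d').symm⟩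
      inv_mem' := by
        rintro x ⟨hx, d, rfl⟩
        exact ⟨inv_mem hx, -d, inv_eq_of_mul_eq_one_right (by rw [← lel_add, add_neg_cancel, lel_zero])⟩ }
  have hTp : IsPGroup p T := fun ⟨g, _, d, hd⟩ => ⟨1, Subtype.ext (by
    subst hd; rw [pow_one]; exact pow_p_of_tr _ (by simp [tr]; norm_num))⟩
  obtain ⟨m, hm⟩ := IsPGroup.iff_card.1 hTp
  have hz : Subgroup.zpowers (lel (1 : F)) ≤ T := Subgroup.zpowers_le.2
    ⟨Subgroup.mem_sup_right (Subgroup.mem_zpowers _), 1, rfl⟩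
  have hap : orderOf (lel (1 : F)) = p := orderOf_eq_prime (pow_p_of_tr _ (by simp [tr]; norm_num))
    fun e => one_ne_zero (α := F) (by simpa using congrArg (fun g : S => g 1 0) e)
  have hHle : H ≤ Subgroup.normalizer (R : Set S) := sup_le Subgroup.le_normalizer (Subgroup.zpowers_le.2 ha)
  have hHc : Nat.card H ∣ Nat.card R * p := by
    rw [← Subgroup.card_mul_index (R.subgroupOf H), Nat.card_congr (Subgroup.subgroupOfEquivOfLe le_sup_left).toEquiv]
    refine mul_dvd_mul_left _ ?_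
    haveI : (R.subgroupOf H).Normal := Subgroup.normal_subgroupOf_of_le_normalizer hHle
    let f : Subgroup.zpowers (lel (1 : F)) →* H ⧸ R.subgroupOf H :=
      (QuotientGroup.mk' _).comp (Subgroup.inclusion le_sup_right)
    have hs : Function.Surjective f := by
      intro y
      obtain ⟨⟨x, hx⟩, rfl⟩ := QuotientGroup.mk_surjective y
      have hx' : x ∈ ((R ⊔ Subgroup.zpowers (lel (1 : F)) : Subgroup S) : Set S) := hx
      rw [Subgroup.coe_mul_of_right_le_normalizer_left _ _ (Subgroup.zpowers_le.2 ha)] at hx'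
      obtain ⟨x', hx1, z, hz, rfl⟩ := hx'
      refine ⟨⟨z, hz⟩, QuotientGroup.eq.2 ?_⟩
      rw [Subgroup.mem_subgroupOf]
      show z⁻¹ * (x' * z) ∈ R
      have := (Subgroup.mem_normalizer_iff.1 (inv_mem (Subgroup.zpowers_le.2 ha hz)) x').1 hx1
      simpa [mul_assoc] using this
    have h := Subgroup.card_dvd_of_surjective f hs
    rwa [Nat.card_zpowers, hap] at h
  have h1 : p ^ m ∣ Nat.card R * p := hm ▸ (Subgroup.card_dvd_of_le (fun g hg => hg.1 : T ≤ H)).trans hHc
  have h2 : p ^ m ∣ p := ((hR.symm.pow_left m).dvd_of_dvd_mul_left) h1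
  have h3 : T = Subgroup.zpowers (lel (1 : F)) := (Subgroup.eq_of_le_of_card_ge hz (by
    rw [Nat.card_zpowers, hap, hm]; exact Nat.le_of_dvd hp'.pos h2)).symm
  exact h3 ▸ (⟨hc, c, rfl⟩ : lel c ∈ T)

theorem sl2_zmod3_gen (H : Subgroup (Matrix.SpecialLinearGroup (Fin 2) (ZMod 3))) (h1 : lel 1 ∈ H)
    (h2 : uel (-1) ∈ H) : H = ⊤ := by
  have hl : ∀ c : ZMod 3, lel c ∈ H := fun c => by
    have := pow_mem h1 c.val
    rwa [lel_pow, mul_one, ZMod.natCast_zmod_val] at this
  have hu : ∀ c : ZMod 3, uel c ∈ H := fun c => by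
    fin_cases c
    · exact (uel_zero (F := ZMod 3)).symm ▸ one_mem H
    · have := inv_mem h2; rwa [uel_inv, neg_neg] at this
    · exact h2
  have hne : ∀ g : Matrix.SpecialLinearGroup (Fin 2) (ZMod 3), g 0 1 ≠ 0 → g ∈ H := by
    intro g hg
    have e : g = lel ((g 1 1 - 1) / g 0 1) * uel (g 0 1) * lel ((g 0 0 - 1) / g 0 1) := by
      have hd := det_eq g
      apply ext2 <;> simp only [mul_apply2, lel00, lel01, lel10, lel11, uel00, uel01, uel10, uel11] <;>
        field_simp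
      · ring
      · ring
      · linear_combination -hd
      · ring
    rw [e]
    exact mul_mem (mul_mem (hl _) (hu _)) (hl _)
  refine eq_top_iff.2 fun g _ => ?_
  by_cases hg : g 0 1 = 0
  · have hd := det_eq g
    have h00 : g 0 0 ≠ 0 := fun e => by rw [hg, e] at hd; simp at hd
    have := mul_mem (hne (g * uel 1) (by simp [mul_apply2, hg, h00])) (inv_mem (hu 1))
    rwa [mul_inv_cancel_right] at this
  · exact hne g hg

theorem core [Finite F] {p : ℕ} [Fact p.Prime] [CharP F p] (hp : p ≠ 2) (R : Subgroup S)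
    (hR : (Nat.card R).Coprime p) (ha : lel (1 : F) ∈ Subgroup.normalizer (R : Set S)) {r₀ : S} (hr₀ : r₀ ∈ R)
    (hq : r₀ 0 1 ≠ 0) (ht : r₀ 1 1 = 0) :
    p = 3 ∧ Nonempty (↥R ≃* QuaternionGroup 2) ∧
      Nonempty (↥(R ⊔ Subgroup.zpowers (lel (1 : F))) ≃* Matrix.SpecialLinearGroup (Fin 2) (ZMod 3)) := by
  obtain ⟨rfl, hq1⟩ := sq_eq hp R hR ha hr₀ hq
  haveI : Fact (Nat.Prime 3) := ⟨Nat.prime_three⟩
  refine ⟨rfl, ?_⟩
  set H := R ⊔ Subgroup.zpowers (lel (1 : F)) with hH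
  set ι : Matrix.SpecialLinearGroup (Fin 2) (ZMod 3) →* S :=
    Matrix.SpecialLinearGroup.map (ZMod.castHom (dvd_refl 3) F) with hι
  have hιe : ∀ g i j, (ι g) i j = ZMod.castHom (dvd_refl 3) F (g i j) := fun g i j => rfl
  have hιinj : Function.Injective ι := fun x y h => by
    apply ext2 <;>
      exact (ZMod.castHom_injective F) (by rw [← hιe, ← hιe, h])
  -- `⟨a, r₀ a r₀⁻¹⟩` is `SL₂(3)`
  have hd0 := det_eq r₀
  rw [ht] at hd0
  have hb : r₀ * lel 1 * r₀⁻¹ = uel (-1 : F) := by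
    apply ext2 <;> simp only [mul_apply2, inv00, inv01, inv10, inv11, lel00, lel01, lel10, lel11, uel00, uel01, uel10, uel11, ht]
    · linear_combination hd0
    · linear_combination -hq1
    · ring
    · linear_combination hd0
  have hιl : ι (lel 1) = lel (1 : F) := by apply ext2 <;> simp [hιe]
  have hιu : ι (uel (-1)) = uel (-1 : F) := by apply ext2 <;> simp [hιe]
  have hRH : R ≤ H := le_sup_left
  have haH : lel (1 : F) ∈ H := Subgroup.mem_sup_right (Subgroup.mem_zpowers _)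
  have hL : ι.range ≤ H := by
    rw [MonoidHom.range_eq_map, Subgroup.map_le_iff_le_comap, top_le_iff]
    refine sl2_zmod3_gen _ ?_ ?_
    · rw [Subgroup.mem_comap, hιl]; exact haH
    · rw [Subgroup.mem_comap, hιu, ← hb]
      exact mul_mem (mul_mem (hRH hr₀) haH) (inv_mem (hRH hr₀))
  -- `R` lies in it
  have hsq : ∀ r ∈ R, r 0 1 = 0 ∨ r 0 1 = 1 ∨ r 0 1 = -1 := fun r hr => by
    by_cases h : r 0 1 = 0
    · exact Or.inl h
    · exact Or.inr (sq_eq_one_iff.1 (sq_eq hp R hR ha hr h).2)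
  have hRL : R ≤ ι.range := by
    intro r hr
    -- both entries of the second column are in the prime field
    have hcast : ∀ x : F, x = 0 ∨ x = 1 ∨ x = -1 → ∃ y : ZMod 3, ZMod.castHom (dvd_refl 3) F y = x := by
      rintro x (rfl | rfl | rfl)
      · exact ⟨0, map_zero _⟩
      · exact ⟨1, map_one _⟩
      · exact ⟨-1, by rw [map_neg, map_one]⟩
    obtain ⟨q, hqe⟩ := hcast _ (hsq r hr)
    have h11 : r 1 1 = 0 ∨ r 1 1 = 1 ∨ r 1 1 = -1 := by
      have h := hsq _ (mul_mem (inv_mem hr₀) hr)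
      simp only [mul_apply2, inv00, inv01, ht, zero_mul, zero_add] at h
      rcases sq_eq_one_iff.1 hq1 with e | e <;> rw [e] at h <;> rcases h with h | h | h
      · left; linear_combination -h
      · right; right; linear_combination -h
      · right; left; linear_combination -h
      · left; linear_combination h
      · right; left; linear_combination h
      · right; right; linear_combination h
    obtain ⟨t, hte⟩ := hcast _ h11
    have hqt : q ≠ 0 ∨ t ≠ 0 := by
      by_contra h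
      push Not at h
      have hd := det_eq r
      rw [← hqe, ← hte, h.1, h.2, map_zero] at hd
      simp at hd
    obtain ⟨x, hx01, hx11⟩ : ∃ x : Matrix.SpecialLinearGroup (Fin 2) (ZMod 3), x 0 1 = q ∧ x 1 1 = t := by
      by_cases hq0 : q = 0
      · exact ⟨⟨!![t⁻¹, q; 0, t], by rw [Matrix.det_fin_two]; simp [inv_mul_cancel₀ (hqt.resolve_left (by simp [hq0]))]⟩, rfl, rfl⟩
      · exact ⟨⟨!![0, q; -q⁻¹, t], by rw [Matrix.det_fin_two]; simp [mul_inv_cancel₀ hq0]⟩, rfl, rfl⟩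
    have hy : (ι x)⁻¹ * r = lel (((ι x)⁻¹ * r) 1 0) := by
      have hd := det_eq r
      have hdx := det_eq (ι x)
      have e01 : ((ι x)⁻¹ * r) 0 1 = 0 := by
        simp only [mul_apply2, inv00, inv01, hιe, hx01, hx11, hqe, hte]; ring
      have e11 : ((ι x)⁻¹ * r) 1 1 = 1 := by
        have ha1 : (ι x) 0 1 = r 0 1 := by rw [hιe, hx01, hqe]
        have ha2 : (ι x) 1 1 = r 1 1 := by rw [hιe, hx11, hte]
        simp only [mul_apply2, inv10, inv11]
        rw [← ha1, ← ha2]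
        linear_combination hdx
      have e00 : ((ι x)⁻¹ * r) 0 0 = 1 := by
        have := det_eq ((ι x)⁻¹ * r)
        rw [e01, e11] at this
        linear_combination this
      apply ext2
      · rw [lel00]; exact e00
      · rw [lel01]; exact e01
      · rw [lel10]
      · rw [lel11]; exact e11
    have hc := zpow_lel_of_commuting (p := 3) R hR ha
      (hy ▸ mul_mem (inv_mem (hL ⟨x, rfl⟩)) (hRH hr))
    rw [← hy] at hc
    obtain ⟨k, hk⟩ := Subgroup.mem_zpowers_iff.1 hc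
    refine ⟨x * lel 1 ^ k, ?_⟩
    rw [map_mul, map_zpow, hιl, hk, mul_inv_cancel_left]
  have hHL : H = ι.range := le_antisymm (sup_le hRL (Subgroup.zpowers_le.2 ⟨lel 1, hιl⟩)) hL
  refine ⟨?_, ⟨(MulEquiv.subgroupCongr hHL).trans (MonoidHom.ofInjective hιinj).symm⟩⟩
  -- the order of `R`
  set Q := R.comap ι with hQ
  have hQR : Q.map ι = R := Subgroup.map_comap_eq_self hRL
  have hQc : Nat.card Q = Nat.card R := by
    rw [← hQR, ← Nat.card_congr (Q.equivMapOfInjective ι hιinj).toEquiv]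
  obtain ⟨⟨Q₀, hQ₀n, hQ₀i, ⟨e⟩⟩, -⟩ := Cfsg.Agent.S0257.result (F := ZMod 3) (ZMod.card 3)
  have hQn : Q.Normal := ⟨fun x hx g => by
    have hg : ι g ∈ Subgroup.normalizer (R : Set S) := by
      have h1 : ι g ∈ H := hHL ▸ ⟨g, rfl⟩
      exact (sup_le Subgroup.le_normalizer (Subgroup.zpowers_le.2 ha) : H ≤ _) h1
    rw [Subgroup.mem_comap, map_mul, map_mul, map_inv]
    exact (Subgroup.mem_normalizer_iff.1 hg _).1 hx⟩
  -- `Q` lies in `Q₀`, of index `3`
  have hle : Q ≤ Q₀ := by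
    intro x hx
    rw [← QuotientGroup.eq_one_iff, ← orderOf_eq_one_iff]
    refine Nat.eq_one_of_dvd_coprimes hR ?_ ((orderOf_dvd_natCard (QuotientGroup.mk' Q₀ x)).trans (dvd_of_eq ((Subgroup.index_eq_card Q₀).symm.trans hQ₀i)))
    exact (orderOf_map_dvd (QuotientGroup.mk' Q₀) x).trans (hQc ▸ Subgroup.orderOf_dvd_natCard Q hx)
  have hidx : Q.index ∣ 3 := by
    have hcl : Q ⊔ Subgroup.zpowers (lel (1 : ZMod 3)) = ⊤ := by
      refine sl2_zmod3_gen _ (Subgroup.mem_sup_right (Subgroup.mem_zpowers _)) ?_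
      have hz : ι (uel (-1)) = r₀ * lel 1 * r₀⁻¹ := by rw [hιu, hb]
      obtain ⟨x, hx⟩ := hRL hr₀
      have : uel (-1 : ZMod 3) = x * lel 1 * x⁻¹ := hιinj (by rw [hz, map_mul, map_mul, map_inv, hιl, hx])
      rw [this]
      have hxQ : x ∈ Q := by rw [Subgroup.mem_comap, hx]; exact hr₀
      exact mul_mem (mul_mem (Subgroup.mem_sup_left hxQ) (Subgroup.mem_sup_right (Subgroup.mem_zpowers _)))
        (inv_mem (Subgroup.mem_sup_left hxQ))
    rw [← Subgroup.relIndex_top_right, ← hcl, Subgroup.relIndex_sup_left]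
    have := Subgroup.index_dvd_card (Q.subgroupOf (Subgroup.zpowers (lel (1 : ZMod 3))))
    rw [Nat.card_zpowers] at this
    exact this.trans (orderOf_dvd_of_pow_eq_one (pow_p_of_tr (p := 3) _ (by simp [tr]; norm_num)))
  have hQQ : Q = Q₀ := by
    refine Subgroup.eq_of_le_of_card_ge hle ?_
    have h1 := Q.card_mul_index
    have h2 := Q₀.card_mul_index
    rw [hQ₀i] at h2
    have h3 : Q.index ≤ 3 := Nat.le_of_dvd (by norm_num) hidx
    nlinarith [Nat.card_pos (α := Q)]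
  exact ⟨((MulEquiv.subgroupCongr hQR.symm).trans (Q.equivMapOfInjective ι hιinj).symm).trans
    ((MulEquiv.subgroupCongr hQQ).trans e)⟩

theorem main [Finite F] {p : ℕ} [Fact p.Prime] [CharP F p] (hp : p ≠ 2) (a : S)
    (ha : IsPGroup p ↥(Subgroup.zpowers a)) (R : Subgroup S) (hR : (Nat.card R).Coprime p)
    (haR : a ∈ Subgroup.normalizer (R : Set S)) (hnt : ⁅R, Subgroup.zpowers a⁆ ≠ ⊥) :
    p = 3 ∧ Nonempty (↥R ≃* QuaternionGroup 2) ∧
      Nonempty (↥(R ⊔ Subgroup.zpowers a) ≃* Matrix.SpecialLinearGroup (Fin 2) (ZMod 3)) := by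
  obtain ⟨k, hk⟩ := ha ⟨a, Subgroup.mem_zpowers a⟩
  have htr : tr a = 2 := tr_of_pow (p := p) (k := k) (by simpa using congrArg Subtype.val hk)
  have hd := det_eq a
  simp only [tr] at htr
  -- a basis in which `a` is `lel 1`
  obtain ⟨P, hP⟩ : ∃ P : (Matrix (Fin 2) (Fin 2) F)ˣ, a.1 * (P : Matrix (Fin 2) (Fin 2) F) =
      (P : Matrix (Fin 2) (Fin 2) F) * (lel 1 : S).1 := by
    by_cases h10 : a 1 0 = 0
    · have h01 : a 0 1 ≠ 0 := by
        intro h01
        refine hnt ?_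
        have h00 : (a 0 0 - 1) * (a 0 0 - 1) = 0 := by
          rw [h10, h01] at hd
          linear_combination (a 0 0) * htr - hd
        have e00 := sub_eq_zero.1 (mul_self_eq_zero.1 h00)
        have : a = 1 := by
          apply ext2 <;> simp [h10, h01, e00]
          linear_combination htr - e00
        rw [this, Subgroup.zpowers_one_eq_bot, Subgroup.commutator_bot_right]
      refine ⟨(Matrix.isUnit_iff_isUnit_det !![0, a 0 1; 1, a 1 1 - 1] |>.2 ?_).unit, ?_⟩
      · rw [Matrix.det_fin_two]; simp [h01]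
      · rw [IsUnit.unit_spec]
        ext i j
        fin_cases i <;> fin_cases j <;> simp [Matrix.mul_apply, Fin.sum_univ_two, lel, h10]
        · linear_combination (a 0 1) * htr
        · linear_combination (a 1 1) * htr - hd + (-(a 0 1)) * h10
    · refine ⟨(Matrix.isUnit_iff_isUnit_det !![1, a 0 0 - 1; 0, a 1 0] |>.2 ?_).unit, ?_⟩
      · rw [Matrix.det_fin_two]; simp [h10]
      · rw [IsUnit.unit_spec]
        ext i j
        fin_cases i <;> fin_cases j <;> simp [Matrix.mul_apply, Fin.sum_univ_two, lel]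
        · linear_combination (a 0 0) * htr - hd
        · linear_combination (a 1 0) * htr
  have hφa : conjHom P a = lel 1 := Subtype.ext (by
    show (↑P⁻¹ : Matrix (Fin 2) (Fin 2) F) * a.1 * (P : Matrix (Fin 2) (Fin 2) F) = _
    rw [mul_assoc, hP, ← mul_assoc, Units.inv_mul, one_mul])
  set R₁ := R.map (conjHom P) with hR₁
  have hR₁c : (Nat.card R₁).Coprime p := by
    rwa [hR₁, ← Nat.card_congr (R.equivMapOfInjective _ (conjHom_inj P)).toEquiv]
  have ha₁ : lel (1 : F) ∈ Subgroup.normalizer (R₁ : Set S) := by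
    rw [← hφa]
    exact Subgroup.le_normalizer_map (conjHom P) ⟨a, haR, rfl⟩
  obtain ⟨r, hr, hrq⟩ : ∃ r ∈ R₁, r 0 1 ≠ 0 := by
    by_contra hcon
    push Not at hcon
    refine hnt ?_
    rw [Subgroup.commutator_eq_bot_iff_le_centralizer]
    intro r hr
    rw [Subgroup.zpowers_eq_closure, Subgroup.centralizer_closure, Subgroup.mem_centralizer_singleton_iff]
    -- `r₁ a r₁⁻¹ a⁻¹` is unipotent and lies in `R₁`
    set r₁ := conjHom P r
    have h01 := hcon r₁ ⟨r, hr, rfl⟩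
    set c := r₁ * lel 1 * r₁⁻¹ * (lel (1 : F))⁻¹ with hc
    have hcR : c ∈ R₁ := by
      rw [hc, show r₁ * lel 1 * r₁⁻¹ * (lel (1 : F))⁻¹ = r₁ * (lel 1 * r₁⁻¹ * (lel (1 : F))⁻¹) by group]
      exact mul_mem ⟨r, hr, rfl⟩ ((Subgroup.mem_normalizer_iff.1 ha₁ _).1 (inv_mem ⟨r, hr, rfl⟩))
    have hct : tr c = 2 := by
      simp only [hc, tr, mul_apply2, inv00, inv01, inv10, inv11, lel00, lel01, lel10, lel11, h01]
      have hd' := det_eq r₁
      rw [h01] at hd'
      linear_combination 2 * hd'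
    have hcp : c ^ p = 1 := pow_p_of_tr c hct
    have hc1 : c = 1 := orderOf_eq_one_iff.1 (Nat.eq_one_of_dvd_coprimes hR₁c
      (Subgroup.orderOf_dvd_natCard R₁ hcR) (orderOf_dvd_of_pow_eq_one hcp))
    rw [hc, mul_inv_eq_one, mul_inv_eq_iff_eq_mul] at hc1
    exact conjHom_inj P (by rw [map_mul, map_mul, hφa]; exact hc1)
  -- make the lower right entry of `r` vanish
  set d := r 1 1 / r 0 1 with hdd
  let Q : (Matrix (Fin 2) (Fin 2) F)ˣ := ⟨(lel d : S).1, (lel (-d) : S).1,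
    by rw [← Matrix.SpecialLinearGroup.coe_mul, ← lel_add, add_neg_cancel, lel_zero]; rfl,
    by rw [← Matrix.SpecialLinearGroup.coe_mul, ← lel_add, neg_add_cancel, lel_zero]; rfl⟩
  have hQ : ∀ g : S, conjHom Q g = lel (-d) * g * lel d := fun g => Subtype.ext rfl
  have hQa : conjHom Q (lel 1) = lel 1 := by rw [hQ, ← lel_add, ← lel_add]; congr 1; ring
  set R₂ := R₁.map (conjHom Q) with hR₂
  have hR₂c : (Nat.card R₂).Coprime p := by
    rwa [hR₂, ← Nat.card_congr (R₁.equivMapOfInjective _ (conjHom_inj Q)).toEquiv]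
  have ha₂ : lel (1 : F) ∈ Subgroup.normalizer (R₂ : Set S) := by
    rw [← hQa]
    exact Subgroup.le_normalizer_map (conjHom Q) ⟨_, ha₁, rfl⟩
  obtain ⟨hp3, ⟨e1⟩, ⟨e2⟩⟩ := core hp R₂ hR₂c ha₂ (r₀ := conjHom Q r) ⟨r, hr, rfl⟩
    (by rw [hQ]; simpa [mul_apply2] using hrq)
    (by rw [hQ]; simp [mul_apply2, hdd]; field_simp; ring)
  have hmap : (R ⊔ Subgroup.zpowers a).map ((conjHom Q).comp (conjHom P)) = R₂ ⊔ Subgroup.zpowers (lel (1 : F)) := by
    rw [Subgroup.map_sup, MonoidHom.map_zpowers, ← Subgroup.map_map, MonoidHom.comp_apply, hφa, hQa]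
  have hinj : Function.Injective ((conjHom Q).comp (conjHom P)) := (conjHom_inj Q).comp (conjHom_inj P)
  refine ⟨hp3, ⟨((Subgroup.equivMapOfInjective R _ hinj).trans (MulEquiv.subgroupCongr (by
    rw [← Subgroup.map_map]))).trans e1⟩, ⟨((Subgroup.equivMapOfInjective _ _ hinj).trans
    (MulEquiv.subgroupCongr hmap)).trans e2⟩⟩

end Cfsg.Agent.Transfer.SL2Norm
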