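import Mathlib
import Cfsg.Prelude.Def_Solvable
import Cfsg.Prelude.Def_Local
import Cfsg.Agent.Core.SubnormalFamily
import Cfsg.Agent.Core.Fitting
import Cfsg.Agent.FGS4.Subnormal
import Cfsg.Agent.Coprime.Action
import Cfsg.Agent.Coprime.PxQ
import Cfsg.Agent.OddLocal.NilBasics
import Cfsg.Agent.Components.FStar
import Cfsg.Agent.Transfer.Basic
import Cfsg.Agent.Transfer.Fusion

/-! Primitive subgroups. -/

set_option autoImplicit false
set_option linter.style.haveILetI false
set_option linter.unusedSectionVars false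

namespace Cfsg.Agent.Transfer.Primitive

open Cfsg
open scoped commutatorElement

variable {G : Type*} [Group G] [Finite G] {M : Subgroup G}

/-- `M` is the normalizer of each of its nontrivial normal subgroups. -/
def Prim (M : Subgroup G) : Prop :=
  ∀ N : Subgroup G, N ≤ M → M ≤ Subgroup.normalizer (N : Set G) → N ≠ ⊥ → Subgroup.normalizer (N : Set G) = M

theorem subnormal_eq_bot (hM : M ≠ ⊤) (hp : Prim M) {L : Subgroup G} (hL : L.IsSubnormal) (hLM : L ≤ M) :
    L = ⊥ := by
  set S := {L : Subgroup G | L.IsSubnormal ∧ L ≤ M} with hS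
  set T := sSup S with hT
  have hTM : T ≤ M := sSup_le fun U hU => hU.2
  have hTs : T.IsSubnormal := Core.isSubnormal_sSup fun U hU => hU.1
  have hMT : M ≤ Subgroup.normalizer (T : Set G) := by
    intro m hm
    have key : ∀ m ∈ M, T.map (MulAut.conj m).toMonoidHom ≤ T := fun m hm => by
      rw [Subgroup.map_le_iff_le_comap]
      refine sSup_le fun U hU => ?_
      rw [← Subgroup.map_le_iff_le_comap]
      refine le_sSup ⟨hU.1.map (f := (MulAut.conj m).toMonoidHom) (MulAut.conj m).surjective, ?_⟩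
      rintro _ ⟨u, hu, rfl⟩
      exact M.mul_mem (M.mul_mem hm (hU.2 hu)) (M.inv_mem hm)
    rw [Transfer.mem_normalizer_iff_map_conj]
    exact Subgroup.eq_of_le_of_card_ge (key m hm)
      (Subgroup.card_map_of_injective (MulAut.conj m).injective).ge
  by_contra hne
  have hTne : T ≠ ⊥ := fun h => hne (le_bot_iff.mp (h ▸ le_sSup (show L ∈ S from ⟨hL, hLM⟩)))
  have hN := hp T hTM hMT hTne
  rcases (Subgroup.IsSubnormal.iff_eq_top_or_exists).mp hTs with h | ⟨K, hlt, hK, hn⟩
  · exact hM (top_le_iff.mp (h ▸ hTM))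
  · exact hlt.not_ge (le_sSup (show K ∈ S from ⟨hK, hN ▸ (Subgroup.le_normalizer_of_normal_subgroupOf hlt.le)⟩))

theorem inf_fitting_eq_bot (hM : M ≠ ⊤) (hp : Prim M) : M ⊓ fittingSubgroup G = ⊥ := by
  refine subnormal_eq_bot hM hp ?_ inf_le_left
  haveI := Core.isNilpotent_fittingSubgroup G
  exact Subgroup.IsSubnormal.trans inf_le_right (FGS4.isSubnormal_of_isNilpotent _)
    (inferInstance : (fittingSubgroup G).Normal).isSubnormal

theorem coprime_and_invariant (hM : M ≠ ⊤) (hprim : Prim M) {p : ℕ} [hp : Fact p.Prime]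
    (hOp : pCore p M ≠ ⊥) (N : Subgroup G) [N.Normal] (hMN : M ⊓ N = ⊥) :
    ¬ p ∣ Nat.card N ∧ (∀ q : ℕ, [Fact q.Prime] → ∃! Q : Sylow q ↥N,
      M ≤ Subgroup.normalizer ((Q : Subgroup ↥N).map N.subtype : Set G)) ∧
    ((∃ q r : ℕ, q.Prime ∧ r.Prime ∧ q ≠ r ∧ q ∣ Nat.card N ∧ r ∣ Nat.card N) → ¬ IsCoatom M) := by
  set P := (pCore p M).map M.subtype with hP
  have hPM : P ≤ M := Subgroup.map_subtype_le _
  have hPp : IsPGroup p P := (Core.isPGroup_pCore p M).map _
  have hMP : M ≤ Subgroup.normalizer (P : Set G) := by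
    intro m hm
    refine Coprime.mem_normalizer_of_conj_mem ?_
    rintro _ ⟨x, hx, rfl⟩
    exact ⟨⟨m, hm⟩ * x * ⟨m, hm⟩⁻¹, (inferInstance : (pCore p M).Normal).conj_mem x hx _, rfl⟩
  have hPne : P ≠ ⊥ := fun h => hOp ((Subgroup.map_eq_bot_iff_of_injective _ M.subtype_injective).mp h)
  have hNP := hprim P hPM hMP hPne
  have hCN : ∀ n ∈ N, (∀ a ∈ P, a * n = n * a) → n = 1 := fun n hn hc => by
    have h1 : n ∈ M := hNP.le ((Subgroup.centralizer_le_normalizer _) (Subgroup.mem_centralizer_iff.mpr hc))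
    exact Subgroup.mem_bot.mp (hMN ▸ Subgroup.mem_inf.mpr ⟨h1, hn⟩)
  have hpN : ¬ p ∣ Nat.card N := by
    intro hd
    letI : MulAction P N := MulAction.compHom N ((MulAut.conjNormal (H := N)).comp P.subtype)
    have h1 := hPp.card_modEq_card_fixedPoints N
    have h2 : p ∣ Nat.card (MulAction.fixedPoints P N) :=
      (Nat.modEq_zero_iff_dvd).mp (h1.symm.trans ((Nat.modEq_zero_iff_dvd).mpr hd))
    have hone : (1 : N) ∈ MulAction.fixedPoints P N := fun a => map_one (MulAut.conjNormal (a : G))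
    have hcard : Nat.card (MulAction.fixedPoints P N) ≤ 1 := by
      rw [Finite.card_le_one_iff_subsingleton]
      refine ⟨fun a b => ?_⟩
      have : ∀ x : MulAction.fixedPoints P N, (x : N) = 1 := fun x => Subtype.ext (hCN _ (x : N).2 fun a ha => by
        have h3 := congrArg Subtype.val (x.2 ⟨a, ha⟩)
        have h4 : a * ((x : N) : G) * a⁻¹ = ((x : N) : G) := h3
        exact mul_inv_eq_iff_eq_mul.mp h4)
      exact Subtype.ext ((this a).trans (this b).symm)
    have hpos : 0 < Nat.card (MulAction.fixedPoints P N) := Nat.card_pos_iff.mpr ⟨⟨⟨1, hone⟩⟩, inferInstance⟩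
    have := Nat.le_of_dvd hpos h2
    have := hp.out.two_le
    omega
  have hPN : P ≤ Subgroup.normalizer (N : Set G) := le_top.trans_eq (Subgroup.normalizer_eq_top N).symm
  have hMN' : M ≤ Subgroup.normalizer (N : Set G) := le_top.trans_eq (Subgroup.normalizer_eq_top N).symm
  haveI := Coprime.isSolvable_of_isPGroup hPp
  have hcop : (Nat.card P).Coprime (Nat.card N) := by
    obtain ⟨k, hk⟩ := IsPGroup.iff_card.mp hPp
    rw [hk]; exact (hp.out.coprime_iff_not_dvd.mpr hpN).pow_left k
  -- the invariant Sylow subgroups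
  have huniq : ∀ {q : ℕ} [Fact q.Prime] (S₁ S₂ : Subgroup G), S₁ ≤ N → S₂ ≤ N → IsPGroup q S₁ → IsPGroup q S₂ →
      ¬ q ∣ S₁.relIndex N → ¬ q ∣ S₂.relIndex N → P ≤ Subgroup.normalizer (S₁ : Set G) →
      P ≤ Subgroup.normalizer (S₂ : Set G) → S₁ = S₂ := by
    intro q _ S₁ S₂ h1 h2 h3 h4 h5 h6 h7 h8
    obtain ⟨n, hn, hnS⟩ := Coprime.exists_conj_of_sylow h3 h4 h1 h2 h5 h6
    obtain ⟨s, hs, c, hc, hsc⟩ := Coprime.exists_mem_centralizer_of_conj_le (N := N) (A := P)
      (S := Subgroup.normalizer (S₁ : Set G)) hPN hcop h7 (x := n⁻¹) (N.inv_mem hn) (fun a ha => by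
        have h9 := h8 ha
        rw [← hnS, Transfer.normalizer_map_conj] at h9
        obtain ⟨u, hu, hua⟩ := h9
        rw [show n⁻¹ * a * n⁻¹⁻¹ = u by rw [← hua]; simp [mul_assoc]]
        exact hu)
    have hc1 : c = 1 := hCN c hc.1 (fun a ha => Subgroup.mem_centralizer_iff.mp hc.2 a ha)
    rw [hc1, mul_one] at hsc
    have hn' : n ∈ Subgroup.normalizer (S₁ : Set G) := by
      have := (Subgroup.normalizer (S₁ : Set G)).inv_mem (hsc ▸ hs.2)
      rwa [inv_inv] at this
    rw [← hnS, Transfer.mem_normalizer_iff_map_conj.mp hn']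
  have hex : ∀ q : ℕ, [Fact q.Prime] → ∃ S : Subgroup G, S ≤ N ∧ IsPGroup q S ∧ ¬ q ∣ S.relIndex N ∧
      M ≤ Subgroup.normalizer (S : Set G) := by
    intro q _
    obtain ⟨S, hSN, hSq, hSi, hSP⟩ := Coprime.exists_invariant_sylow hPN hcop q
    refine ⟨S, hSN, hSq, hSi, fun m hm => ?_⟩
    rw [Transfer.mem_normalizer_iff_map_conj]
    have hle : S.map (MulAut.conj m).toMonoidHom ≤ N := by
      rintro _ ⟨s, hs, rfl⟩
      exact (inferInstance : N.Normal).conj_mem s (hSN hs) m
    refine (huniq _ _ hle hSN (hSq.map _) hSq ?_ hSi ?_ hSP)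
    · have h1 := Transfer.relIndex_map_conj m S N
      rw [Transfer.mem_normalizer_iff_map_conj.mp (hMN' hm)] at h1
      rwa [h1]
    · rw [Transfer.normalizer_map_conj]
      refine fun a ha => ⟨m⁻¹ * a * m, hSP ?_, by simp [mul_assoc]⟩
      exact (Subgroup.mem_normalizer_iff''.mp (hMP hm) a).mp ha
  refine ⟨hpN, fun q _ => ?_, ?_⟩
  · obtain ⟨S, hSN, hSq, hSi, hSM⟩ := hex q
    let Q : Sylow q N := (hSq.comap_subtype (K := N)).toSylow hSi
    have hQ : (Q : Subgroup N).map N.subtype = S := Subgroup.map_subgroupOf_eq_of_le hSN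
    refine ⟨Q, by show M ≤ Subgroup.normalizer (((Q : Subgroup N).map N.subtype : Subgroup G) : Set G); rwa [hQ],
      fun Q' hQ' => ?_⟩
    have hi : ¬ q ∣ ((Q' : Subgroup N).map N.subtype).relIndex N := by
      rw [Subgroup.relIndex, Subgroup.subgroupOf, Subgroup.comap_map_eq_self_of_injective N.subtype_injective]
      exact Q'.not_dvd_index
    have := huniq _ S (Subgroup.map_subtype_le _) hSN (Q'.2.map _) hSq hi hSi (hPM.trans hQ') (hPM.trans hSM)
    exact Sylow.ext (Subgroup.map_injective N.subtype_injective (this.trans hQ.symm))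
  · rintro ⟨q, r, hq, hr, hne, hqN, hrN⟩ hco
    haveI := Fact.mk hq
    obtain ⟨S, hSN, hSq, hSi, hSM⟩ := hex q
    have hSne : S ≠ ⊥ := by
      rintro rfl
      rw [Subgroup.relIndex_bot_left] at hSi
      exact hSi hqN
    have htop : S ⊔ M = ⊤ := hco.2 _ (lt_of_le_of_ne le_sup_right fun e => hSne
      (le_bot_iff.mp (hMN ▸ le_inf (e.symm ▸ le_sup_left) hSN)))
    have hNS : N ≤ S := fun x hx => by
      obtain ⟨s, hs, m, hm, rfl⟩ := Coprime.exists_mul_of_mem_sup hSM (htop ▸ Subgroup.mem_top x)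
      have : m ∈ M ⊓ N := ⟨hm, by simpa using N.mul_mem (N.inv_mem (hSN hs)) hx⟩
      rw [hMN, Subgroup.mem_bot] at this
      rwa [this, mul_one]
    obtain ⟨k, hk⟩ := IsPGroup.iff_card.mp (hSq.to_le hNS)
    rw [hk] at hrN
    exact hne ((Nat.prime_dvd_prime_iff_eq hr hq).mp (hr.dvd_of_dvd_pow hrN)).symm

theorem layer_facts (hM : M ≠ ⊤) (hprim : Prim M) (N : Subgroup G) [N.Normal]
    (hMF : M ⊓ (generalizedFittingSubgroup ↥N).map N.subtype ≠ ⊥) :
    fittingSubgroup G = ⊥ ∧ (generalizedFittingSubgroup ↥N).map N.subtype = generalizedFittingSubgroup G ∧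
      generalizedFittingSubgroup G = layer G ∧
      ∀ K : Subgroup G, K.Normal → K ≠ ⊥ →
        (∀ K' : Subgroup G, K'.Normal → K' ≤ K → K' = ⊥ ∨ K' = K) → K ≤ N := by
  set X := (generalizedFittingSubgroup ↥N).map N.subtype with hX
  have hXN : X ≤ N := Subgroup.map_subtype_le _
  haveI hXn : X.Normal := by
    haveI : (generalizedFittingSubgroup ↥N).Characteristic := Subgroup.characteristic_iff_map_eq.mpr fun e => by
      rw [generalizedFittingSubgroup, Subgroup.map_sup, Components.layer_map e, Core.fittingSubgroup_map_equiv e]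
    exact Core.normal_map_subtype_of_characteristic _
  have hnorm := hprim (M ⊓ X) inf_le_left
    ((le_inf Subgroup.le_normalizer (le_top.trans_eq (Subgroup.normalizer_eq_top X).symm)).trans
      Subgroup.inf_normalizer_le_normalizer_inf) hMF
  have hC : ∀ x : G, (∀ y ∈ X, y * x = x * y) → x ∈ M := fun x hx => hnorm.le
    ((Subgroup.centralizer_le_normalizer _) (Subgroup.mem_centralizer_iff.mpr fun y hy => hx y hy.2))
  have hF : fittingSubgroup G = ⊥ := by
    by_contra hne
    haveI := Core.isNilpotent_fittingSubgroup G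
    haveI : Nontrivial (fittingSubgroup G) := (Subgroup.nontrivial_iff_ne_bot _).mpr hne
    obtain ⟨z, -, hz1, hz⟩ := OddLocal.exists_ne_one_mem_center_of_normal (G := fittingSubgroup G) ⊤ top_ne_bot
    have hzc : X ≤ Subgroup.centralizer ({(z : G)} : Set G) := by
      rw [hX, generalizedFittingSubgroup, Subgroup.map_sup]
      refine sup_le ?_ ?_
      · refine ((Components.layer_map_subtype_le (inferInstance : N.Normal).isSubnormal).trans
          Components.layer_le_centralizer_fitting).trans (Subgroup.centralizer_le ?_)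
        intro w hw; rw [Set.mem_singleton_iff.mp hw]; exact z.2
      · rw [Core.map_fittingSubgroup_subtype]
        intro y hy
        exact Subgroup.mem_centralizer_singleton_iff.mpr
          (congrArg Subtype.val (Subgroup.mem_center_iff.mp hz ⟨y, hy.1⟩))
    have hzM : (z : G) ∈ M := hC z fun y hy => Subgroup.mem_centralizer_singleton_iff.mp (hzc hy)
    have : (z : G) ∈ M ⊓ fittingSubgroup G := ⟨hzM, z.2⟩
    rw [inf_fitting_eq_bot hM hprim, Subgroup.mem_bot] at this
    exact hz1 (Subtype.ext this)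
  have hGF : generalizedFittingSubgroup G = layer G := by rw [generalizedFittingSubgroup, hF, sup_bot_eq]
  have hXe : X = layer G := by
    have hFN : (fittingSubgroup ↥N).map N.subtype = ⊥ := by
      rw [Core.map_fittingSubgroup_subtype, hF, bot_inf_eq]
    have hXl : X = (layer ↥N).map N.subtype := by
      rw [hX, generalizedFittingSubgroup, Subgroup.map_sup, hFN, sup_bot_eq]
    rw [hXl]
    refine le_antisymm (Components.layer_map_subtype_le (inferInstance : N.Normal).isSubnormal) ?_
    rw [Components.layer_le_iff]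
    intro K hK
    rcases Components.component_le_or_commutator_normal hK N with h | h
    · exact Components.component_le_layer_map hK h
    · exfalso
      refine Components.component_ne_bot hK (subnormal_eq_bot hM hprim hK.1 fun x hx => hC x fun y hy => ?_)
      exact Subgroup.mem_centralizer_iff.mp
        (Subgroup.commutator_eq_bot_iff_le_centralizer.mp h hx) y (hXN hy)
  refine ⟨hF, hXe.trans hGF.symm, hGF, fun K hK hKne hmin => ?_⟩
  haveI := hK
  rcases hmin (K ⊓ N) (Subgroup.normal_inf_normal _ _) inf_le_left with h | h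
  · exfalso
    refine hKne (subnormal_eq_bot hM hprim hK.isSubnormal fun x hx => hC x fun y hy => ?_)
    exact (Subgroup.commute_of_normal_of_disjoint _ _ hK inferInstance (disjoint_iff.mpr h) x y hx (hXN hy)).symm
  · exact h ▸ inf_le_right

end Cfsg.Agent.Transfer.Primitive
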