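import Cfsg.Agent.Components.BenderMaximal

/-! Bender's theorem on primitive pairs. -/

set_option autoImplicit false
set_option linter.unusedSectionVars false

open Subgroup
open scoped commutatorElement

namespace Cfsg.Agent.Transfer.PrimPair

open Cfsg.Agent.Components
open Cfsg.Agent.Components.BenderMax (pPart pPrimePart pPart_le pPrimePart_le
  isPGroup_pPart pPrimePart_coprime pow_eq_one_of_mem_pPrimePart pow_eq_one_of_mem_pPart eq_one_of_mem_both
  mem_pPart mem_pPrimePart exists_mul_parts conj_mem)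

variable {G : Type*} [Group G] [Finite G]

/-- In a primitive pair no nontrivial subgroup is normal in both members. -/
theorem eq_of_normal_both {M N : Subgroup G}
    (hM : ∀ X : Subgroup G, X ≠ ⊥ → M ≤ normalizer (X : Set G) → X ≤ M ⊓ N → N ⊓ normalizer (X : Set G) = M ⊓ N)
    (hN : ∀ X : Subgroup G, X ≠ ⊥ → N ≤ normalizer (X : Set G) → X ≤ N ⊓ M → M ⊓ normalizer (X : Set G) = N ⊓ M)
    {X : Subgroup G} (hX : X ≠ ⊥) (h1 : M ≤ normalizer (X : Set G)) (h2 : N ≤ normalizer (X : Set G))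
    (hle : X ≤ M ⊓ N) : M = N := by
  refine le_antisymm ?_ ?_
  · exact (le_inf le_rfl h1).trans ((hN X hX h2 (hle.trans (inf_comm M N).le)).le.trans inf_le_left)
  · exact (le_inf le_rfl h2).trans ((hM X hX h1 hle).le.trans inf_le_left)

/-- A nilpotent normal subgroup of `M` containing its centralizer, for the pair `(M, N)`. -/
structure Datum (M N F : Subgroup G) : Prop where
  le : F ≤ M
  norm : M ≤ normalizer (F : Set G)
  nil : Group.IsNilpotent ↥F
  self_centralizing : M ⊓ centralizer (F : Set G) ≤ F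
  sub_le : ∀ X : Subgroup G, X ≤ M → (X.subgroupOf M).IsSubnormal → Group.IsNilpotent ↥X → X ≤ F
  prim : ∀ X : Subgroup G, X ≠ ⊥ → M ≤ normalizer (X : Set G) → X ≤ M ⊓ N → N ⊓ normalizer (X : Set G) = M ⊓ N

variable {M N F F' : Subgroup G}

theorem Datum.norm_pPart (hD : Datum M N F) (p : ℕ) : M ≤ normalizer (pPart p F : Set G) :=
  hD.norm.trans (normalizer_le_normalizer_map_char _)

theorem Datum.norm_pPrimePart (hD : Datum M N F) (p : ℕ) :
    M ≤ normalizer (pPrimePart p F : Set G) :=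
  hD.norm.trans (normalizer_le_normalizer_map_char _)

theorem pPart_commute (hM : Datum M N F) (hN : Datum N M F') (h1 : F ≤ N) (h2 : F' ≤ M)
    {p : ℕ} [Fact p.Prime] {a b : G} (ha : a ∈ pPart p F') (hb : b ∈ pPrimePart p F) :
    a * b = b * a := by
  have hbN : b ∈ N := h1 (pPrimePart_le _ _ hb)
  have haM : a ∈ M := h2 (pPart_le _ _ ha)
  have e1 : a * b * a⁻¹ * b⁻¹ ∈ pPrimePart p F :=
    mul_mem (conj_mem (hM.norm_pPrimePart p) haM hb) (inv_mem hb)
  have e2 : a * b * a⁻¹ * b⁻¹ ∈ pPart p F' := by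
    rw [show a * b * a⁻¹ * b⁻¹ = a * (b * a⁻¹ * b⁻¹) by group]
    exact mul_mem ha (conj_mem (hN.norm_pPart p) hbN (inv_mem ha))
  have h := eq_one_of_mem_both F' F e2 e1
  rw [mul_inv_eq_one, mul_inv_eq_iff_eq_mul] at h
  exact h

/-- If `F(M)` is a `p`-group, then so is `F(N)`. -/
theorem pPrimePart_eq_bot (hM : Datum M N F) (hN : Datum N M F') (h1 : F ≤ N) (h2 : F' ≤ M)
    {p : ℕ} [Fact p.Prime] (h : pPrimePart p F = ⊥) : pPrimePart p F' = ⊥ := by
  rw [eq_bot_iff]
  intro b hb
  haveI := hM.nil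
  have hc : b ∈ centralizer (F : Set G) := by
    rw [mem_centralizer_iff]
    intro f hf
    obtain ⟨a, ha, c, hc, rfl⟩ := exists_mul_parts (p := p) hf
    rw [h, mem_bot] at hc
    subst hc
    rw [mul_one]
    exact pPart_commute hN hM h2 h1 ha hb
  have hbF : b ∈ F := hM.self_centralizing ⟨h2 (pPrimePart_le _ _ hb), hc⟩
  have hb' : b ∈ pPrimePart p F := mem_pPrimePart hbF
    ((pPrimePart_coprime p F').coprime_dvd_left (Subgroup.orderOf_dvd_natCard _ hb))
  rwa [h] at hb'

/-- If `F(M)` is a `p'`-group, then so is `F(N)`. -/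
theorem pPart_eq_bot (hM : Datum M N F) (hN : Datum N M F') (h1 : F ≤ N) (h2 : F' ≤ M)
    {p : ℕ} [hp : Fact p.Prime] (h : pPart p F = ⊥) : pPart p F' = ⊥ := by
  rw [eq_bot_iff]
  intro b hb
  haveI := hM.nil
  have hc : b ∈ centralizer (F : Set G) := by
    rw [mem_centralizer_iff]
    intro f hf
    obtain ⟨a, ha, c, hc, rfl⟩ := exists_mul_parts (p := p) hf
    rw [h, mem_bot] at ha
    subst ha
    rw [one_mul]
    exact (pPart_commute hM hN h1 h2 hb hc).symm
  have hbF : b ∈ F := hM.self_centralizing ⟨h2 (pPart_le _ _ hb), hc⟩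
  obtain ⟨k, hk⟩ := isPGroup_pPart p F' ⟨b, hb⟩
  have hb' : b ∈ pPart p F := mem_pPart hbF (k := k) (congrArg Subtype.val hk)
  rwa [h] at hb'

theorem pPart_le_of (hM : Datum M N F) (hN : Datum N M F') (h1 : F ≤ N) (h2 : F' ≤ M)
    {p : ℕ} [hp : Fact p.Prime] (hB' : pPrimePart p F' ≠ ⊥) : pPart p F' ≤ pPart p F := by
  haveI := hM.nil
  set A := pPart p F with hA
  set B := pPrimePart p F with hB
  set K := M ⊓ centralizer (B : Set G) with hK
  set R := pGen p K with hR
  have hA'K : pPart p F' ≤ K := fun a ha => ⟨h2 (pPart_le _ _ ha),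
    mem_centralizer_iff.mpr fun b hb => (pPart_commute hM hN h1 h2 ha hb).symm⟩
  have hA'R : pPart p F' ≤ R := fun a ha => by
    obtain ⟨k, hk⟩ := isPGroup_pPart p F' ⟨a, ha⟩
    exact mem_pGen (hA'K ha) (congrArg Subtype.val hk)
  -- every `p`-element of `K` centralizes the `p'`-part of `F'`
  have hkey : ∀ x ∈ K, ∀ k : ℕ, x ^ p ^ k = 1 → x ∈ centralizer (pPrimePart p F' : Set G) := by
    intro x hx k hk
    rw [mem_centralizer_iff]
    intro b hb
    obtain ⟨hxM, hxB⟩ := mem_inf.mp hx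
    have hbM : b ∈ M := h2 (pPrimePart_le _ _ hb)
    have hbA : ∀ a ∈ A, a * b = b * a := fun a ha => pPart_commute hN hM h2 h1 ha hb
    set z := x * b * x⁻¹ * b⁻¹ with hz
    have hzM : z ∈ M := mul_mem (mul_mem (mul_mem hxM hbM) (inv_mem hxM)) (inv_mem hbM)
    have hzA : ∀ a ∈ A, a * z = z * a := by
      intro a ha
      have e1 : x⁻¹ * a * x ∈ A := by
        simpa using conj_mem (hM.norm_pPart p) (inv_mem hxM) ha
      have c1 : a * (x * b * x⁻¹) = x * b * x⁻¹ * a := by
        calc a * (x * b * x⁻¹) = x * (x⁻¹ * a * x * b) * x⁻¹ := by group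
          _ = x * (b * (x⁻¹ * a * x)) * x⁻¹ := by rw [hbA _ e1]
          _ = x * b * x⁻¹ * a := by group
      exact (Commute.mul_right (show Commute a _ from c1)
        (show Commute a b from hbA a ha).inv_right).eq
    have hzB : ∀ c ∈ B, c * z = z * c := by
      intro c hc
      have e1 : b * c * b⁻¹ ∈ B := conj_mem (hM.norm_pPrimePart p) hbM hc
      have e2 : b⁻¹ * c * b ∈ B := by
        simpa using conj_mem (hM.norm_pPrimePart p) (inv_mem hbM) hc
      have hx' : ∀ w ∈ B, w * x = x * w := fun w hw => mem_centralizer_iff.mp hxB w hw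
      have hx'' : ∀ w ∈ B, w * x⁻¹ = x⁻¹ * w := fun w hw =>
        (show Commute w x from hx' w hw).inv_right.eq
      calc c * z = c * x * b * x⁻¹ * b⁻¹ := by rw [hz]; group
        _ = x * c * b * x⁻¹ * b⁻¹ := by rw [hx' c hc]
        _ = x * b * ((b⁻¹ * c * b) * x⁻¹) * b⁻¹ := by group
        _ = x * b * (x⁻¹ * (b⁻¹ * c * b)) * b⁻¹ := by rw [hx'' _ e2]
        _ = z * c := by rw [hz]; group
    have hzc : z ∈ centralizer (F : Set G) := by
      rw [mem_centralizer_iff]
      intro f hf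
      obtain ⟨a, ha, c, hc, rfl⟩ := exists_mul_parts (p := p) hf
      exact (Commute.mul_left (show Commute a z from hzA a ha) (show Commute c z from hzB c hc)).eq
    obtain ⟨z1, hz1, z2, hz2, hz12⟩ :=
      exists_mul_parts (p := p) (hM.self_centralizing ⟨hzM, hzc⟩)
    -- the `p`-part of `z` is trivial
    have hcomm : Commute z1 (z2 * b) := by
      refine Commute.mul_right ?_ (hbA z1 hz1)
      have e1 : z1 * z2 * z1⁻¹ * z2⁻¹ ∈ B :=
        mul_mem (conj_mem (hM.norm_pPrimePart p) (hM.le (pPart_le _ _ hz1)) hz2) (inv_mem hz2)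
      have e2 : z1 * z2 * z1⁻¹ * z2⁻¹ ∈ A := by
        rw [show z1 * z2 * z1⁻¹ * z2⁻¹ = z1 * (z2 * z1⁻¹ * z2⁻¹) by group]
        exact mul_mem hz1 (conj_mem (hM.norm_pPart p) (hM.le (pPrimePart_le _ _ hz2)) (inv_mem hz1))
      have h := eq_one_of_mem_both F F e2 e1
      rw [mul_inv_eq_one, mul_inv_eq_iff_eq_mul] at h
      exact h
    set n := orderOf b with hn
    have hnp : n.Coprime p :=
      (pPrimePart_coprime p F').coprime_dvd_left (Subgroup.orderOf_dvd_natCard _ hb)
    have hzb : (z1 * (z2 * b)) ^ n = 1 := by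
      rw [← mul_assoc, ← hz12, hz, inv_mul_cancel_right, conj_pow, hn, pow_orderOf_eq_one]
      group
    have hz2b : (z2 * b) ^ n ∈ B := by
      have : ∀ j : ℕ, ∃ w ∈ B, (z2 * b) ^ j = w * b ^ j := by
        intro j
        induction j with
        | zero => exact ⟨1, one_mem _, by simp⟩
        | succ j ih =>
          obtain ⟨w, hw, hwj⟩ := ih
          refine ⟨w * (b ^ j * z2 * (b ^ j)⁻¹),
            mul_mem hw (conj_mem (hM.norm_pPrimePart p) (pow_mem hbM j) hz2), ?_⟩
          rw [pow_succ, hwj, pow_succ]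
          group
      obtain ⟨w, hw, hwn⟩ := this n
      rw [hwn, hn, pow_orderOf_eq_one, mul_one]
      exact hw
    have hz1n : z1 ^ n = 1 := by
      refine eq_one_of_mem_both F F (pow_mem hz1 n) ?_
      rw [hcomm.mul_pow] at hzb
      rw [eq_inv_of_mul_eq_one_left hzb]
      exact inv_mem hz2b
    have hz1' : z1 = 1 := pow_eq_one_of_mem_pPart F hz1 hnp hz1n
    rw [hz1', one_mul] at hz12
    have hzx : Commute x z := hz12 ▸ (show Commute z2 x from mem_centralizer_iff.mp hxB z2 hz2).symm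
    have hiter : ∀ j : ℕ, x ^ j * b * (x ^ j)⁻¹ = z ^ j * b := by
      intro j
      induction j with
      | zero => simp
      | succ j ih =>
        calc x ^ (j + 1) * b * (x ^ (j + 1))⁻¹
            = x * (x ^ j * b * (x ^ j)⁻¹) * x⁻¹ := by rw [pow_succ']; group
          _ = x * (z ^ j * b) * x⁻¹ := by rw [ih]
          _ = (x * z ^ j * x⁻¹) * (x * b * x⁻¹) := by group
          _ = z ^ j * (z * b) := by
              rw [(hzx.pow_right j).eq, mul_inv_cancel_right, show z * b = x * b * x⁻¹ by rw [hz, inv_mul_cancel_right]]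
          _ = z ^ (j + 1) * b := by rw [← mul_assoc (z ^ j) z b, ← pow_succ]
    have hz1'' := hiter (p ^ k)
    rw [hk, inv_one, one_mul, mul_one, eq_comm, mul_eq_right] at hz1''
    have := pow_eq_one_of_mem_pPrimePart F (hz12 ▸ hz2) hz1''
    rw [hz, mul_inv_eq_one, mul_inv_eq_iff_eq_mul] at this
    exact this.symm
  have hRN : R ≤ N := by
    refine (Subgroup.closure_le _).mpr ?_
    rintro x ⟨hx, k, hk⟩
    have hc := hkey x hx k hk
    suffices x ∈ normalizer (pPrimePart p F' : Set G) from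
      ((hN.prim _ hB' (hN.norm_pPrimePart p) (le_inf ((pPrimePart_le _ _).trans hN.le)
        ((pPrimePart_le _ _).trans h2))).le ⟨hx.1, this⟩).1
    rw [mem_normalizer_iff]
    intro w
    constructor
    · intro hw
      have := mem_centralizer_iff.mp hc w hw
      rwa [← this, mul_inv_cancel_right]
    · intro hw
      have := mem_centralizer_iff.mp hc _ hw
      have e : x * w * x⁻¹ = w := by
        calc x * w * x⁻¹ = x⁻¹ * (x * (x * w * x⁻¹)) := by group
          _ = x⁻¹ * (x * w * x⁻¹ * x) := by rw [this]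
          _ = w := by group
      rwa [e] at hw
  have hMR : M ≤ normalizer (R : Set G) := by
    refine fun m hm => mem_normalizer_pGen ?_
    refine Subgroup.mem_normalizer_fintype fun c hc => ?_
    obtain ⟨hc1, hc2⟩ := mem_inf.mp hc
    refine mem_inf.mpr ⟨mul_mem (mul_mem hm hc1) (inv_mem hm), ?_⟩
    rw [mem_centralizer_iff]
    intro w hw
    have h := mem_centralizer_iff.mp hc2 (m⁻¹ * w * m)
      (by simpa using conj_mem (hM.norm_pPrimePart p) (inv_mem hm) hw)
    calc w * (m * c * m⁻¹) = m * (m⁻¹ * w * m * c) * m⁻¹ := by group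
      _ = m * (c * (m⁻¹ * w * m)) * m⁻¹ := by rw [h]
      _ = m * c * m⁻¹ * w := by group
  have hsub : ((pPart p F').subgroupOf M).IsSubnormal := by
    have hRM : R ≤ M := (pGen_le p K).trans inf_le_left
    have h1' : (R.subgroupOf M).Normal :=
      (Subgroup.normal_subgroupOf_iff_le_normalizer hRM).mpr hMR
    have h2' : ((pPart p F').subgroupOf R).Normal :=
      (Subgroup.normal_subgroupOf_iff_le_normalizer hA'R).mpr (hRN.trans (hN.norm_pPart p))
    refine isSubnormal_of_subgroupOf (K := R.subgroupOf M) (Subgroup.comap_mono hA'R)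
      ?_ h1'.isSubnormal
    have e : ((pPart p F').subgroupOf M).subgroupOf (R.subgroupOf M) =
        ((pPart p F').subgroupOf R).comap (Subgroup.subgroupOfEquivOfLe hRM).toMonoidHom := by
      ext; rfl
    rw [e]
    exact (h2'.comap _).isSubnormal
  intro a ha
  obtain ⟨k, hk⟩ := isPGroup_pPart p F' ⟨a, ha⟩
  exact mem_pPart (hM.sub_le _ (fun a ha => h2 (pPart_le _ _ ha)) hsub
    (isPGroup_pPart p F').isNilpotent ha) (k := k) (congrArg Subtype.val hk)

theorem not_isPGroup_prime {M N F : Subgroup G} (hM : Datum M N F) {p : ℕ} [Fact p.Prime]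
    (h : pPrimePart p F = ⊥) : IsPGroup p ↥F := by
  haveI := hM.nil
  apply IsPGroup.to_le (isPGroup_pPart p F)
  intro f hf
  obtain ⟨a, ha, b, hb, rfl⟩ := exists_mul_parts (p := p) hf
  rw [h, mem_bot] at hb
  rwa [hb, mul_one]

/-- Bender's theorem for two data. -/
theorem isPGroup_of_data {M N F F' : Subgroup G} (hM : Datum M N F) (hN : Datum N M F') (h1 : F ≤ N)
    (h2 : F' ≤ M) (hne : M ≠ N) (hF : F ≠ ⊥) :
    ∃ p : ℕ, p.Prime ∧ IsPGroup p ↥F ∧ IsPGroup p ↥F' := by
  obtain ⟨p, hp, hdvd⟩ := Nat.exists_prime_and_dvd (n := Nat.card ↥F)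
    (fun h => hF (Subgroup.eq_bot_of_card_eq F h))
  haveI : Fact p.Prime := ⟨hp⟩
  haveI := hM.nil
  have hA : pPart p F ≠ ⊥ := by
    intro h
    obtain ⟨⟨g, hg⟩, hgo⟩ := exists_prime_orderOf_dvd_card' p hdvd
    rw [← Subgroup.orderOf_coe] at hgo
    have := mem_pPart (p := p) hg (k := 1) (by rw [pow_one, ← hgo, pow_orderOf_eq_one])
    rw [h, mem_bot] at this
    rw [show orderOf ((⟨g, hg⟩ : ↥F) : G) = orderOf g from rfl, this, orderOf_one] at hgo
    exact hp.one_lt.ne hgo
  refine ⟨p, hp, ?_⟩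
  by_cases hB : pPrimePart p F = ⊥
  · exact ⟨not_isPGroup_prime hM hB, not_isPGroup_prime hN (pPrimePart_eq_bot hM hN h1 h2 hB)⟩
  exfalso
  have hB' : pPrimePart p F' ≠ ⊥ := fun h => hB (pPrimePart_eq_bot hN hM h2 h1 h)
  have hAA : pPart p F = pPart p F' :=
    le_antisymm (pPart_le_of hN hM h2 h1 hB) (pPart_le_of hM hN h1 h2 hB')
  apply hne
  exact eq_of_normal_both hM.prim hN.prim hA (hM.norm_pPart p) (hAA ▸ hN.norm_pPart p)
    (le_inf ((pPart_le _ _).trans hM.le) (hAA ▸ (pPart_le _ _).trans hN.le))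


/-- The Fitting subgroup of a member with trivial layer gives a datum. -/
theorem datum_fitting {M N : Subgroup G} (hlayer : Cfsg.layer ↥M = ⊥)
    (hprim : ∀ X : Subgroup G, X ≠ ⊥ → M ≤ normalizer (X : Set G) → X ≤ M ⊓ N →
      N ⊓ normalizer (X : Set G) = M ⊓ N) :
    Datum M N ((Cfsg.fittingSubgroup ↥M).map M.subtype) where
  le := Subgroup.map_subtype_le _
  norm := (Subgroup.le_normalizer).trans (normalizer_le_normalizer_map_char _)
  nil := haveI := Core.isNilpotent_fittingSubgroup ↥M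
    Group.nilpotent_of_mulEquiv
      ((Cfsg.fittingSubgroup ↥M).equivMapOfInjective M.subtype M.subtype_injective)
  self_centralizing := by
    rintro g ⟨hgM, hg⟩
    refine ⟨⟨g, hgM⟩, centralizer_fitting_le_of_layer_eq_bot hlayer ?_, rfl⟩
    rw [mem_centralizer_iff]
    intro f hf
    exact Subtype.ext (mem_centralizer_iff.mp hg f ⟨f, hf, rfl⟩)
  sub_le := by
    intro X hX hs hn
    haveI := hn
    rw [← Subgroup.map_subgroupOf_eq_of_le hX]
    exact Subgroup.map_mono (le_fitting_of_isSubnormal hs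
      (Group.nilpotent_of_mulEquiv (Subgroup.subgroupOfEquivOfLe hX).symm))
  prim := hprim

end Cfsg.Agent.Transfer.PrimPair
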