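import Cfsg.Prelude.Def_LocalEven
import Cfsg.Agent.Core.Cores
import Cfsg.Agent.Coprime.Generation
import Cfsg.Agent.Coprime.PxQ
import Cfsg.Agent.S0444

/-!
Small offenders on a 2-module force a section `S₃`.
-/

set_option autoImplicit false

namespace Cfsg.Agent.Transfer.SmallOff

open scoped commutatorElement

variable {X : Type*} [Group X] [Finite X]

theorem involves_perm_three (M : Subgroup X) {a x : X} (ha : a ∈ M) (hx : x ∈ M) (ha2 : a * a = 1)
    (hx3 : orderOf x = 3) (hinv : a * x * a = x⁻¹) : Cfsg.Involves (Equiv.Perm (Fin 3)) ↥M := by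
  have hxp : x ^ 3 = 1 := by rw [← hx3]; exact pow_orderOf_eq_one x
  set d : M := ⟨a, ha⟩ with hd
  set e : M := ⟨a * x, mul_mem ha hx⟩ with he
  have hdd : d * d = 1 := Subtype.ext ha2
  have hee : e * e = 1 := Subtype.ext (by
    show a * x * (a * x) = 1
    rw [← mul_assoc, hinv, inv_mul_cancel])
  have hbr : d * e * d = e * d * e := Subtype.ext (by
    show a * (a * x) * a = a * x * a * (a * x)
    rw [hinv, ← mul_assoc a a x, ha2, one_mul]
    have h1 : a * x = x⁻¹ * a := by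
      rw [← hinv, mul_assoc _ a a, ha2, mul_one]
    rw [h1, ← mul_assoc]
    congr 1
    calc x = x ^ 3 * (x⁻¹ * x⁻¹) := by group
      _ = x⁻¹ * x⁻¹ := by rw [hxp, one_mul])
  have hnc : ¬ Commute d e := by
    intro h
    have h1 : a * (a * x) = a * x * a := congrArg Subtype.val h.eq
    rw [← mul_assoc, ha2, one_mul, hinv] at h1
    have : x ^ 2 = 1 := by rw [sq]; nth_rewrite 1 [h1]; exact inv_mul_cancel x
    have := orderOf_dvd_of_pow_eq_one this
    rw [hx3] at this
    norm_num at this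
  obtain ⟨e1⟩ := S0444.closure_equiv_dihedral hdd hee hbr hnc
  obtain ⟨e2⟩ := S0444.closure_equiv_dihedral (G := Equiv.Perm (Fin 3))
    (d := Equiv.swap 0 1) (e := Equiv.swap 1 2) (by decide) (by decide) (by decide)
    (by unfold Commute SemiconjBy; decide)
  have htop : Subgroup.closure ({Equiv.swap 0 1, Equiv.swap 1 2} : Set (Equiv.Perm (Fin 3))) = ⊤ := by
    apply Subgroup.eq_top_of_card_eq
    rw [← Nat.card_congr e2.toEquiv, DihedralGroup.nat_card, Nat.card_perm, Nat.card_fin]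
    rfl
  set K := Subgroup.closure ({d, e} : Set M)
  have hbot : (⊥ : Subgroup M).subgroupOf K = ⊥ := Subgroup.bot_subgroupOf K
  haveI hn : ((⊥ : Subgroup M).subgroupOf K).Normal := by rw [hbot]; infer_instance
  exact ⟨K, ⊥, hn, ⟨((QuotientGroup.quotientMulEquivOfEq hbot).trans QuotientGroup.quotientBot).trans
    (e1.symm.trans (e2.trans ((MulEquiv.subgroupCongr htop).trans Subgroup.topEquiv)))⟩⟩

theorem bound (V O M : Subgroup X) (hV : Cfsg.IsElementaryAbelian 2 V) (hMV : M ≤ Subgroup.normalizer (V : Set X))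
    (hOM : O ≤ M) (hfaith : O ⊓ Subgroup.centralizer (V : Set X) = ⊥) (hOodd : Odd (Nat.card O))
    (hno : ¬ Cfsg.Involves (Equiv.Perm (Fin 3)) ↥M) :
    ∀ (n : ℕ) (A : Subgroup X), Nat.card A = n → A ≤ M → A ≤ Subgroup.normalizer (O : Set X) →
      Cfsg.IsElementaryAbelian 2 A → A ⊓ Subgroup.centralizer (O : Set X) = ⊥ →
      Nat.card A ^ 2 ≤ (V ⊓ Subgroup.centralizer (A : Set X)).relIndex V := by
  classical
  haveI : Fact (Nat.Prime 2) := ⟨Nat.prime_two⟩
  intro n
  induction n using Nat.strong_induction_on with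
  | _ n ih =>
  intro A hAn hAM hAO hA hfA
  have hcopO : ∀ E : Subgroup X, E ≤ A → (Nat.card E).Coprime (Nat.card O) := fun E hE => by
    obtain ⟨k, hk⟩ := IsPGroup.iff_card.1 (show IsPGroup 2 E from fun x => ⟨1, Subtype.ext (by
      simpa using hA.2 x (hE x.2))⟩)
    rw [hk]
    exact Nat.Coprime.pow_left k (Nat.coprime_two_left.2 hOodd)
  by_cases hA1 : A = ⊥
  · rw [hA1, Subgroup.card_bot, one_pow]
    exact Nat.one_le_iff_ne_zero.2 Subgroup.index_ne_zero_of_finite
  have hAc : ∀ u ∈ A, ∀ v ∈ A, u * v = v * u := fun u hu v hv =>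
    congrArg Subtype.val (hA.1.is_comm.comm ⟨u, hu⟩ ⟨v, hv⟩)
  have hA2 : ∀ u ∈ A, u * u = 1 := fun u hu => by rw [← sq]; exact hA.2 u hu
  have hbot : ¬ O ⊓ Subgroup.centralizer ((⊥ : Subgroup X) : Set X) ≤ Subgroup.centralizer (A : Set X) := by
    intro h
    refine hA1 (le_bot_iff.1 (fun a ha => hfA.le ⟨ha, Subgroup.mem_centralizer_iff.2 fun o ho => ?_⟩))
    refine (Subgroup.mem_centralizer_iff.1 (h ⟨ho, Subgroup.mem_centralizer_iff.2 fun u hu => ?_⟩) a ha).symm
    rw [Subgroup.coe_bot, Set.mem_singleton_iff] at hu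
    simp [hu]
  obtain ⟨B, ⟨hBA, hBn⟩, hmax⟩ := (Set.toFinite {B : Subgroup X | B ≤ A ∧
      ¬ O ⊓ Subgroup.centralizer (B : Set X) ≤ Subgroup.centralizer (A : Set X)}).exists_maximal
    ⟨⊥, bot_le, hbot⟩
  have hBne : ¬ A ≤ B := fun h => hBn ((inf_le_right).trans (Subgroup.centralizer_le h))
  obtain ⟨a, haA, haB⟩ := SetLike.not_le_iff_exists.1 hBne
  set O' := O ⊓ Subgroup.centralizer (B : Set X) with hO'
  have hnorm : ∀ u ∈ A, ∀ y ∈ O', u * y * u⁻¹ ∈ O' := by
    intro u hu y hy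
    refine ⟨(Subgroup.mem_normalizer_iff.1 (hAO hu) y).1 hy.1, Subgroup.mem_centralizer_iff.2 fun b hb => ?_⟩
    have h1 : Commute b u := hAc b (hBA hb) u hu
    have h2 : Commute b y := Subgroup.mem_centralizer_iff.1 hy.2 b hb
    exact ((h1.mul_right h2).mul_right h1.inv_right).eq
  -- `B` has index two in `A`
  have hAB : ∀ u ∈ A, u ∈ B ∨ a * u ∈ B := by
    intro u hu
    by_contra hcon
    push Not at hcon
    obtain ⟨huB, hauB⟩ := hcon
    have hua : u ≠ a := fun h => hauB (by rw [h, hA2 a haA]; exact one_mem _)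
    have hau1 : a * u ≠ 1 := fun h => hauB (h ▸ one_mem _)
    have ha1 : a ≠ 1 := fun h => haB (h ▸ one_mem _)
    have hu1 : u ≠ 1 := fun h => huB (h ▸ one_mem _)
    set E := Subgroup.zpowers a ⊔ Subgroup.zpowers u with hE
    have hEA : E ≤ A := sup_le (Subgroup.zpowers_le.2 haA) (Subgroup.zpowers_le.2 hu)
    haveI : IsMulCommutative E := ⟨⟨fun v w => Subtype.ext (hAc v (hEA v.2) w (hEA w.2))⟩⟩
    have hEmem : ∀ e ∈ E, e = 1 ∨ e = a ∨ e = u ∨ e = a * u := by
      intro e he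
      have hn : Subgroup.zpowers u ≤ Subgroup.normalizer (Subgroup.zpowers a : Set X) := fun v hv =>
        (Subgroup.centralizer_le_normalizer _) (Subgroup.mem_centralizer_iff.2 fun w hw =>
          hAc w (Subgroup.zpowers_le.2 haA hw) v (Subgroup.zpowers_le.2 hu hv))
      rw [← SetLike.mem_coe, hE, Subgroup.coe_mul_of_right_le_normalizer_left _ _ hn] at he
      obtain ⟨v, hv, w, hw, rfl⟩ := Set.mem_mul.1 he
      have key : ∀ g ∈ A, ∀ z ∈ Subgroup.zpowers g, z = 1 ∨ z = g := by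
        intro g hg z hz
        obtain ⟨i, rfl⟩ := Subgroup.mem_zpowers_iff.1 hz
        have hg2 : g ^ (2 : ℤ) = 1 := by rw [show (2 : ℤ) = ((2 : ℕ) : ℤ) from rfl, zpow_natCast]; exact hA.2 g hg
        rcases Int.even_or_odd i with ⟨j, rfl⟩ | ⟨j, rfl⟩
        · left; rw [← two_mul, zpow_mul, hg2, one_zpow]
        · right; rw [zpow_add_one, zpow_mul, hg2, one_zpow, one_mul]
      rcases key a haA v hv with rfl | rfl <;> rcases key u hu w hw with rfl | rfl <;> simp
    have hncyc : ¬ IsCyclic E := by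
      intro hc
      obtain ⟨⟨g, hg⟩, hgen⟩ := IsCyclic.exists_generator (α := E)
      have hsub : ∀ z ∈ E, z = 1 ∨ z = g := fun z hz => by
        obtain ⟨i, hi⟩ := Subgroup.mem_zpowers_iff.1 (hgen ⟨z, hz⟩)
        have hi' : g ^ i = z := congrArg Subtype.val hi
        have hg2 : g ^ (2 : ℤ) = 1 := by
          rw [show (2 : ℤ) = ((2 : ℕ) : ℤ) from rfl, zpow_natCast]; exact hA.2 g (hEA hg)
        rcases Int.even_or_odd i with ⟨j, rfl⟩ | ⟨j, rfl⟩
        · left; rw [← hi', ← two_mul, zpow_mul, hg2, one_zpow]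
        · right; rw [← hi', zpow_add_one, zpow_mul, hg2, one_zpow, one_mul]
      rcases hsub a (Subgroup.mem_sup_left (Subgroup.mem_zpowers a)) with h | h
      · exact ha1 h
      · rcases hsub u (Subgroup.mem_sup_right (Subgroup.mem_zpowers u)) with h' | h'
        · exact hu1 h'
        · exact hua (h'.trans h.symm)
    have hEN : E ≤ Subgroup.normalizer (O' : Set X) := fun e he =>
      Coprime.mem_normalizer_of_conj_mem (hnorm e (hEA he))
    have hgen := Coprime.eq_centralizerJoin (N := O') hncyc hEN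
      ((hcopO E hEA).coprime_dvd_right (Subgroup.card_dvd_of_le inf_le_left))
    apply hBn
    rw [← hgen]
    refine iSup_le fun e => ?_
    obtain ⟨e, he, he1⟩ := e
    by_contra hne
    have heB : e ∉ B := by
      rcases hEmem e he with rfl | rfl | rfl | rfl
      · exact absurd rfl he1
      · exact haB
      · exact huB
      · exact hauB
    refine heB ((hmax ⟨sup_le hBA (Subgroup.zpowers_le.2 (hEA he)), ?_⟩ le_sup_left)
      (Subgroup.mem_sup_right (Subgroup.mem_zpowers e)))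
    intro hle
    apply hne
    rintro y ⟨⟨hyO, hyB⟩, hye⟩
    refine hle ⟨hyO, ?_⟩
    have h1 : B ⊔ Subgroup.zpowers e ≤ Subgroup.centralizer ({y} : Set X) :=
      sup_le (fun b hb => Subgroup.mem_centralizer_singleton_iff.2 (Subgroup.mem_centralizer_iff.1 hyB b hb))
        (Subgroup.zpowers_le.2 (Subgroup.mem_centralizer_singleton_iff.2
          (Subgroup.mem_centralizer_singleton_iff.1 hye).symm))
    exact Subgroup.mem_centralizer_iff.2 fun b hb => Subgroup.mem_centralizer_singleton_iff.1 (h1 hb)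
  -- an inverted element
  obtain ⟨y, hyO, hyA⟩ := SetLike.not_le_iff_exists.1 hBn
  have hya : a * y ≠ y * a := by
    intro h
    refine hyA (Subgroup.mem_centralizer_iff.2 fun u hu => ?_)
    rcases hAB u hu with hb | hb
    · exact Subgroup.mem_centralizer_iff.1 hyO.2 u hb
    · have h1 : Commute (a * u) y := Subgroup.mem_centralizer_iff.1 hyO.2 _ hb
      have h2 : u = a * (a * u) := by rw [← mul_assoc, hA2 a haA, one_mul]
      rw [h2]
      exact (Commute.mul_left (h : Commute a y) h1).eq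
  have hainv : a⁻¹ = a := inv_eq_of_mul_eq_one_right (hA2 a haA)
  set z := y⁻¹ * (a * y * a) with hz
  have hzO : z ∈ O' := by
    refine mul_mem (inv_mem hyO) ?_
    have := hnorm a haA y hyO
    rwa [hainv] at this
  have hz1 : z ≠ 1 := fun h => hya (by
    have h1 : y = a * y * a := inv_mul_eq_one.1 h
    calc a * y = a * y * (a * a) := by rw [hA2 a haA, mul_one]
      _ = a * y * a * a := by group
      _ = y * a := by rw [← h1])
  have hzinv : a * z * a⁻¹ = z⁻¹ := by
    have haa := hA2 a haA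
    rw [hz, mul_inv_rev, inv_inv, mul_inv_rev, mul_inv_rev, hainv]
    calc a * (y⁻¹ * (a * y * a)) * a = a * y⁻¹ * a * y * (a * a) := by group
      _ = _ := by rw [haa]; group
  set r := (orderOf z).minFac with hr
  have hrp : r.Prime := Nat.minFac_prime fun h => hz1 (orderOf_eq_one_iff.1 h)
  haveI : Fact r.Prime := ⟨hrp⟩
  set x := z ^ (orderOf z / r) with hx
  have hxr : orderOf x = r := orderOf_pow_orderOf_div (orderOf_pos z).ne' (Nat.minFac_dvd _)
  have hxO : x ∈ O' := pow_mem hzO _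
  have hxinv : a * x * a⁻¹ = x⁻¹ := by rw [hx, ← conj_pow, hzinv, inv_pow]
  have hr2 : r ≠ 2 := by
    intro h
    obtain ⟨k, hk⟩ := hOodd
    have : r ∣ Nat.card O := hxr ▸ (by
      have := orderOf_dvd_natCard (⟨x, hxO.1⟩ : O)
      rwa [Subgroup.orderOf_mk] at this)
    rw [h, hk] at this
    omega
  have hr5 : 5 ≤ r := by
    have := hrp.two_le
    by_contra h
    interval_cases r
    · exact hr2 rfl
    · exact hno (involves_perm_three M (hAM haA) (hOM hxO.1) (hA2 a haA) hxr (by rw [← hxinv, hainv]))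
    · norm_num at hrp
  -- the two factors
  have hBlt : Nat.card B < Nat.card A := by
    rcases (Subgroup.card_le_of_le hBA).lt_or_eq with h | h
    · exact h
    · exact absurd (Subgroup.eq_of_le_of_card_ge hBA h.ge).ge hBne
  have hBel : Cfsg.IsElementaryAbelian 2 B :=
    ⟨⟨⟨fun u v => Subtype.ext (hAc u (hBA u.2) v (hBA v.2))⟩⟩, fun u hu => hA.2 u (hBA hu)⟩
  have hB := ih (Nat.card B) (hAn ▸ hBlt) B rfl (hBA.trans hAM) (hBA.trans hAO) hBel
    (le_bot_iff.1 ((inf_le_inf_right _ hBA).trans hfA.le))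
  have hA_le : Nat.card A ≤ 2 * Nat.card B := by
    haveI := Fintype.ofFinite B
    haveI := Fintype.ofFinite A
    rw [Nat.card_eq_fintype_card, Nat.card_eq_fintype_card, two_mul, ← Fintype.card_sum]
    refine Fintype.card_le_of_surjective (fun s : B ⊕ B => Sum.elim (fun b : B => (⟨b, hBA b.2⟩ : A))
      (fun b : B => (⟨a * b, mul_mem haA (hBA b.2)⟩ : A)) s) fun u => ?_
    rcases hAB u u.2 with h | h
    · exact ⟨Sum.inl ⟨u, h⟩, rfl⟩
    · exact ⟨Sum.inr ⟨a * u, h⟩, Subtype.ext (by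
        show a * (a * (u : X)) = u
        rw [← mul_assoc, hA2 a haA, one_mul])⟩
  set W := V ⊓ Subgroup.centralizer (B : Set X) with hW
  set C := W ⊓ Subgroup.centralizer ({a} : Set X) with hC
  have hCA : V ⊓ Subgroup.centralizer (A : Set X) = C := by
    apply le_antisymm
    · rintro v ⟨hv, hvA⟩
      exact ⟨⟨hv, Subgroup.centralizer_le hBA hvA⟩, Subgroup.mem_centralizer_singleton_iff.2
        (Subgroup.mem_centralizer_iff.1 hvA a haA).symm⟩
    · rintro v ⟨⟨hv, hvB⟩, hva⟩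
      refine ⟨hv, Subgroup.mem_centralizer_iff.2 fun u hu => ?_⟩
      rcases hAB u hu with hb | hb
      · exact Subgroup.mem_centralizer_iff.1 hvB u hb
      · have h1 : Commute (a * u) v := Subgroup.mem_centralizer_iff.1 hvB _ hb
        rw [show u = a * (a * u) by rw [← mul_assoc, hA2 a haA, one_mul]]
        exact (Commute.mul_left (Subgroup.mem_centralizer_singleton_iff.1 hva).symm h1).eq
  suffices h4 : 4 ≤ C.relIndex W by
    rw [hCA, ← Subgroup.relIndex_mul_relIndex C W V inf_le_left inf_le_left]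
    calc Nat.card A ^ 2 ≤ (2 * Nat.card B) ^ 2 := Nat.pow_le_pow_left hA_le 2
      _ = 4 * Nat.card B ^ 2 := by ring
      _ ≤ C.relIndex W * W.relIndex V := Nat.mul_le_mul h4 hB
  by_contra h4
  have hWc : ∀ u ∈ W, ∀ v ∈ W, u * v = v * u := fun u hu v hv =>
    congrArg Subtype.val (hV.1.is_comm.comm ⟨u, hu.1⟩ ⟨v, hv.1⟩)
  have hWp : IsPGroup 2 W := fun w => ⟨1, Subtype.ext (by simpa using hV.2 w w.2.1)⟩
  have hnW : ∀ g, g ∈ M → (∀ b ∈ B, Commute b g) → ∀ w ∈ W, g * w * g⁻¹ ∈ W := by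
    intro g hg hgB w hw
    refine ⟨(Subgroup.mem_normalizer_iff.1 (hMV hg) w).1 hw.1, Subgroup.mem_centralizer_iff.2 fun b hb => ?_⟩
    have h2 : Commute b w := Subgroup.mem_centralizer_iff.1 hw.2 b hb
    exact (((hgB b hb).mul_right h2).mul_right (hgB b hb).inv_right).eq
  have hxB : ∀ b ∈ B, Commute b x := fun b hb => Subgroup.mem_centralizer_iff.1 hxO.2 b hb
  have hxW : x ∈ Subgroup.normalizer (W : Set X) :=
    Coprime.mem_normalizer_of_conj_mem (hnW x (hOM hxO.1) hxB)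
  have hidx : C.relIndex W ≤ 2 := by
    obtain ⟨k, hk⟩ := hWp.index (C.subgroupOf W)
    rw [show C.relIndex W = 2 ^ k from hk] at h4 ⊢
    have : k ≤ 1 := by
      by_contra hk1
      exact h4 (le_trans (by norm_num) (Nat.pow_le_pow_right (by norm_num) (by omega : 2 ≤ k)))
    calc 2 ^ k ≤ 2 ^ 1 := Nat.pow_le_pow_right (by norm_num) this
      _ = 2 := rfl
  set C' := C.map (MulAut.conj x).toMonoidHom with hC'
  have hWx : W.map (MulAut.conj x).toMonoidHom = W := Subgroup.mem_normalizer_iff_map_conj_eq.1 hxW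
  have hC'W : C' ≤ W := (Subgroup.map_mono inf_le_left).trans hWx.le
  have hidx' : C'.relIndex W ≤ 2 := by
    rw [← hWx, hC', Subgroup.relIndex_map_map_of_injective _ _ (MulAut.conj x).injective]
    exact hidx
  have hi4 : (C ⊓ C').relIndex W ≤ 4 := by
    calc (C ⊓ C').relIndex W ≤ C.relIndex W * C'.relIndex W := Subgroup.relIndex_inf_le
      _ ≤ 2 * 2 := Nat.mul_le_mul hidx hidx'
  set F := W ⊓ Subgroup.centralizer ({x} : Set X) with hF
  have hle : C ⊓ C' ≤ F := by
    rintro w ⟨hw, ⟨u, hu, huw⟩⟩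
    refine ⟨hw.1, Subgroup.mem_centralizer_singleton_iff.2 ?_⟩
    have h1 : Commute w a := Subgroup.mem_centralizer_singleton_iff.1 hw.2
    have h2 : Commute w (x * a * x⁻¹) := by
      have h3 : Commute u a := Subgroup.mem_centralizer_singleton_iff.1 hu.2
      rw [← huw]
      exact h3.map (MulAut.conj x).toMonoidHom
    have h5 : x * a * x⁻¹ * a = x ^ 2 := by
      have : a * x⁻¹ * a⁻¹ = x := by rw [show a * x⁻¹ * a⁻¹ = (a * x * a⁻¹)⁻¹ by group, hxinv, inv_inv]
      rw [hainv] at this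
      rw [show x * a * x⁻¹ * a = x * (a * x⁻¹ * a) by group, this, sq]
    have h6 : Commute w (x ^ 2) := h5 ▸ h2.mul_right h1
    have h7 : x = (x ^ 2) ^ ((r + 1) / 2) := by
      rw [← pow_mul]
      obtain ⟨k, hk⟩ := hrp.odd_of_ne_two hr2
      rw [show 2 * ((r + 1) / 2) = r + 1 by omega, pow_succ, ← hxr, pow_orderOf_eq_one, one_mul]
    rw [h7]
    exact (h6.pow_right _).eq
  have hF4 : F.relIndex W ≤ 4 := le_trans (Nat.le_of_dvd (Nat.pos_of_ne_zero Subgroup.index_ne_zero_of_finite)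
    (Subgroup.relIndex_dvd_of_le_left W hle)) hi4
  -- `x` fixes the image of `w ↦ ⁅x, w⁆`
  let δ : W →* X := MonoidHom.mk' (fun w => x * (w : X) * x⁻¹ * (w : X)⁻¹) fun u v => by
    have e1 : x * (v : X) * x⁻¹ * (v : X)⁻¹ ∈ W :=
      mul_mem ((Subgroup.mem_normalizer_iff.1 hxW _).1 v.2) (inv_mem v.2)
    have e2 := hWc _ e1 _ (inv_mem u.2)
    show x * ((u : X) * v) * x⁻¹ * ((u : X) * v)⁻¹ = _
    calc x * ((u : X) * v) * x⁻¹ * ((u : X) * v)⁻¹
        = x * (u : X) * x⁻¹ * (x * (v : X) * x⁻¹ * (v : X)⁻¹ * (u : X)⁻¹) := by group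
      _ = _ := by rw [e2]; group
  have hker : δ.ker = F.subgroupOf W := by
    ext w
    rw [MonoidHom.mem_ker, Subgroup.mem_subgroupOf, hF, Subgroup.mem_inf, Subgroup.mem_centralizer_singleton_iff]
    show x * (w : X) * x⁻¹ * (w : X)⁻¹ = 1 ↔ _
    rw [mul_inv_eq_one, mul_inv_eq_iff_eq_mul]
    exact ⟨fun h => ⟨w.2, h.symm⟩, fun h => h.2.symm⟩
  have hI4 : Nat.card δ.range ≤ 4 := by
    rw [← Subgroup.index_ker, hker]; exact hF4
  set Z := Subgroup.zpowers x with hZ
  have hZW : Z ≤ Subgroup.normalizer (W : Set X) := Subgroup.zpowers_le.2 hxW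
  have hxI : ∀ i ∈ δ.range, x * i * x⁻¹ ∈ δ.range := by
    rintro _ ⟨w, rfl⟩
    refine ⟨⟨x * w * x⁻¹, (Subgroup.mem_normalizer_iff.1 hxW _).1 w.2⟩, ?_⟩
    show x * (x * (w : X) * x⁻¹) * x⁻¹ * (x * (w : X) * x⁻¹)⁻¹ = x * (x * (w : X) * x⁻¹ * (w : X)⁻¹) * x⁻¹
    group
  have hZI : ∀ g ∈ Z, ∀ i ∈ δ.range, g * i * g⁻¹ ∈ δ.range := by
    intro g hg i hi
    have hx' : x ∈ Subgroup.normalizer (δ.range : Set X) := Coprime.mem_normalizer_of_conj_mem hxI
    exact (Subgroup.mem_normalizer_iff.1 ((Subgroup.zpowers_le.2 hx') hg) i).1 hi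
  letI : MulAction Z δ.range :=
    { smul := fun g i => ⟨(g : X) * i * (g : X)⁻¹, hZI g g.2 i i.2⟩
      one_smul := fun i => Subtype.ext (show ((1 : Z) : X) * (i : X) * ((1 : Z) : X)⁻¹ = i by simp)
      mul_smul := fun g k i => Subtype.ext (by
        show ((g * k : Z) : X) * (i : X) * ((g * k : Z) : X)⁻¹ = (g : X) * ((k : X) * i * (k : X)⁻¹) * (g : X)⁻¹
        rw [Subgroup.coe_mul]; group) }
  have hZc : Nat.card Z = r := by rw [hZ, Nat.card_zpowers, hxr]
  have hfix : ∀ i ∈ δ.range, Commute x i := by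
    intro i hi
    have h1 : Nat.card (MulAction.orbit Z (⟨i, hi⟩ : δ.range)) ∣ r := by
      rw [← hZc, Nat.card_congr (MulAction.orbitEquivQuotientStabilizer Z (⟨i, hi⟩ : δ.range)),
        ← Subgroup.index_eq_card]
      exact Subgroup.index_dvd_card _
    have h2 : Nat.card (MulAction.orbit Z (⟨i, hi⟩ : δ.range)) ≤ 4 :=
      (Nat.card_le_card_of_injective _ Subtype.val_injective).trans hI4
    have h3 : Nat.card (MulAction.orbit Z (⟨i, hi⟩ : δ.range)) = 1 := by
      rcases hrp.eq_one_or_self_of_dvd _ h1 with h | h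
      · exact h
      · omega
    rw [Nat.card_eq_one_iff_unique] at h3
    haveI := h3.1
    have h5 := Subsingleton.elim (⟨(⟨x, Subgroup.mem_zpowers x⟩ : Z) • (⟨i, hi⟩ : δ.range), MulAction.mem_orbit _ _⟩ :
      MulAction.orbit Z (⟨i, hi⟩ : δ.range)) ⟨⟨i, hi⟩, MulAction.mem_orbit_self _⟩
    exact mul_inv_eq_iff_eq_mul.1 (congrArg (fun t : MulAction.orbit Z (⟨i, hi⟩ : δ.range) => ((t : δ.range) : X)) h5)
  have hcopZ : (Nat.card Z).Coprime 2 := by rw [hZc]; exact (Nat.coprime_primes hrp Nat.prime_two).2 hr2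
  haveI : Group.IsSolvable Z := inferInstance
  have hWZ : ⁅W, Z⁆ = ⊥ := by
    refine Coprime.commutator_eq_bot_of_chain (M := W ⊓ Subgroup.centralizer (Z : Set X)) hZW
      (Coprime.coprime_card_of_isPGroup hWp hcopZ) ?_ ?_
    · rw [Subgroup.commutator_le]
      intro w hw g hg
      have hm : ∀ g ∈ Z, g * w⁻¹ * g⁻¹ * w ∈ δ.range ⊓ W := by
        suffices h : Z ≤ ({ carrier := {g | g ∈ Subgroup.normalizer (W : Set X) ∧ ∀ v ∈ W, g * v * g⁻¹ * v⁻¹ ∈ δ.range}
                            one_mem' := ⟨one_mem _, fun v _ => by simp⟩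
                            mul_mem' := fun {g h} hg hh => ⟨mul_mem hg.1 hh.1, fun v hv => by
                              have hv' := (Subgroup.mem_normalizer_iff.1 hh.1 v).1 hv
                              rw [show g * h * v * (g * h)⁻¹ * v⁻¹ =
                                (g * (h * v * h⁻¹) * g⁻¹ * (h * v * h⁻¹)⁻¹) * (h * v * h⁻¹ * v⁻¹) by group]
                              exact mul_mem (hg.2 _ hv') (hh.2 v hv)⟩
                            inv_mem' := fun {g} hg => ⟨inv_mem hg.1, fun v hv => by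
                              have hv' : g⁻¹ * v * g ∈ W := by
                                simpa using (Subgroup.mem_normalizer_iff.1 (inv_mem hg.1) v).1 hv
                              have := inv_mem (hg.2 _ hv')
                              rwa [show (g * (g⁻¹ * v * g) * g⁻¹ * (g⁻¹ * v * g)⁻¹)⁻¹ = g⁻¹ * v * g⁻¹⁻¹ * v⁻¹ by
                                group] at this⟩ } : Subgroup X) by
          intro g hg
          refine ⟨?_, mul_mem ((Subgroup.mem_normalizer_iff.1 (hZW hg) _).1 (inv_mem hw)) hw⟩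
          have := (h hg).2 w⁻¹ (inv_mem hw)
          rwa [inv_inv] at this
        rw [hZ, Subgroup.zpowers_le]
        exact ⟨hxW, fun v hv => ⟨⟨v, hv⟩, rfl⟩⟩
      obtain ⟨hmI, hmW⟩ := hm g hg
      have hmW' : ⁅w, g⁆ ∈ W := by
        rw [commutatorElement_def, show w * g * w⁻¹ * g⁻¹ = w * (g * w⁻¹ * g⁻¹ * w) * w⁻¹ by group]
        exact mul_mem (mul_mem hw hmW) (inv_mem hw)
      refine ⟨hmW', Subgroup.mem_centralizer_iff.2 fun k hk => ?_⟩
      obtain ⟨j, rfl⟩ := Subgroup.mem_zpowers_iff.1 hk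
      have he : ⁅w, g⁆ = g * w⁻¹ * g⁻¹ * w := by
        rw [commutatorElement_def]
        have := hWc w hw _ ((Subgroup.mem_normalizer_iff.1 (hZW hg) _).1 (inv_mem hw))
        rw [show w * g * w⁻¹ * g⁻¹ = w * (g * w⁻¹ * g⁻¹) by group, this]
      rw [he]
      exact ((hfix _ hmI).zpow_left j).eq
    · rw [Subgroup.commutator_eq_bot_iff_le_centralizer]; exact inf_le_right
  have hBZ : ⁅B, Z⁆ = ⊥ := by
    rw [Subgroup.commutator_eq_bot_iff_le_centralizer]
    intro b hb
    rw [Subgroup.mem_centralizer_iff]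
    intro g hg
    obtain ⟨j, rfl⟩ := Subgroup.mem_zpowers_iff.1 hg
    exact ((hxB b hb).symm.zpow_left j).eq
  have hVZ := Coprime.commutator_eq_bot_of_PxQ (P := B) (Q := Z)
    (fun u => ⟨1, Subtype.ext (by simpa using hA.2 u (hBA u.2))⟩) hcopZ hBZ _ V rfl
    (fun v => ⟨1, Subtype.ext (by simpa using hV.2 v v.2)⟩) ((hBA.trans hAM).trans hMV)
    (Subgroup.zpowers_le.2 (hMV (hOM hxO.1))) hWZ
  rw [Subgroup.commutator_eq_bot_iff_le_centralizer] at hVZ
  have hx1 : x ∈ O ⊓ Subgroup.centralizer (V : Set X) := ⟨hxO.1, Subgroup.mem_centralizer_iff.2 fun v hv =>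
    (Subgroup.mem_centralizer_iff.1 (hVZ hv) x (Subgroup.mem_zpowers x)).symm⟩
  rw [hfaith, Subgroup.mem_bot] at hx1
  rw [hx1, orderOf_one] at hxr
  exact hrp.ne_one hxr.symm

theorem involves (M V : Subgroup X) (hV : Cfsg.IsElementaryAbelian 2 V)
    (hMV : M ≤ Subgroup.normalizer (V : Set X)) (hfaith : M ⊓ Subgroup.centralizer (V : Set X) = ⊥)
    (hcon : Subgroup.centralizer (Cfsg.pPrimeCore 2 ↥M : Set ↥M) ≤ Cfsg.pPrimeCore 2 ↥M)
    (A : Subgroup X) (hAM : A ≤ M) (hA : Cfsg.IsElementaryAbelian 2 A)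
    (hsmall : (V ⊓ Subgroup.centralizer (A : Set X)).relIndex V < Nat.card A ^ 2) :
    Cfsg.Involves (Equiv.Perm (Fin 3)) ↥M := by
  haveI : Fact (Nat.Prime 2) := ⟨Nat.prime_two⟩
  by_contra hno
  set O := (Cfsg.pPrimeCore 2 ↥M).map M.subtype with hO
  have hcard : Nat.card O = Nat.card (Cfsg.pPrimeCore 2 ↥M) :=
    Subgroup.card_map_of_injective M.subtype_injective
  have hodd : Odd (Nat.card O) := by
    rw [hcard]; exact Nat.coprime_two_right.1 (Core.card_pPrimeCore_coprime 2 M)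
  refine absurd (bound V O M hV hMV (Subgroup.map_subtype_le _)
    (le_bot_iff.1 ((inf_le_inf_right _ (Subgroup.map_subtype_le _)).trans hfaith.le)) hodd hno _ A rfl hAM ?_ hA ?_)
    (not_le.2 hsmall)
  · intro a ha
    refine Coprime.mem_normalizer_of_conj_mem ?_
    rintro _ ⟨m, hm, rfl⟩
    exact ⟨⟨a, hAM ha⟩ * m * (⟨a, hAM ha⟩ : M)⁻¹,
      (inferInstance : (Cfsg.pPrimeCore 2 ↥M).Normal).conj_mem m hm _, rfl⟩
  · rw [Subgroup.eq_bot_iff_forall]
    rintro a ⟨ha, hac⟩
    have haO : (⟨a, hAM ha⟩ : M) ∈ Cfsg.pPrimeCore 2 ↥M := hcon (Subgroup.mem_centralizer_iff.2 fun m hm =>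
      Subtype.ext (Subgroup.mem_centralizer_iff.1 hac m ⟨m, hm, rfl⟩))
    by_contra ha1
    have h2 : orderOf a = 2 := orderOf_eq_prime (hA.2 a ha) ha1
    have := orderOf_dvd_natCard (⟨⟨a, hAM ha⟩, haO⟩ : Cfsg.pPrimeCore 2 ↥M)
    rw [Subgroup.orderOf_mk, Subgroup.orderOf_mk, h2, ← hcard] at this
    obtain ⟨k, hk⟩ := hodd
    omega

end Cfsg.Agent.Transfer.SmallOff
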