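import Mathlib

/-!
An irreducible cyclic group of isometries of a nondegenerate pairing.
-/

set_option autoImplicit false

namespace Cfsg.Agent.Transfer.SympCyc

/-- A ring endomorphism of a finite domain of characteristic `p` is a power map. -/
theorem endo_eq_pow {R : Type*} [CommRing R] [IsDomain R] [Finite R] {p : ℕ} [Fact p.Prime] [CharP R p]
    (φ : R →+* R) : ∃ j : ℕ, ∀ x, φ x = x ^ (p ^ j) := by
  classical
  haveI : Fintype R := Fintype.ofFinite R
  letI : Field R := Fintype.fieldOfDomain R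
  letI : Algebra (ZMod p) R := ZMod.algebra R p
  have hcomm : ∀ c : ZMod p, φ (algebraMap (ZMod p) R c) = algebraMap (ZMod p) R c := fun c => by
    have h : φ.comp (algebraMap (ZMod p) R) = algebraMap (ZMod p) R := RingHom.ext_zmod _ _
    exact DFunLike.congr_fun h c
  let f : R →ₐ[ZMod p] R := { φ with commutes' := hcomm }
  obtain ⟨j, hj⟩ := (FiniteField.bijective_frobeniusAlgHom_pow (ZMod p) R).2 f
  have hpow : ∀ (n : ℕ) (x : R), ((FiniteField.frobeniusAlgHom (ZMod p) R) ^ n) x = x ^ (p ^ n) := by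
    intro n
    induction n with
    | zero => intro x; simp
    | succ n ih =>
      intro x
      rw [pow_succ', pow_succ', mul_comm p, pow_mul]
      show FiniteField.frobeniusAlgHom (ZMod p) R (((FiniteField.frobeniusAlgHom (ZMod p) R) ^ n) x) = _
      rw [ih, FiniteField.coe_frobeniusAlgHom]
      simp [ZMod.card]
  simp only at hj
  exact ⟨j, fun x => by rw [← hpow, hj]; rfl⟩

variable {V : Type*} [AddCommGroup V] [Finite V] [Nontrivial V] {T : Type*} [CommGroup T]

theorem dvd_pow_add_one {p : ℕ} [Fact p.Prime] (hp : ∀ v : V, p • v = 0) (σ : AddMonoid.End V)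
    (hirr : ∀ U : AddSubgroup V, (∀ v ∈ U, σ v ∈ U) → U = ⊥ ∨ U = ⊤)
    (B : V → V → T) (hl : ∀ u u' v, B (u + u') v = B u v * B u' v)
    (hr : ∀ u v v', B u (v + v') = B u v * B u v')
    (hnd : ∀ v, (∀ u, B u v = 1) → v = 0) (hinv : ∀ u v, B (σ u) (σ v) = B u v)
    {h : ℕ} (hh : 0 < h) (hone : σ ^ h = 1) (hord : ∀ i, σ ^ i = 1 → h ∣ i) :
    ∃ j : ℕ, h ∣ p ^ j + 1 := by
  classical
  let R : Subring (AddMonoid.End V) := Subring.closure {σ}
  letI : CommRing R := Subring.closureCommRingOfComm (by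
    intro a ha b hb
    rw [Set.mem_singleton_iff] at ha hb
    rw [ha, hb])
  haveI : Finite (AddMonoid.End V) := DFunLike.finite (V →+ V)
  haveI : Nontrivial R := ⟨1, 0, fun e => by
    obtain ⟨v, hv⟩ := exists_ne (0 : V)
    exact hv (by simpa using DFunLike.congr_fun (congrArg Subtype.val e) v)⟩
  have hσR : σ ∈ R := Subring.subset_closure rfl
  let s : R := ⟨σ, hσR⟩
  have hinj : ∀ r : R, r ≠ 0 → Function.Injective (r : AddMonoid.End V) := by
    intro r hr0
    have hker : ∀ v ∈ AddMonoidHom.ker (r : V →+ V), σ v ∈ AddMonoidHom.ker (r : V →+ V) := by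
      intro v hv
      rw [AddMonoidHom.mem_ker] at hv ⊢
      have hc : (r : AddMonoid.End V) * σ = σ * r := congrArg Subtype.val (mul_comm r s)
      have := DFunLike.congr_fun hc v
      exact this.trans (by show σ ((r : AddMonoid.End V) v) = 0; rw [show (r : AddMonoid.End V) v = 0 from hv, map_zero])
    rcases hirr _ hker with hk | hk
    · exact (AddMonoidHom.ker_eq_bot_iff (r : V →+ V)).1 hk
    · refine absurd (Subtype.ext (AddMonoidHom.ext fun v => ?_)) hr0
      exact (AddMonoidHom.mem_ker (f := (r : V →+ V))).1 (hk ▸ AddSubgroup.mem_top v)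
  haveI : NoZeroDivisors R := ⟨fun {a b} hab => by
    by_contra hcon
    push Not at hcon
    apply hcon.2
    refine Subtype.ext (AddMonoidHom.ext fun v => hinj a hcon.1 ?_)
    have := DFunLike.congr_fun (congrArg Subtype.val hab) v
    exact this.trans (map_zero (a : AddMonoid.End V)).symm⟩
  haveI : IsDomain R := NoZeroDivisors.to_isDomain R
  haveI : CharP R p := (CharP.charP_iff_prime_eq_zero (Fact.out : p.Prime)).2 (Subtype.ext (AddMonoidHom.ext fun v => by
    have e : ((p : R) : AddMonoid.End V) = (p : AddMonoid.End V) := map_natCast R.subtype p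
    rw [e]
    exact (AddMonoid.End.natCast_apply (M := V) p v).trans (hp v)))
  -- adjoints
  have hB0 : ∀ v, B 0 v = 1 := fun v => by simpa using hl 0 0 v
  have hBneg : ∀ u v, B (-u) v = (B u v)⁻¹ := fun u v => by
    refine eq_inv_of_mul_eq_one_right ?_
    rw [← hl, add_neg_cancel, hB0]
  have hBneg' : ∀ u v, B u (-v) = (B u v)⁻¹ := fun u v => by
    refine eq_inv_of_mul_eq_one_right ?_
    have h0 : B u 0 = 1 := by simpa using hr u 0 0
    rw [← hr, add_neg_cancel, h0]
  let Adj : R → R → Prop := fun r t => ∀ u v, B ((r : AddMonoid.End V) u) v = B u ((t : AddMonoid.End V) v)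
  have huniq : ∀ r t t', Adj r t → Adj r t' → t = t' := by
    intro r t t' h1 h2
    refine Subtype.ext (AddMonoidHom.ext fun v => ?_)
    have := hnd ((t : AddMonoid.End V) v + -((t' : AddMonoid.End V) v)) fun u => by
      rw [hr, hBneg', ← h1, ← h2, mul_inv_cancel]
    exact eq_of_sub_eq_zero (by rwa [sub_eq_add_neg])
  have hσadj : Adj s (s ^ (h - 1)) := by
    intro u v
    rw [← hinv u]
    congr 1
    show v = (σ * ((s ^ (h - 1) : R) : AddMonoid.End V)) v
    rw [SubmonoidClass.coe_pow, ← pow_succ', Nat.sub_add_cancel hh, hone]; rfl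
  have hone' : Adj 1 1 := fun u v => rfl
  have hzero : Adj 0 0 := fun u v => by
    show B 0 v = B u 0
    rw [hB0]
    exact (show B u 0 = 1 by simpa using hr u 0 0).symm
  have hadd : ∀ r t r' t', Adj r t → Adj r' t' → Adj (r + r') (t + t') := fun r t r' t' h1 h2 u v => by
    show B ((r : AddMonoid.End V) u + (r' : AddMonoid.End V) u) v = B u ((t : AddMonoid.End V) v + (t' : AddMonoid.End V) v)
    rw [hl, hr, h1, h2]
  have hmul : ∀ r t r' t', Adj r t → Adj r' t' → Adj (r * r') (t * t') := fun r t r' t' h1 h2 u v => by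
    rw [mul_comm t t']
    show B ((r : AddMonoid.End V) ((r' : AddMonoid.End V) u)) v = B u ((t' : AddMonoid.End V) ((t : AddMonoid.End V) v))
    rw [h1, h2]
  have hneg : ∀ r t, Adj r t → Adj (-r) (-t) := fun r t h1 u v => by
    show B (-((r : AddMonoid.End V) u)) v = B u (-((t : AddMonoid.End V) v))
    rw [hBneg, hBneg', h1]
  have hex : ∀ r : R, ∃ t, Adj r t := by
    rintro ⟨x, hx⟩
    induction hx using Subring.closure_induction with
    | mem y hy =>
      obtain rfl : y = σ := hy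
      exact ⟨_, hσadj⟩
    | zero => exact ⟨0, hzero⟩
    | one => exact ⟨1, hone'⟩
    | add x y hx hy ihx ihy =>
      obtain ⟨a, ha⟩ := ihx
      obtain ⟨b, hb⟩ := ihy
      exact ⟨a + b, hadd _ _ _ _ ha hb⟩
    | neg x hx ih =>
      obtain ⟨a, ha⟩ := ih
      exact ⟨-a, hneg _ _ ha⟩
    | mul x y hx hy ihx ihy =>
      obtain ⟨a, ha⟩ := ihx
      obtain ⟨b, hb⟩ := ihy
      exact ⟨a * b, hmul _ _ _ _ ha hb⟩
  choose f hf using hex
  let φ : R →+* R :=
    { toFun := f
      map_one' := huniq _ _ _ (hf 1) hone'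
      map_mul' := fun a b => huniq _ _ _ (hf _) (hmul _ _ _ _ (hf a) (hf b))
      map_zero' := huniq _ _ _ (hf 0) hzero
      map_add' := fun a b => huniq _ _ _ (hf _) (hadd _ _ _ _ (hf a) (hf b)) }
  obtain ⟨j, hj⟩ := endo_eq_pow (p := p) φ
  refine ⟨j, hord _ ?_⟩
  have h1 : s ^ (h - 1) = s ^ (p ^ j) := (huniq _ _ _ hσadj (hf s)).trans (hj s)
  rw [pow_succ]
  have h2 := congrArg Subtype.val h1
  rw [SubmonoidClass.coe_pow, SubmonoidClass.coe_pow] at h2
  rw [← h2]
  show σ ^ (h - 1) * σ = 1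
  rw [← pow_succ, Nat.sub_add_cancel hh, hone]

/-- The arithmetic step. -/
theorem arith {p n j h : ℕ} (hcop : p.Coprime h) (h2n : h ∣ p ^ (2 * n) - 1) (hj : h ∣ p ^ j + 1) :
    h ∣ p ^ n + 1 ∨ h ∣ p ^ n - 1 := by
  rcases eq_or_ne h 0 with rfl | hh
  · have := Nat.eq_zero_of_zero_dvd hj
    omega
  haveI : NeZero h := ⟨hh⟩
  rcases Nat.eq_zero_or_pos p with rfl | hp
  · simp only [Nat.coprime_zero_left] at hcop
    subst hcop
    exact Or.inl (one_dvd _)
  let x : (ZMod h)ˣ := ZMod.unitOfCoprime p hcop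
  have hx : ∀ k : ℕ, ((x ^ k : (ZMod h)ˣ) : ZMod h) = ((p ^ k : ℕ) : ZMod h) := fun k => by simp [x]
  have hA : x ^ (2 * n) = 1 := Units.ext (by
    rw [hx, Units.val_one, ← sub_eq_zero]
    have : 1 ≤ p ^ (2 * n) := Nat.one_le_pow _ _ hp
    rw [show ((p ^ (2 * n) : ℕ) : ZMod h) - 1 = ((p ^ (2 * n) - 1 : ℕ) : ZMod h) by rw [Nat.cast_sub this, Nat.cast_one]]
    exact (ZMod.natCast_eq_zero_iff _ _).2 h2n)
  have hB : x ^ j = -1 := Units.ext (by
    rw [hx, Units.val_neg, Units.val_one, eq_neg_iff_add_eq_zero, ← Nat.cast_one, ← Nat.cast_add]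
    exact (ZMod.natCast_eq_zero_iff _ _).2 hj)
  have hfin : x ^ n = 1 ∨ x ^ n = -1 := by
    set d := orderOf x with hd
    have hd2n : d ∣ 2 * n := orderOf_dvd_of_pow_eq_one hA
    have hd2j : d ∣ 2 * j := orderOf_dvd_of_pow_eq_one (by rw [mul_comm, pow_mul, hB]; simp)
    by_cases hdn : d ∣ n
    · exact Or.inl (orderOf_dvd_iff_pow_eq_one.1 hdn)
    by_cases hdj : d ∣ j
    · left
      have h1 : (-1 : (ZMod h)ˣ) = 1 := hB.symm.trans (orderOf_dvd_iff_pow_eq_one.1 hdj)
      have h21 : ((2 : ℕ) : ZMod h) = 0 := by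
        have := congrArg Units.val h1
        simp only [Units.val_neg, Units.val_one] at this
        rw [Nat.cast_two, ← one_add_one_eq_two]
        nth_rewrite 1 [← this]
        exact neg_add_cancel 1
      rcases (Nat.dvd_prime Nat.prime_two).1 ((ZMod.natCast_eq_zero_iff _ _).1 h21) with rfl | rfl
      · exact Subsingleton.elim _ _
      · exact (show ∀ u : (ZMod 2)ˣ, u = 1 by decide) _
    right
    rw [← hB, pow_eq_pow_iff_modEq, ← hd]
    obtain ⟨a, ha⟩ := hd2n
    obtain ⟨b, hb⟩ := hd2j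
    have ha' : Odd a := by
      rcases Nat.even_or_odd a with ⟨c, rfl⟩ | ho
      · exact absurd ⟨c, by rw [← two_mul] at ha; nlinarith⟩ hdn
      · exact ho
    have hb' : Odd b := by
      rcases Nat.even_or_odd b with ⟨c, rfl⟩ | ho
      · exact absurd ⟨c, by rw [← two_mul] at hb; nlinarith⟩ hdj
      · exact ho
    obtain ⟨a', rfl⟩ := ha'
    obtain ⟨b', rfl⟩ := hb'
    rw [Nat.modEq_iff_dvd]
    refine ⟨(b' : ℤ) - a', ?_⟩
    have e1 : (2 : ℤ) * n = d * (2 * a' + 1) := by exact_mod_cast ha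
    have e2 : (2 : ℤ) * j = d * (2 * b' + 1) := by exact_mod_cast hb
    linarith
  rcases hfin with h1 | h1
  · right
    have := congrArg Units.val h1
    rw [hx, Units.val_one] at this
    have h1' : 1 ≤ p ^ n := Nat.one_le_pow _ _ hp
    rw [← ZMod.natCast_eq_zero_iff, Nat.cast_sub h1', this, Nat.cast_one, sub_self]
  · left
    have := congrArg Units.val h1
    rw [hx, Units.val_neg, Units.val_one] at this
    rw [← ZMod.natCast_eq_zero_iff, Nat.cast_add, this, Nat.cast_one, neg_add_cancel]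

end Cfsg.Agent.Transfer.SympCyc
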