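import Cfsg.Prelude.Def_Transfer
import Cfsg.Agent.Coprime.PxQ
import Cfsg.Agent.FGS3.PGroupFrattini
import Cfsg.Agent.FGS3.ClassTwo
import Cfsg.Agent.Transfer.SymplecticCyclic

/-!
Semiregular cyclic groups on extraspecial groups.
-/

set_option autoImplicit false

namespace Cfsg.Agent.Transfer.ExtraCyc

open scoped commutatorElement

variable {G : Type*} [Group G] [Finite G] {p : ℕ} [Fact p.Prime]

theorem conj_map (H S : Subgroup G) (h : ∀ g ∈ H, ∀ s ∈ S, g * s * g⁻¹ ∈ S) :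
    H ≤ Subgroup.normalizer (S : Set G) := fun g hg => Coprime.mem_normalizer_of_conj_mem (h g hg)

/-- A semiregular coprime group on a section `M / N`. -/
theorem dvd_section (H N M : Subgroup G) [IsCyclic H] (hcop : (Nat.card H).Coprime (Nat.card M))
    (hNM : N ≤ M) (hMN : M ≤ Subgroup.normalizer (N : Set G))
    (hHM : H ≤ Subgroup.normalizer (M : Set G)) (hHN : H ≤ Subgroup.normalizer (N : Set G))
    (hfix : ∀ g ∈ H, g ≠ 1 → M ⊓ Subgroup.centralizer {g} ≤ N) :
    Nat.card H ∣ N.relIndex M - 1 := by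
  classical
  set N' := N.subgroupOf M with hN'
  haveI : N'.Normal := Subgroup.normal_subgroupOf_iff_le_normalizer hNM |>.2 hMN
  have hmemN : ∀ (g : H) (u : M), ((u : G) ∈ N ↔ (g : G) * u * (g : G)⁻¹ ∈ N) := fun g u =>
    Subgroup.mem_normalizer_iff.1 (hHN g.2) _
  let c : H → M →* M := fun g =>
    { toFun := fun u => ⟨(g : G) * u * (g : G)⁻¹, (Subgroup.mem_normalizer_iff.1 (hHM g.2) _).1 u.2⟩
      map_one' := Subtype.ext (show (g : G) * ((1 : M) : G) * (g : G)⁻¹ = 1 by simp)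
      map_mul' := fun u v => Subtype.ext (by
        show (g : G) * ((u : G) * v) * (g : G)⁻¹ = (g : G) * u * (g : G)⁻¹ * ((g : G) * v * (g : G)⁻¹); group) }
  let ψ : H → (M ⧸ N') →* (M ⧸ N') := fun g =>
    QuotientGroup.map N' N' (c g) (fun u hu => (hmemN g u).1 hu)
  have hψ : ∀ (g : H) (u : M), ψ g (u : M ⧸ N') = ((c g u : M) : M ⧸ N') := fun g u => rfl
  have hψne : ∀ (g : H) (q : {q : M ⧸ N' // q ≠ 1}), ψ g q.1 ≠ 1 := by
    intro g q h
    obtain ⟨u, hu⟩ := QuotientGroup.mk_surjective q.1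
    rw [← hu, hψ, QuotientGroup.eq_one_iff] at h
    apply q.2
    rw [← hu, QuotientGroup.eq_one_iff]
    exact (hmemN g u).2 h
  letI : MulAction H {q : M ⧸ N' // q ≠ 1} :=
    { smul := fun g q => ⟨ψ g q.1, hψne g q⟩
      one_smul := fun q => Subtype.ext (by
        show ψ 1 q.1 = q.1
        obtain ⟨u, hu⟩ := QuotientGroup.mk_surjective q.1
        rw [← hu, hψ]
        congr 1
        exact Subtype.ext (by show ((1 : H) : G) * u * ((1 : H) : G)⁻¹ = u; simp))
      mul_smul := fun g k q => Subtype.ext (by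
        show ψ (g * k) q.1 = ψ g (ψ k q.1)
        obtain ⟨u, hu⟩ := QuotientGroup.mk_surjective q.1
        rw [← hu, hψ, hψ, hψ]
        congr 1
        exact Subtype.ext (by
          show ((g * k : H) : G) * u * ((g * k : H) : G)⁻¹ = (g : G) * ((k : G) * u * (k : G)⁻¹) * (g : G)⁻¹
          rw [Subgroup.coe_mul]; group)) }
  have hfree : ∀ q : {q : M ⧸ N' // q ≠ 1}, MulAction.stabilizer H q = ⊥ := by
    intro q
    rw [Subgroup.eq_bot_iff_forall]
    intro g hg
    by_contra hg1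
    set Z := Subgroup.zpowers (g : G) with hZ
    have hZH : Z ≤ H := Subgroup.zpowers_le.2 g.2
    obtain ⟨u, hu⟩ := QuotientGroup.mk_surjective q.1
    haveI : Group.IsSolvable Z := inferInstance
    obtain ⟨m, hm, e, he, hue⟩ := Coprime.exists_mul_centralizer (hZH.trans hHM)
      (hcop.coprime_dvd_left (Subgroup.card_dvd_of_le hZH)) hNM (hZH.trans hHN) u.2 (fun a ha => by
        obtain ⟨i, hi⟩ := Subgroup.mem_zpowers_iff.1 ha
        have h1 : ψ (g ^ i) q.1 = q.1 :=
          congrArg Subtype.val (MulAction.mem_stabilizer_iff.1 (zpow_mem hg i))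
        rw [← hu, hψ, QuotientGroup.eq] at h1
        have h2 := (inferInstance : N'.Normal).mem_comm h1
        have h3 : (u : G) * (((g ^ i : H) : G) * u * ((g ^ i : H) : G)⁻¹)⁻¹ ∈ N := h2
        rw [Subgroup.coe_zpow, hi] at h3
        have h4 : ⁅(u : G), a⁆ = (u : G) * (a * u * a⁻¹)⁻¹ := by rw [commutatorElement_def]; group
        rwa [h4])
    have heN : e ∈ N := hfix _ g.2 (fun h => hg1 (Subtype.ext h)) ⟨he.1, Subgroup.mem_centralizer_singleton_iff.2
      (Subgroup.mem_centralizer_iff.1 he.2 _ (Subgroup.mem_zpowers _)).symm⟩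
    apply q.2
    rw [← hu, QuotientGroup.eq_one_iff]
    show (u : G) ∈ N
    rw [hue]
    exact mul_mem hm heN
  have hS : Nat.card {q : M ⧸ N' // q ≠ 1} = N.relIndex M - 1 := by
    haveI := Fintype.ofFinite (M ⧸ N')
    rw [Nat.card_eq_fintype_card, Fintype.card_subtype, Finset.filter_ne',
      Finset.card_erase_of_mem (Finset.mem_univ _), Finset.card_univ, ← Nat.card_eq_fintype_card,
      ← Subgroup.index_eq_card]
    rfl
  rw [← hS, Nat.card_congr (MulAction.selfEquivSigmaOrbitsQuotientStabilizer H {q : M ⧸ N' // q ≠ 1})]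
  haveI := Fintype.ofFinite (Quotient (MulAction.orbitRel H {q : M ⧸ N' // q ≠ 1}))
  rw [Nat.card_sigma]
  refine Finset.dvd_sum fun o _ => ?_
  rw [← Subgroup.index_eq_card, hfree, Subgroup.index_bot]

theorem dvd_pm (P H : Subgroup G) (hP : Cfsg.IsExtraspecial p ↥P) (n : ℕ)
    (hn : Nat.card P = p ^ (2 * n + 1)) (hH : IsCyclic H) (hcop : (Nat.card H).Coprime p)
    (hHP : H ≤ Subgroup.normalizer (P : Set G))
    (hfix : ∀ x ∈ H, x ≠ 1 → P ⊓ Subgroup.centralizer {x} = (Subgroup.center ↥P).map P.subtype) :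
    Nat.card H ∣ p ^ n + 1 ∨ Nat.card H ∣ p ^ n - 1 := by
  classical
  have hp := (Fact.out : p.Prime)
  obtain ⟨⟨hPp, hΦ, hder⟩, hZcard⟩ := hP
  set Z := (Subgroup.center ↥P).map P.subtype with hZ
  have hZc : Nat.card Z = p := by rw [hZ, Subgroup.card_map_of_injective P.subtype_injective, hZcard]
  have hZP : Z ≤ P := Subgroup.map_subtype_le _
  have hcopP : (Nat.card H).Coprime (Nat.card P) := by rw [hn]; exact hcop.pow_right _
  have hZcen : ∀ z ∈ Z, ∀ v ∈ P, v * z = z * v := by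
    rintro _ ⟨z, hz, rfl⟩ v hv
    exact congrArg Subtype.val (Subgroup.mem_center_iff.1 hz ⟨v, hv⟩)
  have hcomm : ∀ u ∈ P, ∀ v ∈ P, ⁅u, v⁆ ∈ Z := fun u hu v hv =>
    ⟨⁅(⟨u, hu⟩ : P), ⟨v, hv⟩⁆, hder.le (Subgroup.commutator_mem_commutator (Subgroup.mem_top _) (Subgroup.mem_top _)),
      map_commutatorElement P.subtype _ _⟩
  have hPfix : ∀ u ∈ P, (∀ v ∈ P, v * u = u * v) → u ∈ Z := fun u hu h =>
    ⟨⟨u, hu⟩, Subgroup.mem_center_iff.2 fun v => Subtype.ext (h v v.2), rfl⟩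
  have hbil : ∀ u u' v : G, u ∈ P → u' ∈ P → v ∈ P →
      ⁅u * u', v⁆ = ⁅u, v⁆ * ⁅u', v⁆ ∧ ⁅v, u * u'⁆ = ⁅v, u⁆ * ⁅v, u'⁆ := by
    intro u u' v hu hu' hv
    have hc : commutator P ≤ Subgroup.center P := hder.le
    exact ⟨congrArg Subtype.val (FGS3.commutatorElement_mul_left_of_center hc (⟨u, hu⟩ : P) ⟨u', hu'⟩ ⟨v, hv⟩),
      congrArg Subtype.val (FGS3.commutatorElement_mul_right_of_center hc (⟨v, hv⟩ : P) ⟨u, hu⟩ ⟨u', hu'⟩)⟩
  have hHZ : H ≤ Subgroup.normalizer (Z : Set G) := fun g hg => by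
    by_cases hg1 : g = 1
    · rw [hg1]; exact one_mem _
    refine (Subgroup.centralizer_le_normalizer (Z : Set G)) (Subgroup.mem_centralizer_iff.2 fun z hz => ?_)
    exact Subgroup.mem_centralizer_singleton_iff.1 ((hfix g hg hg1).ge hz).2
  have hZfix : ∀ g ∈ H, ∀ z ∈ Z, g * z * g⁻¹ = z := fun g hg z hz => by
    by_cases hg1 : g = 1
    · simp [hg1]
    · rw [mul_inv_eq_iff_eq_mul]
      exact (Subgroup.mem_centralizer_singleton_iff.1 ((hfix g hg hg1).ge hz).2).symm
  have hPN : ∀ S : Subgroup G, Z ≤ S → S ≤ P → P ≤ Subgroup.normalizer (S : Set G) := fun S hZS hSP =>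
    conj_map P S fun v hv s hs => by
      rw [show v * s * v⁻¹ = ⁅v, s⁆ * s by rw [commutatorElement_def]; group]
      exact mul_mem (hZS (hcomm v hv s (hSP hs))) hs
  have hfix' : ∀ M N : Subgroup G, Z ≤ N → M ≤ P → ∀ g ∈ H, g ≠ 1 → M ⊓ Subgroup.centralizer {g} ≤ N :=
    fun M N hZN hMP g hg hg1 => ((inf_le_inf_right _ hMP).trans (hfix g hg hg1).le).trans hZN
  have hidx : Z.relIndex P = p ^ (2 * n) := by
    have h := (Z.subgroupOf P).card_mul_index
    rw [Nat.card_congr (Subgroup.subgroupOfEquivOfLe hZP).toEquiv, hZc, hn, pow_succ'] at h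
    exact Nat.eq_of_mul_eq_mul_left hp.pos h
  have h2n : Nat.card H ∣ p ^ (2 * n) - 1 := by
    rw [← hidx]
    haveI := hH
    exact dvd_section H Z P hcopP hZP (hPN Z le_rfl hZP) hHP hHZ (hfix' P Z le_rfl le_rfl)
  -- counting commutation
  have hcount : ∀ (k : ℕ) (S0 S T : Subgroup G), Nat.card S - Nat.card S0 ≤ k → S0 ≤ S → S ≤ P → T ≤ P →
      (∀ t ∈ T, ∀ s ∈ S0, s * t = t * s) →
      Nat.card T * Nat.card S0 ≤ Nat.card (T ⊓ Subgroup.centralizer (S : Set G) : Subgroup G) * Nat.card S := by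
    intro k
    induction k with
    | zero =>
      intro S0 S T hk hle hSP hTP hc
      have e := Subgroup.eq_of_le_of_card_ge hle (by omega)
      subst e
      refine Nat.mul_le_mul_right _ (Subgroup.card_le_of_le (le_inf le_rfl fun t ht => ?_))
      exact Subgroup.mem_centralizer_iff.2 fun s hs => hc t ht s hs
    | succ k ih =>
      intro S0 S T hk hle hSP hTP hc
      by_cases heq : S0 = S
      · subst heq
        refine Nat.mul_le_mul_right _ (Subgroup.card_le_of_le (le_inf le_rfl fun t ht => ?_))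
        exact Subgroup.mem_centralizer_iff.2 fun s hs => hc t ht s hs
      obtain ⟨g, hgS, hg0⟩ := SetLike.exists_of_lt (lt_of_le_of_ne hle heq)
      set S1 := S0 ⊔ Subgroup.zpowers g with hS1
      set T1 := T ⊓ Subgroup.centralizer ({g} : Set G) with hT1
      have hS1le : S1 ≤ S := sup_le hle (Subgroup.zpowers_le.2 hgS)
      have hlt : Nat.card S0 < Nat.card S1 := by
        rcases (Subgroup.card_le_of_le (le_sup_left : S0 ≤ S1)).lt_or_eq with h | h
        · exact h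
        · exact absurd ((Subgroup.eq_of_le_of_card_ge (le_sup_left : S0 ≤ S1) h.ge).ge
            (Subgroup.mem_sup_right (Subgroup.mem_zpowers g))) hg0
      have hp1 : Nat.card S0 * p ≤ Nat.card S1 := by
        obtain ⟨a, ha⟩ := IsPGroup.iff_card.1 (hPp.to_le (hle.trans hSP))
        obtain ⟨b, hb⟩ := IsPGroup.iff_card.1 (hPp.to_le (hS1le.trans hSP))
        rw [ha, hb] at hlt ⊢
        rw [← pow_succ]
        exact Nat.pow_le_pow_right hp.pos ((Nat.pow_lt_pow_iff_right hp.one_lt).1 hlt)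
      let δ : T →* G := MonoidHom.mk' (fun t => ⁅(t : G), g⁆) fun a b =>
        (hbil (a : G) b g (hTP a.2) (hTP b.2) (hSP hgS)).1
      have hker : δ.ker = T1.subgroupOf T := by
        ext t
        rw [MonoidHom.mem_ker, Subgroup.mem_subgroupOf, hT1, Subgroup.mem_inf, Subgroup.mem_centralizer_singleton_iff]
        show ⁅(t : G), g⁆ = 1 ↔ _
        rw [commutatorElement_eq_one_iff_mul_comm]
        exact ⟨fun h => ⟨t.2, h⟩, fun h => h.2⟩
      have hT : Nat.card T ≤ p * Nat.card T1 := by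
        rw [← δ.ker.card_mul_index, Subgroup.index_ker, hker,
          Nat.card_congr (Subgroup.subgroupOfEquivOfLe (inf_le_left : T1 ≤ T)).toEquiv, mul_comm]
        refine Nat.mul_le_mul_right _ ?_
        rw [← hZc]
        refine Subgroup.card_le_of_le ?_
        rintro _ ⟨t, rfl⟩
        exact hcomm _ (hTP t.2) _ (hSP hgS)
      have hc1 : ∀ t ∈ T1, ∀ s ∈ S1, s * t = t * s := by
        intro t ht s hs
        have : S1 ≤ Subgroup.centralizer ({t} : Set G) :=
          sup_le (fun s hs => Subgroup.mem_centralizer_singleton_iff.2 (hc t ht.1 s hs))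
            (Subgroup.zpowers_le.2 (Subgroup.mem_centralizer_singleton_iff.2
              (Subgroup.mem_centralizer_singleton_iff.1 ht.2).symm))
        exact Subgroup.mem_centralizer_singleton_iff.1 (this hs)
      have h := ih S1 S T1 (by omega) hS1le hSP (inf_le_left.trans hTP) hc1
      calc Nat.card T * Nat.card S0 ≤ p * Nat.card T1 * Nat.card S0 := Nat.mul_le_mul_right _ hT
        _ = Nat.card T1 * (Nat.card S0 * p) := by ring
        _ ≤ Nat.card T1 * Nat.card S1 := Nat.mul_le_mul_left _ hp1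
        _ ≤ _ := h
        _ ≤ _ := Nat.mul_le_mul_right _ (Subgroup.card_le_of_le (inf_le_inf_right _ inf_le_left))
  -- a maximal invariant abelian subgroup
  obtain ⟨A, ⟨hZA, hAP, hHA, hAab⟩, hAmax⟩ := (Set.toFinite {A : Subgroup G | Z ≤ A ∧ A ≤ P ∧
      H ≤ Subgroup.normalizer (A : Set G) ∧ ∀ a ∈ A, ∀ b ∈ A, a * b = b * a}).exists_maximal
    ⟨Z, le_rfl, hZP, hHZ, fun a ha b hb => hZcen b hb a (hZP ha)⟩
  set C := P ⊓ Subgroup.centralizer (A : Set G) with hC
  have hAC : A ≤ C := le_inf hAP fun a ha => Subgroup.mem_centralizer_iff.2 fun b hb => hAab b hb a ha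
  have hHC : H ≤ Subgroup.normalizer (C : Set G) := conj_map H C fun g hg c hc => by
    refine ⟨(Subgroup.mem_normalizer_iff.1 (hHP hg) c).1 hc.1, Subgroup.mem_centralizer_iff.2 fun a ha => ?_⟩
    have ha' : g⁻¹ * a * g ∈ A := by simpa using (Subgroup.mem_normalizer_iff.1 (inv_mem (hHA hg)) a).1 ha
    have h := Subgroup.mem_centralizer_iff.1 hc.2 _ ha'
    calc a * (g * c * g⁻¹) = g * ((g⁻¹ * a * g) * c) * g⁻¹ := by group
      _ = g * (c * (g⁻¹ * a * g)) * g⁻¹ := by rw [h]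
      _ = g * c * g⁻¹ * a := by group
  by_cases hCA : C = A
  · right
    have h1 : Nat.card P * Nat.card Z ≤ Nat.card A * Nat.card A := by
      have := hcount _ Z A P le_rfl hZA hAP le_rfl (fun t ht s hs => (hZcen s hs t ht).symm)
      rwa [← hC, hCA] at this
    have h2 : Nat.card A * Nat.card A ≤ Nat.card Z * Nat.card P := by
      have := hcount _ A P A le_rfl hAP le_rfl hAP (fun t ht s hs => hAab s hs t ht)
      refine this.trans (Nat.mul_le_mul_right _ (Subgroup.card_le_of_le ?_))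
      rintro u ⟨hu, huc⟩
      exact hPfix u (hAP hu) fun v hv => Subgroup.mem_centralizer_iff.1 huc v hv
    obtain ⟨a, ha⟩ := IsPGroup.iff_card.1 (hPp.to_le hAP)
    rw [hn, hZc, ha, ← pow_succ, ← pow_add] at h1
    rw [hn, hZc, ha, ← pow_succ', ← pow_add] at h2
    have ha' : a = n + 1 := by
      have e1 := (Nat.pow_le_pow_iff_right hp.one_lt).1 h1
      have e2 := (Nat.pow_le_pow_iff_right hp.one_lt).1 h2
      omega
    have hAidx : Z.relIndex A = p ^ n := by
      have h := (Z.subgroupOf A).card_mul_index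
      rw [Nat.card_congr (Subgroup.subgroupOfEquivOfLe hZA).toEquiv, hZc, ha, ha', pow_succ'] at h
      exact Nat.eq_of_mul_eq_mul_left hp.pos h
    rw [← hAidx]
    haveI := hH
    exact dvd_section H Z A (hcopP.coprime_dvd_right (Subgroup.card_dvd_of_le hAP)) hZA
      ((hAP.trans (hPN Z le_rfl hZP))) hHA hHZ (hfix' A Z le_rfl hAP)
  -- an irreducible nondegenerate section
  obtain ⟨W, ⟨hAW, hWC, hHW⟩, hWmin⟩ := (Set.toFinite {W : Subgroup G | A < W ∧ W ≤ C ∧
      H ≤ Subgroup.normalizer (W : Set G)}).exists_minimal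
    ⟨C, lt_of_le_of_ne hAC (Ne.symm hCA), le_rfl, hHC⟩
  have hWP : W ≤ P := hWC.trans inf_le_left
  obtain ⟨⟨x, hx⟩, hgen⟩ := hH.exists_generator
  set A' := A.subgroupOf W with hA'
  haveI : A'.Normal := Subgroup.normal_subgroupOf_iff_le_normalizer hAW.le |>.2
    (hWP.trans (hPN A hZA hAP))
  letI : CommGroup (W ⧸ A') :=
    { (inferInstance : Group (W ⧸ A')) with
      mul_comm := fun a b => by
        induction a using QuotientGroup.induction_on with
        | H a =>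
          induction b using QuotientGroup.induction_on with
          | H b =>
            rw [← QuotientGroup.mk_mul, ← QuotientGroup.mk_mul, QuotientGroup.eq]
            show (((a * b)⁻¹ * (b * a) : W) : G) ∈ A
            have h1 : (((a * b)⁻¹ * (b * a) : W) : G) = ⁅(b : G)⁻¹, (a : G)⁻¹⁆ := by
              push_cast; rw [commutatorElement_def]; group
            rw [h1]
            exact hZA (hcomm _ (inv_mem (hWP b.2)) _ (inv_mem (hWP a.2))) }
  have hWiff : ∀ u : G, (u ∈ A ↔ x * u * x⁻¹ ∈ A) := Subgroup.mem_normalizer_iff.1 (hHA hx)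
  let c : W →* W :=
    { toFun := fun u => ⟨x * u * x⁻¹, (Subgroup.mem_normalizer_iff.1 (hHW hx) _).1 u.2⟩
      map_one' := Subtype.ext (show x * ((1 : W) : G) * x⁻¹ = 1 by simp)
      map_mul' := fun u v => Subtype.ext (by
        show x * ((u : G) * v) * x⁻¹ = x * u * x⁻¹ * (x * v * x⁻¹); group) }
  let σ : AddMonoid.End (Additive (W ⧸ A')) :=
    MonoidHom.toAdditive (QuotientGroup.map A' A' c (fun u hu => (hWiff u).1 hu))
  have hσ : ∀ (u : W), σ (Additive.ofMul (u : W ⧸ A')) = Additive.ofMul ((c u : W) : W ⧸ A') := fun u => rfl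
  have hcpow : ∀ (i : ℕ) (u : W), (((c^[i]) u : W) : G) = x ^ i * u * (x ^ i)⁻¹ := by
    intro i u
    induction i with
    | zero => simp
    | succ i ih =>
      rw [Function.iterate_succ_apply']
      show x * (((c^[i]) u : W) : G) * x⁻¹ = _
      rw [ih, pow_succ']; group
  have hσpow : ∀ (i : ℕ) (u : W), (σ ^ i) (Additive.ofMul (u : W ⧸ A')) = Additive.ofMul (((c^[i]) u : W) : W ⧸ A') := by
    intro i u
    induction i with
    | zero => rfl
    | succ i ih =>
      rw [pow_succ', Function.iterate_succ_apply']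
      show σ ((σ ^ i) (Additive.ofMul (u : W ⧸ A'))) = _
      rw [ih, hσ]
  have hox : orderOf x = Nat.card H := by
    rw [show x = ((⟨x, hx⟩ : H) : G) from rfl, Subgroup.orderOf_coe]
    exact orderOf_eq_card_of_forall_mem_zpowers hgen
  haveI : Nontrivial (Additive (W ⧸ A')) := by
    obtain ⟨w, hw, hwA⟩ := SetLike.exists_of_lt hAW
    exact ⟨⟨Additive.ofMul ((⟨w, hw⟩ : W) : W ⧸ A'), 0, fun h => hwA ((QuotientGroup.eq_one_iff (N := A') (⟨w, hw⟩ : W)).1 h)⟩⟩
  letI : CommGroup Z :=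
    { (inferInstance : Group Z) with
      mul_comm := fun a b => Subtype.ext (hZcen b b.2 a (hZP a.2)) }
  have hAcomm : ∀ a ∈ A, ∀ w ∈ W, a * w = w * a := fun a ha w hw =>
    Subgroup.mem_centralizer_iff.1 (hWC hw).2 a ha
  have hwell : ∀ u u' v v' : W, u⁻¹ * u' ∈ A' → v⁻¹ * v' ∈ A' → ⁅(u : G), (v : G)⁆ = ⁅(u' : G), (v' : G)⁆ := by
    intro u u' v v' hu hv
    obtain ⟨a, ha, hua⟩ : ∃ a ∈ A, (u' : G) = u * a := ⟨(u : G)⁻¹ * u', hu, by group⟩
    obtain ⟨b, hb, hvb⟩ : ∃ b ∈ A, (v' : G) = v * b := ⟨(v : G)⁻¹ * v', hv, by group⟩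
    have ca : ⁅a, (v : G) * b⁆ = 1 := by
      rw [commutatorElement_eq_one_iff_mul_comm]
      exact ((show Commute a (v : G) from hAcomm a ha v v.2).mul_right (hAab a ha b hb)).eq
    have cb : ⁅(u : G), b⁆ = 1 := by
      rw [commutatorElement_eq_one_iff_mul_comm]; exact (hAcomm b hb u u.2).symm
    rw [hua, hvb, (hbil (u : G) a ((v : G) * b) (hWP u.2) (hAP ha) (mul_mem (hWP v.2) (hAP hb))).1, ca, mul_one,
      (hbil (v : G) b (u : G) (hWP v.2) (hAP hb) (hWP u.2)).2, cb, mul_one]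
  let β : W ⧸ A' → W ⧸ A' → Z := fun a b => Quotient.liftOn₂' a b
    (fun u v => ⟨⁅(u : G), (v : G)⁆, hcomm _ (hWP u.2) _ (hWP v.2)⟩)
    (fun u v u' v' hu hv => Subtype.ext (hwell u u' v v' (QuotientGroup.leftRel_apply.1 hu) (QuotientGroup.leftRel_apply.1 hv)))
  let B : Additive (W ⧸ A') → Additive (W ⧸ A') → Z := fun a b => β (Additive.toMul a) (Additive.toMul b)
  have hβ : ∀ u v : W, B (Additive.ofMul (u : W ⧸ A')) (Additive.ofMul (v : W ⧸ A')) =
      ⟨⁅(u : G), (v : G)⁆, hcomm _ (hWP u.2) _ (hWP v.2)⟩ := fun u v => rfl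
  have hrep : ∀ a : Additive (W ⧸ A'), ∃ u : W, a = Additive.ofMul (u : W ⧸ A') := fun a => by
    obtain ⟨u, hu⟩ := QuotientGroup.mk_surjective (Additive.toMul a)
    exact ⟨u, by rw [hu]; rfl⟩
  have hadd : ∀ u v : W, Additive.ofMul (u : W ⧸ A') + Additive.ofMul (v : W ⧸ A') = Additive.ofMul ((u * v : W) : W ⧸ A') :=
    fun u v => rfl
  refine Exists.elim (SympCyc.dvd_pow_add_one (p := p) (V := Additive (W ⧸ A'))
    (fun a => by
      obtain ⟨u, rfl⟩ := hrep a
      rw [← ofMul_pow, ← QuotientGroup.mk_pow, (QuotientGroup.eq_one_iff (u ^ p)).2 ?_]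
      · rfl
      show ((u ^ p : W) : G) ∈ A
      rw [SubmonoidClass.coe_pow]
      exact hZA ⟨(⟨u, hWP u.2⟩ : P) ^ p, hΦ.le (FGS3.pow_mem_frattini hPp _), rfl⟩)
    σ ?_ B
    (fun a a' b => by
      obtain ⟨u, rfl⟩ := hrep a; obtain ⟨u', rfl⟩ := hrep a'; obtain ⟨v, rfl⟩ := hrep b
      rw [hadd, hβ, hβ, hβ]
      exact Subtype.ext (hbil (u : G) u' v (hWP u.2) (hWP u'.2) (hWP v.2)).1)
    (fun a b b' => by
      obtain ⟨u, rfl⟩ := hrep a; obtain ⟨v, rfl⟩ := hrep b; obtain ⟨v', rfl⟩ := hrep b'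
      rw [hadd, hβ, hβ, hβ]
      exact Subtype.ext (hbil (v : G) v' u (hWP v.2) (hWP v'.2) (hWP u.2)).2)
    ?_
    (fun a b => by
      obtain ⟨u, rfl⟩ := hrep a; obtain ⟨v, rfl⟩ := hrep b
      rw [hσ, hσ, hβ, hβ]
      apply Subtype.ext
      show ⁅x * (u : G) * x⁻¹, x * (v : G) * x⁻¹⁆ = ⁅(u : G), (v : G)⁆
      rw [show ⁅x * (u : G) * x⁻¹, x * (v : G) * x⁻¹⁆ = x * ⁅(u : G), (v : G)⁆ * x⁻¹ by
        simp only [commutatorElement_def]; group]
      exact hZfix x hx _ (hcomm _ (hWP u.2) _ (hWP v.2)))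
    (h := Nat.card H) Nat.card_pos ?_ ?_) fun j hj => SympCyc.arith hcop.symm h2n hj
  · -- irreducible
    intro U hU
    let W1 : Subgroup G :=
      { carrier := {w | ∃ hw : w ∈ W, Additive.ofMul ((⟨w, hw⟩ : W) : W ⧸ A') ∈ U}
        one_mem' := ⟨one_mem _, U.zero_mem⟩
        mul_mem' := fun {a b} ha hb => by
          obtain ⟨ha, ha'⟩ := ha
          obtain ⟨hb, hb'⟩ := hb
          exact ⟨mul_mem ha hb, U.add_mem ha' hb'⟩
        inv_mem' := fun {a} ha => by
          obtain ⟨ha, ha'⟩ := ha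
          exact ⟨inv_mem ha, U.neg_mem ha'⟩ }
    have hAW1 : A ≤ W1 := fun a ha => ⟨hAW.le ha, by
      rw [(QuotientGroup.eq_one_iff (⟨a, hAW.le ha⟩ : W)).2 ha]; exact U.zero_mem⟩
    have hW1W : W1 ≤ W := fun w hw => hw.1
    have hxn : x ∈ Subgroup.normalizer (W1 : Set G) := Coprime.mem_normalizer_of_conj_mem fun w hw => by
      obtain ⟨hw, hw'⟩ := hw
      exact ⟨(c ⟨w, hw⟩).2, hU _ hw'⟩
    have hHW1 : H ≤ Subgroup.normalizer (W1 : Set G) := fun g hg => by
      obtain ⟨i, hi⟩ := Subgroup.mem_zpowers_iff.1 (hgen ⟨g, hg⟩)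
      rw [← show x ^ i = g from congrArg Subtype.val hi]
      exact zpow_mem hxn i
    by_cases hA1 : A = W1
    · left
      rw [AddSubgroup.eq_bot_iff_forall]
      intro a ha
      obtain ⟨u, rfl⟩ := hrep a
      have : (u : G) ∈ A := hA1.ge ⟨u.2, ha⟩
      rw [(QuotientGroup.eq_one_iff u).2 this]; rfl
    · right
      rw [eq_top_iff]
      intro a _
      obtain ⟨u, rfl⟩ := hrep a
      obtain ⟨hu, hu'⟩ := hWmin ⟨lt_of_le_of_ne hAW1 hA1, hW1W.trans hWC, hHW1⟩ hW1W u.2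
      exact hu'
  · -- nondegenerate
    intro b hb
    obtain ⟨v, rfl⟩ := hrep b
    set S := W ⊓ Subgroup.centralizer (W : Set G) with hS
    have hvS : (v : G) ∈ S := ⟨v.2, Subgroup.mem_centralizer_iff.2 fun u hu => by
      have := congrArg Subtype.val (hb (Additive.ofMul ((⟨u, hu⟩ : W) : W ⧸ A')))
      exact commutatorElement_eq_one_iff_mul_comm.1 this⟩
    have hAS : A ≤ S := le_inf hAW.le fun a ha => Subgroup.mem_centralizer_iff.2 fun w hw => (hAcomm a ha w hw).symm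
    have hHS : H ≤ Subgroup.normalizer (S : Set G) := conj_map H S fun g hg s hs => by
      refine ⟨(Subgroup.mem_normalizer_iff.1 (hHW hg) s).1 hs.1, Subgroup.mem_centralizer_iff.2 fun w hw => ?_⟩
      have hw' : g⁻¹ * w * g ∈ W := by simpa using (Subgroup.mem_normalizer_iff.1 (inv_mem (hHW hg)) w).1 hw
      have h := Subgroup.mem_centralizer_iff.1 hs.2 _ hw'
      calc w * (g * s * g⁻¹) = g * ((g⁻¹ * w * g) * s) * g⁻¹ := by group
        _ = g * (s * (g⁻¹ * w * g)) * g⁻¹ := by rw [h]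
        _ = g * s * g⁻¹ * w := by group
    by_cases hSA : A = S
    · rw [(QuotientGroup.eq_one_iff v).2 (hSA.ge hvS)]; rfl
    · exfalso
      have hWS : W ≤ S := hWmin ⟨lt_of_le_of_ne hAS hSA, inf_le_left.trans hWC, hHS⟩ inf_le_left
      have := hAmax ⟨hZA.trans hAW.le, hWP, hHW, fun a ha b' hb' =>
        Subgroup.mem_centralizer_iff.1 (hWS hb').2 a ha⟩ hAW.le
      exact hAW.not_ge this
  · -- `σ ^ h = 1`
    refine AddMonoidHom.ext fun a => ?_
    obtain ⟨u, rfl⟩ := hrep a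
    refine (hσpow _ u).trans ?_
    show _ = Additive.ofMul (u : W ⧸ A')
    congr 2
    apply Subtype.ext
    rw [hcpow, ← hox, pow_orderOf_eq_one]; simp
  · -- faithful
    intro i hi
    rw [← hox]
    apply orderOf_dvd_of_pow_eq_one
    by_contra hne
    set g := x ^ i with hg
    have hgH : g ∈ H := pow_mem hx i
    have hcg : ∀ w ∈ W, ∀ a ∈ Subgroup.zpowers g, ⁅w, a⁆ ∈ A := by
      have hgN : g ∈ Subgroup.normalizer (W : Set G) := hHW hgH
      have h0 : ∀ w ∈ W, g * w * g⁻¹ * w⁻¹ ∈ A := fun w hw => by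
        have h1 : ((((c^[i]) ⟨w, hw⟩ : W)) : W ⧸ A') = ((⟨w, hw⟩ : W) : W ⧸ A') := by
          have := hσpow i ⟨w, hw⟩
          rw [hi] at this
          exact (Additive.ofMul.injective this).symm
        rw [eq_comm, QuotientGroup.eq] at h1
        have h2 := (inferInstance : A'.Normal).mem_comm h1
        have h3 : ((((c^[i]) ⟨w, hw⟩ : W)) : G) * w⁻¹ ∈ A := h2
        rwa [hcpow] at h3
      intro w hw a ha
      obtain ⟨k, rfl⟩ := Subgroup.mem_zpowers_iff.1 ha
      set K : Subgroup G :=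
        { carrier := {a | a ∈ H ∧ ∀ w ∈ W, a * w * a⁻¹ * w⁻¹ ∈ A}
          one_mem' := ⟨one_mem _, fun w _ => by simp⟩
          mul_mem' := fun {a b} ha hb => ⟨mul_mem ha.1 hb.1, fun w hw => by
            rw [show a * b * w * (a * b)⁻¹ * w⁻¹ = (a * (b * w * b⁻¹) * a⁻¹ * (b * w * b⁻¹)⁻¹) * (b * w * b⁻¹ * w⁻¹) by group]
            exact mul_mem (ha.2 _ ((Subgroup.mem_normalizer_iff.1 (hHW hb.1) w).1 hw)) (hb.2 w hw)⟩
          inv_mem' := fun {a} ha => ⟨inv_mem ha.1, fun w hw => by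
            have hw' : a⁻¹ * w * a ∈ W := by simpa using (Subgroup.mem_normalizer_iff.1 (inv_mem (hHW ha.1)) w).1 hw
            have := inv_mem (ha.2 _ hw')
            rwa [show (a * (a⁻¹ * w * a) * a⁻¹ * (a⁻¹ * w * a)⁻¹)⁻¹ = a⁻¹ * w * a⁻¹⁻¹ * w⁻¹ by group] at this⟩ }
      have hk : g ^ k ∈ K := zpow_mem (show g ∈ K from ⟨hgH, h0⟩) k
      have h4 := inv_mem (hk.2 w hw)
      have h5 : ⁅w, g ^ k⁆ = (g ^ k * w * (g ^ k)⁻¹ * w⁻¹)⁻¹ := by rw [commutatorElement_def]; group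
      rw [h5]; exact h4
    haveI : Group.IsSolvable (Subgroup.zpowers g) := inferInstance
    obtain ⟨w, hw, hwA⟩ := SetLike.exists_of_lt hAW
    obtain ⟨m, hm, e, he, hwe⟩ := Coprime.exists_mul_centralizer ((Subgroup.zpowers_le.2 hgH).trans hHW)
      ((hcopP.coprime_dvd_right (Subgroup.card_dvd_of_le hWP)).coprime_dvd_left
        (Subgroup.card_dvd_of_le (Subgroup.zpowers_le.2 hgH)))
      hAW.le ((Subgroup.zpowers_le.2 hgH).trans hHA) hw (hcg w hw)
    apply hwA
    rw [hwe]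
    refine mul_mem hm (hZA ((hfix g hgH hne).le ⟨hWP he.1, ?_⟩))
    exact Subgroup.mem_centralizer_singleton_iff.2
      (Subgroup.mem_centralizer_iff.1 he.2 g (Subgroup.mem_zpowers g)).symm

end Cfsg.Agent.Transfer.ExtraCyc
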