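import Mathlib
import Cfsg.Prelude.Def_Solvable
import Cfsg.Agent.PermGroups.FrobeniusKernel

/-!
Quotients of Frobenius groups.
-/

set_option autoImplicit false

namespace Cfsg.Agent.Transfer.FrobQuot

open scoped Pointwise
open Cfsg.Agent.PermGroups

variable {G : Type*} [Group G] [Finite G]

theorem frobenius_quotient (R : Subgroup G) (hR : Cfsg.IsFrobeniusComplement R) (N : Subgroup G)
    [N.Normal] (hKN : ¬ Cfsg.frobeniusKernel R ⊆ N) :
    Cfsg.IsFrobeniusComplement (R.map (QuotientGroup.mk' N)) ∧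
      Cfsg.frobeniusKernel (R.map (QuotientGroup.mk' N)) =
        QuotientGroup.mk' N '' Cfsg.frobeniusKernel R := by
  classical
  obtain ⟨K, hK, hKn, hc⟩ := Frobenius.exists_kernel hR
  have hKR : ∀ k ∈ K, k ∈ R → k = 1 := fun k h1 h2 => Subgroup.disjoint_def.1 hc.disjoint h1 h2
  have hcent : ∀ r ∈ R, r ≠ 1 → ∀ k ∈ K, r * k = k * r → k = 1 := fun r hr hr1 k hk h =>
    hKR k hk (Frobenius.mem_of_conj hR hr hr1 (by rw [← h, mul_inv_cancel_right]; exact hr))
  -- the normal subgroup lies in the kernel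
  have hNK : N ≤ K := by
    intro n hn
    by_contra hnK
    apply hKN
    have hn' : n ∉ Cfsg.frobeniusKernel R := fun h => hnK (by rw [← SetLike.mem_coe, hK]; exact h)
    rw [mem_frobeniusKernel, not_or] at hn'
    obtain ⟨hn1, hn2⟩ := hn'
    push Not at hn2
    obtain ⟨g, hg⟩ := hn2
    set r := g⁻¹ * n * g with hr
    have hrN : r ∈ N := by
      have := Subgroup.Normal.conj_mem inferInstance n hn g⁻¹
      rwa [inv_inv] at this
    have hr1 : r ≠ 1 := fun e => hn1 (by
      rw [show n = g * r * g⁻¹ by rw [hr]; group, e]; group)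
    rw [← hK]
    let f : K → K := fun k => ⟨r * (k : G) * r⁻¹ * (k : G)⁻¹,
      K.mul_mem (hKn.conj_mem _ k.2 r) (K.inv_mem k.2)⟩
    have hf : Function.Injective f := by
      intro a b h
      have h' : r * (a : G) * r⁻¹ * (a : G)⁻¹ = r * (b : G) * r⁻¹ * (b : G)⁻¹ := congrArg Subtype.val h
      have h2 : r * ((b : G)⁻¹ * (a : G)) = ((b : G)⁻¹ * (a : G)) * r := by
        have e1 : r * (a : G) * r⁻¹ = r * (b : G) * r⁻¹ * ((b : G)⁻¹ * (a : G)) := by
          rw [← mul_assoc, ← h']; group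
        calc r * ((b : G)⁻¹ * (a : G)) = r * (b : G)⁻¹ * r⁻¹ * (r * (a : G) * r⁻¹) * r := by group
          _ = ((b : G)⁻¹ * (a : G)) * r := by rw [e1]; group
      exact Subtype.ext (inv_mul_eq_one.1 (hcent r hg hr1 _ (K.mul_mem (K.inv_mem b.2) a.2) h2)).symm
    intro k hk
    obtain ⟨a, ha⟩ := (Finite.injective_iff_surjective.1 hf) ⟨k, hk⟩
    have : k = r * (a : G) * r⁻¹ * (a : G)⁻¹ := (congrArg Subtype.val ha).symm
    rw [this, SetLike.mem_coe, show r * (a : G) * r⁻¹ * (a : G)⁻¹ = r * ((a : G) * r⁻¹ * (a : G)⁻¹) by group]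
    exact N.mul_mem hrN (Subgroup.Normal.conj_mem inferInstance _ (N.inv_mem hrN) _)
  -- elements of the cosets of nontrivial complement elements
  have hcoset : ∀ r ∈ R, r ≠ 1 → ∀ n ∈ N, ∃ m ∈ N, r * n = m * r * m⁻¹ := by
    intro r hr hr1 n hn
    let f : N → N := fun m => ⟨r⁻¹ * (m : G) * r * (m : G)⁻¹, N.mul_mem (by
      have := Subgroup.Normal.conj_mem inferInstance (m : G) m.2 r⁻¹
      rwa [inv_inv] at this) (N.inv_mem m.2)⟩
    have hf : Function.Injective f := by
      intro a b h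
      have h' : r⁻¹ * (a : G) * r * (a : G)⁻¹ = r⁻¹ * (b : G) * r * (b : G)⁻¹ := congrArg Subtype.val h
      have e1 : (a : G) * r * (a : G)⁻¹ = (b : G) * r * (b : G)⁻¹ := by
        calc (a : G) * r * (a : G)⁻¹ = r * (r⁻¹ * (a : G) * r * (a : G)⁻¹) := by group
          _ = (b : G) * r * (b : G)⁻¹ := by rw [h']; group
      have h2 : r * ((b : G)⁻¹ * (a : G)) = ((b : G)⁻¹ * (a : G)) * r := by
        calc r * ((b : G)⁻¹ * (a : G)) = (b : G)⁻¹ * ((b : G) * r * (b : G)⁻¹) * (a : G) := by group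
          _ = ((b : G)⁻¹ * (a : G)) * r := by rw [← e1]; group
      exact Subtype.ext (inv_mul_eq_one.1 (hcent r hr hr1 _
        (hNK (N.mul_mem (N.inv_mem b.2) a.2)) h2)).symm
    obtain ⟨m, hm⟩ := (Finite.injective_iff_surjective.1 hf) ⟨n, hn⟩
    have : r⁻¹ * (m : G) * r * (m : G)⁻¹ = n := congrArg Subtype.val hm
    exact ⟨m, m.2, by rw [← this]; group⟩
  have hKne : N ≠ K := fun h => hKN (by rw [← hK, h])
  have hC : Cfsg.IsFrobeniusComplement (R.map (QuotientGroup.mk' N)) := by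
    refine ⟨?_, ?_, ?_⟩
    · intro h
      apply hR.1
      rw [Subgroup.map_eq_bot_iff, QuotientGroup.ker_mk'] at h
      rw [eq_bot_iff]
      exact fun r hr => Subgroup.mem_bot.2 (hKR r (hNK (h hr)) hr)
    · intro h
      apply hKne (le_antisymm hNK ?_)
      intro k hk
      have hmem : QuotientGroup.mk' N k ∈ R.map (QuotientGroup.mk' N) := h ▸ Subgroup.mem_top _
      obtain ⟨r, hr, he⟩ := hmem
      have hn : r⁻¹ * k ∈ N := QuotientGroup.eq.1 he
      have : r = 1 := hKR r (by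
        rw [show r = k * (r⁻¹ * k)⁻¹ by group]
        exact K.mul_mem hk (K.inv_mem (hNK hn))) hr
      rwa [this, inv_one, one_mul] at hn
    · intro gq hgq
      rw [eq_bot_iff]
      rintro x ⟨⟨r, hr, rfl⟩, hx⟩
      obtain ⟨g, rfl⟩ := QuotientGroup.mk'_surjective N gq
      replace hx := mem_conj_smul.1 (show QuotientGroup.mk' N r ∈ MulAut.conj (QuotientGroup.mk' N g) • R.map (QuotientGroup.mk' N) from hx)
      obtain ⟨r', hr', he⟩ := hx
      rw [Subgroup.mem_bot]
      by_contra hne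
      have hr1 : r ≠ 1 := fun h => hne (by rw [h, map_one])
      have he' : QuotientGroup.mk' N r' = QuotientGroup.mk' N (g⁻¹ * r * g) := by
        rw [he, map_mul, map_mul, map_inv]
      have hn : r'⁻¹ * (g⁻¹ * r * g) ∈ N := QuotientGroup.eq.1 he'
      have hr1' : r' ≠ 1 := by
        intro h
        rw [h, inv_one, one_mul] at hn
        apply hne
        have := Subgroup.Normal.conj_mem inferInstance _ hn g
        rw [show g * (g⁻¹ * r * g) * g⁻¹ = r by group] at this
        exact (QuotientGroup.eq_one_iff r).2 this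
      obtain ⟨m, hm, hme⟩ := hcoset r' hr' hr1' _ hn
      rw [mul_inv_cancel_left] at hme
      apply hgq
      have hgm : (g * m)⁻¹ ∈ R := Frobenius.mem_of_conj hR hr hr1 (by
        rw [inv_inv, mul_inv_rev, show m⁻¹ * g⁻¹ * r * (g * m) = m⁻¹ * (g⁻¹ * r * g) * m by group, hme,
          show m⁻¹ * (m * r' * m⁻¹) * m = r' by group]
        exact hr')
      refine ⟨g * m, by simpa using R.inv_mem hgm, ?_⟩
      show (((g * m : G)) : G ⧸ N) = (g : G ⧸ N)
      rw [QuotientGroup.eq]
      simpa using hm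
  refine ⟨hC, (Set.eq_of_subset_of_ncard_le ?_ ?_ (Set.toFinite _)).symm⟩
  · rintro _ ⟨k, hk, rfl⟩
    rw [mem_frobeniusKernel]
    by_cases h1 : QuotientGroup.mk' N k = 1
    · exact Or.inl h1
    right
    intro gq hgq
    obtain ⟨g, rfl⟩ := QuotientGroup.mk'_surjective N gq
    rw [← map_inv, ← map_mul, ← map_mul] at hgq
    obtain ⟨r, hr, he⟩ := hgq
    have hn : r⁻¹ * (g⁻¹ * k * g) ∈ N := QuotientGroup.eq.1 he
    have hkK : k ∈ K := by rw [← SetLike.mem_coe, hK]; exact hk
    have hkg : g⁻¹ * k * g ∈ K := by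
      have := hKn.conj_mem k hkK g⁻¹
      rwa [inv_inv] at this
    have hrK : r = 1 := hKR r (by
      rw [show r = (g⁻¹ * k * g) * (r⁻¹ * (g⁻¹ * k * g))⁻¹ by group]
      exact K.mul_mem hkg (K.inv_mem (hNK hn))) hr
    apply h1
    rw [hrK, map_one] at he
    rw [map_mul, map_mul, map_inv] at he
    calc QuotientGroup.mk' N k = QuotientGroup.mk' N g *
          ((QuotientGroup.mk' N g)⁻¹ * QuotientGroup.mk' N k * QuotientGroup.mk' N g) *
          (QuotientGroup.mk' N g)⁻¹ := by group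
      _ = 1 := by rw [← he]; group
  · rw [← Nat.card_coe_set_eq, Frobenius.natCard_kernel hC, ← hK, ← Subgroup.coe_map,
      ← Nat.card_coe_set_eq]
    change (R.map (QuotientGroup.mk' N)).index ≤ Nat.card (K.map (QuotientGroup.mk' N))
    have hjoin : K.map (QuotientGroup.mk' N) ⊔ R.map (QuotientGroup.mk' N) = ⊤ := by
      rw [← Subgroup.map_sup, hc.sup_eq_top, ← MonoidHom.range_eq_map,
        MonoidHom.range_eq_top.2 (QuotientGroup.mk'_surjective N)]
    haveI : (K.map (QuotientGroup.mk' N)).Normal := hKn.map _ (QuotientGroup.mk'_surjective N)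
    have hcard : Nat.card (G ⧸ N) ≤
        Nat.card (K.map (QuotientGroup.mk' N)) * Nat.card (R.map (QuotientGroup.mk' N)) := by
      rw [← Subgroup.card_top (G := G ⧸ N), ← hjoin]
      change Nat.card ↥((↑(K.map (QuotientGroup.mk' N) ⊔ R.map (QuotientGroup.mk' N)) : Set (G ⧸ N))) ≤ _
      rw [Subgroup.normal_mul]
      exact Set.natCard_mul_le
    rw [← Subgroup.index_mul_card (R.map (QuotientGroup.mk' N))] at hcard
    exact Nat.le_of_mul_le_mul_right hcard Nat.card_pos

end Cfsg.Agent.Transfer.FrobQuot
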