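import Cfsg.Agent.Transfer.HHExceptional
import Cfsg.Agent.Transfer.ModuleBC
import Cfsg.Agent.Coprime.Generation
import Cfsg.Agent.Coprime.Action
import Cfsg.Agent.OddLocal.NilBasics

/-!
Fixed points of a complement of prime order on a coprime module.
-/

set_option autoImplicit false
set_option maxSynthPendingDepth 4

namespace Cfsg.Agent.Transfer.FPFComm

universe u

open scoped TensorProduct

/-- Odd order: a complement without fixed points acts trivially modulo the kernel. -/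
theorem commute_of_no_fixed {V : Type u} [CommGroup V] [Finite V] {ℓ : ℕ} [Fact ℓ.Prime]
    (hV : ∀ v : V, v ^ ℓ = 1) (K : Subgroup (MulAut V)) (hodd : Odd (Nat.card K)) (hℓK : ¬ ℓ ∣ Nat.card K)
    {r : ℕ} (hr : r.Prime) (hℓr : ¬ ℓ ∣ r) (hrK : ¬ r ∣ Nat.card K) (y : MulAut V) (hy : y ^ r = 1)
    (hyK : y ∈ Subgroup.normalizer (K : Set (MulAut V))) (hfix : ∀ v, y v = v → v = 1) :
    ∀ k ∈ K, y * k = k * y := by
  classical
  haveI : Finite (MulAut V) := Finite.of_injective (fun e : MulAut V => (e : V → V)) DFunLike.coe_injective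
  haveI : Fact r.Prime := ⟨hr⟩
  haveI hrel : IsMulCommutative (Subgroup.zpowers y) := inferInstance
  haveI : Group.IsSolvable (Subgroup.zpowers y) := Coprime.isSolvable_of_isPGroup (p := r) (fun g => ⟨1, Subtype.ext (by
    obtain ⟨i, hi⟩ := Subgroup.mem_zpowers_iff.1 g.2
    rw [pow_one, SubmonoidClass.coe_pow, ← hi, ← zpow_natCast, ← zpow_mul, mul_comm, zpow_mul, zpow_natCast, hy, one_zpow]; rfl)⟩)
  letI : Module (ZMod ℓ) (Additive V) := ModuleBC.modOfExp hV
  haveI : Finite (Additive V) := inferInstanceAs (Finite V)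
  haveI : FiniteDimensional (ZMod ℓ) (Additive V) := Module.Finite.of_finite
  have hle : K ≤ Subgroup.centralizer ({y} : Set (MulAut V)) := by
    refine Coprime.le_of_forall_invariant_sylow fun q hq => ?_
    haveI : Fact q.Prime := ⟨hq⟩
    have hcop : (Nat.card (Subgroup.zpowers y)).Coprime (Nat.card K) := by
      rw [Nat.card_zpowers]
      exact Nat.Coprime.of_dvd_left (orderOf_dvd_of_pow_eq_one hy) (hr.coprime_iff_not_dvd.2 hrK)
    obtain ⟨Q, hQK, hQ, hQi, hQy⟩ := Coprime.exists_invariant_sylow (Subgroup.zpowers_le.2 hyK) hcop q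
    refine ⟨Q, hQK, ?_, hQi⟩
    intro k hk
    rw [Subgroup.mem_centralizer_singleton_iff]
    by_contra hne
    have hyQ : y ∈ Subgroup.normalizer (Q : Set (MulAut V)) := hQy (Subgroup.mem_zpowers y)
    have hqdvd : q ∣ Nat.card K := by
      obtain ⟨m, hm⟩ := IsPGroup.iff_card.1 hQ
      have hm0 : m ≠ 0 := fun e => hne (by
        have : Q = ⊥ := Subgroup.card_eq_one.1 (by rw [hm, e, pow_zero])
        rw [this, Subgroup.mem_bot] at hk; rw [hk, mul_one, one_mul])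
      exact (dvd_pow_self q hm0).trans (hm ▸ Subgroup.card_dvd_of_le hQK)
    let σ : MulAut Q := Q.normalizerMonoidHom ⟨y, hyQ⟩
    have hσ : σ ^ r = 1 := by
      simp only [σ]
      rw [← map_pow, show (⟨y, hyQ⟩ : Subgroup.normalizer (Q : Set (MulAut V))) ^ r = 1 from Subtype.ext hy, map_one]
    have hσv : ∀ x : Q, ((σ x : Q) : MulAut V) = y * x * y⁻¹ := fun x => rfl
    obtain ⟨h2, -⟩ := HHExceptional.exceptional_of_action (K := ModuleBC.Kbar ℓ)
      (W := ModuleBC.Kbar ℓ ⊗[ZMod ℓ] Additive V) (q := q) hr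
      (fun e => hrK (e ▸ hqdvd)) (ModuleBC.natCast_ne_zero ℓ fun h => hℓK (h.trans hqdvd))
      (ModuleBC.natCast_ne_zero ℓ hℓr) hQ ((ModuleBC.bcRep ℓ).comp Q.subtype)
      ((ModuleBC.bcRep_injective ℓ).comp Q.subtype_injective) (ModuleBC.bcRep ℓ y) σ hσ
      ⟨⟨k, hk⟩, fun e => hne (mul_inv_eq_iff_eq_mul.1 ((hσv ⟨k, hk⟩).symm.trans (congrArg Subtype.val e))).symm⟩
      (ModuleBC.sum_bcRep_eq_zero ℓ y hy hfix) (fun x => by
        simp only [MonoidHom.comp_apply, ← map_mul, Subgroup.coe_subtype, hσv, inv_mul_cancel_right])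
    subst h2
    exact (Nat.not_even_iff_odd.2 hodd) (even_iff_two_dvd.2 hqdvd)
  intro k hk
  exact (Subgroup.mem_centralizer_singleton_iff.1 (hle hk)).symm

variable {V : Type u} [CommGroup V] [Finite V]

open Classical Finset in
/-- The averaging identity for one invariant subgroup. -/
theorem average {Γ : Type*} [Group Γ] [Finite Γ] (φ : Γ →* MulAut V) (A E : Subgroup Γ) [Fintype A] [Fintype E]
    (hEA : ∀ e ∈ E, ∀ a ∈ A, e * a * e⁻¹ ∈ A)
    (hfpf : ∀ e ∈ E, e ≠ 1 → ∀ a ∈ A, e * a = a * e → a = 1) (v : V) :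
    ∏ a : A, φ a (∏ e : E, φ e (φ (a : Γ)⁻¹ v)) =
      v ^ Nat.card A * ∏ e ∈ univ.erase (1 : E), ∏ a : A, φ a (φ e v) := by
  classical
  have h1 : ∀ a : A, φ a (∏ e : E, φ e (φ (a : Γ)⁻¹ v)) = ∏ e : E, φ ((a : Γ) * e * (a : Γ)⁻¹) v := fun a => by
    rw [map_prod]
    exact prod_congr rfl fun e _ => by rw [map_mul, map_mul, MulAut.mul_apply, MulAut.mul_apply]
  simp only [h1]
  rw [prod_comm, ← mul_prod_erase univ _ (mem_univ (1 : E))]
  congr 1
  · simp [prod_const, Nat.card_eq_fintype_card]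
  · refine prod_congr rfl fun e he => ?_
    have he1 : (e : Γ) ≠ 1 := fun h => (mem_erase.1 he).1 (Subtype.ext h)
    let f : A → A := fun a => ⟨(a : Γ) * ((e : Γ) * (a : Γ)⁻¹ * (e : Γ)⁻¹),
      mul_mem a.2 (hEA e e.2 _ (inv_mem a.2))⟩
    have hf : Function.Injective f := by
      intro a b h
      have h' : (a : Γ) * e * (a : Γ)⁻¹ = (b : Γ) * e * (b : Γ)⁻¹ := by
        have h2 : (a : Γ) * ((e : Γ) * (a : Γ)⁻¹ * (e : Γ)⁻¹) = (b : Γ) * ((e : Γ) * (b : Γ)⁻¹ * (e : Γ)⁻¹) :=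
          congrArg Subtype.val h
        calc (a : Γ) * e * (a : Γ)⁻¹ = (a : Γ) * ((e : Γ) * (a : Γ)⁻¹ * (e : Γ)⁻¹) * e := by group
          _ = (b : Γ) * e * (b : Γ)⁻¹ := by rw [h2]; group
      have h3 : (e : Γ) * ((a : Γ)⁻¹ * b) = ((a : Γ)⁻¹ * b) * e := by
        calc (e : Γ) * ((a : Γ)⁻¹ * b) = (a : Γ)⁻¹ * ((a : Γ) * e * (a : Γ)⁻¹) * b := by group
          _ = ((a : Γ)⁻¹ * b) * e := by rw [h']; group
      exact Subtype.ext (inv_mul_eq_one.1 (hfpf e e.2 he1 _ (mul_mem (inv_mem a.2) b.2) h3))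
    refine Fintype.prod_bijective f (Finite.injective_iff_bijective.1 hf) _ _ fun a => ?_
    rw [← MulAut.mul_apply, ← map_mul]
    congr 2
    show (a : Γ) * e * (a : Γ)⁻¹ = (a : Γ) * ((e : Γ) * (a : Γ)⁻¹ * (e : Γ)⁻¹) * e
    group

theorem prod_fixed {Γ : Type*} [Group Γ] (φ : Γ →* MulAut V) (L : Subgroup Γ) [Fintype L] (v : V) {l : Γ}
    (hl : l ∈ L) : φ l (∏ x : L, φ x v) = ∏ x : L, φ x v := by
  rw [map_prod]
  exact Fintype.prod_equiv (Equiv.mulLeft (⟨l, hl⟩ : L)) _ _ fun x => by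
    rw [← MulAut.mul_apply, ← map_mul]; rfl

theorem eq_one_of_pow {v : V} {n : ℕ} (hc : (Nat.card V).Coprime n) (h : v ^ n = 1) : v = 1 :=
  orderOf_eq_one_iff.1 (Nat.eq_one_of_dvd_coprimes hc (orderOf_dvd_natCard v) (orderOf_dvd_of_pow_eq_one h))

theorem fixed_of_pow {v : V} {n : ℕ} (hc : (Nat.card V).Coprime n) (g : MulAut V) (h : g (v ^ n) = v ^ n) :
    g v = v := by
  rw [map_pow] at h
  have : (g v * v⁻¹) ^ n = 1 := by rw [mul_pow, h, inv_pow, mul_inv_cancel]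
  exact mul_inv_eq_one.1 (eq_one_of_pow hc this)

/-- The one-dimensional fixed space. -/
theorem derived_trivial {Γ : Type*} [Group Γ] [Finite Γ] (φ : Γ →* MulAut V) (U E : Subgroup Γ) [U.Normal]
    [Group.IsNilpotent U] (hfpf : ∀ e ∈ E, e ≠ 1 → ∀ a ∈ U, e * a = a * e → a = 1)
    (hcop : (Nat.card V).Coprime (Nat.card U)) (c : V) {ℓ : ℕ} (hℓ : ℓ.Prime) (hco : orderOf c = ℓ)
    (hcE : ∀ e ∈ E, φ e c = c) (hC : ∀ v, (∀ e ∈ E, φ e v = v) → v ∈ Subgroup.zpowers c) :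
    ∀ a ∈ U, ∀ b ∈ U, φ (a * b) = φ (b * a) := by
  classical
  haveI := Fintype.ofFinite U
  haveI := Fintype.ofFinite E
  by_cases hU : ∀ a ∈ U, φ a = 1
  · intro a ha b hb; rw [map_mul, map_mul, hU a ha, hU b hb]
  -- an abelian section acting nontrivially
  let A : Subgroup Γ :=
    { carrier := {a | a ∈ U ∧ ∀ u ∈ U, φ a * φ u = φ u * φ a}
      one_mem' := ⟨one_mem _, fun u _ => by rw [map_one, one_mul, mul_one]⟩
      mul_mem' := fun {a b} ha hb => ⟨mul_mem ha.1 hb.1, fun u hu => by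
        rw [map_mul]; exact ((show Commute (φ a) (φ u) from ha.2 u hu).mul_left (hb.2 u hu)).eq⟩
      inv_mem' := fun {a} ha => ⟨inv_mem ha.1, fun u hu => by
        rw [map_inv]; exact (show Commute (φ a) (φ u) from ha.2 u hu).inv_left.eq⟩ }
  haveI := Fintype.ofFinite A
  have hAU : ∀ a ∈ A, a ∈ U := fun a ha => ha.1
  have hAn : ∀ g : Γ, ∀ a ∈ A, g * a * g⁻¹ ∈ A := by
    intro g a ha
    refine ⟨(inferInstance : U.Normal).conj_mem a ha.1 g, fun u hu => ?_⟩
    have h1 : g⁻¹ * u * g ∈ U := by simpa using (inferInstance : U.Normal).conj_mem u hu g⁻¹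
    have h2 := congrArg (fun m => φ g * m * (φ g)⁻¹) (ha.2 _ h1)
    simp only [map_mul, map_inv] at h2 ⊢
    simpa [mul_assoc] using h2
  have hAnt : ¬ ∀ a ∈ A, φ a = 1 := by
    push Not at hU
    obtain ⟨u₀, hu₀, hu₀'⟩ := hU
    let ψ : U →* MulAut V := φ.comp U.subtype
    haveI : Nontrivial ψ.range := ⟨⟨⟨_, ⟨u₀, hu₀⟩, rfl⟩, 1, fun e => hu₀' (congrArg Subtype.val e)⟩⟩
    haveI : Group.IsNilpotent ψ.range := Group.nilpotent_of_surjective ψ.rangeRestrict ψ.rangeRestrict_surjective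
    haveI : Nontrivial (Subgroup.center ψ.range) := by
      obtain ⟨w, -, hw1, hwc⟩ := Cfsg.Agent.OddLocal.exists_ne_one_mem_center_of_normal (⊤ : Subgroup ψ.range) top_ne_bot
      exact ⟨⟨⟨w, hwc⟩, 1, fun e => hw1 (congrArg Subtype.val e)⟩⟩
    obtain ⟨⟨⟨_, ⟨a, ha⟩, rfl⟩, hac⟩, hne⟩ := exists_ne (1 : Subgroup.center ψ.range)
    intro hall
    refine hne (Subtype.ext (Subtype.ext (hall a ⟨ha, fun u hu => ?_⟩)))
    exact (congrArg Subtype.val (Subgroup.mem_center_iff.1 hac ⟨_, ⟨u, hu⟩, rfl⟩)).symm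
  have hcopA : (Nat.card V).Coprime (Nat.card A) := hcop.coprime_dvd_right (Subgroup.card_dvd_of_le hAU)
  set τ : V → V := fun v => ∏ a : A, φ a v with hτ
  have hτmul : ∀ v w, τ (v * w) = τ v * τ w := fun v w => by
    simp only [hτ, map_mul, Finset.prod_mul_distrib]
  have hτcomm : ∀ (g : Γ), (∀ a ∈ A, g⁻¹ * a * g ∈ A) → ∀ v, τ (φ g v) = φ g (τ v) := by
    intro g hg v
    simp only [hτ, map_prod]
    refine Fintype.prod_bijective (fun a : A => (⟨g⁻¹ * a * g, hg a a.2⟩ : A)) ?_ _ _ fun a => ?_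
    · refine Finite.injective_iff_bijective.1 fun a b h => Subtype.ext ?_
      have h' : g⁻¹ * (a : Γ) * g = g⁻¹ * (b : Γ) * g := congrArg Subtype.val h
      exact mul_left_cancel (mul_right_cancel h')
    · rw [← MulAut.mul_apply, ← MulAut.mul_apply, ← map_mul, ← map_mul]
      congr 2
      show (a : Γ) * g = g * (g⁻¹ * a * g)
      group
  have hτfix : ∀ v, ∀ a ∈ A, φ a (τ v) = τ v := fun v a ha => prod_fixed φ A v ha
  have hconjA : ∀ g : Γ, ∀ a ∈ A, g⁻¹ * a * g ∈ A := fun g a ha => by simpa using hAn g⁻¹ a ha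
  -- the kernel of `τ` is generated by the orbit of `c`
  set S := Subgroup.closure {w : V | ∃ a ∈ A, w = φ a c} with hS
  have hker : ∀ v, τ v = 1 → v ∈ S := by
    intro v hv
    have h := average φ A E (fun e _ a ha => hAn e a ha) (fun e he he1 a ha => hfpf e he he1 a (hAU a ha)) v
    have hL : (∏ a : A, φ a (∏ e : E, φ e (φ (a : Γ)⁻¹ v))) ∈ S := by
      refine Subgroup.prod_mem _ fun a _ => ?_
      obtain ⟨i, hi⟩ := Subgroup.mem_zpowers_iff.1 (hC _ fun e he => prod_fixed φ E (φ (a : Γ)⁻¹ v) he)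
      rw [← hi, map_zpow]
      exact Subgroup.zpow_mem _ (Subgroup.subset_closure (show φ a c ∈ {w : V | ∃ b ∈ A, w = φ b c} from ⟨a, a.2, rfl⟩)) i
    rw [h, Finset.prod_eq_one (fun e _ => by
      show τ (φ e v) = 1
      rw [hτcomm _ (hconjA e), hv, map_one]), mul_one] at hL
    have hb := Nat.gcd_eq_gcd_ab (Nat.card V) (Nat.card A)
    rw [hcopA.gcd_eq_one] at hb
    have hv' : v = (v ^ Nat.card A) ^ Nat.gcdB (Nat.card V) (Nat.card A) := by
      rw [← zpow_natCast, ← zpow_mul]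
      conv_lhs => rw [← zpow_one v, show (1 : ℤ) = _ from hb, zpow_add, zpow_mul, zpow_natCast, pow_card_eq_one',
        one_zpow, one_mul]
    rw [hv']
    exact Subgroup.zpow_mem _ hL _
  have hτc : τ c = 1 := by
    by_contra hne
    -- then `c` is fixed by `A`
    have hτcE : ∀ e ∈ E, φ e (τ c) = τ c := fun e he => by rw [← hτcomm e (hconjA e) c, hcE e he]
    have hτcA : ∀ a ∈ A, φ a c = c := by
      intro a ha
      obtain ⟨i, hi⟩ := Subgroup.mem_zpowers_iff.1 (hC _ hτcE)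
      have hcz : c ∈ Subgroup.zpowers (τ c) := by
        have hle : Subgroup.zpowers (τ c) ≤ Subgroup.zpowers c := Subgroup.zpowers_le.2 (hi ▸ Subgroup.zpow_mem _ (Subgroup.mem_zpowers c) i)
        have hd := Subgroup.card_dvd_of_le hle
        rw [Nat.card_zpowers, Nat.card_zpowers, hco] at hd
        rcases (Nat.dvd_prime hℓ).1 hd with e | e
        · exact absurd (orderOf_eq_one_iff.1 e) hne
        · rw [Subgroup.eq_of_le_of_card_ge hle (by rw [Nat.card_zpowers, Nat.card_zpowers, e, hco])]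
          exact Subgroup.mem_zpowers c
      obtain ⟨j, hj⟩ := Subgroup.mem_zpowers_iff.1 hcz
      rw [← hj, map_zpow, hτfix c a ha]
    refine hAnt fun a ha => MulEquiv.ext fun v => ?_
    rw [MulAut.one_apply]
    -- `ker τ = 1`
    have hker1 : ∀ w, τ w = 1 → w = 1 := by
      intro w hw
      have hle : S ≤ Subgroup.zpowers c := (Subgroup.closure_le _).2 (by
        rintro _ ⟨b, hb, rfl⟩; rw [hτcA b hb]; exact Subgroup.mem_zpowers c)
      obtain ⟨i, rfl⟩ := Subgroup.mem_zpowers_iff.1 (hle (hker w hw))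
      refine eq_one_of_pow hcopA ?_
      rw [← hw]
      simp only [hτ, map_zpow]
      rw [Finset.prod_congr rfl (fun b _ => by rw [hτcA b b.2]), Finset.prod_const, Finset.card_univ,
        Nat.card_eq_fintype_card]
    refine mul_inv_eq_one.1 (hker1 _ ?_)
    rw [hτmul, hτcomm a (hconjA a) v, hτfix v a ha, ← hτmul, mul_inv_cancel]
    exact Finset.prod_eq_one fun b _ => map_one _
  -- everything fixed by `A` is fixed by `U`
  have hUA : ∀ w, (∀ a ∈ A, φ a w = w) → ∀ u ∈ U, φ u w = w := by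
    intro w hw
    have h := average φ U E (fun e _ a ha => (inferInstance : U.Normal).conj_mem a ha e)
      (fun e he he1 a ha => hfpf e he he1 a ha) w
    have hinner : ∀ u : U, φ u (∏ e : E, φ e (φ (u : Γ)⁻¹ w)) = 1 := by
      intro u
      have hA' : ∀ a ∈ A, φ a (∏ e : E, φ e (φ (u : Γ)⁻¹ w)) = ∏ e : E, φ e (φ (u : Γ)⁻¹ w) := by
        intro a ha
        rw [map_prod]
        refine Finset.prod_congr rfl fun e _ => ?_
        have hb : φ ((u : Γ) * ((e : Γ)⁻¹ * a * e) * (u : Γ)⁻¹) w = w := hw _ (hAn u _ (hconjA e a ha))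
        conv_rhs => rw [← hb]
        simp only [← MulAut.mul_apply, ← map_mul]
        congr 2
        group
      have hE' : ∀ e ∈ E, φ e (∏ e : E, φ e (φ (u : Γ)⁻¹ w)) = ∏ e : E, φ e (φ (u : Γ)⁻¹ w) := fun e he =>
        prod_fixed φ E _ he
      set m := ∏ e : E, φ e (φ (u : Γ)⁻¹ w)
      obtain ⟨i, hi⟩ := Subgroup.mem_zpowers_iff.1 (hC m hE')
      have hm : τ m = m ^ Nat.card A := by
        simp only [hτ]
        rw [Finset.prod_congr rfl (fun (a : A) _ => hA' a a.2), Finset.prod_const, Finset.card_univ, Nat.card_eq_fintype_card]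
      have hm1 : τ m = 1 := by
        rw [← hi]
        simp only [hτ, map_zpow]
        rw [Finset.prod_zpow]
        show τ c ^ i = 1
        rw [hτc, one_zpow]
      rw [eq_one_of_pow hcopA (hm.symm.trans hm1), map_one]
    rw [Finset.prod_eq_one (fun u _ => hinner u)] at h
    intro u hu
    refine fixed_of_pow hcop _ ?_
    have h2 : w ^ Nat.card U = (∏ e ∈ Finset.univ.erase (1 : E), ∏ a : U, φ a (φ e w))⁻¹ :=
      eq_inv_of_mul_eq_one_left h.symm
    rw [h2, map_inv, map_prod]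
    congr 1
    exact Finset.prod_congr rfl fun e _ => prod_fixed φ U _ hu
  -- endomorphisms commuting with `A`
  have hext : ∀ s ∈ S, ∃ ψ : V →* V, ψ c = s ∧ ∀ f : V →* V, (∀ a ∈ A, ∀ v, f (φ a v) = φ a (f v)) → ∀ v, f (ψ v) = ψ (f v) := by
    intro s hs
    induction hs using Subgroup.closure_induction with
    | mem x hx =>
      obtain ⟨a, ha, rfl⟩ := hx
      exact ⟨(φ a).toMonoidHom, rfl, fun f hf v => hf a ha v⟩
    | one => exact ⟨1, rfl, fun f _ v => map_one f⟩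
    | mul x y _ _ hx hy =>
      obtain ⟨ψ, h1, h2⟩ := hx
      obtain ⟨ψ', h1', h2'⟩ := hy
      exact ⟨ψ * ψ', by rw [MonoidHom.mul_apply, h1, h1'], fun f hf v => by
        rw [MonoidHom.mul_apply, MonoidHom.mul_apply, map_mul, h2 f hf, h2' f hf]⟩
    | inv x _ hx =>
      obtain ⟨ψ, h1, h2⟩ := hx
      exact ⟨ψ⁻¹, by rw [MonoidHom.inv_apply, h1], fun f hf v => by
        rw [MonoidHom.inv_apply, MonoidHom.inv_apply, map_inv, h2 f hf]⟩
  intro a ha b hb
  have hcA : ∀ g ∈ U, ∀ x ∈ A, ∀ v, φ g (φ x v) = φ x (φ g v) := fun g hg x hx v => by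
    rw [← MulAut.mul_apply, ← MulAut.mul_apply, hx.2 g hg]
  have hUS : ∀ g ∈ U, φ g c ∈ S := fun g hg => hker _ (by rw [hτcomm g (hconjA g), hτc, map_one])
  have hAAcomm : ∀ x ∈ A, ∀ y ∈ A, ∀ v, φ y (φ x v) = φ x (φ y v) := fun x hx y hy v => by
    rw [← MulAut.mul_apply, ← MulAut.mul_apply, hx.2 y (hAU y hy)]
  obtain ⟨ψa, hψa, hψa'⟩ := hext _ (hUS a ha)
  obtain ⟨ψb, hψb, hψb'⟩ := hext _ (hUS b hb)
  have hab : φ a (φ b c) = φ b (φ a c) := by
    have e1 : φ a (φ b c) = ψb (φ a c) := by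
      rw [← hψb]; exact hψb' (φ a).toMonoidHom (fun x hx v => hcA a ha x hx v) c
    have e2 : φ b (φ a c) = ψa (φ b c) := by
      rw [← hψa]; exact hψa' (φ b).toMonoidHom (fun x hx v => hcA b hb x hx v) c
    rw [e1, e2, ← hψa, ← hψb]
    exact hψa' ψb (fun x hx v => (hψb' (φ x).toMonoidHom (fun y hy v => hAAcomm y hy x hx v) v).symm) c
  refine MulEquiv.ext fun v => ?_
  rw [map_mul, map_mul, MulAut.mul_apply, MulAut.mul_apply]
  let f : V →* V := (φ a).toMonoidHom.comp (φ b).toMonoidHom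
  let g : V →* V := (φ b).toMonoidHom.comp (φ a).toMonoidHom
  show f v = g v
  have hfg : ∀ s ∈ S, f s = g s := by
    intro s hs
    refine MonoidHom.eqOn_closure ?_ hs
    rintro _ ⟨x, hx, rfl⟩
    show φ a (φ b (φ x c)) = φ b (φ a (φ x c))
    rw [hcA b hb x hx, hcA a ha x hx, hcA a ha x hx, hcA b hb x hx, hab]
  have hτv : ∀ u ∈ U, φ u (τ v) = τ v := hUA _ (hτfix v)
  have h1 : f (v ^ Nat.card A * (τ v)⁻¹) = g (v ^ Nat.card A * (τ v)⁻¹) := by
    refine hfg _ (hker _ ?_)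
    rw [hτmul]
    have hinv : τ ((τ v)⁻¹) = ((τ v) ^ Nat.card A)⁻¹ := by
      show ∏ x : A, φ x (τ v)⁻¹ = _
      rw [Finset.prod_congr rfl (fun x _ => by rw [map_inv, hτfix v x x.2]), Finset.prod_const, Finset.card_univ,
        Nat.card_eq_fintype_card, inv_pow]
    have hp : τ (v ^ Nat.card A) = (τ v) ^ Nat.card A := by
      show ∏ x : A, φ x (v ^ Nat.card A) = _
      rw [← Finset.prod_pow]
      exact Finset.prod_congr rfl fun x _ => map_pow _ _ _
    rw [hp, hinv, mul_inv_cancel]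
  have h2 : f (τ v) = g (τ v) := by
    show φ a (φ b (τ v)) = φ b (φ a (τ v))
    rw [hτv b hb, hτv a ha, hτv b hb]
  rw [map_mul, map_mul, map_inv, map_inv, h2] at h1
  have h3 := mul_right_cancel h1
  rw [map_pow, map_pow] at h3
  have h4 : (f v * (g v)⁻¹) ^ Nat.card A = 1 := by rw [mul_pow, h3, inv_pow, mul_inv_cancel]
  exact mul_inv_eq_one.1 (eq_one_of_pow hcopA h4)

end Cfsg.Agent.Transfer.FPFComm
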