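import Cfsg.Prelude.Def_Solvable
import Cfsg.Prelude.Def_Transfer
import Cfsg.Agent.Transfer.FPFCommutator
import Cfsg.Agent.PermGroups.FrobeniusKernel
import Cfsg.Agent.Core.ThompsonFPF

/-!
Statements about complements of prime order acting on elementary abelian subgroups.
-/

set_option autoImplicit false

namespace Cfsg.Agent.Transfer.FPFComm

open scoped Pointwise commutatorElement

universe u

variable {X : Type u} [Group X] [Finite X]

theorem odd_hall (G : Subgroup X) (hodd : Odd (Nat.card G)) (V : Subgroup X) {ℓ : ℕ} (hℓ : ℓ.Prime)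
    (hV : Cfsg.IsElementaryAbelian ℓ V) (hℓG : ¬ ℓ ∣ Nat.card G)
    (hGV : G ≤ Subgroup.normalizer (V : Set X)) (K R : Subgroup X) (hKG : K ≤ G)
    (hKn : G ≤ Subgroup.normalizer (K : Set X)) (hHall : (Nat.card K).Coprime (K.relIndex G)) (hRG : R ≤ G)
    (hR : (Nat.card R).Prime) (hKR : K ⊓ R = ⊥) (hKRG : K ⊔ R = G)
    (hCV : V ⊓ Subgroup.centralizer (R : Set X) = ⊥) : ⁅R, K⁆ ≤ Subgroup.centralizer (V : Set X) := by
  haveI : Fact ℓ.Prime := ⟨hℓ⟩
  haveI := hV.1
  letI : CommGroup V := { (inferInstance : Group V) with mul_comm := hV.1.1.1 }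
  let φ : ↥(Subgroup.normalizer (V : Set X)) →* MulAut V := V.normalizerMonoidHom
  let ψ : K →* MulAut V := φ.comp (Subgroup.inclusion (hKG.trans hGV))
  have hrK : ¬ Nat.card R ∣ Nat.card K := by
    intro h
    have e : K.relIndex G = Nat.card R := by
      have hbij : Function.Bijective (fun w : K × R => (⟨(w.1 : X) * w.2, mul_mem (hKG w.1.2) (hRG w.2.2)⟩ : G)) := by
        constructor
        · rintro ⟨a, b⟩ ⟨a', b'⟩ he
          have he' : (a : X) * b = a' * b' := congrArg Subtype.val he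
          have h1 : (a' : X)⁻¹ * a = b' * (b : X)⁻¹ := by
            rw [eq_mul_inv_iff_mul_eq, mul_assoc, he', inv_mul_cancel_left]
          have h2 : (a' : X)⁻¹ * a ∈ K ⊓ R := ⟨K.mul_mem (K.inv_mem a'.2) a.2, h1 ▸ R.mul_mem b'.2 (R.inv_mem b.2)⟩
          rw [hKR, Subgroup.mem_bot] at h2
          have ha : a' = a := Subtype.ext (inv_mul_eq_one.1 h2)
          subst ha
          exact Prod.ext rfl (Subtype.ext (mul_left_cancel he'))
        · rintro ⟨g, hg⟩
          have hg' : g ∈ ((K ⊔ R : Subgroup X) : Set X) := hKRG.symm ▸ hg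
          rw [Subgroup.coe_mul_of_right_le_normalizer_left _ _ (hRG.trans hKn)] at hg'
          obtain ⟨a, ha, b, hb, rfl⟩ := hg'
          exact ⟨(⟨a, ha⟩, ⟨b, hb⟩), rfl⟩
      have h1 := Subgroup.card_mul_index (K.subgroupOf G)
      rw [Nat.card_congr (Subgroup.subgroupOfEquivOfLe hKG).toEquiv, ← Nat.card_eq_of_bijective _ hbij,
        Nat.card_prod] at h1
      exact Nat.eq_of_mul_eq_mul_left Nat.card_pos h1
    rw [e] at hHall
    exact hR.one_lt.ne' (Nat.eq_one_of_dvd_coprimes hHall h dvd_rfl)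
  have hψc : Nat.card ψ.range ∣ Nat.card K := Subgroup.card_range_dvd ψ
  rw [Subgroup.commutator_le]
  intro x hx k hk
  rw [Subgroup.mem_centralizer_iff]
  intro v hv
  set y := φ ⟨x, hGV (hRG hx)⟩ with hy
  have hxr : x ^ Nat.card R = 1 := congrArg Subtype.val (pow_card_eq_one' (x := (⟨x, hx⟩ : R)))
  have hkψ : φ ⟨k, hGV (hKG hk)⟩ ∈ ψ.range := ⟨⟨k, hk⟩, rfl⟩
  have hcomm : y * φ ⟨k, hGV (hKG hk)⟩ = φ ⟨k, hGV (hKG hk)⟩ * y := by
    by_cases hy1 : y = 1
    · rw [hy1, one_mul, mul_one]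
    refine commute_of_no_fixed (fun w => Subtype.ext (hV.2 w w.2)) ψ.range
      (Odd.of_dvd_nat hodd (hψc.trans (Subgroup.card_dvd_of_le hKG)))
      (fun h => hℓG (h.trans (hψc.trans (Subgroup.card_dvd_of_le hKG)))) hR
      (fun h => hℓG (h.trans (Subgroup.card_dvd_of_le hRG))) (fun h => hrK (h.trans hψc)) y
      (by rw [hy, ← map_pow, show (⟨x, hGV (hRG hx)⟩ : Subgroup.normalizer (V : Set X)) ^ Nat.card R = 1 from
        Subtype.ext hxr, map_one]) ?_ ?_ _ hkψ
    · have hle : ψ.range = (K.subgroupOf (Subgroup.normalizer (V : Set X))).map φ := by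
        ext g
        constructor
        · rintro ⟨a, rfl⟩; exact ⟨Subgroup.inclusion (hKG.trans hGV) a, a.2, rfl⟩
        · rintro ⟨a, ha, rfl⟩; exact ⟨⟨a, ha⟩, rfl⟩
      rw [hle]
      refine Subgroup.le_normalizer_map φ ⟨_, ?_, rfl⟩
      rw [SetLike.mem_coe, Subgroup.mem_normalizer_iff]
      intro a
      exact Subgroup.mem_normalizer_iff.1 (hKn (hRG hx)) (a : X)
    · intro w hw
      have hwx : x * (w : X) = w * x := mul_inv_eq_iff_eq_mul.1 (congrArg Subtype.val hw)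
      have hgen : Subgroup.zpowers x = R := by
        refine Subgroup.eq_of_le_of_card_ge (Subgroup.zpowers_le.2 hx) ?_
        have hx1 : x ≠ 1 := fun e => hy1 (by
          rw [hy, show (⟨x, hGV (hRG hx)⟩ : Subgroup.normalizer (V : Set X)) = 1 from Subtype.ext e, map_one])
        rw [Nat.card_zpowers]
        rcases hR.eq_one_or_self_of_dvd _ (orderOf_dvd_of_pow_eq_one hxr) with e | e
        · exact absurd (orderOf_eq_one_iff.1 e) hx1
        · rw [e]
      refine Subtype.ext ((Subgroup.eq_bot_iff_forall _).1 hCV _ ⟨w.2, ?_⟩)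
      show (w : X) ∈ Subgroup.centralizer (R : Set X)
      rw [← hgen, Subgroup.zpowers_eq_closure, Subgroup.centralizer_closure,
        Subgroup.mem_centralizer_singleton_iff]
      exact hwx.symm
  have h1 : φ ⁅(⟨x, hGV (hRG hx)⟩ : Subgroup.normalizer (V : Set X)), ⟨k, hGV (hKG hk)⟩⁆ = 1 := by
    rw [map_commutatorElement, commutatorElement_eq_one_iff_mul_comm]
    exact hcomm
  have h2 := congrArg (fun f : MulAut V => ((f ⟨v, hv⟩ : V) : X)) h1
  exact (mul_inv_eq_iff_eq_mul.1 h2).symm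

theorem frobenius_fixed (G : Subgroup X) (V : Subgroup X) {ℓ : ℕ} (hℓ : ℓ.Prime)
    (hV : Cfsg.IsElementaryAbelian ℓ V) (hℓG : ¬ ℓ ∣ Nat.card G)
    (hGV : G ≤ Subgroup.normalizer (V : Set X)) (R : Subgroup ↥G) (hR : Cfsg.IsFrobeniusComplement R)
    (hCV : Nat.card ↥(V ⊓ Subgroup.centralizer ((R.map G.subtype : Subgroup X) : Set X)) = ℓ) :
    ⁅Subgroup.closure (Subtype.val '' Cfsg.frobeniusKernel R),
      Subgroup.closure (Subtype.val '' Cfsg.frobeniusKernel R)⁆ ≤ Subgroup.centralizer (V : Set X) := by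
  obtain ⟨N, hN, hNn, hc⟩ := Cfsg.Agent.PermGroups.Frobenius.exists_kernel hR
  haveI := hNn
  have hfpf : ∀ e ∈ R, e ≠ 1 → ∀ a ∈ N, e * a = a * e → a = 1 := fun e he he1 a ha h =>
    Cfsg.Agent.PermGroups.Frobenius.centralizer_kernel_eq_one hR hc.disjoint he he1 ha h
  haveI : Group.IsNilpotent N := by
    obtain ⟨r, hr, hrR⟩ := Nat.exists_prime_and_dvd ((Subgroup.one_lt_card_iff_ne_bot R).mpr hR.1).ne'
    haveI : Fact r.Prime := ⟨hr⟩
    obtain ⟨h, hh⟩ := exists_prime_orderOf_dvd_card' (G := R) r hrR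
    refine Cfsg.Agent.Core.ThompsonFPF.isNilpotent_of_fpf hr (MulAut.conjNormal (h : G)) ?_ ?_
    · intro n hn
      have hn' : (h : G) * n * (h : G)⁻¹ = n := by rw [← MulAut.conjNormal_apply (h : G) n, hn]
      refine Subtype.ext (hfpf h h.2 ?_ n n.2 (mul_inv_eq_iff_eq_mul.mp hn'))
      intro e
      rw [show h = 1 from Subtype.ext e, orderOf_one] at hh
      exact hr.ne_one hh.symm
    · intro n
      rw [Cfsg.Agent.Core.ThompsonFPF.iterate_eq_pow, ← map_pow]
      have hpow : (h : G) ^ r = 1 := by rw [← hh, ← Subgroup.orderOf_coe, pow_orderOf_eq_one]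
      rw [hpow, map_one]
      rfl
  letI : CommGroup V := { (inferInstance : Group V) with mul_comm := hV.1.1.1 }
  let φ : G →* MulAut V := (V.normalizerMonoidHom).comp (Subgroup.inclusion hGV)
  haveI : Fact ℓ.Prime := ⟨hℓ⟩
  obtain ⟨c, hc'⟩ := exists_prime_orderOf_dvd_card' (G := ↥(V ⊓ Subgroup.centralizer ((R.map G.subtype : Subgroup X) : Set X))) ℓ (by rw [hCV])
  have hφ : ∀ (g : G) (v : V), φ g v = v ↔ (g : X) * v = v * g := fun g v =>
    ⟨fun h => mul_inv_eq_iff_eq_mul.1 (congrArg Subtype.val h), fun h => Subtype.ext (mul_inv_eq_iff_eq_mul.2 h)⟩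
  have hVℓ : IsPGroup ℓ V := fun v => ⟨1, by rw [pow_one]; exact Subtype.ext (hV.2 v v.2)⟩
  have hcopV : (Nat.card V).Coprime (Nat.card N) := by
    obtain ⟨m, hm⟩ := IsPGroup.iff_card.1 hVℓ
    rw [hm]
    exact Nat.Coprime.pow_left m (hℓ.coprime_iff_not_dvd.2 fun h => hℓG (h.trans N.card_subgroup_dvd_card))
  have key := derived_trivial φ N R hfpf hcopV ⟨(c : X), c.2.1⟩ hℓ
    (by rw [← Subgroup.orderOf_coe]; show orderOf (c : X) = ℓ; rw [Subgroup.orderOf_coe, hc'])
    (fun e he => (hφ _ _).2 (Subgroup.mem_centralizer_iff.1 c.2.2 _ ⟨e, he, rfl⟩))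
    (fun v hv => by
      have hmem : (v : X) ∈ V ⊓ Subgroup.centralizer ((R.map G.subtype : Subgroup X) : Set X) :=
        ⟨v.2, Subgroup.mem_centralizer_iff.2 (by rintro _ ⟨e, he, rfl⟩; exact (hφ _ _).1 (hv e he))⟩
      have hz : Subgroup.zpowers c = ⊤ := Subgroup.eq_top_of_card_eq _ (by rw [Nat.card_zpowers, hc', hCV])
      obtain ⟨i, hi⟩ := Subgroup.mem_zpowers_iff.1 (hz.ge (Subgroup.mem_top ⟨(v : X), hmem⟩))
      exact Subgroup.mem_zpowers_iff.2 ⟨i, Subtype.ext (by rw [SubgroupClass.coe_zpow]; show (c : X) ^ i = v; rw [← SubgroupClass.coe_zpow, hi])⟩)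
  have hK : Subgroup.closure (Subtype.val '' Cfsg.frobeniusKernel R) = N.map G.subtype := by
    rw [← hN, show Subtype.val '' (N : Set G) = ((N.map G.subtype : Subgroup X) : Set X) from rfl, Subgroup.closure_eq]
  rw [hK, Subgroup.commutator_le]
  rintro _ ⟨a, ha, rfl⟩ _ ⟨b, hb, rfl⟩
  rw [Subgroup.mem_centralizer_iff]
  intro v hv
  have h1 : φ ⁅a, b⁆ = 1 := by
    rw [map_commutatorElement, commutatorElement_eq_one_iff_mul_comm, ← map_mul, ← map_mul]
    exact key a ha b hb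
  have h2 := (hφ ⁅a, b⁆ ⟨v, hv⟩).1 (by rw [h1]; rfl)
  exact h2.symm

end Cfsg.Agent.Transfer.FPFComm
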