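import Cfsg.Prelude.Def_Transfer
import Cfsg.Agent.Transfer.QuadSum

/-!
Involution count in 2-groups with Frattini subgroup of order two.
-/

set_option autoImplicit false

namespace Cfsg.Agent.Transfer.InvCount

open scoped commutatorElement
open Classical

variable {G : Type*} [Group G] [Finite G]

theorem count (hG : IsPGroup 2 G) (hΦ : Nat.card (frattini G) = 2) (d : ℕ)
    (hd : (frattini G).index = 2 ^ d) :
    (Nat.card {x : G // x ^ 2 = 1} = 2 ^ d ∨ ∃ r : ℕ, 1 ≤ r ∧ 2 * r ≤ d ∧
      (Nat.card {x : G // x ^ 2 = 1} = 2 ^ d + 2 ^ (d - r) ∨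
        Nat.card {x : G // x ^ 2 = 1} + 2 ^ (d - r) = 2 ^ d)) ∧
    (∀ r : ℕ, d = 2 * r → (Nat.card {x : G // x ^ 2 = 1} = 2 ^ d + 2 ^ r ∨
      Nat.card {x : G // x ^ 2 = 1} + 2 ^ r = 2 ^ d) → Cfsg.IsExtraspecial 2 G) := by
  haveI : Fact (Nat.Prime 2) := ⟨Nat.prime_two⟩
  haveI : Fintype G := Fintype.ofFinite G
  have hGc : Nat.card G = 2 ^ (d + 1) := by
    rw [← (frattini G).card_mul_index, hΦ, hd, pow_succ, mul_comm]
  obtain ⟨z, hz, hall⟩ : ∃ z ∈ frattini G, ∀ w ∈ frattini G, w = 1 ∨ w = z := by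
    obtain ⟨a, b, hab, hu⟩ := Nat.card_eq_two_iff.1 hΦ
    have hw : ∀ w : frattini G, w = a ∨ w = b := fun w => by
      have : w ∈ ({a, b} : Set (frattini G)) := hu ▸ Set.mem_univ w
      simpa using this
    rcases hw 1 with h | h
    · exact ⟨b, b.2, fun w hw' => (hw ⟨w, hw'⟩).imp (fun e => by rw [← h] at e; simpa using congrArg Subtype.val e)
        fun e => congrArg Subtype.val e⟩
    · exact ⟨a, a.2, fun w hw' => (hw ⟨w, hw'⟩).symm.imp (fun e => by rw [← h] at e; simpa using congrArg Subtype.val e)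
        fun e => congrArg Subtype.val e⟩
  have hz1 : z ≠ 1 := by
    intro h
    have : frattini G = ⊥ := (Subgroup.eq_bot_iff_forall _).2 fun w hw => (hall w hw).elim id (fun e => e.trans h)
    rw [this, Subgroup.card_bot] at hΦ
    omega
  have hz2 : z * z = 1 := by
    rcases hall _ (mul_mem hz hz) with h | h
    · exact h
    · exact absurd (mul_eq_left.1 h) hz1
  have hΦc : frattini G ≤ Subgroup.center G := by
    intro w hw
    rcases hall w hw with rfl | rfl
    · exact one_mem _
    rw [Subgroup.mem_center_iff]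
    intro g
    rcases hall _ ((inferInstance : (frattini G).Normal).conj_mem w hz g) with h | h
    · exact absurd (conj_eq_one_iff.1 h) hz1
    · exact mul_inv_eq_iff_eq_mul.1 h
  have hsq : ∀ g : G, g ^ 2 ∈ frattini G := fun g => FGS3.pow_mem_frattini hG g
  have hcΦ : commutator G ≤ frattini G := FGS3.commutator_le_frattini hG
  have hc : commutator G ≤ Subgroup.center G := hcΦ.trans hΦc
  have hcm : ∀ a b : G, ⁅a, b⁆ ∈ frattini G := fun a b =>
    hcΦ (Subgroup.commutator_mem_commutator (Subgroup.mem_top _) (Subgroup.mem_top _))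
  let s : G → ℤ := fun w => if w = 1 then 1 else -1
  have hs : ∀ a b : G, a ∈ frattini G → b ∈ frattini G → s (a * b) = s a * s b := by
    intro a b ha hb
    rcases hall a ha with rfl | rfl <;> rcases hall b hb with rfl | rfl <;> simp [s, hz1, hz2]
  have hspm : ∀ w, s w = 1 ∨ s w = -1 := fun w => by simp only [s]; split_ifs <;> simp
  have hs1 : ∀ w, s w = 1 ↔ w = 1 := fun w => by simp only [s]; split_ifs <;> simp [*]
  set c := Nat.card {x : G // x ^ 2 = 1} with hcdef
  have hS : (∑ g : G, s (g ^ 2)) = 2 * (c : ℤ) - 2 ^ (d + 1) := by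
    have e : ∀ g : G, s (g ^ 2) = 2 * (if g ^ 2 = 1 then 1 else 0) - 1 := fun g => by
      simp only [s]; split_ifs <;> norm_num
    rw [Finset.sum_congr rfl fun g _ => e g, Finset.sum_sub_distrib, ← Finset.mul_sum, Finset.sum_boole,
      ← Fintype.card_subtype, ← Nat.card_eq_fintype_card, ← hcdef, Finset.sum_const, Finset.card_univ,
      Nat.smul_one_eq_cast, ← Nat.card_eq_fintype_card, hGc]
    push_cast; ring
  rcases Quad.sum_sq (fun g => s (g ^ 2)) (fun g h => s ⁅h, g⁆) (fun g => hspm _)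
    (fun g h => by
      rw [FGS3.mul_pow_of_center hc, Nat.choose_self, pow_one,
        hs _ _ (mul_mem (hsq g) (hsq h)) (hcm h g), hs _ _ (hsq g) (hsq h)])
    (fun g g' h => by rw [FGS3.commutatorElement_mul_right_of_center hc, hs _ _ (hcm h g) (hcm h g')])
    (fun g h h' => by rw [FGS3.commutatorElement_mul_left_of_center hc, hs _ _ (hcm h g) (hcm h' g)])
    with h0 | ⟨R, hR, hR1, hSS⟩
  · rw [hS] at h0
    have hc' : c = 2 ^ d := by
      have : (2 : ℤ) ^ (d + 1) = 2 * ((2 ^ d : ℕ) : ℤ) := by push_cast; ring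
      omega
    refine ⟨Or.inl hc', fun r hr h => ?_⟩
    have := Nat.one_le_two_pow (n := r)
    omega
  have hRZ : R = Subgroup.center G := by
    ext u
    rw [hR, Subgroup.mem_center_iff]
    refine forall_congr' fun g => ?_
    rw [hs1, commutatorElement_eq_one_iff_mul_comm]
    exact ⟨Eq.symm, Eq.symm⟩
  have hRtop : R ≠ ⊤ := by
    intro h
    have hab : ∀ a b : G, a * b = b * a := fun a b =>
      Subgroup.mem_center_iff.1 (hRZ ▸ h ▸ Subgroup.mem_top b : b ∈ Subgroup.center G) a
    have := FGS3.frattini_eq_bot_of_elementary (p := 2) hab fun a =>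
      (hs1 _).1 (hR1 a (h ▸ Subgroup.mem_top a))
    rw [this, Subgroup.card_bot] at hΦ
    omega
  obtain ⟨m, hm⟩ := IsPGroup.iff_card.1 (hG.to_subgroup R)
  have hm1 : 1 ≤ m := by
    have := Subgroup.card_le_of_le (hRZ.symm ▸ hΦc : frattini G ≤ R)
    rw [hΦ, hm] at this
    rcases m with _ | m
    · simp at this
    · omega
  have hmd : m ≤ d := by
    have h1 : Nat.card R < Nat.card G := by
      rcases (Subgroup.card_le_card_group R).lt_or_eq with h | h
      · exact h
      · exact absurd (Subgroup.eq_top_of_card_eq R h) hRtop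
    rw [hm, hGc, Nat.pow_lt_pow_iff_right (by norm_num)] at h1
    omega
  set S := ∑ g : G, s (g ^ 2) with hSdef
  have h1 : S.natAbs * S.natAbs = 2 ^ (d + 1 + m) := by
    rw [← Int.natAbs_mul, hSS, hGc, hm, ← Nat.cast_mul, Int.natAbs_natCast, ← pow_add]
  obtain ⟨e, -, he⟩ := (Nat.dvd_prime_pow Nat.prime_two).1 (Dvd.intro _ h1)
  rw [he, ← pow_add] at h1
  have h2 : e + e = d + 1 + m := Nat.pow_right_injective le_rfl h1
  have hpd : (2 : ℤ) ^ (d + 1) = 2 * ((2 ^ d : ℕ) : ℤ) := by push_cast; ring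
  refine ⟨Or.inr ⟨d + 1 - e, by omega, by omega, ?_⟩, fun r hr h => ?_⟩
  · have hpe : 2 ^ e = 2 * 2 ^ (d - (d + 1 - e)) := by
      rw [show d - (d + 1 - e) = e - 1 by omega, ← pow_succ', show e - 1 + 1 = e by omega]
    rw [hS, hpd] at he
    omega
  · have hpe : S.natAbs = 2 * 2 ^ r := by rw [hS, hpd]; omega
    rw [he, ← pow_succ'] at hpe
    have he' : e = r + 1 := Nat.pow_right_injective le_rfl hpe
    have hm' : m = 1 := by omega
    have hZΦ : frattini G = Subgroup.center G := by
      refine Subgroup.eq_of_le_of_card_ge hΦc ?_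
      rw [← hRZ, hm, hm', hΦ]; norm_num
    have hcc : commutator G = Subgroup.center G := by
      rw [← hZΦ]
      refine le_antisymm hcΦ fun w hw => ?_
      rcases hall w hw with rfl | rfl
      · exact one_mem _
      by_contra hzc
      apply hRtop
      rw [eq_top_iff]
      intro u _
      rw [hR]
      intro g
      rw [hs1]
      have hmem : ⁅u, g⁆ ∈ commutator G :=
        Subgroup.commutator_mem_commutator (Subgroup.mem_top _) (Subgroup.mem_top _)
      rcases hall _ (hcm u g) with h | h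
      · exact h
      · exact absurd (h ▸ hmem) hzc
    exact ⟨⟨hG, hZΦ, hcc⟩, by rw [← hZΦ, hΦ]⟩

end Cfsg.Agent.Transfer.InvCount
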