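import Cfsg.Prelude.Def_Transfer
import Cfsg.Agent.Transfer.QuadSum
import Cfsg.Agent.PLocal.ElemAb

/-!
The bound `|G| ≤ |N|^3` for class two groups of exponent four.
-/

set_option autoImplicit false

namespace Cfsg.Agent.Transfer.InvBound

open scoped commutatorElement

variable {G : Type*} [Group G] [Finite G]

theorem card_le (hG : IsPGroup 2 G) (hcl : (⊤ : Subgroup G).lowerCentralSeries 2 = ⊥)
    (hexp : ∀ x : G, x ^ 4 = 1) (hN : ∀ x y : G, x ^ 2 = 1 → y ^ 2 = 1 → (x * y) ^ 2 = 1) :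
    Nat.card G ≤ Nat.card {x : G // x ^ 2 = 1} ^ 3 ∧
      (¬ Cfsg.IsSpecial 2 G → Nat.card G < Nat.card {x : G // x ^ 2 = 1} ^ 3) := by
  haveI : Fact (Nat.Prime 2) := ⟨Nat.prime_two⟩
  let N : Subgroup G :=
    { carrier := {x | x ^ 2 = 1}
      mul_mem' := fun {x y} hx hy => hN x y hx hy
      one_mem' := one_pow _
      inv_mem' := fun {y} hy => by show y⁻¹ ^ 2 = 1; rw [inv_pow, hy, inv_one] }
  show Nat.card G ≤ Nat.card N ^ 3 ∧ (¬ Cfsg.IsSpecial 2 G → Nat.card G < Nat.card N ^ 3)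
  have hc : commutator G ≤ Subgroup.center G := by
    rw [Subgroup.lowerCentralSeries_succ, Subgroup.top_lowerCentralSeries_one,
      Subgroup.commutator_eq_bot_iff_le_centralizer, Subgroup.coe_top, Subgroup.centralizer_univ] at hcl
    exact hcl
  have hsqN : ∀ x : G, x ^ 2 ∈ N := fun x => by show (x ^ 2) ^ 2 = 1; rw [← pow_mul]; exact hexp x
  have hcN : ∀ x y : G, ⁅y, x⁆ ^ 2 = 1 := fun x y => by
    have h := FGS3.mul_pow_of_center hc x y 2
    rw [Nat.choose_self, pow_one] at h
    have h2 : ⁅y, x⁆ ∈ N := by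
      rw [show ⁅y, x⁆ = (x ^ 2 * y ^ 2)⁻¹ * (x * y) ^ 2 by rw [h, inv_mul_cancel_left]]
      exact mul_mem (inv_mem (mul_mem (hsqN x) (hsqN y))) (hsqN _)
    exact h2
  have hsqZ : ∀ x : G, x ^ 2 ∈ Subgroup.center G := fun x => Subgroup.mem_center_iff.2 fun g => by
    have : ⁅x ^ 2, g⁆ = 1 := by rw [FGS3.commutatorElement_pow_left hc]; exact hcN g x
    exact (commutatorElement_eq_one_iff_mul_comm.1 this).symm
  have hΦle : frattini G ≤ Subgroup.center G ⊓ N := by
    haveI : (Subgroup.center G ⊓ N).Normal := ⟨fun a ha g => by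
      rw [Subgroup.mem_center_iff.1 ha.1 g, mul_inv_cancel_right]; exact ha⟩
    refine FGS3.frattini_le_of_elementary (p := 2) (le_inf hc ?_) fun a => ⟨hsqZ a, hsqN a⟩
    show ⁅(⊤ : Subgroup G), ⊤⁆ ≤ N
    rw [Subgroup.commutator_le]
    exact fun a _ b _ => hcN b a
  set Φ := frattini G with hΦdef
  have hΦc : Φ ≤ Subgroup.center G := hΦle.trans inf_le_left
  have hΦN : Φ ≤ N := hΦle.trans inf_le_right
  have hΦe : ∀ x ∈ Φ, x ^ 2 = 1 := fun x hx => hΦN hx
  have hcomm : commutator G ≤ Φ := FGS3.commutator_le_frattini hG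
  have hsqΦ : ∀ x : G, x ^ 2 ∈ Φ := fun x => FGS3.pow_mem_frattini hG x
  have hnormal : ∀ U : Subgroup G, Φ ≤ U → U.Normal := fun U hU => ⟨fun a ha g => by
    have : g * a * g⁻¹ = ⁅g, a⁆ * a := by rw [commutatorElement_def]; group
    rw [this]
    exact mul_mem (hU (hcomm (Subgroup.commutator_mem_commutator (Subgroup.mem_top _)
      (Subgroup.mem_top _)))) ha⟩
  -- `U ∪ U g` is a subgroup
  have hext : ∀ U : Subgroup G, Φ ≤ U → ∀ g : G, ∀ v ∈ U ⊔ Subgroup.zpowers g, v ∈ U ∨ v * g ∈ U := by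
    intro U hU g v hv
    haveI := hnormal U hU
    obtain ⟨u, hu, w, hw, rfl⟩ := Subgroup.mem_sup_of_normal_left.1 hv
    obtain ⟨i, rfl⟩ := Subgroup.mem_zpowers_iff.1 hw
    have hg2 : g ^ (2 : ℤ) ∈ U := by
      rw [show (2 : ℤ) = ((2 : ℕ) : ℤ) from rfl, zpow_natCast]; exact hU (hsqΦ g)
    rcases Int.even_or_odd i with ⟨j, rfl⟩ | ⟨j, rfl⟩
    · left
      rw [show j + j = 2 * j by ring, zpow_mul]
      exact mul_mem hu (zpow_mem hg2 j)
    · right
      rw [mul_assoc, ← zpow_add_one, show 2 * j + 1 + 1 = 2 * (j + 1) by ring, zpow_mul]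
      exact mul_mem hu (zpow_mem hg2 _)
  have hb : ∀ U : Subgroup G, Φ ≤ U → U ⊓ N ≤ Φ → Nat.card U ≤ Nat.card Φ ^ 3 := by
    intro U hU hUN
    have := Quad.bound_sub hG Φ U ⊥ Φ hΦc hΦe hcomm hU bot_le le_rfl (fun u _ => hsqΦ u)
      fun u hu h => hUN ⟨hu, Subgroup.mem_bot.1 h⟩
    rw [Subgroup.card_bot, one_pow, mul_one] at this
    calc Nat.card U ≤ Nat.card Φ * Nat.card Φ ^ 2 := this
      _ = Nat.card Φ ^ 3 := by ring
  by_cases hΦeq : Φ = N
  · rw [← hΦeq]
    have hall : Nat.card G ≤ Nat.card Φ ^ 3 := by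
      have := hb ⊤ le_top (by rw [top_inf_eq, hΦeq])
      rwa [Subgroup.card_top] at this
    refine ⟨hall, fun hns => ?_⟩
    have hP : 0 < Nat.card Φ := Nat.card_pos
    by_cases hZ : Subgroup.center G ≤ Φ
    · have hlt : commutator G < Φ := lt_of_le_of_ne hcomm fun h =>
        hns ⟨hG, le_antisymm hΦc hZ, h.trans (le_antisymm hΦc hZ)⟩
      haveI hWn : (commutator G).Normal := inferInstance
      let f : G →* G ⧸ commutator G := MonoidHom.mk' (fun x => ((x ^ 2 : G) : G ⧸ commutator G))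
        fun x y => by
          have hm : (QuotientGroup.mk' (commutator G)) ⁅y, x⁆ = 1 := (QuotientGroup.eq_one_iff _).2
            (Subgroup.commutator_mem_commutator (Subgroup.mem_top _) (Subgroup.mem_top _))
          show QuotientGroup.mk' (commutator G) ((x * y) ^ 2) = QuotientGroup.mk' _ (x ^ 2) * QuotientGroup.mk' _ (y ^ 2)
          rw [FGS3.mul_pow_of_center hc, Nat.choose_self, pow_one, map_mul, hm, mul_one, map_mul]
      have hker : ∀ u, u ∈ f.ker ↔ u ^ 2 ∈ commutator G := fun u => QuotientGroup.eq_one_iff _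
      have hΦker : Φ ≤ f.ker := fun x hx => (hker x).2 (by rw [hΦe x hx]; exact one_mem _)
      have h1 := Quad.bound_sub hG Φ f.ker ⊥ (commutator G) hΦc hΦe hcomm hΦker bot_le hcomm
        (fun u hu => (hker u).1 hu) fun u _ h => by rw [hΦeq]; exact Subgroup.mem_bot.1 h
      rw [Subgroup.card_bot, one_pow, mul_one] at h1
      have hrange : f.range ≤ Φ.map (QuotientGroup.mk' (commutator G)) := by
        rintro _ ⟨x, rfl⟩; exact ⟨x ^ 2, hsqΦ x, rfl⟩
      have h2 : Nat.card (Φ.map (QuotientGroup.mk' (commutator G))) * Nat.card (commutator G) =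
          Nat.card Φ := by
        rw [← Nat.card_congr (Subgroup.subgroupOfEquivOfLe hcomm).toEquiv,
          Subgroup.card_eq_card_quotient_mul_card_subgroup ((commutator G).subgroupOf Φ)]
        congr 1
        let g : Φ →* G ⧸ commutator G := (QuotientGroup.mk' _).comp Φ.subtype
        have hg : g.ker = (commutator G).subgroupOf Φ := by
          ext x; exact QuotientGroup.eq_one_iff _
        rw [← hg, Nat.card_congr (QuotientGroup.quotientKerEquivRange g).toEquiv,
          MonoidHom.range_comp, Subgroup.range_subtype]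
      have h3 : Nat.card f.range ≤ Nat.card (Φ.map (QuotientGroup.mk' (commutator G))) :=
        Subgroup.card_le_of_le hrange
      have h4 : Nat.card G = Nat.card f.ker * Nat.card f.range := by
        rw [← Subgroup.index_ker f, Subgroup.card_mul_index]
      have hlt' : Nat.card (commutator G) < Nat.card Φ := by
        rcases (Subgroup.card_le_of_le hcomm).lt_or_eq with h | h
        · exact h
        · exact absurd (Subgroup.eq_of_le_of_card_ge hcomm h.ge) hlt.ne
      set W := Nat.card (commutator G)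
      have hW : 0 < W := Nat.card_pos
      have h5 : Nat.card G * W ≤ Nat.card Φ * W ^ 2 * Nat.card Φ := by
        calc Nat.card G * W = Nat.card f.ker * (Nat.card f.range * W) := by rw [h4, mul_assoc]
          _ ≤ (Nat.card Φ * W ^ 2) * (Nat.card (Φ.map (QuotientGroup.mk' (commutator G))) * W) :=
              Nat.mul_le_mul h1 (Nat.mul_le_mul_right _ h3)
          _ = _ := by rw [h2]
      have h6 : Nat.card G ≤ Nat.card Φ ^ 2 * W :=
        Nat.le_of_mul_le_mul_right (h5.trans_eq (by ring)) hW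
      calc Nat.card G ≤ Nat.card Φ ^ 2 * W := h6
        _ < Nat.card Φ ^ 2 * Nat.card Φ := Nat.mul_lt_mul_of_pos_left hlt' (by positivity)
        _ = _ := by ring
    · obtain ⟨x, hxZ, hxΦ⟩ := SetLike.not_le_iff_exists.1 hZ
      obtain ⟨U, ⟨hΦU, hxU⟩, hmax⟩ := (Set.toFinite {U : Subgroup G | Φ ≤ U ∧ x ∉ U}).exists_maximal
        ⟨Φ, le_rfl, hxΦ⟩
      haveI := hnormal U hΦU
      have htop : Subgroup.zpowers x ⊔ U = ⊤ := by
        rw [eq_top_iff]
        intro g _
        by_cases hg : g ∈ U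
        · exact Subgroup.mem_sup_right hg
        have hx' : x ∈ U ⊔ Subgroup.zpowers g := by
          by_contra h
          exact hg ((hmax ⟨hΦU.trans le_sup_left, h⟩ le_sup_left)
            (Subgroup.mem_sup_right (Subgroup.mem_zpowers g)))
        rcases hext U hΦU g x hx' with h | h
        · exact absurd h hxU
        · rw [show g = x⁻¹ * (x * g) by group]
          exact mul_mem (Subgroup.mem_sup_left (inv_mem (Subgroup.mem_zpowers x)))
            (Subgroup.mem_sup_right h)
      have hx2 : x ^ 2 ≠ 1 := fun h => hxΦ (hΦeq ▸ h)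
      have hK2 : Nat.card (Subgroup.zpowers (x ^ 2)) = 2 := by
        rw [Nat.card_zpowers]
        exact orderOf_eq_prime (hΦe _ (hsqΦ x)) hx2
      have hKU : Subgroup.zpowers (x ^ 2) ≤ Subgroup.zpowers x ⊓ U :=
        Subgroup.zpowers_le.2 ⟨pow_mem (Subgroup.mem_zpowers x) 2, hΦU (hsqΦ x)⟩
      have h1 := Quad.bound_sub hG Φ U (Subgroup.zpowers (x ^ 2)) Φ hΦc hΦe hcomm hΦU
        (Subgroup.zpowers_le.2 (hsqΦ x)) le_rfl (fun u _ => hsqΦ u) (by
          intro u hu hK
          obtain ⟨i, hi⟩ := Subgroup.mem_zpowers_iff.1 hK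
          have hcx : Commute u x := Subgroup.mem_center_iff.1 hxZ u
          rcases Int.even_or_odd i with ⟨j, rfl⟩ | ⟨j, rfl⟩
          · rw [show j + j = ((2 : ℕ) : ℤ) * j by push_cast; ring, zpow_mul, zpow_natCast, hΦe _ (hsqΦ x),
              one_zpow] at hi
            rw [hΦeq]; exact hi.symm
          · rw [show 2 * j + 1 = ((2 : ℕ) : ℤ) * j + 1 by push_cast; ring, zpow_add_one, zpow_mul,
              zpow_natCast, hΦe _ (hsqΦ x), one_zpow, one_mul] at hi
            refine absurd ?_ hxU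
            have : u * x⁻¹ ∈ Φ := by
              rw [hΦeq]
              show (u * x⁻¹) ^ 2 = 1
              rw [hcx.inv_right.mul_pow, ← hi, inv_pow, mul_inv_cancel]
            rw [show x = (u * x⁻¹)⁻¹ * u by group]
            exact mul_mem (inv_mem (hΦU this)) hu)
      have h2 := PLocal.card_sup_mul_card_inf (A := Subgroup.zpowers x) (B := U)
        (by rw [Subgroup.normalizer_eq_top (H := U)]; exact le_top)
      rw [htop, Subgroup.card_top] at h2
      have h3 : 2 ≤ Nat.card (Subgroup.zpowers x ⊓ U : Subgroup G) :=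
        hK2 ▸ Subgroup.card_le_of_le hKU
      have h4 : Nat.card (Subgroup.zpowers x) ≤ 4 := by
        rw [Nat.card_zpowers]; exact Nat.le_of_dvd (by norm_num) (orderOf_dvd_of_pow_eq_one (hexp x))
      rw [hK2] at h1
      have h5 : Nat.card G * 2 ≤ 4 * Nat.card U :=
        ((Nat.mul_le_mul_left _ h3).trans h2.le).trans (Nat.mul_le_mul_right _ h4)
      have h6 : Nat.card Φ * Nat.card Φ ^ 2 = Nat.card Φ ^ 3 := by ring
      have h7 : 0 < Nat.card Φ ^ 3 := by positivity
      norm_num at h1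
      omega
  · have hlt : Φ < N := lt_of_le_of_ne hΦN hΦeq
    obtain ⟨U, ⟨hΦU, hUN⟩, hmax⟩ := (Set.toFinite {U : Subgroup G | Φ ≤ U ∧ U ⊓ N ≤ Φ}).exists_maximal
      ⟨Φ, le_rfl, inf_le_left⟩
    haveI := hnormal U hΦU
    haveI := hnormal N hΦN
    have htop : U ⊔ N = ⊤ := by
      rw [eq_top_iff]
      intro g _
      by_cases hg : g ∈ U
      · exact Subgroup.mem_sup_left hg
      have : ¬ (U ⊔ Subgroup.zpowers g) ⊓ N ≤ Φ := fun h =>
        hg ((hmax ⟨hΦU.trans le_sup_left, h⟩ le_sup_left) (Subgroup.mem_sup_right (Subgroup.mem_zpowers g)))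
      obtain ⟨v, ⟨hv, hvN⟩, hvΦ⟩ := SetLike.not_le_iff_exists.1 this
      rcases hext U hΦU g v hv with h | h
      · exact absurd (hUN ⟨h, hvN⟩) hvΦ
      · rw [show g = v⁻¹ * (v * g) by group]
        exact mul_mem (Subgroup.mem_sup_right (inv_mem hvN)) (Subgroup.mem_sup_left h)
    have hinf : U ⊓ N = Φ := le_antisymm hUN (le_inf hΦU hΦN)
    have h1 := Core.card_sup_mul_card_inf U N
    rw [htop, hinf, Subgroup.card_top] at h1
    have hP : 0 < Nat.card Φ := Nat.card_pos
    have hlt' : Nat.card Φ < Nat.card N := by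
      rcases (Subgroup.card_le_of_le hΦN).lt_or_eq with h | h
      · exact h
      · exact absurd (Subgroup.eq_of_le_of_card_ge hΦN h.ge) hΦeq
    have h2 : Nat.card G ≤ Nat.card Φ ^ 2 * Nat.card N :=
      Nat.le_of_mul_le_mul_right ((h1.le.trans (Nat.mul_le_mul_right _ (hb U hΦU hUN))).trans_eq
        (by ring)) hP
    have h3 : Nat.card G < Nat.card N ^ 3 := by
      refine h2.trans_lt ?_
      calc Nat.card Φ ^ 2 * Nat.card N < Nat.card N ^ 2 * Nat.card N :=
            Nat.mul_lt_mul_of_pos_right (Nat.pow_lt_pow_left hlt' two_ne_zero) Nat.card_pos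
        _ = _ := by ring
    exact ⟨h3.le, fun _ => h3⟩

end Cfsg.Agent.Transfer.InvBound
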