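import Mathlib

/-!
Nilpotency class of a p-group against its breadth.
-/

set_option autoImplicit false

namespace Cfsg.Agent.Transfer.Breadth

open scoped commutatorElement BigOperators
open Classical

variable {G : Type*} [Group G]

/-- Two-step centraliser of the `i`-th factor. -/
def twoStep (i : ℕ) : Submonoid G where
  carrier := {g | ∀ x ∈ (⊤ : Subgroup G).lowerCentralSeries i,
    ⁅x, g⁆ ∈ (⊤ : Subgroup G).lowerCentralSeries (i + 2)}
  one_mem' := fun x _ => by rw [commutatorElement_one_right]; exact one_mem _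
  mul_mem' := fun {g h} hg hh x hx => by
    rw [show ⁅x, g * h⁆ = ⁅x, g⁆ * (g * ⁅x, h⁆ * g⁻¹) by simp only [commutatorElement_def]; group]
    exact mul_mem (hg x hx) ((inferInstance : ((⊤ : Subgroup G).lowerCentralSeries (i + 2)).Normal).conj_mem _ (hh x hx) g)

variable [Finite G]

theorem inv_mem_twoStep (i : ℕ) {g : G} (hg : g ∈ twoStep (G := G) i) : g⁻¹ ∈ twoStep (G := G) i := by
  have h : g⁻¹ = g ^ (orderOf g - 1) := by
    refine inv_eq_of_mul_eq_one_right ?_
    rw [← pow_succ', Nat.sub_add_cancel (orderOf_pos g), pow_orderOf_eq_one]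
  rw [h]; exact pow_mem hg _

/-- The subgroup form. -/
noncomputable def twoStepGroup (i : ℕ) : Subgroup G :=
  { twoStep (G := G) i with inv_mem' := fun {_} hg => inv_mem_twoStep i hg }

variable {p : ℕ} [Fact p.Prime]

theorem card_lt_mul {K L : Subgroup G} (hG : IsPGroup p G) (h : K < L) :
    Nat.card K * p ≤ Nat.card L := by
  obtain ⟨a, ha⟩ := IsPGroup.iff_card.1 (hG.to_subgroup K)
  obtain ⟨b, hb⟩ := IsPGroup.iff_card.1 (hG.to_subgroup L)
  have hlt : Nat.card K < Nat.card L := by
    rcases (Subgroup.card_le_of_le h.le).lt_or_eq with h' | h'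
    · exact h'
    · exact absurd (Subgroup.eq_of_le_of_card_ge h.le h'.ge) h.ne
  rw [ha, hb] at hlt ⊢
  rw [← pow_succ]
  exact Nat.pow_le_pow_right (Fact.out : p.Prime).pos ((Nat.pow_lt_pow_iff_right (Fact.out : p.Prime).one_lt).1 hlt)

theorem count_le (hG : IsPGroup p G) (g : G) {b : ℕ}
    (hb : (Subgroup.centralizer ({g} : Set G)).index ≤ p ^ b) (n : ℕ) :
    ((Finset.range n).filter fun i => g ∉ twoStep (G := G) i).card ≤ b := by
  set C := Subgroup.centralizer ({g} : Set G) with hC
  have hstep : ∀ m, Nat.card ((⊤ : Subgroup G).lowerCentralSeries m ⊔ C : Subgroup G) *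
      p ^ ((Finset.range m).filter fun i => g ∉ twoStep (G := G) i).card ≤ Nat.card G := by
    intro m
    induction m with
    | zero => simp
    | succ m ih =>
      have hle : (⊤ : Subgroup G).lowerCentralSeries (m + 1) ⊔ C ≤
          (⊤ : Subgroup G).lowerCentralSeries m ⊔ C :=
        sup_le_sup_right (Subgroup.lowerCentralSeries_antitone _ (Nat.le_succ m)) C
      rw [Finset.range_add_one, Finset.filter_insert]
      by_cases hgm : g ∈ twoStep (G := G) m
      · rw [if_neg (not_not_intro hgm)]
        exact le_trans (Nat.mul_le_mul_right _ (Subgroup.card_le_of_le hle)) ih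
      · rw [if_pos hgm, Finset.card_insert_of_notMem (by simp), pow_succ', ← mul_assoc]
        refine le_trans (Nat.mul_le_mul_right _ (card_lt_mul hG (lt_of_le_of_ne hle fun h => hgm ?_))) ih
        intro x hx
        have hx' : x ∈ (⊤ : Subgroup G).lowerCentralSeries (m + 1) ⊔ C := h ▸ Subgroup.mem_sup_left hx
        obtain ⟨y, hy, c, hc, rfl⟩ := Subgroup.mem_sup_of_normal_left.1 hx'
        have hcg : c * g = g * c := Subgroup.mem_centralizer_singleton_iff.1 hc
        have he : ⁅y * c, g⁆ = ⁅y, g⁆ := by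
          simp only [commutatorElement_def, mul_inv_rev]
          rw [show y * c * g * (c⁻¹ * y⁻¹) = y * (c * g * c⁻¹) * y⁻¹ by group, hcg, mul_inv_cancel_right]
        rw [he]
        exact Subgroup.commutator_mem_commutator hy (Subgroup.mem_top g)
  have h1 := le_trans (Nat.mul_le_mul_right _ (Subgroup.card_le_of_le (le_sup_right : C ≤ _ ⊔ C))) (hstep n)
  rw [← C.card_mul_index] at h1
  exact (Nat.pow_le_pow_iff_right (Fact.out : p.Prime).one_lt).1
    ((Nat.le_of_mul_le_mul_left h1 Nat.card_pos).trans hb)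

theorem classBound (hG : IsPGroup p G) (b : ℕ)
    (hb : ∀ x : G, (Subgroup.centralizer ({x} : Set G)).index ≤ p ^ b) :
    ∃ c : ℕ, (⊤ : Subgroup G).lowerCentralSeries c = ⊥ ∧
      (b ≠ 0 → (c - 1) * (p - 1) < b * p ∧ c ≤ 2 * b) ∧ (b = 0 → c ≤ 1) := by
  haveI : Fintype G := Fintype.ofFinite G
  haveI := hG.isNilpotent
  obtain ⟨N, hN⟩ := Subgroup.nilpotent_iff_lowerCentralSeries.1 ‹Group.IsNilpotent G›
  set c := Nat.find (p := fun n => (⊤ : Subgroup G).lowerCentralSeries n = ⊥) ⟨N, hN⟩ with hc
  have hcbot : (⊤ : Subgroup G).lowerCentralSeries c = ⊥ := Nat.find_spec (p := fun n => (⊤ : Subgroup G).lowerCentralSeries n = ⊥) ⟨N, hN⟩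
  refine ⟨c, hcbot, ?_⟩
  have hproper : ∀ i ∈ Finset.range (c - 1), (twoStepGroup (G := G) i) < ⊤ := by
    intro i hi
    rw [Finset.mem_range] at hi
    refine lt_top_iff_ne_top.2 fun h => ?_
    have hle : (⊤ : Subgroup G).lowerCentralSeries (i + 1) ≤ (⊤ : Subgroup G).lowerCentralSeries (i + 2) := by
      rw [Subgroup.lowerCentralSeries_succ _ i, Subgroup.commutator_le]
      intro x hx g _
      exact (h.ge (Subgroup.mem_top g) : g ∈ twoStepGroup (G := G) i) x hx
    have hst : ∀ k, (⊤ : Subgroup G).lowerCentralSeries (i + 1) ≤ (⊤ : Subgroup G).lowerCentralSeries (i + 1 + k) := by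
      intro k
      induction k with
      | zero => exact le_rfl
      | succ k ih => exact hle.trans (Subgroup.commutator_mono ih le_rfl)
    have hbot : (⊤ : Subgroup G).lowerCentralSeries (i + 1) = ⊥ := by
      have := hst (c - (i + 1))
      rw [show i + 1 + (c - (i + 1)) = c by omega, hcbot] at this
      exact le_bot_iff.1 this
    exact Nat.find_min (p := fun n => (⊤ : Subgroup G).lowerCentralSeries n = ⊥) ⟨N, hN⟩ (by omega) hbot
  let k : G → ℕ := fun g => ((Finset.range (c - 1)).filter fun i => g ∉ twoStep (G := G) i).card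
  have hk1 : k 1 = 0 := by simp [k, Submonoid.one_mem]
  have hsum : (c - 1) * (p - 1) * Nat.card G ≤ p * ∑ g, k g := by
    have e : ∑ g, k g = ∑ i ∈ Finset.range (c - 1), (Finset.univ.filter fun g : G => g ∉ twoStep (G := G) i).card := by
      simp only [k, Finset.card_filter]
      exact Finset.sum_comm
    rw [e, Finset.mul_sum]
    have e2 : (c - 1) * (p - 1) * Nat.card G = ∑ i ∈ Finset.range (c - 1), (p - 1) * Nat.card G := by
      rw [Finset.sum_const, Finset.card_range, smul_eq_mul, mul_assoc]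
    rw [e2]
    refine Finset.sum_le_sum fun i hi => ?_
    have h1 := card_lt_mul hG (hproper i hi)
    rw [Subgroup.card_top] at h1
    have h2 : (Finset.univ.filter fun g : G => g ∉ twoStep (G := G) i).card + Nat.card (twoStepGroup (G := G) i) =
        Nat.card G := by
      have e3 : Nat.card (twoStepGroup (G := G) i) = (Finset.univ.filter fun g : G => g ∈ twoStep (G := G) i).card := by
        rw [← Fintype.card_subtype, ← Nat.card_eq_fintype_card]; rfl
      rw [e3, add_comm, Finset.card_filter_add_card_filter_not, Finset.card_univ, Nat.card_eq_fintype_card]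
    obtain ⟨q, rfl⟩ : ∃ q, p = q + 1 := ⟨p - 1, by have := (Fact.out : p.Prime).pos; omega⟩
    rw [Nat.add_sub_cancel]
    nlinarith [h1, h2]
  have hlt : ∑ g, k g < b * Nat.card G ∨ b = 0 := by
    rcases Nat.eq_zero_or_pos b with h | h
    · exact Or.inr h
    left
    calc ∑ g, k g < ∑ _g : G, b := Finset.sum_lt_sum (fun g _ => count_le hG g (hb g) _)
          ⟨1, Finset.mem_univ _, by rw [hk1]; exact h⟩
      _ = b * Nat.card G := by rw [Finset.sum_const, Finset.card_univ, smul_eq_mul, mul_comm, Nat.card_eq_fintype_card]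
  have hp2 := (Fact.out : p.Prime).two_le
  refine ⟨fun hb0 => ?_, fun hb0 => ?_⟩
  · have h1 : (c - 1) * (p - 1) < b * p := by
      have h := hlt.resolve_right hb0
      by_contra hcon
      push Not at hcon
      nlinarith [Nat.mul_le_mul_right (Nat.card G) hcon, hsum, Nat.mul_lt_mul_of_pos_left h (show 0 < p by omega)]
    refine ⟨h1, ?_⟩
    by_contra hcon
    have h2 : 2 * b * (p - 1) ≤ (c - 1) * (p - 1) := Nat.mul_le_mul_right _ (by omega)
    have h3 : p ≤ 2 * (p - 1) := by omega
    have h4 : b * p ≤ 2 * b * (p - 1) := by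
      calc b * p ≤ b * (2 * (p - 1)) := Nat.mul_le_mul_left _ h3
        _ = _ := by ring
    omega
  · subst hb0
    have h0 : ∑ g, k g = 0 := Finset.sum_eq_zero fun g _ => Nat.le_zero.1 (count_le hG g (hb g) _)
    rw [h0, mul_zero] at hsum
    by_contra hcon
    have : 0 < (c - 1) * (p - 1) * Nat.card G := Nat.mul_pos (Nat.mul_pos (by omega) (by omega)) Nat.card_pos
    omega

end Cfsg.Agent.Transfer.Breadth
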