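import Mathlib
import Cfsg.Agent.Core.Fitting
import Cfsg.Agent.Core.MinimalNormal
import Cfsg.Agent.OddLocal.FixOrderP

/-!
Elements centralising the elements of prime order of an odd Fitting subgroup.
-/

set_option autoImplicit false

namespace Cfsg.Agent.Transfer.FitPrime

open Cfsg Cfsg.Agent.Core
open scoped commutatorElement

variable {G : Type*} [Group G] [Finite G]

theorem nilpotent_of_coprime_commute (C : Subgroup G)
    (h : ∀ (r p : ℕ), r.Prime → p.Prime → r ≠ p → ∀ a ∈ C, ∀ b ∈ C,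
      (∃ k, orderOf a = r ^ k) → (∃ k, orderOf b = p ^ k) → a * b = b * a) :
    Group.IsNilpotent C := by
  apply isNilpotent_of_sylow_normal
  intro p hp P
  rw [← Subgroup.normalizer_eq_top_iff]
  apply eq_top_of_forall_exists_sylow_le
  intro r hr
  haveI := Fact.mk hr
  by_cases hrp : r = p
  · subst hrp
    exact ⟨P, Subgroup.le_normalizer⟩
  · obtain ⟨R⟩ : Nonempty (Sylow r C) := inferInstance
    refine ⟨R, fun a ha => ?_⟩
    rw [Subgroup.mem_normalizer_iff]
    intro b
    have key : ∀ u : C, u ∈ (P : Subgroup C) → a * u * a⁻¹ = u := by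
      intro u hu
      obtain ⟨i, hi⟩ := IsPGroup.iff_orderOf.1 R.isPGroup' ⟨a, ha⟩
      obtain ⟨j, hj⟩ := IsPGroup.iff_orderOf.1 P.isPGroup' ⟨u, hu⟩
      rw [Subgroup.orderOf_mk] at hi hj
      have := h r p hr hp.out hrp a a.2 u u.2 ⟨i, by rw [Subgroup.orderOf_coe]; exact hi⟩
        ⟨j, by rw [Subgroup.orderOf_coe]; exact hj⟩
      apply Subtype.ext
      simp only [Subgroup.coe_mul, Subgroup.coe_inv]
      rw [this, mul_inv_cancel_right]
    constructor
    · intro hb; rw [key b hb]; exact hb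
    · intro hb
      have h1 := key _ hb
      have h2 : a * b * a⁻¹ = b := mul_left_cancel (a := a) (mul_right_cancel (b := a⁻¹) h1)
      rwa [h2] at hb

theorem mem_fitting (hG : Group.IsSolvable G) (hodd : Odd (Nat.card (fittingSubgroup G))) (g : G)
    (hg : ∀ x ∈ fittingSubgroup G, (orderOf x).Prime → g * x = x * g) : g ∈ fittingSubgroup G := by
  classical
  set S : Set G := {x | x ∈ fittingSubgroup G ∧ (orderOf x).Prime}
  set C : Subgroup G := Subgroup.centralizer S with hC
  suffices hle : C ≤ fittingSubgroup G from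
    hle (Subgroup.mem_centralizer_iff.2 fun x hx => (hg x hx.1 hx.2).symm)
  have hSinv : ∀ n : G, ∀ x ∈ S, n * x * n⁻¹ ∈ S := fun n x hx =>
    ⟨(fittingSubgroup_normal G).conj_mem x hx.1 n, by
      rw [← MulAut.conj_apply, MulEquiv.orderOf_eq]; exact hx.2⟩
  have hCn : C.Normal := ⟨fun c hc n => Subgroup.mem_centralizer_iff.2 fun x hx => by
    have h1 := Subgroup.mem_centralizer_iff.1 hc _ (hSinv n⁻¹ x hx)
    rw [inv_inv] at h1
    calc x * (n * c * n⁻¹) = n * (n⁻¹ * x * n * c) * n⁻¹ := by group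
      _ = n * c * n⁻¹ * x := by rw [h1]; group⟩
  refine le_fittingSubgroup hCn (nilpotent_of_coprime_commute C ?_)
  intro r p hr hp hrp a ha b hb hao hbo
  haveI := Fact.mk hr
  haveI := Fact.mk hp
  -- coprime elements fix the cores
  have hfix : ∀ (q : ℕ) (c : G) (t : ℕ), q.Prime → c ∈ C → t.Prime → t ≠ q →
      (∃ k, orderOf c = t ^ k) → ∀ x ∈ pCore q G, c * x * c⁻¹ = x := by
    intro q c t hq hc ht htq ⟨k, hk⟩ x hx
    haveI := Fact.mk hq
    by_cases hbot : pCore q G = ⊥
    · rw [hbot, Subgroup.mem_bot] at hx; simp [hx]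
    haveI : Nontrivial (pCore q G) := (Subgroup.nontrivial_iff_ne_bot _).2 hbot
    have hq2 : q ≠ 2 := by
      rintro rfl
      obtain ⟨e, he, hpos⟩ : ∃ e, Nat.card (pCore 2 G) = 2 ^ e ∧ 0 < e := by
        obtain ⟨e, he⟩ := IsPGroup.iff_card.1 (isPGroup_pCore 2 G)
        refine ⟨e, he, Nat.pos_of_ne_zero fun h0 => ?_⟩
        rw [h0, pow_zero] at he
        have := Finite.one_lt_card (α := pCore 2 G)
        omega
      have hdvd : 2 ∣ Nat.card (fittingSubgroup G) :=
        (dvd_pow_self 2 hpos.ne').trans (he ▸ Subgroup.card_dvd_of_le (pCore_le_fittingSubgroup 2 G))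
      exact (Nat.not_even_iff_odd.2 hodd) (even_iff_two_dvd.2 hdvd)
    refine OddLocal.fixed_of_fixed_order_p hq2 c ?_ (Nat.card (pCore q G)) (pCore q G) le_rfl
      (isPGroup_pCore q G) (fun y hy => (inferInstance : (pCore q G).Normal).conj_mem y hy c) ?_ x hx
    · rw [hk]; exact ((Nat.coprime_primes ht hq).2 htq).pow_left k
    · intro y hy hyq
      by_cases hy1 : y = 1
      · simp [hy1]
      have h1 := Subgroup.mem_centralizer_iff.1 hc y
        ⟨pCore_le_fittingSubgroup q G hy, by rw [orderOf_eq_prime hyq hy1]; exact hq⟩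
      rw [← h1, mul_inv_cancel_right]
  set z : G := ⁅a, b⁆ with hz
  have hzcent : z ∈ Subgroup.centralizer (fittingSubgroup G : Set G) := by
    have hle : fittingSubgroup G ≤ Subgroup.centralizer ({z} : Set G) := by
      rw [fittingSubgroup_eq_iSup]
      refine iSup_le fun q x hx => Subgroup.mem_centralizer_singleton_iff.2 ?_
      haveI := Fact.mk q.2
      have hn : (pCore (q : ℕ) G).Normal := inferInstance
      suffices h : z * x * z⁻¹ = x by
        calc x * z = (z * x * z⁻¹) * z := by rw [h]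
          _ = z * x := by group
      have e : z * x * z⁻¹ = a * (b * (a⁻¹ * (b⁻¹ * x * b) * a) * b⁻¹) * a⁻¹ := by
        rw [hz, commutatorElement_def]; group
      have inv_fix : ∀ {c y : G}, c * y * c⁻¹ = y → c⁻¹ * y * c = y := fun {c y} h => by
        calc c⁻¹ * y * c = c⁻¹ * (c * y * c⁻¹) * c := by rw [h]
          _ = y := by group
      rw [e]
      by_cases hqr : (q : ℕ) = r
      · have hb' := hfix q b p q.2 hb hp (hqr ▸ Ne.symm hrp) hbo
        rw [inv_fix (hb' x hx)]
        have hx2 : a⁻¹ * x * a ∈ pCore (q : ℕ) G := by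
          simpa using hn.conj_mem x hx a⁻¹
        rw [hb' _ hx2]; group
      · have ha' := hfix q a r q.2 ha hr (Ne.symm hqr) hao
        have hx2 : b⁻¹ * x * b ∈ pCore (q : ℕ) G := by simpa using hn.conj_mem x hx b⁻¹
        rw [inv_fix (ha' _ hx2), show b * (b⁻¹ * x * b) * b⁻¹ = x by group, ha' x hx]
    exact Subgroup.mem_centralizer_iff.2 fun y hy =>
      Subgroup.mem_centralizer_singleton_iff.1 (hle hy)
  have hzF : z ∈ fittingSubgroup G := (haveI := hG; Core.centralizer_fittingSubgroup_le hzcent)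
  -- z is a p-element and an r-element
  have key : ∀ (t : ℕ) [Fact t.Prime] (w u v : G), w ∈ fittingSubgroup G → v ∈ C →
      (∃ k, orderOf v = t ^ k) → w * v = u * v * u⁻¹ → ∃ e, w ^ t ^ e = 1 := by
    intro t ht w u v hw hv ⟨k, hk⟩ he
    let π := QuotientGroup.mk' (pCore t G)
    have hcom : (fittingSubgroup G).map π ≤ Subgroup.centralizer ({π v} : Set (G ⧸ pCore t G)) := by
      rw [fittingSubgroup_eq_iSup, Subgroup.map_iSup]
      refine iSup_le fun q => ?_
      rintro _ ⟨x, hx, rfl⟩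
      rw [Subgroup.mem_centralizer_singleton_iff]
      by_cases hqt : (q : ℕ) = t
      · have : x ∈ pCore t G := hqt ▸ hx
        have h1 : π x = 1 := (QuotientGroup.eq_one_iff x).2 this
        rw [h1, one_mul, mul_one]
      · have h1 := hfix q v t q.2 hv ht.out (Ne.symm hqt) ⟨k, hk⟩ x hx
        rw [← map_mul, ← map_mul, (mul_inv_eq_iff_eq_mul.1 h1)]
    have hc : Commute (π w) (π v) :=
      Subgroup.mem_centralizer_singleton_iff.1 (hcom ⟨w, hw, rfl⟩)
    have hpow : (π w * π v) ^ (t ^ k) = 1 := by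
      rw [← map_mul, he, ← map_pow, conj_pow, ← hk, pow_orderOf_eq_one, mul_one, mul_inv_cancel,
        map_one]
    rw [hc.mul_pow, ← map_pow, ← map_pow, ← hk, pow_orderOf_eq_one, map_one, mul_one, hk] at hpow
    obtain ⟨f, hf⟩ := isPGroup_pCore t G ⟨_, (QuotientGroup.eq_one_iff _).1 hpow⟩
    refine ⟨k + f, ?_⟩
    rw [pow_add, pow_mul]
    exact congrArg Subtype.val hf
  obtain ⟨e, he⟩ := key p z a b hzF hb hbo (by rw [hz, commutatorElement_def]; group)
  obtain ⟨f, hf⟩ := key r z⁻¹ b a ((fittingSubgroup G).inv_mem hzF) ha hao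
    (by rw [hz, commutatorElement_def]; group)
  rw [inv_pow, inv_eq_one] at hf
  have h1 : z = 1 := by
    rw [← orderOf_eq_one_iff]
    exact Nat.eq_one_of_dvd_coprimes (Nat.Coprime.pow e f ((Nat.coprime_primes hp hr).2 (Ne.symm hrp)))
      (orderOf_dvd_of_pow_eq_one he) (orderOf_dvd_of_pow_eq_one hf)
  exact commutatorElement_eq_one_iff_commute.1 h1

end Cfsg.Agent.Transfer.FitPrime
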