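import Cfsg.Prelude.Def_Local
import Cfsg.Prelude.Def_LocalEven
import Cfsg.Agent.Core.PiSeparable
import Cfsg.Agent.Core.Cores
import Cfsg.Agent.Core.CoprimeAction
import Cfsg.Agent.Coprime.PxQ
import Cfsg.Agent.FGS3.PGroupFrattini
import Cfsg.Agent.S1012

/-!
Cyclic normal subgroups of a Sylow subgroup of a p-soluble group.
-/

set_option autoImplicit false

namespace Cfsg.Agent.Transfer.CycNormal

open scoped commutatorElement

variable {H : Type*} [Group H] [Finite H] {p : ℕ} [Fact p.Prime]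

theorem pow_mul_conj (x n e : H) (he : e = n * x * n⁻¹ * x⁻¹) (hx : Commute x e) (hn : Commute n e) :
    ∀ k : ℕ, (x * n) ^ k = x ^ k * e ^ (k.choose 2) * n ^ k := by
  have h1 : n * x = x * e * n := by
    rw [hx.eq, he]; group
  have h2 : ∀ k : ℕ, n * x ^ k = x ^ k * e ^ k * n := by
    intro k
    induction k with
    | zero => simp
    | succ k ih =>
      calc n * x ^ (k + 1) = (n * x ^ k) * x := by rw [pow_succ, mul_assoc]
        _ = x ^ k * e ^ k * (n * x) := by rw [ih]; group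
        _ = x ^ k * (e ^ k * x) * e * n := by rw [h1]; group
        _ = x ^ k * (x * e ^ k) * e * n := by rw [(hx.pow_right k).symm.eq]
        _ = _ := by rw [pow_succ, pow_succ]; group
  intro k
  induction k with
  | zero => simp
  | succ k ih =>
    have hne : Commute n (e ^ (k.choose 2)) := hn.pow_right _
    calc (x * n) ^ (k + 1) = x * n * (x ^ k * e ^ (k.choose 2) * n ^ k) := by rw [pow_succ', ih]
      _ = x * (n * x ^ k) * e ^ (k.choose 2) * n ^ k := by group
      _ = x * x ^ k * e ^ k * (n * e ^ (k.choose 2)) * n ^ k := by rw [h2]; group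
      _ = x * x ^ k * (e ^ k * e ^ (k.choose 2)) * (n * n ^ k) := by rw [hne.eq]; group
      _ = _ := by
        rw [← pow_add, ← pow_succ', ← pow_succ', Nat.choose_succ_succ k 1, Nat.choose_one_right]

/-- Fixed-point-free coprime action on an abelian normal subgroup. -/
theorem isConj_coset {V : Subgroup H} [V.Normal] (s : H) (hfix : ∀ v ∈ V, Commute v s → v = 1)
    (hc : IsMulCommutative V) {u : H} (hu : u ∈ V) : ∃ w ∈ V, w * s * w⁻¹ = u * s := by
  let δ : V → V := fun w => ⟨(w : H) * s * (w : H)⁻¹ * s⁻¹,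
    by
      rw [show (w : H) * s * (w : H)⁻¹ * s⁻¹ = (w : H) * (s * (w : H)⁻¹ * s⁻¹) by group]
      exact mul_mem w.2 ((inferInstance : V.Normal).conj_mem _ (inv_mem w.2) s)⟩
  have hinj : Function.Injective δ := fun a b h => by
    have h1 : (a : H) * s * (a : H)⁻¹ = (b : H) * s * (b : H)⁻¹ := mul_right_cancel (congrArg Subtype.val h)
    have h2 : Commute ((b : H)⁻¹ * a) s := by
      show (b : H)⁻¹ * a * s = s * ((b : H)⁻¹ * a)
      calc (b : H)⁻¹ * a * s = (b : H)⁻¹ * ((a : H) * s * (a : H)⁻¹) * a := by group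
        _ = _ := by rw [h1]; group
    exact (Subtype.ext (inv_mul_eq_one.1 (hfix _ (mul_mem (inv_mem b.2) a.2) h2))).symm
  obtain ⟨w, hw⟩ := (Finite.injective_iff_surjective.1 hinj) ⟨u, hu⟩
  exact ⟨w, w.2, by
    have : (w : H) * s * (w : H)⁻¹ * s⁻¹ = u := congrArg Subtype.val hw
    rw [← this]; group⟩

/-- The section `S₄`. -/
theorem involves_four (V : Subgroup H) [V.Normal] (hVc : IsMulCommutative V)
    (hV2 : ∀ v ∈ V, v ^ 2 = 1) (s n : H) (hs3 : orderOf s = 3) (hsn : n * s * n⁻¹ = s⁻¹)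
    (hn2 : n * n ∈ V) (hsnot : ¬ ∀ v ∈ V, Commute v s)
    (hidx : (V ⊓ Subgroup.centralizer {n}).relIndex V ≤ 2) :
    Cfsg.Involves (Equiv.Perm (Fin 4)) H := by
  classical
  have hVn : V.Normal := inferInstance
  have hcomm : ∀ u ∈ V, ∀ v ∈ V, u * v = v * u := fun u hu v hv =>
    congrArg Subtype.val (hVc.is_comm.comm ⟨u, hu⟩ ⟨v, hv⟩)
  haveI : Fact (Nat.Prime 2) := ⟨Nat.prime_two⟩
  haveI : Fact (Nat.Prime 3) := ⟨Nat.prime_three⟩
  have hs : s ^ 3 = 1 := by rw [← hs3]; exact pow_orderOf_eq_one s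
  have hVp : IsPGroup 2 V := fun v => ⟨1, Subtype.ext (by simpa using hV2 v v.2)⟩
  set F := V ⊓ Subgroup.centralizer ({s} : Set H) with hF
  -- the index of `F`
  set C := V ⊓ Subgroup.centralizer ({n} : Set H) with hC
  set C' := C.map (MulAut.conj s).toMonoidHom with hC'
  have hVs : ∀ g : H, V.map (MulAut.conj g).toMonoidHom = V := fun g =>
    Subgroup.mem_normalizer_iff_map_conj_eq.1 ((Subgroup.normalizer_eq_top (H := V)).symm ▸ Subgroup.mem_top g)
  have hidx' : C'.relIndex V ≤ 2 := by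
    rw [← hVs s, hC', Subgroup.relIndex_map_map_of_injective _ _ (MulAut.conj s).injective]
    exact hidx
  have hle : C ⊓ C' ≤ F := by
    rintro w ⟨hw, ⟨u, hu, huw⟩⟩
    refine ⟨hw.1, Subgroup.mem_centralizer_singleton_iff.2 ?_⟩
    have h1 : Commute w n := Subgroup.mem_centralizer_singleton_iff.1 hw.2
    have h2 : Commute w (s * n * s⁻¹) := by
      rw [← huw]
      exact (show Commute u n from Subgroup.mem_centralizer_singleton_iff.1 hu.2).map (MulAut.conj s).toMonoidHom
    have h5 : s * n * s⁻¹ * n⁻¹ = s ^ 2 := by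
      rw [show s * n * s⁻¹ * n⁻¹ = s * (n * s * n⁻¹)⁻¹ by group, hsn, inv_inv, sq]
    have h6 : Commute w (s ^ 2) := h5 ▸ h2.mul_right h1.inv_right
    have h7 : s = (s ^ 2) ^ 2 := by rw [← pow_mul, show 2 * 2 = 3 + 1 from rfl, pow_succ, hs, one_mul]
    rw [h7]
    exact (h6.pow_right 2).eq
  have hF4 : F.relIndex V ≤ 4 := by
    refine le_trans (Nat.le_of_dvd (Nat.pos_of_ne_zero Subgroup.index_ne_zero_of_finite)
      (Subgroup.relIndex_dvd_of_le_left V hle)) ?_
    calc (C ⊓ C').relIndex V ≤ C.relIndex V * C'.relIndex V := Subgroup.relIndex_inf_le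
      _ ≤ 2 * 2 := Nat.mul_le_mul hidx hidx'
  have hns : Commute (n * n) s := by
    show n * n * s = s * (n * n)
    calc n * n * s = n * (n * s * n⁻¹) * n⁻¹ * (n * n) := by group
      _ = n * s⁻¹ * n⁻¹ * (n * n) := by rw [hsn]
      _ = (n * s * n⁻¹)⁻¹ * (n * n) := by group
      _ = s * (n * n) := by rw [hsn, inv_inv]
  have hn2F : n * n ∈ F := ⟨hn2, Subgroup.mem_centralizer_singleton_iff.2 hns.eq⟩
  -- the group `X`
  set Z := Subgroup.zpowers s with hZ
  set L := V ⊔ Z with hL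
  set X := L ⊔ Subgroup.zpowers n with hX
  have hZc : Nat.card Z = 3 := by rw [hZ, Nat.card_zpowers, hs3]
  have hVL : V ≤ L := le_sup_left
  have hsL : s ∈ L := Subgroup.mem_sup_right (Subgroup.mem_zpowers s)
  have hLform : ∀ g ∈ L, ∃ v ∈ V, ∃ i : ℤ, g = v * s ^ i := by
    intro g hg
    obtain ⟨v, hv, w, hw, rfl⟩ := Subgroup.mem_sup_of_normal_left.1 hg
    obtain ⟨i, rfl⟩ := Subgroup.mem_zpowers_iff.1 hw
    exact ⟨v, hv, i, rfl⟩
  have hsk : ∀ i : ℤ, s ^ i ∈ V → s ^ i = 1 := by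
    intro i hi
    have h2 : (s ^ i) ^ 2 = 1 := hV2 _ hi
    have h3 : (s ^ i) ^ 3 = 1 := by rw [← zpow_natCast, ← zpow_mul, mul_comm, zpow_mul, zpow_natCast, hs, one_zpow]
    calc s ^ i = (s ^ i) ^ 3 * ((s ^ i) ^ 2)⁻¹ := by group
      _ = 1 := by rw [h2, h3]; simp
  have hnL : ∀ g ∈ L, n * g * n⁻¹ ∈ L := by
    intro g hg
    obtain ⟨v, hv, i, rfl⟩ := hLform g hg
    rw [show n * (v * s ^ i) * n⁻¹ = (n * v * n⁻¹) * (n * s ^ i * n⁻¹) by group, ← conj_zpow, hsn]
    exact mul_mem (hVL (hVn.conj_mem v hv n)) (zpow_mem (inv_mem hsL) i)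
  have hnN : n ∈ Subgroup.normalizer (L : Set H) := Coprime.mem_normalizer_of_conj_mem hnL
  have hnnotL : n ∉ L := by
    intro h
    obtain ⟨v, hv, i, hni⟩ := hLform n h
    have h2 : s ^ 2 ∈ V := by
      have e : s⁻¹ * (n * s * n⁻¹)⁻¹ = 1 := by rw [hsn, inv_inv, inv_mul_cancel]
      have e3 : s * (s ^ 2) = 1 := by rw [← pow_succ', hs]
      have h3 : (n * s * n⁻¹) * s⁻¹ ∈ V := by
        rw [hni, show v * s ^ i * s * (v * s ^ i)⁻¹ * s⁻¹ = v * (s * v⁻¹ * s⁻¹) by group]
        exact mul_mem hv (hVn.conj_mem _ (inv_mem hv) s)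
      rw [hsn] at h3
      have := inv_mem h3
      rwa [mul_inv_rev, inv_inv, ← sq] at this
    have h4 := hsk 2 (by rwa [show (2 : ℤ) = ((2 : ℕ) : ℤ) from rfl, zpow_natCast])
    rw [show (2 : ℤ) = ((2 : ℕ) : ℤ) from rfl, zpow_natCast] at h4
    have := orderOf_dvd_of_pow_eq_one h4
    rw [hs3] at this
    norm_num at this
  have hLc : Nat.card L = Nat.card V * 3 := by
    rw [hL, Coprime.card_sup ((Subgroup.normalizer_eq_top (H := V)).symm ▸ le_top) ?_, hZc]
    rw [Subgroup.eq_bot_iff_forall]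
    rintro g ⟨hg1, hg2⟩
    obtain ⟨i, rfl⟩ := Subgroup.mem_zpowers_iff.1 hg2
    exact hsk i hg1
  have hXform : ∀ g ∈ X, g ∈ L ∨ g * n ∈ L := by
    intro g hg
    have hn' : Subgroup.zpowers n ≤ Subgroup.normalizer (L : Set H) := Subgroup.zpowers_le.2 hnN
    rw [← SetLike.mem_coe, hX, Subgroup.coe_mul_of_right_le_normalizer_left _ _ hn'] at hg
    obtain ⟨l, hl, w, hw, rfl⟩ := Set.mem_mul.1 hg
    obtain ⟨i, rfl⟩ := Subgroup.mem_zpowers_iff.1 hw
    have hn2L : n ^ (2 : ℤ) ∈ L := by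
      rw [show (2 : ℤ) = ((2 : ℕ) : ℤ) from rfl, zpow_natCast, sq]; exact hVL hn2
    rcases Int.even_or_odd i with ⟨j, rfl⟩ | ⟨j, rfl⟩
    · left; rw [← two_mul, zpow_mul]; exact mul_mem hl (zpow_mem hn2L j)
    · right
      rw [mul_assoc, ← zpow_add_one, show 2 * j + 1 + 1 = 2 * (j + 1) by ring, zpow_mul]
      exact mul_mem hl (zpow_mem hn2L _)
  have hnX : n ∈ X := Subgroup.mem_sup_right (Subgroup.mem_zpowers n)
  have hLX : L ≤ X := le_sup_left
  have hidxL : L.relIndex X = 2 := by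
    show (L.subgroupOf X).index = 2
    rw [Subgroup.index_eq_two_iff]
    refine ⟨⟨n, hnX⟩, fun b => ?_⟩
    rcases hXform b b.2 with h | h
    · refine Or.inr ⟨h, fun h' => hnnotL ?_⟩
      have h'' : (b : H) * n ∈ L := h'
      have := mul_mem (inv_mem h) h''
      rwa [inv_mul_cancel_left] at this
    · refine Or.inl ⟨h, fun h' => hnnotL ?_⟩
      have h'' : (b : H) ∈ L := h'
      have := mul_mem (inv_mem h'') h
      rwa [inv_mul_cancel_left] at this
  -- `F` is normal in `X`
  have hFn : X ≤ Subgroup.normalizer (F : Set H) := by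
    refine sup_le (sup_le ?_ ?_) ?_
    · intro v hv
      refine (Subgroup.centralizer_le_normalizer (F : Set H)) (Subgroup.mem_centralizer_iff.2 fun f hf => ?_)
      exact hcomm f hf.1 v hv
    · rw [Subgroup.zpowers_le]
      refine Coprime.mem_normalizer_of_conj_mem fun f hf => ?_
      have : s * f * s⁻¹ = f := by
        rw [mul_inv_eq_iff_eq_mul]; exact (Subgroup.mem_centralizer_singleton_iff.1 hf.2).symm
      rwa [this]
    · rw [Subgroup.zpowers_le]
      refine Coprime.mem_normalizer_of_conj_mem fun f hf => ⟨hVn.conj_mem f hf.1 n, Subgroup.mem_centralizer_singleton_iff.2 ?_⟩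
      have h1 : Commute (n * f * n⁻¹) (n * s * n⁻¹) :=
        (show Commute f s from Subgroup.mem_centralizer_singleton_iff.1 hf.2).map (MulAut.conj n).toMonoidHom
      rw [hsn] at h1
      exact ((Commute.inv_right_iff).1 h1).eq
  have hFV : F ≤ V := inf_le_left
  have hVX : V ≤ X := hVL.trans hLX
  have hFX : F ≤ X := hFV.trans hVX
  -- fixed cosets lie in `F`
  have hfixF : ∀ v ∈ V, (s * v * s⁻¹ * v⁻¹ ∈ F) → v ∈ F := by
    intro v hv hcv
    set e := s * v * s⁻¹ * v⁻¹ with he
    have hes : Commute e s := Subgroup.mem_centralizer_singleton_iff.1 hcv.2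
    have hev : Commute e v := hcomm e hcv.1 v hv
    have h1 : s * v * s⁻¹ = e * v := by rw [he]; group
    have h2 : s ^ 2 * v * (s ^ 2)⁻¹ = e * e * v := by
      calc s ^ 2 * v * (s ^ 2)⁻¹ = s * (s * v * s⁻¹) * s⁻¹ := by rw [sq]; group
        _ = s * (e * v) * s⁻¹ := by rw [h1]
        _ = (s * e * s⁻¹) * (s * v * s⁻¹) := by group
        _ = e * (e * v) := by rw [← hes.eq, mul_inv_cancel_right, h1]
        _ = _ := (mul_assoc e e v).symm
    rw [show e * e = 1 by rw [← sq]; exact hV2 e hcv.1, one_mul] at h2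
    refine ⟨hv, Subgroup.mem_centralizer_singleton_iff.2 ?_⟩
    have h3 : Commute (s ^ 2) v := mul_inv_eq_iff_eq_mul.1 h2
    have h4 := h3.pow_left 2
    rw [← pow_mul, show 2 * 2 = 3 + 1 from rfl, pow_succ, hs, one_mul] at h4
    exact h4.symm.eq
  have hF4' : F.relIndex V = 4 := by
    obtain ⟨k, hk⟩ := hVp.index (F.subgroupOf V)
    have hk' : F.relIndex V = 2 ^ k := hk
    rw [hk'] at hF4 ⊢
    rcases k with _ | _ | _ | k
    · exfalso
      have h1 : V ≤ F := Subgroup.relIndex_eq_one.1 (by simpa using hk')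
      exact hsnot fun v hv => Subgroup.mem_centralizer_singleton_iff.1 (h1 hv).2
    · exfalso
      -- two cosets are both fixed
      apply hsnot
      intro v hv
      by_cases hvF : v ∈ F
      · exact Subgroup.mem_centralizer_singleton_iff.1 hvF.2
      refine Subgroup.mem_centralizer_singleton_iff.1 (hfixF v hv ?_).2
      have h2 : (F.subgroupOf V).index = 2 := by rw [hk]; norm_num
      have hsv : s * v * s⁻¹ ∉ F := fun h => hvF (by
        have hsN : s⁻¹ ∈ Subgroup.normalizer (F : Set H) := inv_mem (hFn (hLX hsL))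
        have := (Subgroup.mem_normalizer_iff.1 hsN _).1 h
        rwa [show s⁻¹ * (s * v * s⁻¹) * s⁻¹⁻¹ = v by group] at this)
      have := (Subgroup.mul_mem_iff_of_index_two h2 (a := (⟨s * v * s⁻¹, hVn.conj_mem v hv s⟩ : V))
        (b := ⟨v⁻¹, inv_mem hv⟩)).2 ⟨fun h => absurd h hsv, fun h => absurd (inv_inv v ▸ inv_mem (show v⁻¹ ∈ F from h)) hvF⟩
      exact this
    · norm_num
    · exfalso
      have : 8 ≤ 2 ^ (k + 1 + 1 + 1) := by
        rw [pow_succ, pow_succ, pow_succ]; have := Nat.one_le_two_pow (n := k); omega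
      omega
  -- the quotient
  set F' := F.subgroupOf X with hF'
  haveI : F'.Normal := Subgroup.normal_subgroupOf_iff_le_normalizer hFX |>.2 hFn
  have hcardQ : Nat.card (X ⧸ F') = 24 := by
    rw [← Subgroup.index_eq_card]
    show F.relIndex X = 24
    rw [← Subgroup.relIndex_mul_relIndex F V X hFV hVX, hF4',
      ← Subgroup.relIndex_mul_relIndex V L X hVL hLX, hidxL]
    have h3 : V.relIndex L = 3 := by
      have h := (V.subgroupOf L).card_mul_index
      rw [Nat.card_congr (Subgroup.subgroupOfEquivOfLe hVL).toEquiv, hLc] at h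
      exact Nat.eq_of_mul_eq_mul_left Nat.card_pos h
    rw [h3]
  have key : ∀ g : X, (g : H) ^ 6 ∈ F → (g : H) ^ 2 ∈ F ∨ (g : H) ^ 3 ∈ F := by
    intro g hg6
    by_contra hcon
    push Not at hcon
    obtain ⟨hg2, hg3⟩ := hcon
    have hcL : (g : H) ^ 2 ∈ L := by
      rcases hXform g g.2 with h | h
      · exact pow_mem h 2
      · have h1 : n⁻¹ * ((g : H) * n)⁻¹⁻¹ * n ∈ L := by
          rw [inv_inv]
          have := (Subgroup.mem_normalizer_iff.1 (inv_mem hnN) _).1 h
          rwa [inv_inv] at this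
        have h2 : (g : H) ^ 2 = (g * n) * (n⁻¹ * ((g : H) * n)⁻¹⁻¹ * n) * (n * n)⁻¹ := by
          rw [inv_inv, sq]; group
        rw [h2]
        exact mul_mem (mul_mem h h1) (inv_mem (hVL hn2))
    obtain ⟨v, hv, i, hvi⟩ := hLform _ hcL
    -- replace `g²` by a power congruent to `s` modulo `V`
    obtain ⟨k, w, hw, hkw⟩ : ∃ (k : ℕ) (w : H), w ∈ V ∧ ((g : H) ^ 2) ^ k = w * s := by
      have hinot : s ^ i ≠ 1 := by
        intro h
        rw [h, mul_one] at hvi
        apply hg2
        have h6 : ((g : H) ^ 2) ^ 3 ∈ F := by rw [← pow_mul]; exact hg6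
        have : ((g : H) ^ 2) ^ 2 = 1 := by rw [hvi]; exact hV2 v hv
        rwa [pow_succ, this, one_mul] at h6
      obtain ⟨j, hj⟩ : ∃ j : ℤ, (i = 3 * j + 1 ∨ i = 3 * j + 2) := by
        refine ⟨i / 3, ?_⟩
        have : ¬ (3 : ℤ) ∣ i := fun ⟨j, hj⟩ => hinot (by
          rw [hj, zpow_mul, show (3 : ℤ) = ((3 : ℕ) : ℤ) from rfl, zpow_natCast, hs, one_zpow])
        omega
      have hsz : ∀ j : ℤ, s ^ (3 * j) = 1 := fun j => by
        rw [zpow_mul, show (3 : ℤ) = ((3 : ℕ) : ℤ) from rfl, zpow_natCast, hs, one_zpow]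
      rcases hj with rfl | rfl
      · exact ⟨1, v, hv, by rw [pow_one, hvi, zpow_add_one, hsz, one_mul]⟩
      · refine ⟨2, v * (s ^ (2 : ℤ) * v * (s ^ (2 : ℤ))⁻¹), mul_mem hv (hVn.conj_mem v hv _), ?_⟩
        have h4 : s ^ (2 : ℤ) * s ^ (2 : ℤ) = s := by
          rw [← zpow_add, show (2 : ℤ) + 2 = 3 * 1 + 1 by norm_num, zpow_add_one, hsz, one_mul]
        rw [hvi, zpow_add, hsz, one_mul, sq]
        calc v * s ^ (2 : ℤ) * (v * s ^ (2 : ℤ))
            = v * (s ^ (2 : ℤ) * v * (s ^ (2 : ℤ))⁻¹) * (s ^ (2 : ℤ) * s ^ (2 : ℤ)) := by group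
          _ = _ := by rw [h4]
    set t := (g : H) ^ 3 with ht
    have hct : Commute (w * s) t := hkw ▸ (((Commute.refl (g : H)).pow_pow 2 3).pow_left k)
    by_cases htL : t ∈ L
    · obtain ⟨u, hu, j, huj⟩ := hLform t htL
      have hj1 : s ^ j = 1 := by
        have h2 : t ^ 2 ∈ V := hFV (by rw [ht, ← pow_mul]; exact hg6)
        rw [huj, sq, show u * s ^ j * (u * s ^ j) = u * (s ^ j * u * (s ^ j)⁻¹) * (s ^ j * s ^ j) by group,
          Subgroup.mul_mem_cancel_left V (mul_mem hu (hVn.conj_mem u hu _)), ← zpow_add] at h2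
        have h3 := hsk _ h2
        have h4 : (s ^ j) ^ 3 = 1 := by
          rw [← zpow_natCast, ← zpow_mul, mul_comm, zpow_mul, zpow_natCast, hs, one_zpow]
        calc s ^ j = (s ^ j) ^ 3 * ((s ^ (j + j)))⁻¹ := by group
          _ = 1 := by rw [h3, h4]; simp
      rw [hj1, mul_one] at huj
      rw [← huj] at hu
      refine hg3 (hfixF t hu ?_)
      have h1 : w * s * t = t * (w * s) := hct.eq
      have h2 : w * (s * t) = w * (t * s) := by rw [← mul_assoc, h1, ← mul_assoc, hcomm t hu w hw, mul_assoc]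
      rw [mul_left_cancel h2, mul_inv_cancel_right, mul_inv_cancel]
      exact one_mem _
    · -- an element outside `L` cannot centralise
      have htn : t * n ∈ L := (hXform t (pow_mem g.2 3)).resolve_left htL
      obtain ⟨u, hu, j, huj⟩ := hLform _ htn
      have ht' : t = u * (s ^ j * n⁻¹) := by rw [← mul_assoc, ← huj]; group
      let π := QuotientGroup.mk' V
      have hπ : ∀ x ∈ V, π x = 1 := fun x hx => (QuotientGroup.eq_one_iff x).2 hx
      have hc : Commute (π s) (π (s ^ j * n⁻¹)) := by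
        have h1 := hct.map π
        rw [ht', map_mul, hπ w hw, one_mul, map_mul π u, hπ u hu, one_mul] at h1
        exact h1
      rw [map_mul] at hc
      have hc2 : Commute (π s) (π (s ^ j))⁻¹ := by rw [map_zpow]; exact ((Commute.refl _).zpow_right j).inv_right
      have hc3 : Commute (π s) (π n) := by
        have := (hc2.mul_right hc).inv_right
        rwa [inv_mul_cancel_left, map_inv, inv_inv] at this
      have h4 : π (n * s * n⁻¹) = π s := by
        rw [map_mul, map_mul, ← hc3.eq, map_inv, mul_inv_cancel_right]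
      rw [hsn, map_inv, inv_eq_iff_mul_eq_one, ← map_mul] at h4
      have h5 : s ^ (2 : ℤ) ∈ V := by
        rw [show (2 : ℤ) = ((2 : ℕ) : ℤ) from rfl, zpow_natCast, sq]
        exact (QuotientGroup.eq_one_iff _).1 h4
      have h6 := hsk 2 h5
      rw [show (2 : ℤ) = ((2 : ℕ) : ℤ) from rfl, zpow_natCast] at h6
      have := orderOf_dvd_of_pow_eq_one h6
      rw [hs3] at this
      norm_num at this
  refine ⟨X, F, inferInstance, ?_⟩
  refine S1012.result hcardQ fun q hq => ?_
  obtain ⟨g, rfl⟩ := QuotientGroup.mk_surjective q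
  have hmem : ∀ k : ℕ, (g : H) ^ k ∈ F → orderOf (g : X ⧸ F') ∣ k := fun k hk => by
    refine orderOf_dvd_of_pow_eq_one ?_
    rw [← QuotientGroup.mk_pow, QuotientGroup.eq_one_iff]
    show ((g ^ k : X) : H) ∈ F
    rwa [SubmonoidClass.coe_pow]
  have h6 : (g : H) ^ 6 ∈ F := by
    have := pow_orderOf_eq_one (g : X ⧸ F')
    rw [hq, ← QuotientGroup.mk_pow, QuotientGroup.eq_one_iff] at this
    have h : ((g ^ 6 : X) : H) ∈ F := this
    rwa [SubmonoidClass.coe_pow] at h
  rcases key g h6 with h | h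
  · have := hmem 2 h; rw [hq] at this; norm_num at this
  · have := hmem 3 h; rw [hq] at this; norm_num at this

/-- An element of order `p` modulo a faithful elementary abelian `O_p` cannot act cyclically. -/
theorem involves_of_bad (hH : Cfsg.IsPSolvable p H) (V : Subgroup H) [V.Normal]
    (hV : Cfsg.IsElementaryAbelian p V) (hcen : Subgroup.centralizer (V : Set H) ≤ V)
    (hcore : Cfsg.pCore p (H ⧸ V) = ⊥) (b : H) (hb : b ∉ V) (hbp : b ^ p ∈ V)
    (hquad : ∀ v ∈ V, ⁅v, b⁆ ∈ Subgroup.zpowers (b ^ p)) :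
    p = 2 ∧ Cfsg.Involves (Equiv.Perm (Fin 4)) H := by
  classical
  have hp := (Fact.out : p.Prime)
  have hVn : V.Normal := inferInstance
  have hVp : IsPGroup p V := fun v => ⟨1, Subtype.ext (by simpa using hV.2 v v.2)⟩
  have hcomm : ∀ u ∈ V, ∀ v ∈ V, u * v = v * u := fun u hu v hv =>
    congrArg Subtype.val (hV.1.is_comm.comm ⟨u, hu⟩ ⟨v, hv⟩)
  -- a complement of the p'-core modulo V
  set N := (Cfsg.pPrimeCore p (H ⧸ V)).comap (QuotientGroup.mk' V) with hN
  have hVN : V ≤ N := QuotientGroup.le_comap_mk' V _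
  haveI hNn : N.Normal := (inferInstance : (Cfsg.pPrimeCore p (H ⧸ V)).Normal).comap _
  have hidx : (V.subgroupOf N).index = Nat.card (Cfsg.pPrimeCore p (H ⧸ V)) := by
    let f : N →* H ⧸ V := (QuotientGroup.mk' V).comp N.subtype
    have hker : f.ker = V.subgroupOf N := by ext x; exact QuotientGroup.eq_one_iff _
    rw [← hker, Subgroup.index_ker, MonoidHom.range_comp, Subgroup.range_subtype, hN,
      Subgroup.map_comap_eq_self_of_surjective (QuotientGroup.mk'_surjective V)]
  have hcopV : ∀ k : ℕ, k.Coprime p → k.Coprime (Nat.card V) := fun k hk => by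
    obtain ⟨m, hm⟩ := IsPGroup.iff_card.1 hVp
    rw [hm]; exact hk.pow_right m
  have hcop : (Nat.card (V.subgroupOf N)).Coprime (V.subgroupOf N).index := by
    rw [hidx, Nat.card_congr (Subgroup.subgroupOfEquivOfLe hVN).toEquiv]
    exact (hcopV _ (Core.card_pPrimeCore_coprime p _)).symm
  obtain ⟨R', hR'⟩ := Subgroup.exists_right_complement'_of_coprime hcop
  set R := R'.map N.subtype with hR
  have hRN : R ≤ N := Subgroup.map_subtype_le _
  have hRcard : (Nat.card R).Coprime p := by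
    rw [hR, Subgroup.card_map_of_injective N.subtype_injective, ← hR'.symm.index_eq_card, hidx]
    exact Core.card_pPrimeCore_coprime p _
  have hVR : V ⊔ R = N := by
    rw [hR, ← Subgroup.map_subgroupOf_eq_of_le hVN, ← Subgroup.map_sup, hR'.sup_eq_top,
      ← MonoidHom.range_eq_map, Subgroup.range_subtype]
  have hinf : V ⊓ R = ⊥ := Coprime.inf_eq_bot_of_coprime (hcopV _ hRcard)
  have hfaith : ∀ g ∈ R, (∀ v ∈ V, v * g = g * v) → g = 1 := fun g hg h => by
    have : g ∈ V ⊓ R := ⟨hcen (Subgroup.mem_centralizer_iff.2 h), hg⟩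
    rwa [hinf, Subgroup.mem_bot] at this
  -- adjust `b` to normalise `R`
  set R₁ := R.map (MulAut.conj b).toMonoidHom with hR₁
  have hR₁N : R₁ ≤ V ⊔ R := by
    rw [hVR]
    rintro _ ⟨r, hr, rfl⟩
    exact hNn.conj_mem r (hRN hr) b
  obtain ⟨x, hx, hxe⟩ := Core.exists_conj_complement_general V R R₁
    (Or.inr (Coprime.isSolvable_of_isPGroup hVp))
    ((Subgroup.normalizer_eq_top (H := V)).symm ▸ le_top) hR₁N
    (Coprime.card_map_conj R b) (hcopV _ hRcard)
  set n := x⁻¹ * b with hn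
  have hnR : n ∈ Subgroup.normalizer (R : Set H) := by
    refine Coprime.mem_normalizer_of_conj_mem fun r hr => ?_
    have h1 : b * r * b⁻¹ ∈ R₁ := ⟨r, hr, rfl⟩
    rw [hxe] at h1
    obtain ⟨r', hr', he⟩ := h1
    have he' : x * r' * x⁻¹ = b * r * b⁻¹ := he
    have : n * r * n⁻¹ = r' := by
      rw [hn, show x⁻¹ * b * r * (x⁻¹ * b)⁻¹ = x⁻¹ * (b * r * b⁻¹) * x by group, ← he']; group
    rwa [this]
  have hnb : b = x * n := by rw [hn]; group
  have hnconj : ∀ v ∈ V, n * v * n⁻¹ = b * v * b⁻¹ := fun v hv => by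
    have hbv := hVn.conj_mem v hv b
    rw [hn, show x⁻¹ * b * v * (x⁻¹ * b)⁻¹ = x⁻¹ * ((b * v * b⁻¹) * x) by group, hcomm _ hbv x hx]
    group
  set c := b ^ p with hc
  have hquad' : ∀ v ∈ V, ⁅v, n⁆ ∈ Subgroup.zpowers c := fun v hv => by
    have := hquad v hv
    rw [show ⁅v, b⁆ = v * (b * v * b⁻¹)⁻¹ by rw [commutatorElement_def]; group, ← hnconj v hv] at this
    rwa [show ⁅v, n⁆ = v * (n * v * n⁻¹)⁻¹ by rw [commutatorElement_def]; group]
  have hnc : ∀ z ∈ Subgroup.zpowers c, Commute n z := fun z hz => by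
    have hzV : z ∈ V := (Subgroup.zpowers_le.2 hbp) hz
    obtain ⟨i, rfl⟩ := Subgroup.mem_zpowers_iff.1 hz
    apply mul_inv_eq_iff_eq_mul.1
    rw [hnconj _ hzV, ← hc.symm.trans rfl]
    exact mul_inv_eq_iff_eq_mul.2 (((Commute.refl b).pow_right p).zpow_right i).eq
  set e := n * x * n⁻¹ * x⁻¹ with he
  have hec : e ∈ Subgroup.zpowers c := by
    have := inv_mem (hquad' x hx)
    rwa [show ⁅x, n⁆⁻¹ = n * x * n⁻¹ * x⁻¹ by rw [commutatorElement_def]; group] at this
  have heV : e ∈ V := (Subgroup.zpowers_le.2 hbp) hec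
  have hpow : ∀ k : ℕ, b ^ k = x ^ k * e ^ (k.choose 2) * n ^ k := by
    rw [hnb]
    exact pow_mul_conj x n e he (hcomm x hx e heV) (hnc e hec)
  have hnpV : n ^ p ∈ V := by
    have h := hpow p
    rw [← hc, hV.2 x hx, one_mul] at h
    have : n ^ p = (e ^ p.choose 2)⁻¹ * c := by rw [h]; group
    rw [this]
    exact mul_mem (inv_mem (pow_mem heV _)) hbp
  have hnpR : ∀ r ∈ R, Commute (n ^ p) r := fun r hr => by
    have h1 : n ^ p * r * (n ^ p)⁻¹ * r⁻¹ ∈ V ⊓ R := by
      refine ⟨?_, R.mul_mem ((Subgroup.mem_normalizer_iff.1 (Subgroup.pow_mem _ hnR p) r).1 hr) (R.inv_mem hr)⟩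
      rw [show n ^ p * r * (n ^ p)⁻¹ * r⁻¹ = n ^ p * (r * (n ^ p)⁻¹ * r⁻¹) by group]
      exact mul_mem hnpV (hVn.conj_mem _ (inv_mem hnpV) r)
    rw [hinf, Subgroup.mem_bot, mul_inv_eq_one, mul_inv_eq_iff_eq_mul] at h1
    exact h1
  -- `n` does not centralise `R`
  obtain ⟨r, hrR, hrn⟩ : ∃ r ∈ R, r * n * r⁻¹ * n⁻¹ ≠ 1 := by
    by_contra hcon
    push Not at hcon
    set π := QuotientGroup.mk' V
    have hbR : π b ∈ Subgroup.centralizer (Cfsg.pPrimeCore p (H ⧸ V) : Set (H ⧸ V)) := by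
      rw [Subgroup.mem_centralizer_iff]
      intro q hq
      obtain ⟨u, hu⟩ := QuotientGroup.mk'_surjective V q
      have huN : u ∈ V ⊔ R := by rw [hVR, hN, Subgroup.mem_comap, hu]; exact hq
      obtain ⟨v, hv, g, hg, rfl⟩ := Subgroup.mem_sup_of_normal_left.1 huN
      have hgn : Commute g n := by
        have := hcon g hg
        rw [mul_inv_eq_one, mul_inv_eq_iff_eq_mul] at this
        exact this
      have e1 : π (v * g) = π g := by rw [map_mul, show π v = 1 from (QuotientGroup.eq_one_iff v).2 hv, one_mul]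
      have e2 : π b = π n := by rw [hnb, map_mul, show π x = 1 from (QuotientGroup.eq_one_iff x).2 hx, one_mul]
      rw [← hu, e1, e2]
      exact (hgn.map π).eq
    have hle : Subgroup.centralizer (Cfsg.pPrimeCore p (H ⧸ V) : Set (H ⧸ V)) ≤ Cfsg.pPrimeCore p (H ⧸ V) := by
      rw [Core.pPrimeCore_eq_piCore]
      refine Core.centralizer_piCore_le ?_ ?_
      · exact Core.isPiSeparable_compl (Core.isPiSeparable_of_isPSolvable (Core.isPSolvable_quotient hH V))
      · rw [compl_compl, ← Core.pCore_eq_piCore, hcore]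
    have h1 := orderOf_dvd_natCard (⟨π b, hle hbR⟩ : Cfsg.pPrimeCore p (H ⧸ V))
    rw [Subgroup.orderOf_mk] at h1
    have h2 : orderOf (π b) = p := orderOf_eq_prime
      (by rw [← map_pow]; exact (QuotientGroup.eq_one_iff _).2 hbp) fun h => hb ((QuotientGroup.eq_one_iff b).1 h)
    rw [h2] at h1
    exact (hp.coprime_iff_not_dvd.1 (Core.card_pPrimeCore_coprime p (H ⧸ V)).symm) h1
  set z := r * n * r⁻¹ * n⁻¹ with hz
  have hzR : z ∈ R := by
    rw [hz, show r * n * r⁻¹ * n⁻¹ = r * (n * r⁻¹ * n⁻¹) by group]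
    exact mul_mem hrR ((Subgroup.mem_normalizer_iff.1 hnR _).1 (inv_mem hrR))
  have hVR' : R ≤ Subgroup.normalizer (V : Set H) := (Subgroup.normalizer_eq_top (H := V)).symm ▸ le_top
  by_cases hp2 : p = 2
  · refine ⟨hp2, ?_⟩
    subst hp2
    have hzinv : n * z * n⁻¹ = z⁻¹ := by
      have h1 : n ^ 2 * r⁻¹ * (n ^ 2)⁻¹ = r⁻¹ := by
        rw [mul_inv_eq_iff_eq_mul]; exact (hnpR r hrR).inv_right.eq
      calc n * z * n⁻¹ = n * r * n⁻¹ * (n ^ 2 * r⁻¹ * (n ^ 2)⁻¹) := by rw [hz, sq]; group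
        _ = z⁻¹ := by rw [h1, hz]; group
    set l := (orderOf z).minFac with hl
    have hlp : l.Prime := Nat.minFac_prime fun h => hrn (orderOf_eq_one_iff.1 h)
    set s := z ^ (orderOf z / l) with hs
    have hsl : orderOf s = l := orderOf_pow_orderOf_div (orderOf_pos z).ne' (Nat.minFac_dvd _)
    have hsR : s ∈ R := pow_mem hzR _
    have hsn : n * s * n⁻¹ = s⁻¹ := by rw [hs, ← conj_pow, hzinv, inv_pow]
    have hsnot : ¬ ∀ v ∈ V, Commute v s := fun h => by
      rw [hfaith s hsR h, orderOf_one] at hsl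
      exact hlp.ne_one hsl.symm
    have hl2 : l ≠ 2 := fun h => by
      have h1 := orderOf_dvd_natCard (⟨s, hsR⟩ : R)
      rw [Subgroup.orderOf_mk, hsl, h] at h1
      exact (Nat.prime_two.coprime_iff_not_dvd.1 hRcard.symm) h1
    -- `n` is a transvection
    have hidxn : (V ⊓ Subgroup.centralizer {n}).relIndex V ≤ 2 := by
      let δ : V →* H := MonoidHom.mk' (fun v => ⁅(v : H), n⁆) fun u v => by
        simp only [Subgroup.coe_mul]
        rw [show ⁅(u : H) * v, n⁆ = (u : H) * ⁅(v : H), n⁆ * (u : H)⁻¹ * ⁅(u : H), n⁆ by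
          simp only [commutatorElement_def]; group]
        have hu := (Subgroup.zpowers_le.2 hbp) (hquad' u u.2)
        have hv := (Subgroup.zpowers_le.2 hbp) (hquad' v v.2)
        rw [hcomm (u : H) u.2 _ hv, mul_inv_cancel_right, hcomm _ hv _ hu]
      have hker : δ.ker = (V ⊓ Subgroup.centralizer {n}).subgroupOf V := by
        ext v
        rw [MonoidHom.mem_ker, Subgroup.mem_subgroupOf, Subgroup.mem_inf, Subgroup.mem_centralizer_singleton_iff]
        show ⁅(v : H), n⁆ = 1 ↔ _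
        rw [commutatorElement_eq_one_iff_mul_comm]
        exact ⟨fun h => ⟨v.2, h⟩, fun h => h.2⟩
      show ((V ⊓ Subgroup.centralizer {n}).subgroupOf V).index ≤ 2
      rw [← hker, Subgroup.index_ker]
      refine le_trans (Subgroup.card_le_of_le (K := Subgroup.zpowers c) ?_) ?_
      · rintro _ ⟨v, rfl⟩; exact hquad' v v.2
      · rw [Nat.card_zpowers]; exact Nat.le_of_dvd (by norm_num) (orderOf_dvd_of_pow_eq_one (hV.2 c hbp))
    by_cases hl3 : l = 3
    · exact involves_four V hV.1 hV.2 s n (hsl.trans hl3) hsn (by rw [← sq]; exact hnpV) hsnot hidxn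
    exfalso
    -- a prime at least five fixes everything
    apply hsnot
    set C := V ⊓ Subgroup.centralizer ({n} : Set H) with hC
    set C' := C.map (MulAut.conj s).toMonoidHom with hC'
    have hVs : V.map (MulAut.conj s).toMonoidHom = V :=
      Subgroup.mem_normalizer_iff_map_conj_eq.1 ((Subgroup.normalizer_eq_top (H := V)).symm ▸ Subgroup.mem_top s)
    have hidx' : C'.relIndex V ≤ 2 := by
      rw [← hVs, hC', Subgroup.relIndex_map_map_of_injective _ _ (MulAut.conj s).injective]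
      exact hidxn
    set F := V ⊓ Subgroup.centralizer ({s} : Set H) with hF
    have hle : C ⊓ C' ≤ F := by
      rintro w ⟨hw, ⟨u, hu, huw⟩⟩
      refine ⟨hw.1, Subgroup.mem_centralizer_singleton_iff.2 ?_⟩
      have h1 : Commute w n := Subgroup.mem_centralizer_singleton_iff.1 hw.2
      have h2 : Commute w (s * n * s⁻¹) := by
        rw [← huw]
        exact (show Commute u n from Subgroup.mem_centralizer_singleton_iff.1 hu.2).map (MulAut.conj s).toMonoidHom
      have h5 : s * n * s⁻¹ * n⁻¹ = s ^ 2 := by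
        rw [show s * n * s⁻¹ * n⁻¹ = s * (n * s * n⁻¹)⁻¹ by group, hsn, inv_inv, sq]
      have h6 : Commute w (s ^ 2) := h5 ▸ h2.mul_right h1.inv_right
      obtain ⟨k, hk⟩ := hlp.odd_of_ne_two hl2
      have h7 : s = (s ^ 2) ^ (k + 1) := by
        rw [← pow_mul, show 2 * (k + 1) = l + 1 by omega, pow_succ, ← hsl, pow_orderOf_eq_one, one_mul]
      rw [h7]
      exact (h6.pow_right _).eq
    have hF4 : F.relIndex V ≤ 4 := by
      refine le_trans (Nat.le_of_dvd (Nat.pos_of_ne_zero Subgroup.index_ne_zero_of_finite)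
        (Subgroup.relIndex_dvd_of_le_left V hle)) ?_
      calc (C ⊓ C').relIndex V ≤ C.relIndex V * C'.relIndex V := Subgroup.relIndex_inf_le
        _ ≤ 2 * 2 := Nat.mul_le_mul hidxn hidx'
    -- the cosets of F are fixed
    have hl5 : 5 ≤ l := by
      have h4 : l ≠ 4 := fun h => by rw [h] at hlp; norm_num at hlp
      have := hlp.two_le; omega
    set Z := Subgroup.zpowers s with hZ
    have hZR : Z ≤ R := Subgroup.zpowers_le.2 hsR
    have hZV : Z ≤ Subgroup.normalizer (V : Set H) := hZR.trans hVR'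
    have hZF : Z ≤ Subgroup.normalizer (F : Set H) := by
      rw [hZ, Subgroup.zpowers_le]
      refine Coprime.mem_normalizer_of_conj_mem fun f hf => ?_
      have : s * f * s⁻¹ = f := by
        rw [mul_inv_eq_iff_eq_mul]; exact (Subgroup.mem_centralizer_singleton_iff.1 hf.2).symm
      rwa [this]
    haveI : (F.subgroupOf V).Normal := ⟨fun a ha g => by
      have : g * a * g⁻¹ = a := by
        rw [mul_inv_eq_iff_eq_mul]; exact Subtype.ext (hcomm g g.2 a a.2)
      rwa [this]⟩
    let cz : V →* V :=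
      { toFun := fun u => ⟨s * u * s⁻¹, hVn.conj_mem u u.2 s⟩
        map_one' := Subtype.ext (show s * ((1 : V) : H) * s⁻¹ = 1 by simp)
        map_mul' := fun u v => Subtype.ext (by
          show s * ((u : H) * v) * s⁻¹ = s * u * s⁻¹ * (s * v * s⁻¹); group) }
    let ψ : V ⧸ F.subgroupOf V → V ⧸ F.subgroupOf V :=
      QuotientGroup.map (F.subgroupOf V) (F.subgroupOf V) cz (fun u hu =>
        (Subgroup.mem_normalizer_iff.1 (hZF (Subgroup.mem_zpowers s)) (u : H)).1 hu)
    have hψit : ∀ (k : ℕ) (u : V), (ψ^[k]) (u : V ⧸ F.subgroupOf V) = (((cz^[k]) u : V) : V ⧸ F.subgroupOf V) := by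
      intro k u
      induction k with
      | zero => rfl
      | succ k ih => rw [Function.iterate_succ_apply', Function.iterate_succ_apply', ih]; rfl
    have hczit : ∀ (k : ℕ) (u : V), (((cz^[k]) u : V) : H) = s ^ k * u * (s ^ k)⁻¹ := by
      intro k u
      induction k with
      | zero => simp
      | succ k ih =>
        rw [Function.iterate_succ_apply']
        show s * (((cz^[k]) u : V) : H) * s⁻¹ = _
        rw [ih, pow_succ']; group
    intro v hv
    -- the orbit of the coset of v has at most four elements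
    have hper : (ψ^[l]) ((⟨v, hv⟩ : V) : V ⧸ F.subgroupOf V) = ((⟨v, hv⟩ : V) : V ⧸ F.subgroupOf V) := by
      rw [hψit]
      congr 1
      apply Subtype.ext
      rw [hczit, ← hsl, pow_orderOf_eq_one]; simp
    haveI : Fintype (V ⧸ F.subgroupOf V) := Fintype.ofFinite _
    have hcard : Fintype.card (V ⧸ F.subgroupOf V) ≤ 4 := by
      rw [← Nat.card_eq_fintype_card, ← Subgroup.index_eq_card]; exact hF4
    set q := ((⟨v, hv⟩ : V) : V ⧸ F.subgroupOf V) with hq
    have hmin : Function.minimalPeriod ψ q ∣ l := (Function.IsPeriodicPt.minimalPeriod_dvd hper)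
    have hfixq : ψ q = q := by
      rcases hlp.eq_one_or_self_of_dvd _ hmin with h | h
      · exact Function.minimalPeriod_eq_one_iff_isFixedPt.1 h
      · exfalso
        have hinj : Function.Injective fun i : Fin l => (ψ^[(i : ℕ)]) q := fun i j hij =>
          Fin.ext (Function.iterate_injOn_Iio_minimalPeriod (by rw [h]; exact i.2) (by rw [h]; exact j.2) hij)
        have := Fintype.card_le_of_injective _ hinj
        rw [Fintype.card_fin] at this
        omega
    haveI : Group.IsSolvable Z := inferInstance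
    obtain ⟨m, hm, w, hw, hvw⟩ := Coprime.exists_mul_centralizer hZV
      ((hcopV _ hRcard).coprime_dvd_left (Subgroup.card_dvd_of_le hZR)) inf_le_left hZF hv (fun a ha => by
        obtain ⟨k, rfl⟩ := (mem_powers_iff_mem_zpowers (x := s)).2 ha
        show ⁅v, s ^ k⁆ ∈ F
        have h1 : (ψ^[k]) q = q := Function.IsFixedPt.iterate hfixq k
        rw [hq, hψit, QuotientGroup.eq] at h1
        have h2 : (((cz^[k]) ⟨v, hv⟩ : V) : H)⁻¹ * v ∈ F := h1
        rw [hczit] at h2
        change (s ^ k * v * (s ^ k)⁻¹)⁻¹ * v ∈ F at h2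
        rw [show ⁅v, s ^ k⁆ = v * (s ^ k * v * (s ^ k)⁻¹)⁻¹ by rw [commutatorElement_def]; group,
          hcomm v hv _ (inv_mem (hVn.conj_mem v hv _))]
        exact h2)
    rw [hvw]
    exact Commute.mul_left (Subgroup.mem_centralizer_singleton_iff.1 hm.2)
      (Subgroup.mem_centralizer_iff.1 hw.2 s (Subgroup.mem_zpowers s)).symm
  · exfalso
    have hodd : Odd p := hp.odd_of_ne_two hp2
    have hcn : c = n ^ p := by
      have h := hpow p
      obtain ⟨k, hk⟩ := hodd
      have hch : p.choose 2 = p * k := by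
        rw [Nat.choose_two_right, show p - 1 = 2 * k by omega, show p * (2 * k) = 2 * (p * k) by ring,
          Nat.mul_div_cancel_left _ (by norm_num : 0 < 2)]
      rw [hV.2 x hx, one_mul, hch, pow_mul, hV.2 e heV, one_pow, one_mul] at h
      exact h
    have hcR : ∀ g ∈ Subgroup.zpowers c, g ∈ Subgroup.centralizer (R : Set H) := by
      intro g hg
      rw [hcn] at hg
      refine (Subgroup.zpowers_le.2 (Subgroup.mem_centralizer_iff.2 fun r hr => (hnpR r hr).symm.eq)) hg
    have hcopR := hcopV _ hRcard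
    have hWbot := Coprime.commutator_inf_centralizer_eq_bot hVR' hV.1 hcopR
    set W := ⁅V, R⁆ with hW
    have hnW : ∀ v ∈ W, n * v * n⁻¹ = v := by
      intro v hv
      have hvV : v ∈ V := Coprime.commutator_le_of_le_normalizer hVR' hv
      have hnv : n * v * n⁻¹ ∈ W := by
        have h1 : W.map (MulAut.conj n).toMonoidHom ≤ W := by
          rw [hW, Subgroup.map_commutator]
          refine Subgroup.commutator_mono ?_ ?_
          · rintro _ ⟨u, hu, rfl⟩; exact hVn.conj_mem u hu n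
          · rintro _ ⟨g, hg, rfl⟩; exact (Subgroup.mem_normalizer_iff.1 hnR g).1 hg
        exact h1 ⟨v, hv, rfl⟩
      have h1 : ⁅v, n⁆ ∈ W ⊓ Subgroup.centralizer (R : Set H) := by
        refine ⟨?_, hcR _ (hquad' v hvV)⟩
        rw [show ⁅v, n⁆ = v * (n * v * n⁻¹)⁻¹ by rw [commutatorElement_def]; group]
        exact W.mul_mem hv (W.inv_mem hnv)
      rw [hWbot, Subgroup.mem_bot, show ⁅v, n⁆ = v * (n * v * n⁻¹)⁻¹ by rw [commutatorElement_def]; group,
        mul_inv_eq_one] at h1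
      exact h1.symm
    obtain ⟨y, hy⟩ : ∃ y ∈ V, ¬ Commute y z := by
      by_contra hcon
      push Not at hcon
      exact hrn (hfaith z hzR fun v hv => (hcon v hv).eq)
    obtain ⟨hyV, hyz⟩ := hy
    have hzW : ∀ v ∈ W, Commute v z := by
      intro v hv
      have hr' : ∀ u ∈ W, r * u * r⁻¹ ∈ W := fun u hu =>
        (Subgroup.mem_normalizer_iff.1 ((Subgroup.normalizer_commutator_ge_right V R) hrR) u).1 hu
      have hr'' : r⁻¹ * v * r ∈ W := by
        simpa using (Subgroup.mem_normalizer_iff.1 ((Subgroup.normalizer_commutator_ge_right V R) (inv_mem hrR)) v).1 hv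
      have h1 : z * v * z⁻¹ = v := by
        have e1 : n⁻¹ * v * n = v := by
          calc n⁻¹ * v * n = n⁻¹ * (n * v * n⁻¹) * n := by rw [hnW v hv]
            _ = v := by group
        calc z * v * z⁻¹ = r * (n * (r⁻¹ * (n⁻¹ * v * n) * r) * n⁻¹) * r⁻¹ := by rw [hz]; group
          _ = r * (r⁻¹ * v * r) * r⁻¹ := by rw [e1, hnW _ hr'']
          _ = v := by group
      exact (mul_inv_eq_iff_eq_mul.1 h1).symm
    apply hyz
    obtain ⟨m, hm, w, hw, hyw⟩ := Core.exists_mul_centralizer hVR' (Or.inr (Coprime.isSolvable_of_isPGroup hVp))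
      hcopR (Coprime.commutator_le_of_le_normalizer hVR') (Subgroup.normalizer_commutator_ge_right V R) hyV
      (fun a ha => Subgroup.commutator_mem_commutator hyV ha)
    rw [hyw]
    exact Commute.mul_left (hzW m hm) (Subgroup.mem_centralizer_iff.1 hw.2 z hzR).symm

universe u

theorem involves_quot {T : Type*} [Group T] {K G : Type u} [Group K] [Group G]
    (f : K →* G) (hf : Function.Surjective f) (h : Cfsg.Involves T G) : Cfsg.Involves T K := by
  obtain ⟨A, R, hn, ⟨e⟩⟩ := h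
  haveI := hn
  let π : A.comap f →* A ⧸ R.subgroupOf A :=
    (QuotientGroup.mk' (R.subgroupOf A)).comp (f.subgroupComap A)
  have hπ : Function.Surjective π :=
    (QuotientGroup.mk'_surjective _).comp (fun y => by
      obtain ⟨x, hx⟩ := hf y
      exact ⟨⟨x, show f x ∈ A from hx ▸ y.2⟩, Subtype.ext hx⟩)
  have hker : (R.comap f).subgroupOf (A.comap f) = π.ker := by
    ext x
    rw [MonoidHom.mem_ker]
    exact (QuotientGroup.eq_one_iff (N := R.subgroupOf A) (f.subgroupComap A x)).symm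
  have hn' : ((R.comap f).subgroupOf (A.comap f)).Normal := by rw [hker]; infer_instance
  haveI := hn'
  exact ⟨A.comap f, R.comap f, hn', ⟨((QuotientGroup.quotientMulEquivOfEq hker).trans
    (QuotientGroup.quotientKerEquivOfSurjective π hπ)).trans e⟩⟩

/-- The reduced case. -/
theorem le_pCore {G : Type u} [Group G] [Finite G] {p : ℕ} [Fact p.Prime] (hG : Cfsg.IsPSolvable p G)
    (hO : Cfsg.pPrimeCore p G = ⊥) (P : Sylow p G) (A : Subgroup G) (hAP : A ≤ (P : Subgroup G))
    (hAn : (P : Subgroup G) ≤ Subgroup.normalizer (A : Set G)) [IsCyclic A]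
    (hfree : p ≠ 2 ∨ ¬ Cfsg.Involves (Equiv.Perm (Fin 4)) G) : A ≤ Cfsg.pCore p G := by
  classical
  have hp := (Fact.out : p.Prime)
  by_contra hAQ
  set Q := Cfsg.pCore p G with hQ
  haveI hQn : Q.Normal := inferInstance
  have hQp : IsPGroup p Q := Core.isPGroup_pCore p G
  obtain ⟨⟨a, ha⟩, hgen⟩ := IsCyclic.exists_generator (α := A)
  have hgen' : ∀ y ∈ A, ∃ m : ℕ, a ^ m = y := fun y hy => by
    obtain ⟨m, hm⟩ := (mem_powers_iff_mem_zpowers (x := (⟨a, ha⟩ : A))).2 (hgen ⟨y, hy⟩)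
    exact ⟨m, congrArg Subtype.val hm⟩
  obtain ⟨k, hk⟩ := IsPGroup.iff_orderOf.1 (P.isPGroup'.to_le hAP) ⟨a, ha⟩
  rw [Subgroup.orderOf_mk] at hk
  have hex : ∃ i, a ^ (p ^ i) ∈ Q := ⟨k, by rw [← hk, pow_orderOf_eq_one]; exact one_mem _⟩
  set i := Nat.find hex with hi
  have hi0 : i ≠ 0 := fun h => hAQ fun y hy => by
    have h1 := Nat.find_spec hex
    rw [← hi, h, pow_zero, pow_one] at h1
    obtain ⟨m, rfl⟩ := hgen' y hy
    exact pow_mem h1 m
  set b := a ^ (p ^ (i - 1)) with hb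
  have hbp : b ^ p = a ^ (p ^ i) := by rw [hb, ← pow_mul, ← pow_succ, Nat.sub_add_cancel (Nat.pos_of_ne_zero hi0)]
  have hbQ : b ∉ Q := Nat.find_min hex (by omega)
  have hbA : b ∈ A := pow_mem ha _
  have hcap : ∀ y ∈ A, y ∈ Q → y ∈ Subgroup.zpowers (b ^ p) := by
    intro y hy hyQ
    obtain ⟨m, rfl⟩ := hgen' y hy
    rw [hbp]
    rcases eq_or_ne m 0 with rfl | hm0
    · simp
    obtain ⟨j, u, hu, rfl⟩ := Nat.exists_eq_pow_mul_and_not_dvd hm0 p hp.ne_one
    have hji : i ≤ j := by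
      by_contra h
      refine Nat.find_min hex (by omega : j < i) ?_
      have hcp : u.Coprime (orderOf (a ^ (p ^ j))) := by
        refine Nat.Coprime.coprime_dvd_right (orderOf_pow_dvd (x := a) _) ?_
        rw [hk]
        exact ((hp.coprime_iff_not_dvd.2 hu).pow_left k).symm
      obtain ⟨w, hw⟩ := exists_pow_eq_self_of_coprime hcp
      rw [← hw, ← pow_mul a]
      exact pow_mem hyQ w
    obtain ⟨t, ht⟩ := Nat.pow_dvd_pow p hji
    rw [ht, mul_assoc, pow_mul]
    exact pow_mem (Subgroup.mem_zpowers _) _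
  -- the quotient by the Frattini subgroup
  set Φ := (frattini Q).map Q.subtype with hΦ
  haveI : Φ.Normal := by rw [hΦ]; infer_instance
  have hΦQ : Φ ≤ Q := Subgroup.map_subtype_le _
  set π := QuotientGroup.mk' Φ with hπ
  have hπs : Function.Surjective π := QuotientGroup.mk'_surjective Φ
  set V := Q.map π with hV
  haveI : V.Normal := hQn.map π hπs
  have hVel : Cfsg.IsElementaryAbelian p V := by
    refine ⟨⟨⟨?_⟩⟩, ?_⟩
    · rintro ⟨_, u, hu, rfl⟩ ⟨_, v, hv, rfl⟩
      apply Subtype.ext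
      show π u * π v = π v * π u
      have h1 : ⁅u, v⁆ ∈ Φ := ⟨⁅(⟨u, hu⟩ : Q), ⟨v, hv⟩⁆, FGS3.commutator_le_frattini hQp
        (Subgroup.commutator_mem_commutator (Subgroup.mem_top _) (Subgroup.mem_top _)), map_commutatorElement Q.subtype _ _⟩
      have h2 : π ⁅u, v⁆ = 1 := (QuotientGroup.eq_one_iff _).2 h1
      rwa [map_commutatorElement, commutatorElement_eq_one_iff_mul_comm] at h2
    · rintro _ ⟨u, hu, rfl⟩
      rw [← map_pow]
      exact (QuotientGroup.eq_one_iff _).2 ⟨(⟨u, hu⟩ : Q) ^ p, FGS3.pow_mem_frattini hQp _, rfl⟩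
  have hcQ : Subgroup.centralizer (Q : Set G) ≤ Q := Core.centralizer_pCore_le hG hO
  have hcen : Subgroup.centralizer (V : Set (G ⧸ Φ)) ≤ V := by
    set C := (Subgroup.centralizer (V : Set (G ⧸ Φ))).comap π with hC
    have hCn : C.Normal := (inferInstance : (Subgroup.centralizer (V : Set (G ⧸ Φ))).Normal).comap π
    have hCp : IsPGroup p C := by
      refine IsPGroup.of_card (n := (Nat.card C).primeFactorsList.length)
        (Nat.eq_prime_pow_of_unique_prime_dvd Nat.card_pos.ne' fun {l} hl hld => ?_)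
      by_contra hlp
      haveI := Fact.mk hl
      obtain ⟨g, hg⟩ := exists_prime_orderOf_dvd_card' (G := C) l hld
      rw [← Subgroup.orderOf_coe] at hg
      set Z := Subgroup.zpowers (g : G) with hZ
      have hZQ : Z ≤ Subgroup.normalizer (Q : Set G) := (Subgroup.normalizer_eq_top (H := Q)).symm ▸ le_top
      have hcop : (Nat.card Z).Coprime (Nat.card Q) := by
        refine Coprime.coprime_card_of_isPGroup hQp ?_
        rw [hZ, Nat.card_zpowers, hg]
        exact (Nat.coprime_primes hl hp).2 hlp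
      haveI : Group.IsSolvable Z := inferInstance
      have hle : ⁅Q, Z⁆ ≤ Φ := by
        rw [Subgroup.commutator_le]
        intro u hu z hz
        have hzC : z ∈ C := (Subgroup.zpowers_le.2 g.2) hz
        have h1 : π ⁅u, z⁆ = 1 := by
          rw [map_commutatorElement, commutatorElement_eq_one_iff_mul_comm]
          exact Subgroup.mem_centralizer_iff.1 hzC _ ⟨u, hu, rfl⟩
        exact (QuotientGroup.eq_one_iff _).1 h1
      have h1 := Coprime.eq_commutator_sup_centralizer hZQ hcop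
      have hCQ : Q ⊓ Subgroup.centralizer (Z : Set G) ≤ Q := inf_le_left
      generalize hD : Q ⊓ Subgroup.centralizer (Z : Set G) = D at h1 hCQ
      have h3 : D.subgroupOf Q ⊔ frattini Q = ⊤ := by
        rw [eq_top_iff]
        intro w _
        have hw : (w : G) ∈ (frattini Q).map Q.subtype ⊔ D := sup_le_sup_right hle D (h1 ▸ w.2)
        rw [← Subgroup.map_subgroupOf_eq_of_le hCQ, ← Subgroup.map_sup, sup_comm] at hw
        obtain ⟨u, hu, hue⟩ := hw
        exact Q.subtype_injective hue ▸ hu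
      have hall := Subgroup.subgroupOf_eq_top.1 (frattini_nongenerating h3)
      have hgQ : (g : G) ∈ Q := hcQ (Subgroup.mem_centralizer_iff.2 fun u hu => by
        have := hall hu
        rw [← hD] at this
        exact (Subgroup.mem_centralizer_iff.1 this.2 _ (Subgroup.mem_zpowers _)).symm)
      obtain ⟨j, hj⟩ := IsPGroup.iff_orderOf.1 hQp ⟨g, hgQ⟩
      rw [Subgroup.orderOf_mk, hg] at hj
      exact hlp ((Nat.prime_dvd_prime_iff_eq hl hp).1 (hl.dvd_of_dvd_pow hj.dvd))
    intro q hq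
    obtain ⟨g, rfl⟩ := hπs q
    exact ⟨g, Core.le_pCore hCn hCp hq, rfl⟩
  have hΦp : IsPGroup p Φ := hQp.to_le hΦQ
  have hcore : Cfsg.pCore p ((G ⧸ Φ) ⧸ V) = ⊥ := by
    rw [Core.pCore_quotient V (hQp.map π), Core.pCore_quotient Φ hΦp, ← hV, QuotientGroup.map_mk'_self]
  have hbpA : b ^ p ∈ A := pow_mem hbA p
  have hbpQ : b ^ p ∈ Q := hbp ▸ Nat.find_spec hex
  have hbπ : π b ∉ V := fun ⟨u, hu, hue⟩ => hbQ (by
    have h1 : u⁻¹ * b ∈ Φ := QuotientGroup.eq.1 hue
    have := mul_mem hu (hΦQ h1)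
    rwa [mul_inv_cancel_left] at this)
  obtain ⟨hp2, hinv⟩ := involves_of_bad (Core.isPSolvable_quotient hG Φ) V hVel hcen hcore (π b) hbπ
    (by rw [← map_pow]; exact ⟨_, hbpQ, rfl⟩) (by
      rintro _ ⟨u, hu, rfl⟩
      rw [← map_commutatorElement, ← map_pow]
      have huP : u ∈ (P : Subgroup G) := Core.pCore_le_sylow P hu
      have h1 : ⁅u, b⁆ ∈ A := by
        rw [commutatorElement_def, show u * b * u⁻¹ * b⁻¹ = (u * b * u⁻¹) * b⁻¹ by group]
        exact mul_mem ((Subgroup.mem_normalizer_iff.1 (hAn huP) b).1 hbA) (inv_mem hbA)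
      have h2 : ⁅u, b⁆ ∈ Q := by
        rw [commutatorElement_def, show u * b * u⁻¹ * b⁻¹ = u * (b * u⁻¹ * b⁻¹) by group]
        exact mul_mem hu (hQn.conj_mem _ (inv_mem hu) b)
      obtain ⟨j, hj⟩ := Subgroup.mem_zpowers_iff.1 (hcap _ h1 h2)
      exact Subgroup.mem_zpowers_iff.2 ⟨j, by rw [← map_zpow, hj]⟩)
  rcases hfree with h | h
  · exact h hp2
  · exact h (involves_quot π hπs hinv)

theorem le_pPrimePCore {G : Type u} [Group G] [Finite G] {p : ℕ} [Fact p.Prime] (hG : Cfsg.IsPSolvable p G)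
    (P : Sylow p G) (A : Subgroup G) (hAP : A ≤ (P : Subgroup G))
    (hAn : (P : Subgroup G) ≤ Subgroup.normalizer (A : Set G)) [IsCyclic A]
    (h : p ≠ 2 ∨ ¬ Cfsg.Involves (Equiv.Perm (Fin 4)) G) : A ≤ Cfsg.pPrimePCore p G := by
  set π := QuotientGroup.mk' (Cfsg.pPrimeCore p G) with hπ
  have hπs : Function.Surjective π := QuotientGroup.mk'_surjective _
  haveI : IsCyclic (A.map π) := isCyclic_of_surjective (π.subgroupMap A) (π.subgroupMap_surjective A)
  have := le_pCore (Core.isPSolvable_quotient hG _) (Core.pPrimeCore_quotient_pPrimeCore p G)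
    (P.mapSurjective hπs) (A.map π) (by rw [Sylow.coe_mapSurjective]; exact Subgroup.map_mono hAP)
    (by
      rw [Sylow.coe_mapSurjective]
      exact (Subgroup.map_mono hAn).trans (Subgroup.le_normalizer_map π))
    (h.imp id fun h hi => h (involves_quot π hπs hi))
  exact Subgroup.map_le_iff_le_comap.1 this

end Cfsg.Agent.Transfer.CycNormal
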