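import Cfsg.Agent.Transfer.DerivedLengthBound

/-!
The p-length against the other lengths.
-/

set_option autoImplicit false

namespace Cfsg.Agent.Transfer.LenProd

universe u

variable {G : Type u} [Group G]

/-- The image of `N` modulo `U`. -/
theorem card_image (U N : Subgroup G) [U.Normal] :
    Nat.card (N.map (QuotientGroup.mk' U)) = U.relIndex N := by
  let f : N →* G ⧸ U := (QuotientGroup.mk' U).comp N.subtype
  have hker : f.ker = U.subgroupOf N := by ext x; exact QuotientGroup.eq_one_iff _
  show _ = (U.subgroupOf N).index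
  rw [← hker, Subgroup.index_ker, MonoidHom.range_comp, Subgroup.range_subtype]

variable {p : ℕ} [Fact p.Prime]

theorem pPrimeCore_quotient_odd [Finite G] (c : ℕ) :
    Cfsg.pPrimeCore p (G ⧸ (Cfsg.upperPSeries p G (2 * c + 1)).1) = ⊥ := by
  set U := (Cfsg.upperPSeries p G (2 * c + 1)).1 with hU
  set L := (Cfsg.pPrimeCore p (G ⧸ U)).comap (QuotientGroup.mk' U) with hL
  set U0 := (Cfsg.upperPSeries p G (2 * c)).1
  have hU' : U = (Cfsg.pPrimeCore p (G ⧸ U0)).comap (QuotientGroup.mk' U0) :=
    Core.upperPSeries_succ_even p G (even_two_mul c)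
  have h01 : U0 ≤ U := Core.upperPSeries_le_succ p G _
  have hUL : U ≤ L := QuotientGroup.le_comap_mk' U _
  have c1 : (U0.relIndex U).Coprime p := by
    rw [← card_image, hU', Subgroup.map_comap_eq_self_of_surjective (QuotientGroup.mk'_surjective U0)]
    exact Core.card_pPrimeCore_coprime p _
  have c2 : (U.relIndex L).Coprime p := by
    rw [← card_image, hL, Subgroup.map_comap_eq_self_of_surjective (QuotientGroup.mk'_surjective U)]
    exact Core.card_pPrimeCore_coprime p _
  haveI hLn : L.Normal := by rw [hL]; infer_instance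
  have hle : L ≤ U := by
    rw [hU', ← Subgroup.map_le_iff_le_comap]
    refine Core.le_pPrimeCore (hLn.map _ (QuotientGroup.mk'_surjective U0)) ?_
    rw [card_image, ← Subgroup.relIndex_mul_relIndex U0 U L h01 hUL]
    exact c1.mul_left c2
  rw [eq_bot_iff]
  intro y hy
  obtain ⟨x, rfl⟩ := QuotientGroup.mk'_surjective U y
  exact (QuotientGroup.eq_one_iff x).2 (hle hy)

theorem absorb_pprime [Finite G] {M N : Subgroup G} [N.Normal] {c : ℕ}
    (hM : M ≤ (Cfsg.upperPSeries p G (2 * c + 1)).1) (h : (M.relIndex N).Coprime p) :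
    N ≤ (Cfsg.upperPSeries p G (2 * c + 1)).1 := by
  have h0 := pPrimeCore_quotient_odd (G := G) (p := p) c
  intro x hx
  have h1 : N.map (QuotientGroup.mk' (Cfsg.upperPSeries p G (2 * c + 1)).1) ≤ ⊥ := by
    rw [← h0]
    refine Core.le_pPrimeCore ((inferInstance : N.Normal).map _ (QuotientGroup.mk'_surjective _)) ?_
    rw [card_image]
    exact h.of_dvd_left (Subgroup.relIndex_dvd_of_le_left N hM)
  exact (QuotientGroup.eq_one_iff x).1 (h1 ⟨x, hx, rfl⟩)

theorem absorb_p [Finite G] {M N : Subgroup G} [N.Normal] {c k : ℕ}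
    (hM : M ≤ (Cfsg.upperPSeries p G (2 * c + 1)).1) (h : M.relIndex N = p ^ k) :
    N ≤ (Cfsg.upperPSeries p G (2 * (c + 1) + 1)).1 := by
  refine le_trans ?_ (Core.upperPSeries_le_succ p G (2 * c + 1 + 1))
  rw [Core.upperPSeries_succ_odd p G (n := 2 * c + 1) (by simp [Nat.even_add_one]), ← Subgroup.map_le_iff_le_comap]
  refine Core.le_pCore ((inferInstance : N.Normal).map _ (QuotientGroup.mk'_surjective _)) ?_
  obtain ⟨j, -, hj⟩ := (Nat.dvd_prime_pow (Fact.out : p.Prime)).1 (h ▸ Subgroup.relIndex_dvd_of_le_left N hM)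
  exact IsPGroup.of_card (n := j) (by rw [card_image, hj])

/-- Relative `p`-length. -/
def Step (p : ℕ) (M N : Subgroup G) (k : ℕ) : Prop :=
  ∀ c, M ≤ (Cfsg.upperPSeries p G (2 * c + 1)).1 → N ≤ (Cfsg.upperPSeries p G (2 * (c + k) + 1)).1

theorem Step.trans {A B C : Subgroup G} {a b : ℕ} (h1 : Step p A B a) (h2 : Step p B C b) :
    Step p A C (a + b) := fun c hA => by
  have := h2 (c + a) (h1 c hA)
  rwa [add_assoc] at this

theorem pLengthLE_of_step [Finite G] {k : ℕ} (h : Step p (⊥ : Subgroup G) ⊤ k) : Cfsg.PLengthLE p k G := by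
  have := h 0 bot_le
  rw [zero_add] at this
  exact top_le_iff.1 this

theorem series_factor (p : ℕ) [Fact p.Prime] (H : Type*) [Group H] [Finite H] (n : ℕ) :
    (Even n → ((Cfsg.upperPSeries p H n).1.relIndex (Cfsg.upperPSeries p H (n + 1)).1).Coprime p) ∧
    (¬ Even n → ∃ k, (Cfsg.upperPSeries p H n).1.relIndex (Cfsg.upperPSeries p H (n + 1)).1 = p ^ k) := by
  constructor
  · intro h
    rw [← card_image, Core.upperPSeries_succ_even p H h,
      Subgroup.map_comap_eq_self_of_surjective (QuotientGroup.mk'_surjective _)]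
    exact Core.card_pPrimeCore_coprime p _
  · intro h
    rw [← card_image, Core.upperPSeries_succ_odd p H h,
      Subgroup.map_comap_eq_self_of_surjective (QuotientGroup.mk'_surjective _)]
    exact IsPGroup.iff_card.1 (Core.isPGroup_pCore p _)

theorem step_of_section [Finite G] (M N : Subgroup G) [M.Normal] [N.Normal] (hMN : M ≤ N) {k : ℕ}
    (h : Cfsg.PLengthLE p k (N ⧸ M.subgroupOf N)) : Step p M N k := by
  classical
  set H := N ⧸ M.subgroupOf N
  set ρ := QuotientGroup.mk' (M.subgroupOf N) with hρ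
  let W : ℕ → Subgroup G := fun j => ((Cfsg.upperPSeries p H j).1.comap ρ).map N.subtype
  have hWn : ∀ j, (W j).Normal := fun j => ⟨fun x hx g => by
    obtain ⟨y, hy, rfl⟩ := hx
    let φ : N →* N := ((MulAut.conjNormal (H := N) g : MulAut N)).toMonoidHom
    have hle : M.subgroupOf N ≤ (M.subgroupOf N).comap φ := fun z hz =>
      (inferInstance : M.Normal).conj_mem _ hz g
    let ψ : H →* H := QuotientGroup.map _ _ φ hle
    have hψs : Function.Surjective ψ := by
      intro w
      obtain ⟨v, rfl⟩ := QuotientGroup.mk_surjective w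
      obtain ⟨z, hz⟩ := (MulAut.conjNormal (H := N) g : MulAut N).surjective v
      exact ⟨(z : H), congrArg _ hz⟩
    exact ⟨φ y, DerivedBound.map_upperPSeries_le p hψs j ⟨ρ y, hy, rfl⟩, rfl⟩⟩
  have hW0 : W 0 ≤ M := by
    rintro _ ⟨y, hy, rfl⟩
    rw [SetLike.mem_coe, Subgroup.mem_comap, Core.upperPSeries_zero, Subgroup.mem_bot] at hy
    exact (QuotientGroup.eq_one_iff y).1 hy
  have hWtop : N ≤ W (2 * k + 1) := fun x hx => by
    refine ⟨⟨x, hx⟩, ?_, rfl⟩
    rw [SetLike.mem_coe, Subgroup.mem_comap, show (Cfsg.upperPSeries p H (2 * k + 1)).1 = ⊤ from h]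
    trivial
  have hidx : ∀ j, (W j).relIndex (W (j + 1)) =
      (Cfsg.upperPSeries p H j).1.relIndex (Cfsg.upperPSeries p H (j + 1)).1 := fun j => by
    show (((Cfsg.upperPSeries p H j).1.comap ρ).map N.subtype).relIndex _ = _
    rw [Subgroup.relIndex_map_map_of_injective _ _ N.subtype_injective, Subgroup.relIndex_comap,
      Subgroup.map_comap_eq_self_of_surjective (QuotientGroup.mk'_surjective _)]
  intro c hc
  have key : ∀ i, W (2 * i + 1) ≤ (Cfsg.upperPSeries p G (2 * (c + i) + 1)).1 := by
    intro i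
    induction i with
    | zero =>
      haveI := hWn 1
      exact absorb_pprime (M := W 0) (hW0.trans hc) (hidx 0 ▸ (series_factor p H 0).1 Even.zero)
    | succ i ih =>
      haveI := hWn (2 * i + 2)
      haveI := hWn (2 * i + 3)
      obtain ⟨a, ha⟩ := (series_factor p H (2 * i + 1)).2 (by simp [Nat.even_add_one])
      have h1 : W (2 * i + 2) ≤ (Cfsg.upperPSeries p G (2 * (c + i + 1) + 1)).1 :=
        absorb_p (M := W (2 * i + 1)) ih ((hidx (2 * i + 1)).trans ha)
      exact absorb_pprime (M := W (2 * i + 2)) h1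
        (hidx (2 * i + 2) ▸ (series_factor p H (2 * i + 2)).1 (by simp [Nat.even_add]))
  exact hWtop.trans (key k)

theorem pLengthLE_normal [Finite G] (N : Subgroup G) [N.Normal] {k : ℕ} (h : Cfsg.PLengthLE p k G) :
    Cfsg.PLengthLE p k N := by
  let W : ℕ → Subgroup N := fun j => (Cfsg.upperPSeries p G j).1.subgroupOf N
  have hWn : ∀ j, (W j).Normal := fun j => Subgroup.Normal.subgroupOf inferInstance N
  have hdvd : ∀ j, (W j).relIndex (W (j + 1)) ∣
      (Cfsg.upperPSeries p G j).1.relIndex (Cfsg.upperPSeries p G (j + 1)).1 := fun j => by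
    show ((Cfsg.upperPSeries p G j).1.subgroupOf N).relIndex ((Cfsg.upperPSeries p G (j + 1)).1.subgroupOf N) ∣ _
    rw [Subgroup.subgroupOf, Subgroup.relIndex_comap, Subgroup.subgroupOf, Subgroup.map_comap_eq, Subgroup.range_subtype]
    exact Core.relIndex_dvd_of_le_right_of_normal inf_le_right
  have key : ∀ i, W (2 * i + 1) ≤ (Cfsg.upperPSeries p N (2 * i + 1)).1 := by
    intro i
    induction i with
    | zero =>
      haveI := hWn 1
      refine absorb_pprime (M := W 0) ?_ (((series_factor p G 0).1 Even.zero).of_dvd_left (hdvd 0))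
      show (Cfsg.upperPSeries p G 0).1.subgroupOf N ≤ _
      rw [Core.upperPSeries_zero, Subgroup.bot_subgroupOf]; exact bot_le
    | succ i ih =>
      haveI := hWn (2 * i + 2)
      haveI := hWn (2 * i + 3)
      obtain ⟨a, ha⟩ := (series_factor p G (2 * i + 1)).2 (by simp [Nat.even_add_one])
      obtain ⟨b, -, hb⟩ := (Nat.dvd_prime_pow (Fact.out : p.Prime)).1 (ha ▸ hdvd (2 * i + 1))
      have h1 := absorb_p (M := W (2 * i + 1)) ih hb
      exact absorb_pprime (M := W (2 * i + 2)) h1
        (((series_factor p G (2 * i + 2)).1 (by simp [Nat.even_add])).of_dvd_left (hdvd (2 * i + 2)))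
  refine top_le_iff.1 ((le_of_eq ?_).trans (key k))
  show ⊤ = (Cfsg.upperPSeries p G (2 * k + 1)).1.subgroupOf N
  rw [show (Cfsg.upperPSeries p G (2 * k + 1)).1 = ⊤ from h, Subgroup.top_subgroupOf]

theorem product_bound (p : ℕ) [Fact p.Prime] (σ : Finset ℕ) (hσ : ∀ s ∈ σ, s.Prime ∧ s ≠ p) :
    ∀ (G : Type u) [Group G] [Finite G] (l : ℕ → ℕ),
      (∀ s : ℕ, s.Prime → s ∣ Nat.card G → s = p ∨ s ∈ σ) →
      (∀ s ∈ σ, Cfsg.PLengthLE s (l s) G) → Cfsg.PLengthLE p (∏ s ∈ σ, (1 + l s)) G := by
  classical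
  induction σ using Finset.induction with
  | empty =>
    intro G _ _ l hprimes _
    rw [Finset.prod_empty]
    refine pLengthLE_of_step fun c hc => ?_
    have hcard : Nat.card G = p ^ (Nat.card G).primeFactorsList.length :=
      Nat.eq_prime_pow_of_unique_prime_dvd Nat.card_pos.ne' fun {d} hd hdd =>
        (hprimes d hd hdd).elim id fun h => absurd h (Finset.notMem_empty d)
    exact absorb_p (M := ⊥) hc (by rw [Subgroup.relIndex_top_right, Subgroup.index_bot]; exact hcard)
  | insert q σ hq ih =>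
    intro G _ _ l hprimes hl
    obtain ⟨hqp, hqne⟩ := hσ q (Finset.mem_insert_self q σ)
    haveI := Fact.mk hqp
    set B := ∏ s ∈ σ, (1 + l s) with hB
    let U : ℕ → Subgroup G := fun j => (Cfsg.upperPSeries q G j).1
    have hsec : ∀ j, Even j → Step p (U j) (U (j + 1)) B := by
      intro j hj
      have hle : U j ≤ U (j + 1) := Core.upperPSeries_le_succ q G j
      haveI : ((U j).subgroupOf (U (j + 1))).Normal := Subgroup.Normal.subgroupOf inferInstance _
      refine step_of_section (U j) (U (j + 1)) hle ?_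
      refine ih (fun s hs => hσ s (Finset.mem_insert_of_mem hs)) _ l (fun s hs hd => ?_) (fun s hs => ?_)
      · have hco := (series_factor q G j).1 hj
        have hd' : s ∣ (U j).relIndex (U (j + 1)) := by
          rw [← Subgroup.index_eq_card] at hd; exact hd
        rcases hprimes s hs ((hd'.trans (Subgroup.relIndex_dvd_card _ _)).trans (U (j + 1)).card_subgroup_dvd_card)
          with h | h
        · exact Or.inl h
        · rcases Finset.mem_insert.1 h with rfl | h
          · exact absurd hd' (hqp.coprime_iff_not_dvd.1 hco.symm)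
          · exact Or.inr h
      · haveI := Fact.mk (hσ s (Finset.mem_insert_of_mem hs)).1
        exact DerivedBound.pLengthLE_of_surjective (QuotientGroup.mk'_surjective _)
          (pLengthLE_normal (U (j + 1)) (hl s (Finset.mem_insert_of_mem hs)))
    have hodd : ∀ j, ¬ Even j → Step p (U j) (U (j + 1)) 0 := by
      intro j hj c hc
      obtain ⟨a, ha⟩ := (series_factor q G j).2 hj
      refine absorb_pprime (M := U j) hc ?_
      rw [show (U j).relIndex (U (j + 1)) = q ^ a from ha]
      exact ((Nat.coprime_primes hqp (Fact.out : p.Prime)).2 hqne).pow_left a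
    have key : ∀ i, Step p (⊥ : Subgroup G) (U (2 * i + 1)) ((i + 1) * B) := by
      intro i
      induction i with
      | zero => rw [zero_add, one_mul]; exact hsec 0 Even.zero
      | succ i ihk =>
        have h := (ihk.trans (hodd (2 * i + 1) (by simp [Nat.even_add_one]))).trans
          (hsec (2 * i + 2) (by simp [Nat.even_add]))
        rwa [show (i + 1) * B + 0 + B = (i + 1 + 1) * B by ring] at h
    rw [Finset.prod_insert hq, ← hB]
    refine pLengthLE_of_step ?_
    have h := key (l q)
    rw [show U (2 * l q + 1) = ⊤ from hl q (Finset.mem_insert_self q σ)] at h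
    rwa [add_comm 1]

theorem result_form (p : ℕ) [Fact p.Prime] (G : Type u) [Group G] [Finite G] (r : ℕ) (q : Fin r → ℕ)
    (hq : ∀ i, (q i).Prime ∧ q i ≠ p) (hinj : Function.Injective q)
    (hcover : ∀ s : ℕ, s.Prime → s ∣ Nat.card G → s ≠ p → ∃ i, q i = s) (l : Fin r → ℕ)
    (hl : ∀ i, Cfsg.PLengthLE (q i) (l i) G) :
    Cfsg.PLengthLE p (Finset.univ.prod fun i => 1 + l i) G := by
  classical
  let lf : ℕ → ℕ := Function.extend q l 0
  have hlf : ∀ i, lf (q i) = l i := fun i => hinj.extend_apply l 0 i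
  have h := product_bound p (Finset.univ.image q) (fun s hs => by
      obtain ⟨i, -, rfl⟩ := Finset.mem_image.1 hs
      exact hq i) G lf
    (fun s hs hd => by
      by_cases h : s = p
      · exact Or.inl h
      · obtain ⟨i, hi⟩ := hcover s hs hd h
        exact Or.inr (Finset.mem_image.2 ⟨i, Finset.mem_univ i, hi⟩))
    (fun s hs => by
      obtain ⟨i, -, rfl⟩ := Finset.mem_image.1 hs
      rw [hlf]; exact hl i)
  rw [Finset.prod_image (fun a _ b _ hab => hinj hab)] at h
  simpa [hlf] using h

end Cfsg.Agent.Transfer.LenProd
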