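import Cfsg.Agent.Core.PLength
import Cfsg.Agent.Core.MinimalNormal

/-!
Derived length against the p-lengths.
-/

set_option autoImplicit false

namespace Cfsg.Agent.Transfer.DerivedBound

universe u

variable {G : Type u} [Group G]

theorem map_upperPSeries_le {G' : Type*} [Group G'] (p : ℕ) {f : G →* G'} (hf : Function.Surjective f) :
    ∀ n, (Cfsg.upperPSeries p G n).1.map f ≤ (Cfsg.upperPSeries p G' n).1 := by
  intro n
  induction n with
  | zero => rw [Core.upperPSeries_zero, Subgroup.map_bot]; exact bot_le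
  | succ n ih =>
    have hU : (Cfsg.upperPSeries p G n).1 ≤ ((Cfsg.upperPSeries p G' n).1).comap f :=
      Subgroup.map_le_iff_le_comap.1 ih
    let g := QuotientGroup.map (Cfsg.upperPSeries p G n).1 (Cfsg.upperPSeries p G' n).1 f hU
    have hg : Function.Surjective g := by
      intro y
      obtain ⟨y', rfl⟩ := QuotientGroup.mk_surjective y
      obtain ⟨x, rfl⟩ := hf y'
      exact ⟨(x : G ⧸ (Cfsg.upperPSeries p G n).1), rfl⟩
    by_cases h : Even n
    · rw [Core.upperPSeries_succ_even p G h, Core.upperPSeries_succ_even p G' h]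
      rintro _ ⟨x, hx, rfl⟩
      exact Core.map_pPrimeCore_le hg ⟨_, hx, rfl⟩
    · rw [Core.upperPSeries_succ_odd p G h, Core.upperPSeries_succ_odd p G' h]
      rintro _ ⟨x, hx, rfl⟩
      exact Core.map_pCore_le hg ⟨_, hx, rfl⟩

theorem pLengthLE_of_surjective {G' : Type*} [Group G'] {p k : ℕ} {f : G →* G'} (hf : Function.Surjective f)
    (h : Cfsg.PLengthLE p k G) : Cfsg.PLengthLE p k G' := by
  have := map_upperPSeries_le p hf (2 * k + 1)
  rw [show (Cfsg.upperPSeries p G (2 * k + 1)).1 = ⊤ from h, Subgroup.map_top_of_surjective f hf] at this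
  exact top_le_iff.1 this

theorem derived_bound {r : ℕ} (q : Fin r → ℕ) (hq : ∀ i, (q i).Prime) (d : Fin r → ℕ) :
    ∀ (n : ℕ) (G : Type u) [Group G] [Finite G] (l : Fin r → ℕ), Nat.card G = n → Group.IsSolvable G →
      (∀ s : ℕ, s.Prime → s ∣ Nat.card G → ∃ i, q i = s) →
      (∀ i, ∀ P : Subgroup G, (haveI := Fact.mk (hq i); ∃ S : Sylow (q i) G, (S : Subgroup G) = P) →
        derivedSeries ↥P (d i) = ⊥) →
      (∀ i, Cfsg.PLengthLE (q i) (l i) G) → derivedSeries G (Finset.univ.sum fun i => d i * l i) = ⊥ := by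
  classical
  intro n
  induction n using Nat.strong_induction_on with
  | _ n ih =>
  intro G _ _ l hcard hG hcover hd hl
  haveI := hG
  rcases subsingleton_or_nontrivial G with hsub | hnt
  · exact Subsingleton.elim _ _
  -- passage to a proper quotient
  have hquot : ∀ (N : Subgroup G) [N.Normal], N ≠ ⊥ → ∀ l' : Fin r → ℕ,
      (∀ i, Cfsg.PLengthLE (q i) (l' i) (G ⧸ N)) →
      derivedSeries G (Finset.univ.sum fun i => d i * l' i) ≤ N := by
    intro N _ hN l' hl'
    set π := QuotientGroup.mk' N
    have hπs : Function.Surjective π := QuotientGroup.mk'_surjective N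
    have hlt : Nat.card (G ⧸ N) < n := by
      rw [← hcard, Subgroup.card_eq_card_quotient_mul_card_subgroup N]
      exact lt_mul_of_one_lt_right Nat.card_pos (Subgroup.one_lt_card_iff_ne_bot N |>.2 hN)
    have h := ih _ hlt (G ⧸ N) l' rfl inferInstance
      (fun s hs hd' => hcover s hs (hd'.trans (Subgroup.card_quotient_dvd_card N)))
      (fun i P' hP' => by
        haveI := Fact.mk (hq i)
        obtain ⟨S', rfl⟩ := hP'
        obtain ⟨S, rfl⟩ := Sylow.mapSurjective_surjective hπs (q i) S'
        rw [eq_bot_iff, Sylow.coe_mapSurjective,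
          ← map_derivedSeries_eq (π.subgroupMap_surjective (S : Subgroup G)) (d i), hd i S ⟨S, rfl⟩,
          Subgroup.map_bot]) hl'
    intro x hx
    have h2 : π x ∈ derivedSeries (G ⧸ N) (Finset.univ.sum fun i => d i * l' i) :=
      map_derivedSeries_le_derivedSeries π _ ⟨x, hx, rfl⟩
    rw [h, Subgroup.mem_bot] at h2
    exact (QuotientGroup.eq_one_iff x).1 h2
  obtain ⟨M, hM⟩ := Core.exists_isMinNormal (G := G)
  haveI := hM.1
  have hsameM : derivedSeries G (Finset.univ.sum fun i => d i * l i) ≤ M :=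
    hquot M hM.2.1 l fun i => pLengthLE_of_surjective (QuotientGroup.mk'_surjective M) (hl i)
  by_cases huniq : ∀ N : Subgroup G, N.Normal → N ≠ ⊥ → M ≤ N
  swap
  · push Not at huniq
    obtain ⟨N, hNn, hN, hMN⟩ := huniq
    haveI := hNn
    have hbot : M ⊓ N = ⊥ := (hM.inf_eq_bot_or_le hNn).resolve_right hMN
    rw [eq_bot_iff, ← hbot]
    exact le_inf hsameM
      (hquot N hN l fun i => pLengthLE_of_surjective (QuotientGroup.mk'_surjective N) (hl i))
  obtain ⟨-, p, hp, -, hMp⟩ := hM.elementaryAbelian (inferInstance)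
  haveI := Fact.mk hp
  obtain ⟨k, hk⟩ := IsPGroup.iff_card.1 hMp
  have hk0 : k ≠ 0 := by
    rintro rfl
    exact hM.2.1 (Subgroup.eq_bot_of_card_eq M (by simpa using hk))
  have hpG : p ∣ Nat.card G := (hk ▸ dvd_pow_self p hk0).trans M.card_subgroup_dvd_card
  obtain ⟨i, hi⟩ := hcover p hp hpG
  have hcore : Cfsg.pPrimeCore p G = ⊥ := by
    by_contra h
    have h1 := huniq _ inferInstance h
    have h2 := Subgroup.card_dvd_of_le h1
    have h3 := (Core.card_pPrimeCore_coprime p G).of_dvd_left h2
    rw [hk] at h3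
    exact hp.ne_one (Nat.eq_one_of_dvd_coprimes h3 (dvd_pow_self p hk0) dvd_rfl)
  have hl1 : l i ≠ 0 := by
    intro h
    have := hl i
    rw [h, Core.pLengthLE_zero_iff, hi] at this
    exact hp.coprime_iff_not_dvd.1 this.symm hpG
  set Q := Cfsg.pCore p G with hQ
  have hQp : IsPGroup p Q := Core.isPGroup_pCore p G
  haveI : Q.Normal := inferInstance
  have hQne : Q ≠ ⊥ := fun h => hM.2.1 (le_bot_iff.1 (h ▸ Core.le_pCore hM.1 hMp))
  set l' := Function.update l i (l i - 1) with hl'
  have hle : derivedSeries G (Finset.univ.sum fun j => d j * l' j) ≤ Q := by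
    refine hquot Q hQne l' fun j => ?_
    by_cases hj : j = i
    · subst hj
      rw [hl', Function.update_self, hi]
      have h1 := hl j
      rw [hi, show l j = (l j - 1) + 1 by omega, Core.pLengthLE_succ_iff] at h1
      have hQeq : Cfsg.pPrimePCore p G = Q := Core.pPrimePCore_eq_pCore hcore
      exact pLengthLE_of_surjective
        (f := (QuotientGroup.quotientMulEquivOfEq hQeq).toMonoidHom) (MulEquiv.surjective _) h1
    · rw [hl', Function.update_of_ne hj]
      exact pLengthLE_of_surjective (QuotientGroup.mk'_surjective Q) (hl j)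
  have hsum : (Finset.univ.sum fun j => d j * l j) = (Finset.univ.sum fun j => d j * l' j) + d i := by
    rw [← Finset.add_sum_erase _ _ (Finset.mem_univ i), ← Finset.add_sum_erase _ (fun j => d j * l' j) (Finset.mem_univ i)]
    have he : ∀ j ∈ Finset.univ.erase i, d j * l j = d j * l' j := fun j hj => by
      rw [hl', Function.update_of_ne (Finset.ne_of_mem_erase hj)]
    rw [Finset.sum_congr rfl he, hl', Function.update_self]
    have : d i * l i = d i * (l i - 1) + d i := by
      conv_lhs => rw [show l i = (l i - 1) + 1 by omega]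
      ring
    omega
  rw [hsum, eq_bot_iff]
  haveI := Fact.mk (hq i)
  have hSy : ∃ S : Sylow (q i) G, Q ≤ (S : Subgroup G) := (hi ▸ hQp : IsPGroup (q i) Q).exists_le_sylow
  obtain ⟨S, hS⟩ := hSy
  have hQd : derivedSeries Q (d i) = ⊥ := by
    rw [eq_bot_iff]
    intro x hx
    have h1 : Subgroup.inclusion hS x ∈ derivedSeries ↥(S : Subgroup G) (d i) :=
      map_derivedSeries_le_derivedSeries _ _ ⟨x, hx, rfl⟩
    rw [hd i S ⟨S, rfl⟩, Subgroup.mem_bot] at h1
    exact Subgroup.mem_bot.2 (Subgroup.inclusion_injective hS (h1.trans (map_one _).symm))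
  have key : ∀ k, derivedSeries G ((Finset.univ.sum fun j => d j * l' j) + k) ≤ (derivedSeries Q k).map Q.subtype := by
    intro k
    induction k with
    | zero => rw [Nat.add_zero, derivedSeries_zero, ← MonoidHom.range_eq_map, Subgroup.range_subtype]; exact hle
    | succ k ihk =>
      rw [← Nat.add_assoc, derivedSeries_succ, derivedSeries_succ, Subgroup.map_commutator]
      exact Subgroup.commutator_mono ihk ihk
  refine (key (d i)).trans ?_
  rw [hQd, Subgroup.map_bot]

end Cfsg.Agent.Transfer.DerivedBound
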