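/-
The two configurations that are excluded in the proof of Ward's theorem: an elementary abelian q-group
with a nondegenerate alternating pairing, an r-group of isometries without fixed points, and an
automorphism of order p in the exceptional Hall–Higman situation.
-/
import Cfsg.Agent.Transfer.WeightSpace
import Cfsg.Agent.Transfer.ModuleBC
import Mathlib.FieldTheory.Finite.Basic
import Mathlib.RingTheory.Polynomial.Basic

set_option autoImplicit false
set_option linter.style.haveILetI false
set_option linter.unusedSectionVars false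

namespace Cfsg.Agent.Transfer.WardEndgame

open Polynomial Module
open scoped TensorProduct

variable {X : Type*} [CommGroup X] [Finite X]

theorem pow_injective_of_coprime {M : Type*} [Group M] [Finite M] {n : ℕ}
    (h : (Nat.card M).Coprime n) {x y : M} (hxy : x ^ n = y ^ n) : x = y :=
  (powCoprime h).injective hxy

/-- The norm of an automorphism of order `p`. -/
def norm (a : MulAut X) (p : ℕ) (x : X) : X := ∏ i ∈ Finset.range p, (a ^ i) x

theorem apply_norm {a : MulAut X} {p : ℕ} (ha : a ^ p = 1) (x : X) : a (norm a p x) = norm a p x := by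
  unfold norm
  rw [map_prod]
  have e1 := Finset.prod_range_succ' (fun i => (a ^ i) x) p
  have e2 := Finset.prod_range_succ (fun i => (a ^ i) x) p
  rw [e2, ha, pow_zero] at e1
  rw [mul_right_cancel e1]
  exact Finset.prod_congr rfl fun i _ => by rw [pow_succ', MulAut.mul_apply]

/-- The moved part. -/
def moved (a : MulAut X) : Subgroup X :=
  (MonoidHom.mk' (fun x : X => x⁻¹ * a x) fun x y => by
    rw [map_mul, mul_inv_rev]; ac_rfl).range

theorem moved_eq_bot_iff (a : MulAut X) : moved a = ⊥ ↔ ∀ x, a x = x := by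
  rw [Subgroup.eq_bot_iff_forall]
  constructor
  · exact fun h x => (inv_mul_eq_one.mp (h _ ⟨x, rfl⟩)).symm
  · rintro h _ ⟨x, rfl⟩; show x⁻¹ * a x = 1; rw [h, inv_mul_cancel]

theorem pow_eq_norm_mul {a : MulAut X} {p : ℕ} (x : X) :
    ∃ y ∈ moved a, x ^ p = norm a p x * y := by
  refine ⟨(norm a p x)⁻¹ * x ^ p, ?_, (mul_inv_cancel_left _ _).symm⟩
  unfold norm
  rw [← Finset.prod_inv_distrib, show x ^ p = ∏ _i ∈ Finset.range p, x by
    rw [Finset.prod_const, Finset.card_range], ← Finset.prod_mul_distrib]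
  refine Subgroup.prod_mem _ fun i hi => ?_
  clear hi
  induction i with
  | zero => simp
  | succ i ih =>
    have h : ((a ^ (i + 1)) x)⁻¹ * x =
        (((a ^ i) x)⁻¹ * a ((a ^ i) x))⁻¹ * (((a ^ i) x)⁻¹ * x) := by
      rw [pow_succ', MulAut.mul_apply]; group
    rw [h]
    exact Subgroup.mul_mem _ (Subgroup.inv_mem _ ⟨_, rfl⟩) ih

theorem fixed_inf_moved {a : MulAut X} {p : ℕ} (ha : a ^ p = 1) (hcop : (Nat.card X).Coprime p)
    {y : X} (hy : y ∈ moved a) (hfix : a y = y) : y = 1 := by
  obtain ⟨x, rfl⟩ := hy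
  have hfix' : a (x⁻¹ * a x) = x⁻¹ * a x := hfix
  show x⁻¹ * a x = 1
  have h : ∀ i, (a ^ i) x = x * (x⁻¹ * a x) ^ i := by
    intro i
    induction i with
    | zero => simp
    | succ i ih =>
      rw [pow_succ', MulAut.mul_apply, ih, map_mul, map_pow, hfix', pow_succ', ← mul_assoc x,
        mul_inv_cancel_left]
  have h2 := h p
  rw [ha, MulAut.one_apply, left_eq_mul] at h2
  exact pow_injective_of_coprime hcop (h2.trans (one_pow p).symm)

theorem card_split {a : MulAut X} {p : ℕ} (ha : a ^ p = 1) (hcop : (Nat.card X).Coprime p) :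
    Nat.card X = Nat.card (a.toMonoidHom.eqLocus (MonoidHom.id X)) * Nat.card (moved a) := by
  set C := a.toMonoidHom.eqLocus (MonoidHom.id X)
  have hb : C ⊓ moved a = ⊥ := (Subgroup.eq_bot_iff_forall _).mpr fun y hy =>
    fixed_inf_moved ha hcop hy.2 hy.1
  have ht : C ⊔ moved a = ⊤ := eq_top_iff.mpr fun x _ => by
    obtain ⟨k, hk⟩ := exists_pow_eq_self_of_coprime
      (Nat.Coprime.coprime_dvd_right (orderOf_dvd_natCard x) hcop.symm)
    obtain ⟨y, hy, hxy⟩ := pow_eq_norm_mul (a := a) (p := p) x
    rw [← hk, hxy]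
    exact Subgroup.pow_mem _ (Subgroup.mul_mem _ (Subgroup.mem_sup_left (apply_norm ha x))
      (Subgroup.mem_sup_right hy)) k
  have h := (Subgroup.isComplement'_of_disjoint_and_mul_eq_univ (disjoint_iff.mpr hb) (by
    rw [← Subgroup.normal_mul, ht, Subgroup.coe_top])).card_mul
  exact h.symm

variable {K : Type*} [Field K]

/-- An alternating nondegenerate pairing. -/
structure IsPairing (ω : X → X → K) : Prop where
  mul_left : ∀ x y z, ω (x * y) z = ω x z * ω y z
  mul_right : ∀ x y z, ω x (y * z) = ω x y * ω x z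
  self : ∀ x, ω x x = 1
  nondeg : ∀ x, (∀ y, ω x y = 1) → x = 1
  ne_zero : ∀ x y, ω x y ≠ 0

theorem IsPairing.one_right {ω : X → X → K} (hω : IsPairing ω) (x : X) : ω x 1 = 1 := by
  have h := hω.mul_right x 1 1
  rw [mul_one] at h
  exact mul_left_cancel₀ (hω.ne_zero x 1) (by rw [mul_one]; exact h.symm)

theorem IsPairing.one_left {ω : X → X → K} (hω : IsPairing ω) (x : X) : ω 1 x = 1 := by
  have h := hω.mul_left 1 1 x
  rw [mul_one] at h
  exact mul_left_cancel₀ (hω.ne_zero 1 x) (by rw [mul_one]; exact h.symm)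

theorem IsPairing.moved_orth {ω : X → X → K} (hω : IsPairing ω) {a : MulAut X}
    (hinv : ∀ x y, ω (a x) (a y) = ω x y) {c : X} (hc : a c = c) {y : X} (hy : y ∈ moved a) :
    ω c y = 1 := by
  obtain ⟨x, rfl⟩ := hy
  show ω c (x⁻¹ * a x) = 1
  have h2 : ω c (a x) = ω c x := by
    conv_lhs => rw [← hc]
    exact hinv c x
  rw [hω.mul_right, h2, ← hω.mul_right, inv_mul_cancel, hω.one_right]

/-- The configuration where `a` commutes with the isometries and has no fixed point. -/
theorem trivial_of_centralizer {n p : ℕ} (hp : p.Prime) (hn : 1 ≤ n) (hpn : p = 2 ^ n + 1)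
    (hexp : ∀ x : X, x ^ 2 = 1) (hcard : Nat.card X = 2 ^ (2 * n)) {ω : X → X → K} (hω : IsPairing ω)
    (a : MulAut X) (ha : a ^ p = 1) (hfpf : ∀ x, a x = x → x = 1) (hinv : ∀ x y, ω (a x) (a y) = ω x y)
    (g : MulAut X) (hga : ∀ x, g (a x) = a (g x)) (hg : ∀ x y, ω (g x) (g y) = ω x y) : g ^ p = 1 := by
  classical
  haveI : Fact p.Prime := ⟨hp⟩
  letI : Module (ZMod 2) (Additive X) := ModuleBC.modOfExp hexp
  haveI : Fact (Nat.Prime 2) := ⟨Nat.prime_two⟩
  set E := Module.End (ZMod 2) (Additive X)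
  set A : E := ModuleBC.toEnd 2 a with hA
  set Gm : E := ModuleBC.toEnd 2 g with hG
  have happ : ∀ (e : MulAut X) (x : X), ModuleBC.toEnd 2 e (Additive.ofMul x) = Additive.ofMul (e x) :=
    fun e x => rfl
  obtain ⟨x₀, hx₀⟩ : ∃ x : X, x ≠ 1 := by
    by_contra h
    push Not at h
    haveI : Subsingleton X := ⟨fun a b => (h a).trans (h b).symm⟩
    rw [Nat.card_unique] at hcard
    exact (Nat.one_lt_pow (by omega) one_lt_two).ne hcard
  -- the orbit of `x₀` spans
  let S : Submodule (ZMod 2) (Additive X) :=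
    LinearMap.range (((LinearMap.applyₗ (Additive.ofMul x₀)) : E →ₗ[ZMod 2] Additive X) ∘ₗ
      (Polynomial.aeval A).toLinearMap)
  have hS : ∀ y, y ∈ S ↔ ∃ f : (ZMod 2)[X], Polynomial.aeval A f (Additive.ofMul x₀) = y := fun y => Iff.rfl
  have hSA : ∀ y ∈ S, A y ∈ S := fun y hy => by
    obtain ⟨f, rfl⟩ := (hS y).mp hy
    exact (hS _).mpr ⟨Polynomial.X * f, by rw [map_mul, aeval_X, Module.End.mul_apply]⟩
  have hStop : ∀ y, y ∈ S := by
    let S' : Subgroup X := AddSubgroup.toSubgroup' S.toAddSubgroup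
    have hmem : ∀ x : X, x ∈ S' ↔ Additive.ofMul x ∈ S := fun x => Iff.rfl
    have hx0 : x₀ ∈ S' := (hmem _).mpr ((hS _).mpr ⟨1, by rw [map_one, Module.End.one_apply]⟩)
    have hS'a : ∀ x ∈ S', a x ∈ S' := fun x hx => (hmem _).mpr (by rw [← happ]; exact hSA _ ((hmem x).mp hx))
    obtain ⟨k, hk, hkc⟩ := (Nat.dvd_prime_pow Nat.prime_two).mp (hcard ▸ Subgroup.card_subgroup_dvd_card S')
    have hk0 : 1 ≤ k := by
      by_contra h
      rw [Nat.lt_one_iff.mp (not_le.mp h), pow_zero, Subgroup.card_eq_one] at hkc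
      exact hx₀ (by rwa [hkc, Subgroup.mem_bot] at hx0)
    -- `p` divides `2 ^ k - 1`
    have hmod : 2 ^ k ≡ 1 [MOD p] := by
      have hP : IsPGroup p (Subgroup.zpowers a) := by
        intro z
        obtain ⟨i, hi⟩ := Subgroup.mem_zpowers_iff.mp z.2
        refine ⟨1, Subtype.ext ?_⟩
        rw [Subgroup.coe_pow, ← hi, pow_one, ← zpow_natCast, zpow_comm, zpow_natCast, ha, one_zpow]
        rfl
      have hmapS : ∀ z : Subgroup.zpowers a, ∀ x ∈ S', (z : MulAut X) x ∈ S' := by
        rintro ⟨z, hz⟩ x hx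
        obtain ⟨i, rfl⟩ := (IsOfFinOrder.mem_powers_iff_mem_zpowers
          (isOfFinOrder_iff_pow_eq_one.mpr ⟨p, hp.pos, ha⟩)).mpr hz
        show (a ^ i) x ∈ S'
        induction i with
        | zero => simpa using hx
        | succ i ih => rw [pow_succ', MulAut.mul_apply]; exact hS'a _ (ih (Subgroup.pow_mem _ (Subgroup.mem_zpowers a) i))
      letI : MulAction (Subgroup.zpowers a) S' :=
        { smul := fun z x => ⟨(z : MulAut X) x, hmapS z x x.2⟩
          one_smul := fun x => Subtype.ext rfl
          mul_smul := fun z w x => Subtype.ext rfl }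
      have hfx : MulAction.fixedPoints (Subgroup.zpowers a) S' = {1} := by
        ext x
        simp only [MulAction.mem_fixedPoints, Set.mem_singleton_iff]
        constructor
        · intro hx
          exact Subtype.ext (hfpf _ (congrArg Subtype.val (hx ⟨a, Subgroup.mem_zpowers a⟩)))
        · rintro rfl z
          exact Subtype.ext (map_one (z : MulAut X))
      have h := hP.card_modEq_card_fixedPoints S'
      rw [hfx, hkc, Nat.card_coe_set_eq, Set.ncard_singleton] at h
      exact h
    have hdvd : p ∣ 2 ^ k - 1 := (Nat.modEq_iff_dvd' (Nat.one_le_two_pow)).mp hmod.symm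
    have hk2 : k = 2 * n := by
      rcases Nat.lt_or_ge k (2 * n) with hlt | hge
      swap
      · omega
      exfalso
      rcases Nat.lt_or_ge n k with hnk | hkn
      · obtain ⟨j, rfl⟩ : ∃ j, k = n + j := ⟨k - n, by omega⟩
        have h1 : p ∣ 2 ^ (n + j) + 2 ^ j := by
          rw [pow_add, ← Nat.succ_mul, Nat.succ_eq_add_one, ← hpn]
          exact dvd_mul_right p _
        have h2 : p ∣ 2 ^ j + 1 := by
          have h3 : 1 ≤ 2 ^ (n + j) := Nat.one_le_two_pow
          have e : 2 ^ (n + j) + 2 ^ j = (2 ^ (n + j) - 1) + (2 ^ j + 1) := by omega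
          rw [e] at h1
          exact (Nat.dvd_add_right hdvd).mp h1
        have h4 : 2 ^ j < 2 ^ n := Nat.pow_lt_pow_right one_lt_two (by omega)
        have := Nat.le_of_dvd (Nat.succ_pos _) h2
        omega
      · have h4 : 2 ^ k ≤ 2 ^ n := Nat.pow_le_pow_right two_pos hkn
        have h5 : 2 ≤ 2 ^ k := by
          calc 2 = 2 ^ 1 := rfl
            _ ≤ _ := Nat.pow_le_pow_right two_pos hk0
        have := Nat.le_of_dvd (show 0 < 2 ^ k - 1 by omega) hdvd
        omega
    have htop : S' = ⊤ := Subgroup.eq_top_of_card_eq S' (by rw [hkc, hk2, hcard])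
    intro y
    obtain ⟨x, rfl⟩ := Additive.ofMul.surjective y
    exact (hmem x).mp (htop ▸ Subgroup.mem_top x)
  have hAG : Commute A Gm := by
    show A * Gm = Gm * A
    rw [hA, hG, ← map_mul, ← map_mul]
    exact congrArg _ (MulEquiv.ext fun x => (hga x).symm)
  -- `g` is a polynomial in `a`
  obtain ⟨f, hf⟩ := (hS _).mp (hStop (Gm (Additive.ofMul x₀)))
  have hpoly : Gm = Polynomial.aeval A f := by
    refine LinearMap.ext fun y => ?_
    obtain ⟨h, rfl⟩ := (hS y).mp (hStop y)
    have hc : Commute Gm (Polynomial.aeval A h) := by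
      induction h using Polynomial.induction_on' with
      | add f₁ f₂ h₁ h₂ =>
        rw [map_add]
        exact Commute.add_right h₁ h₂
      | monomial i c =>
        rw [Polynomial.aeval_monomial, ← Algebra.smul_def]
        exact (hAG.symm.pow_right i).smul_right c
    rw [← Module.End.mul_apply, hc.eq, Module.End.mul_apply, ← hf, ← Module.End.mul_apply, ← Module.End.mul_apply,
      ← map_mul, ← map_mul, mul_comm]
  -- adjoints
  set ω' : Additive X → Additive X → K := fun u v => ω u.toMul v.toMul with hω'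
  have hadd : ∀ u v w, ω' (u + v) w = ω' u w * ω' v w ∧ ω' w (u + v) = ω' w u * ω' w v :=
    fun u v w => ⟨hω.mul_left _ _ _, hω.mul_right _ _ _⟩
  let Ai : E := A ^ (p - 1)
  have hAAi : A * Ai = 1 := by
    rw [← pow_succ', Nat.sub_add_cancel hp.one_lt.le, hA, ← map_pow, ha, map_one]
  have hadjA : ∀ (i : ℕ) (u v : Additive X), ω' ((A ^ i) u) v = ω' u ((Ai ^ i) v) := by
    intro i
    induction i with
    | zero => intro u v; rw [pow_zero, pow_zero]; rfl
    | succ i ih =>
      intro u v
      rw [pow_succ A, Module.End.mul_apply, ih, pow_succ' Ai, Module.End.mul_apply]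
      have h1 : (Ai ^ i) v = A (Ai ((Ai ^ i) v)) := by
        rw [← Module.End.mul_apply, hAAi, Module.End.one_apply]
      conv_lhs => rw [h1]
      exact hinv u.toMul (Ai ((Ai ^ i) v)).toMul
  have hadj : ∀ (h : (ZMod 2)[X]) (u v : Additive X),
      ω' (Polynomial.aeval A h u) v = ω' u (Polynomial.aeval Ai h v) := by
    intro h
    induction h using Polynomial.induction_on' with
    | add f₁ f₂ h₁ h₂ =>
      intro u v
      rw [map_add, map_add]
      show ω' (Polynomial.aeval A f₁ u + Polynomial.aeval A f₂ u) v = ω' u (Polynomial.aeval Ai f₁ v + Polynomial.aeval Ai f₂ v)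
      rw [(hadd _ _ _).1, (hadd _ _ _).2, h₁, h₂]
    | monomial i c =>
      intro u v
      simp only [Polynomial.aeval_monomial, ← Algebra.smul_def, LinearMap.smul_apply]
      fin_cases c
      · show ω' ((0 : ZMod 2) • _) v = ω' u ((0 : ZMod 2) • _)
        rw [zero_smul, zero_smul]
        exact (hω.one_left _).trans (hω.one_right _).symm
      · show ω' ((1 : ZMod 2) • _) v = ω' u ((1 : ZMod 2) • _)
        rw [one_smul, one_smul]
        exact hadjA i u v
  have hfrob : ∀ m : ℕ, ∀ h : (ZMod 2)[X], Polynomial.aeval (A ^ (2 ^ m)) h = (Polynomial.aeval A h) ^ (2 ^ m) := by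
    intro m
    induction m with
    | zero => simp
    | succ m ih =>
      intro h
      rw [pow_succ, pow_mul, pow_mul, ← ih]
      have := congrArg (Polynomial.aeval (A ^ (2 ^ m))) (ZMod.expand_card (p := 2) h)
      rw [Polynomial.expand_aeval, map_pow] at this
      exact this
  have hkey : ∀ u v, ω' (Gm u) (Gm v) = ω' u ((Gm ^ p) v) := by
    intro u v
    conv_lhs => rw [hpoly, hadj]
    rw [show Ai = A ^ (2 ^ n) by rw [show Ai = A ^ (p - 1) from rfl, hpn, Nat.add_sub_cancel], hfrob,
      ← hpoly, ← Module.End.mul_apply, hpn, pow_succ]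
  refine MulEquiv.ext fun y => ?_
  rw [MulAut.one_apply]
  have hall : ∀ z, ω z ((g ^ p) y) = ω z y := by
    intro z
    have h := hkey (Additive.ofMul z) (Additive.ofMul y)
    rw [hG, ← map_pow, happ, happ, happ] at h
    exact h.symm.trans (hg z y)
  refine inv_mul_eq_one.mp (?_ : y⁻¹ * (g ^ p) y = 1) |>.symm
  refine hω.nondeg _ fun z => ?_
  have hz1 : ω z (y⁻¹ * (g ^ p) y) = 1 := by
    rw [hω.mul_right, hall, ← hω.mul_right, inv_mul_cancel, hω.one_right]
  have hskew : ω (y⁻¹ * (g ^ p) y) z * ω z (y⁻¹ * (g ^ p) y) = 1 := by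
    generalize y⁻¹ * (g ^ p) y = s
    have h := hω.self (s * z)
    rwa [hω.mul_left, hω.mul_right, hω.mul_right, hω.self, hω.self, one_mul, mul_one] at h
  rwa [hz1, mul_one] at hskew

/-- The configuration where `a` acts fixed-point-freely on the isometries. -/
theorem false_of_frobenius {q p : ℕ} [Fact q.Prime] (hp : p.Prime) (hpq : p ≠ q)
    (hexp : ∀ x : X, x ^ q = 1) [Nontrivial X] {ω : X → X → K} (hω : IsPairing ω) (a : MulAut X)
    (ha : a ^ p = 1) (hinv : ∀ x y, ω (a x) (a y) = ω x y)
    {B : Type*} [CommGroup B] [Finite B] (β : B →* MulAut X) (hβ : (Nat.card B).Coprime q)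
    (hB : ∀ x, (∀ b, β b x = x) → x = 1) (t : MulAut B) (ht : t ^ p = 1) (htfpf : ∀ b, t b = b → b = 1)
    (hcomp : ∀ b x, a (β b x) = β (t b) (a x))
    (hHH : moved a ≠ ⊥ → q = 2 ∧ ∃ n, 1 ≤ n ∧ p = 2 ^ n + 1 ∧ Nat.card (moved a) = 2 ^ (2 * n)) :
    False := by
  classical
  haveI := Fintype.ofFinite B
  letI : Module (ZMod q) (Additive X) := ModuleBC.modOfExp hexp
  haveI : Finite (Additive X) := inferInstanceAs (Finite X)
  haveI : FiniteDimensional (ZMod q) (Additive X) := Module.Finite.of_finite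
  haveI := ModuleBC.nontrivial_bc (M := X) q
  set ρ := (ModuleBC.bcRep q).comp β with hρ
  set T := ModuleBC.bcRep (M := X) q a with hT
  have hBK : (Nat.card B : ModuleBC.Kbar q) ≠ 0 := ModuleBC.natCast_ne_zero q fun h =>
    (Fact.out : q.Prime).ne_one (Nat.eq_one_of_dvd_coprimes hβ h dvd_rfl)
  have hTρ : ∀ b, T * ρ b = ρ (t b) * T := fun b => by
    rw [hρ, hT, MonoidHom.comp_apply, MonoidHom.comp_apply, ← map_mul, ← map_mul]
    exact congrArg _ (MulEquiv.ext fun x => hcomp b x)
  have hTp : T ^ p = 1 := by rw [hT, ← map_pow, ha, map_one]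
  -- no fixed vectors of `B`
  have h0 : ∀ v, (∀ b, ρ b v = v) → v = 0 := by
    intro v hv
    have hsum : ∑ b, ρ b = 0 := by
      have h1 : ∑ b, ModuleBC.toEnd q (β b) = 0 := by
        refine LinearMap.ext fun u => ?_
        rw [LinearMap.sum_apply, LinearMap.zero_apply]
        obtain ⟨x, hx⟩ := Additive.ofMul.surjective (∑ b, ModuleBC.toEnd q (β b) u)
        rw [← hx, hB x fun c => ?_, ofMul_one]
        refine Additive.ofMul.injective ?_
        rw [← ModuleBC.toEnd_apply q, hx, map_sum]
        refine Fintype.sum_equiv (Equiv.mulLeft c) _ _ fun b => ?_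
        rw [← Module.End.mul_apply, ← map_mul, ← map_mul]; rfl
      have := congrArg (Module.End.baseChangeHom (ZMod q) (ModuleBC.Kbar q) (Additive X)) h1
      rw [map_sum, map_zero] at this
      exact this
    have h := LinearMap.congr_fun hsum v
    rw [LinearMap.sum_apply, Finset.sum_congr rfl (fun b _ => hv b), Finset.sum_const, Finset.card_univ,
      ← Nat.card_eq_fintype_card, ← Nat.cast_smul_eq_nsmul (ModuleBC.Kbar q), LinearMap.zero_apply] at h
    exact (smul_eq_zero.mp h).resolve_left hBK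
  have hineq := WeightSpace.finrank_fixed_mul_le ρ hBK hp t ht htfpf T hTp hTρ h0
  rw [Module.finrank_tensorProduct, Module.finrank_self, one_mul] at hineq
  let C := LinearMap.ker (ModuleBC.toEnd q a - 1)
  have hCle : finrank (ZMod q) C ≤ finrank (ModuleBC.Kbar q) (LinearMap.ker (T - 1)) := by
    let bC := Module.finBasis (ZMod q) C
    have hli := Module.Flat.linearIndependent_one_tmul (S := ModuleBC.Kbar q)
      (bC.linearIndependent.map' C.subtype C.ker_subtype)
    let w : Fin (finrank (ZMod q) C) → LinearMap.ker (T - 1) := fun i =>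
      ⟨(1 : ModuleBC.Kbar q) ⊗ₜ[ZMod q] ((bC i : C) : Additive X), by
        have h := (bC i).2
        rw [LinearMap.mem_ker, LinearMap.sub_apply, Module.End.one_apply, sub_eq_zero] at h
        rw [LinearMap.mem_ker, LinearMap.sub_apply, Module.End.one_apply, sub_eq_zero]
        show LinearMap.baseChange _ (ModuleBC.toEnd q a) _ = _
        rw [LinearMap.baseChange_tmul, h]⟩
    have hw : LinearIndependent (ModuleBC.Kbar q) w :=
      LinearIndependent.of_comp (LinearMap.ker (T - 1)).subtype hli
    simpa using hw.fintype_card_le_finrank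
  -- a fixed point exists
  obtain ⟨c, hc, hc1⟩ : ∃ c : X, a c = c ∧ c ≠ 1 := by
    by_contra h
    push Not at h
    obtain ⟨v, hv0⟩ := exists_ne (0 : ModuleBC.Kbar q ⊗[ZMod q] Additive X)
    obtain ⟨χ, hχ⟩ := WeightSpace.exists_proj_ne_zero ρ hBK hv0
    set u := WeightSpace.proj ρ χ v with hu
    have hw := WeightSpace.proj_isWeightVector ρ χ v
    haveI : Fact p.Prime := ⟨hp⟩
    have hsum := ModuleBC.sum_bcRep_eq_zero q a ha h
    have hpr := congrArg (WeightSpace.proj ρ χ) (LinearMap.congr_fun hsum u)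
    rw [LinearMap.sum_apply, map_sum, LinearMap.zero_apply, map_zero, Finset.sum_eq_single 0] at hpr
    · rw [pow_zero, Module.End.one_apply, WeightSpace.proj_apply_self ρ hBK hw] at hpr
      exact hχ hpr
    · intro i hi hi0
      have htm : ∀ b, (T ^ i) * ρ b = ρ ((t ^ i) b) * (T ^ i) := by
        intro b
        clear hi hi0
        induction i generalizing b with
        | zero => simp
        | succ i ihm => rw [pow_succ, mul_assoc, hTρ, ← mul_assoc, ihm, pow_succ, MulAut.mul_apply, mul_assoc]
      refine WeightSpace.proj_apply_ne ρ (fun he => hχ ?_) (WeightSpace.isWeightVector_map ρ htm hw)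
      -- `χ` is fixed, hence trivial
      refine h0 _ fun b => ?_
      rw [hu, WeightSpace.rho_apply_proj]
      suffices χ b = 1 by rw [WeightSpace.wt, this, Units.val_one, one_smul]
      have hti : ∀ x, (t ^ i) x = x → x = 1 := by
        intro x hx
        obtain ⟨j, hj⟩ := Nat.exists_mul_mod_eq_one_of_coprime
          ((Nat.coprime_of_lt_prime hi0 (Finset.mem_range.mp hi) hp).symm) hp.one_lt
        have hk : ∀ k, (t ^ (i * k)) x = x := by
          intro k
          induction k with
          | zero => simp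
          | succ k ih => rw [Nat.mul_succ, pow_add, MulAut.mul_apply, hx, ih]
        refine htfpf x ?_
        have := hk j
        rw [← Nat.div_add_mod (i * j) p, hj.2, pow_add, pow_mul, ht, one_pow, one_mul, pow_one] at this
        exact this
      obtain ⟨y, hy⟩ := (Finite.injective_iff_surjective (f := fun y : B => y⁻¹ * (t ^ i) y)).mp (by
        intro x x' hxx
        have h' : x⁻¹ * (t ^ i) x = x'⁻¹ * (t ^ i) x' := hxx
        refine (inv_mul_eq_one.mp (hti (x'⁻¹ * x) ?_)).symm
        rw [map_mul, map_inv]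
        calc ((t ^ i) x')⁻¹ * (t ^ i) x = ((t ^ i) x')⁻¹ * (x * (x⁻¹ * (t ^ i) x)) := by group
          _ = ((t ^ i) x')⁻¹ * (x * (x'⁻¹ * (t ^ i) x')) := by rw [h']
          _ = x'⁻¹ * x := by rw [mul_comm, ← mul_assoc, mul_inv_cancel_right, mul_comm]) b
      have h2 := DFunLike.congr_fun he ((t ^ i) y)
      simp only [MonoidHom.comp_apply, MulEquiv.coe_toMonoidHom, MulAut.inv_apply_self] at h2
      rw [← hy, map_mul, map_inv, h2, inv_mul_cancel]
    · exact fun hn => absurd (Finset.mem_range.mpr hp.pos) hn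
  obtain ⟨m, hm⟩ := IsPGroup.iff_card.mp (fun x => ⟨1, by rw [pow_one, hexp]⟩ : IsPGroup q X)
  have hcopX : (Nat.card X).Coprime p := by
    rw [hm]; exact ((Nat.coprime_primes Fact.out hp).mpr (Ne.symm hpq)).pow_left m
  have hcardC : Nat.card (a.toMonoidHom.eqLocus (MonoidHom.id X)) = q ^ finrank (ZMod q) C := by
    have he : Nat.card (a.toMonoidHom.eqLocus (MonoidHom.id X)) = Nat.card C := by
      refine Nat.card_congr
        { toFun := fun x => ⟨Additive.ofMul (x : X), by
            rw [LinearMap.mem_ker, LinearMap.sub_apply, Module.End.one_apply, sub_eq_zero, ModuleBC.toEnd_apply]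
            exact congrArg _ x.2⟩
          invFun := fun u => ⟨(u : Additive X).toMul, by
            have h := u.2
            rw [LinearMap.mem_ker, LinearMap.sub_apply, Module.End.one_apply, sub_eq_zero] at h
            exact congrArg Additive.toMul h⟩
          left_inv := fun x => rfl
          right_inv := fun u => rfl }
    rw [he, Module.natCard_eq_pow_finrank (K := ZMod q), Nat.card_zmod]
  have hXd : Nat.card X = q ^ finrank (ZMod q) (Additive X) := by
    show Nat.card (Additive X) = _
    rw [Module.natCard_eq_pow_finrank (K := ZMod q), Nat.card_zmod]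
  have hc0 : 1 ≤ finrank (ZMod q) C := by
    by_contra h
    rw [Nat.lt_one_iff.mp (not_le.mp h), pow_zero, Subgroup.card_eq_one] at hcardC
    exact hc1 ((Subgroup.eq_bot_iff_forall _).mp hcardC c hc)
  have hq1 := (Fact.out : q.Prime).one_lt
  have hsplit := card_split ha hcopX
  by_cases hK : moved a = ⊥
  · rw [hK, Subgroup.card_bot, mul_one, hXd, hcardC] at hsplit
    have hd := Nat.pow_right_injective hq1 hsplit
    rw [hd] at hineq
    have := hp.two_le
    have : 2 * finrank (ZMod q) C ≤ p * finrank (ModuleBC.Kbar q) (LinearMap.ker (T - 1)) :=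
      Nat.mul_le_mul this hCle
    omega
  obtain ⟨rfl, n, hn, hpn, hKc⟩ := hHH hK
  rw [hKc, hcardC, hXd, ← pow_add] at hsplit
  have hd := Nat.pow_right_injective le_rfl hsplit
  rw [hd] at hineq
  have hmain : p * finrank (ZMod 2) C ≤ finrank (ZMod 2) C + 2 * n :=
    (Nat.mul_le_mul_left p hCle).trans hineq
  have h2n : n + 1 ≤ 2 ^ n := Nat.lt_two_pow_self
  have hc2 : finrank (ZMod 2) C = 1 := by
    by_contra h
    have h2 : 2 ≤ finrank (ZMod 2) C := by omega
    rw [hpn, Nat.add_mul, one_mul] at hmain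
    have : 2 ^ n * 2 ≤ 2 ^ n * finrank (ZMod 2) C := Nat.mul_le_mul_left _ h2
    omega
  rw [hc2, pow_one] at hcardC
  -- the fixed point lies in the radical
  refine hc1 (hω.nondeg c fun y => ?_)
  have hker : ∀ z, a z = z → ω c z = 1 := by
    intro z hz
    obtain ⟨u, v, huv, huniv⟩ := Nat.card_eq_two_iff.mp hcardC
    have hmem : ∀ w : a.toMonoidHom.eqLocus (MonoidHom.id X), w = u ∨ w = v := fun w => by
      simpa only [Set.mem_insert_iff, Set.mem_singleton_iff] using huniv.ge (Set.mem_univ w)
    by_cases hz1 : z = 1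
    · rw [hz1, hω.one_right]
    · have hzc : z = c := by
        rcases hmem ⟨z, hz⟩ with e1 | e1 <;> rcases hmem ⟨c, hc⟩ with e2 | e2 <;> rcases hmem ⟨1, map_one a⟩ with e3 | e3
        all_goals first
          | exact congrArg Subtype.val (e1.trans e2.symm)
          | exact absurd (congrArg Subtype.val (e1.trans e3.symm)) hz1
          | exact absurd (congrArg Subtype.val (e2.trans e3.symm)) hc1
      rw [hzc, hω.self]
  obtain ⟨k, hk⟩ := exists_pow_eq_self_of_coprime
    (Nat.Coprime.coprime_dvd_right (orderOf_dvd_natCard y) hcopX.symm)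
  obtain ⟨z, hz, hyz⟩ := pow_eq_norm_mul (a := a) (p := p) y
  have h1 : ω c (y ^ p) = 1 := by
    rw [hyz, hω.mul_right, hker _ (apply_norm ha y), hω.moved_orth hinv hc hz, mul_one]
  rw [← hk]
  clear hk
  induction k with
  | zero => rw [pow_zero, hω.one_right]
  | succ k ih => rw [pow_succ, hω.mul_right, ih, h1, one_mul]

end Cfsg.Agent.Transfer.WardEndgame
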