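/-
The local step of Ward's theorem: if an elementary abelian group A of order p² acts without fixed points
on a group acting faithfully on a module without A-fixed vectors, then invariant q- and r-subgroups
(q ≠ r, q prime to the characteristic) one normalizing the other centralize each other.
-/
import Cfsg.Agent.Transfer.WardEndgame
import Cfsg.Agent.Transfer.HHExceptional
import Cfsg.Agent.FGS3.Extraspecial
import Mathlib.GroupTheory.Frattini
import Mathlib.GroupTheory.PGroup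

set_option autoImplicit false
set_option linter.style.haveILetI false
set_option linter.unusedSectionVars false
set_option maxSynthPendingDepth 4

namespace Cfsg.Agent.Transfer.WardLocal

open Module
open scoped commutatorElement

universe uA

/-- A `p`-group of automorphisms fixes a point in each invariant coset of an invariant subgroup of
order prime to `p`. -/
theorem exists_fixed_in_coset {Q G : Type*} [Group Q] [Finite Q] [Group G] [Finite G] {p : ℕ}
    [hp : Fact p.Prime] (hG : IsPGroup p G) (φ : G →* MulAut Q) (N : Subgroup Q)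
    (hN : ∀ g, ∀ n ∈ N, φ g n ∈ N) (hcop : ¬ p ∣ Nat.card N) (x : Q) (hx : ∀ g, x⁻¹ * φ g x ∈ N) :
    ∃ n ∈ N, ∀ g, φ g (x * n) = x * n := by
  letI : MulAction G N :=
    { smul := fun g n => ⟨x⁻¹ * φ g (x * n), by
        rw [map_mul, ← mul_assoc]; exact N.mul_mem (hx g) (hN g _ n.2)⟩
      one_smul := fun n => Subtype.ext (show x⁻¹ * φ 1 (x * n) = n by
        rw [map_one, MulAut.one_apply, inv_mul_cancel_left])
      mul_smul := fun g g' n => Subtype.ext (show x⁻¹ * φ (g * g') (x * n) =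
          x⁻¹ * φ g (x * (x⁻¹ * φ g' (x * n))) by
        rw [map_mul φ g g', MulAut.mul_apply, mul_inv_cancel_left]) }
  obtain ⟨n, hn⟩ := hG.nonempty_fixed_point_of_prime_not_dvd_card N hcop
  refine ⟨n, n.2, fun g => ?_⟩
  have h : x⁻¹ * φ g (x * (n : Q)) = n := congrArg Subtype.val (hn g)
  exact inv_mul_eq_iff_eq_mul.mp h

variable {K : Type*} [Field K] [IsAlgClosed K] {W : Type*} [AddCommGroup W] [Module K W]
  [FiniteDimensional K W]

theorem rho_ne_zero [Nontrivial W] {Q : Type*} [Group Q] (ρ : Q →* Module.End K W) (x : Q) : ρ x ≠ 0 :=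
  fun h => by
    have h1 := ρ.map_mul x x⁻¹
    rw [mul_inv_cancel, map_one, h, zero_mul] at h1
    exact one_ne_zero h1

/-- The common eigenspace of a character. -/
def eig {Z : Type*} [Group Z] (ρ : Z →* Module.End K W) (χ : Z →* Kˣ) : Submodule K W where
  carrier := {w | ∀ z, ρ z w = (χ z : K) • w}
  zero_mem' z := by simp
  add_mem' {a b} ha hb z := by rw [map_add, ha z, hb z, smul_add]
  smul_mem' e a ha z := by rw [map_smul, ha z, smul_comm]

theorem mem_eig {Z : Type*} [Group Z] {ρ : Z →* Module.End K W} {χ : Z →* Kˣ} {w : W} :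
    w ∈ eig ρ χ ↔ ∀ z, ρ z w = (χ z : K) • w := Iff.rfl

/-- Weights of a group with commuting image: they exist and each is fixed by a nontrivial operator. -/
theorem weights {Z : Type*} [Group Z] [Finite Z] {q : ℕ} [Fact q.Prime] (hZ : IsPGroup q Z)
    (hqK : (q : K) ≠ 0) (ρ : Z →* Module.End K W) (hcomm : ∀ x y, Commute (ρ x) (ρ y)) :
    (∀ z, ρ z ≠ 1 → ∃ χ : Z →* Kˣ, χ z ≠ 1 ∧ eig ρ χ ≠ ⊥) ∧
    (Nontrivial W → ∃ χ : Z →* Kˣ, eig ρ χ ≠ ⊥) ∧
    ∀ {A : Type uA} [Group A] [Fintype A] (α : A →* MulAut Z) (T : A →* Module.End K W),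
      (∀ a z, T a * ρ z = ρ (α a z) * T a) → (∑ a, T a = 0) → ∀ χ : Z →* Kˣ, eig ρ χ ≠ ⊥ →
        ∃ a : A, a ≠ 1 ∧ ∀ z, χ (α a z) = χ z := by
  classical
  let u : Z →* (Module.End K W)ˣ := ρ.toHomUnits
  have hu : ∀ z, (u z : Module.End K W) = ρ z := fun z => rfl
  let B := u.range
  have hBc : ∀ a b : B, a * b = b * a := by
    rintro ⟨_, x, rfl⟩ ⟨_, y, rfl⟩
    exact Subtype.ext (Units.ext (hcomm x y).eq)
  letI : CommGroup B := { (inferInstance : Group B) with mul_comm := hBc }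
  haveI : Finite B := Set.Finite.to_subtype (Set.finite_range u)
  haveI := Fintype.ofFinite B
  have hB : (Nat.card B : K) ≠ 0 := by
    obtain ⟨k, hk⟩ := IsPGroup.iff_card.mp hZ
    obtain ⟨j, -, hj⟩ := (Nat.dvd_prime_pow (Fact.out : q.Prime)).mp (hk ▸ Subgroup.card_range_dvd u)
    rw [show Nat.card B = q ^ j from hj, Nat.cast_pow]
    exact pow_ne_zero _ hqK
  let ρB : B →* Module.End K W := (Units.coeHom _).comp B.subtype
  let π : Z →* B := u.rangeRestrict
  have hρπ : ∀ z, ρB (π z) = ρ z := fun z => rfl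
  have heig : ∀ {ψ : B →* Kˣ} {v : W}, WeightSpace.IsWeightVector ρB ψ v → v ∈ eig ρ (ψ.comp π) :=
    fun {ψ v} hv z => hv (π z)
  refine ⟨fun z hz => ?_, fun hW => ?_, ?_⟩
  · obtain ⟨ψ, hψ, v, hv0, hv⟩ := WeightSpace.exists_weight_of_ne_one ρB hB (b := π z) hz
    exact ⟨ψ.comp π, hψ, fun h => hv0 ((Submodule.eq_bot_iff _).mp h v (heig hv))⟩
  · obtain ⟨v, hv0⟩ := exists_ne (0 : W)
    obtain ⟨ψ, hψ⟩ := WeightSpace.exists_proj_ne_zero ρB hB hv0
    exact ⟨ψ.comp π, fun h => hψ ((Submodule.eq_bot_iff _).mp h _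
      (heig (WeightSpace.proj_isWeightVector ρB ψ v)))⟩
  intro A _ _ α T hT hsum χ hχ
  obtain ⟨v, hv, hv0⟩ := (Submodule.ne_bot_iff _).mp hχ
  -- the character factors through the image
  have hker : u.ker ≤ χ.ker := fun z hz => by
    have h := hv z
    rw [← hu, show u z = 1 from hz, Units.val_one, Module.End.one_apply] at h
    exact Units.ext (smul_left_injective K hv0 (h.symm.trans (one_smul K v).symm))
  let ψ : B →* Kˣ := π.liftOfSurjective u.rangeRestrict_surjective ⟨χ, by rwa [MonoidHom.ker_rangeRestrict]⟩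
  have hψ : ∀ z, ψ (π z) = χ z := fun z =>
    MonoidHom.liftOfRightInverse_comp_apply _ _ _ _ z
  let Tu : A →* (Module.End K W)ˣ := T.toHomUnits
  have hconj : ∀ a z, Tu a * u z * (Tu a)⁻¹ = u (α a z) := fun a z => by
    refine mul_inv_eq_of_eq_mul (Units.ext ?_)
    exact hT a z
  let f : A → MulAut B := fun a =>
    { toFun := fun b => ⟨Tu a * b * (Tu a)⁻¹, by
        obtain ⟨z, hz⟩ := b.2; exact ⟨α a z, by rw [← hconj, hz]⟩⟩
      invFun := fun b => ⟨(Tu a)⁻¹ * b * Tu a, by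
        obtain ⟨z, hz⟩ := b.2
        refine ⟨(α a)⁻¹ z, ?_⟩
        have h := hconj a ((α a)⁻¹ z)
        rw [MulAut.apply_inv_self, hz] at h
        rw [← h]; group⟩
      left_inv := fun b => Subtype.ext (by simp only; group)
      right_inv := fun b => Subtype.ext (by simp only; group)
      map_mul' := fun b c => Subtype.ext (by simp only [Subgroup.coe_mul]; group) }
  let αB : A →* MulAut B := MonoidHom.mk' f fun a a' => MulEquiv.ext fun b => Subtype.ext (by
    show Tu (a * a') * b * (Tu (a * a'))⁻¹ = Tu a * (Tu a' * b * (Tu a')⁻¹) * (Tu a)⁻¹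
    rw [map_mul]; group)
  obtain ⟨a, ha1, ha⟩ := WeightSpace.exists_stab_ne_one ρB hB αB (fun a => T a) (fun a b => by
      show T a * ((b : (Module.End K W)ˣ) : Module.End K W) =
        ((Tu a * b * (Tu a)⁻¹ : (Module.End K W)ˣ) : Module.End K W) * ((Tu a : (Module.End K W)ˣ) : Module.End K W)
      rw [← Units.val_mul, inv_mul_cancel_right, Units.val_mul]
      rfl) hsum (map_one T) (χ := ψ) hv0 (fun b => by
      obtain ⟨⟨_, z, rfl⟩, rfl⟩ : ∃ c : B, c = b := ⟨b, rfl⟩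
      show ρB (π z) v = (ψ (π z) : K) • v
      rw [hψ, hρπ]; exact hv z)
  refine ⟨a, ha1, fun z => ?_⟩
  rw [← hψ, ← hψ z, ← ha (π z)]
  congr 1
  exact Subtype.ext (hconj a z).symm

variable {Q R : Type*} [Group Q] [Finite Q] [Group R] [Finite R] {A : Type uA} [Group A] [Finite A]

/-- The common data. -/
structure Data (p q r : ℕ) (αQ : A →* MulAut Q) (αR : A →* MulAut R) (κ : R →* MulAut Q)
    (ρQ : Q →* Module.End K W) (ρR : R →* Module.End K W) (T : A →* Module.End K W) : Prop where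
  hp : p.Prime
  hq : q.Prime
  hr : r.Prime
  hqr : q ≠ r
  hpq : p ≠ q
  hpr : p ≠ r
  hqK : (q : K) ≠ 0
  hpK : (p : K) ≠ 0
  commA : ∀ a b : A, a * b = b * a
  expA : ∀ a : A, a ^ p = 1
  cardA : Nat.card A = p ^ 2
  isQ : IsPGroup q Q
  isR : IsPGroup r R
  inj : Function.Injective ρQ
  compat : ∀ a x y, αQ a (κ x y) = κ (αR a x) (αQ a y)
  compatR : ∀ x y, ρR x * ρQ y = ρQ (κ x y) * ρR x
  compatA : ∀ a y, T a * ρQ y = ρQ (αQ a y) * T a
  fpfQ : ∀ y, (∀ a, αQ a y = y) → y = 1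
  fpfR : ∀ x, (∀ a, αR a x = x) → x = 1
  commute : ∀ a : A, a ≠ 1 → ∀ x y, αR a x = x → αQ a y = y → κ x y = y

variable {p q r : ℕ} {αQ : A →* MulAut Q} {αR : A →* MulAut R} {κ : R →* MulAut Q}
  {ρQ : Q →* Module.End K W} {ρR : R →* Module.End K W} {T : A →* Module.End K W}

theorem Data.copQ (hd : Data p q r αQ αR κ ρQ ρR T) (N : Subgroup Q) : ¬ p ∣ Nat.card N := by
  intro h
  haveI := Fact.mk hd.hq
  obtain ⟨k, hk⟩ := IsPGroup.iff_card.mp (hd.isQ.to_subgroup N)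
  rw [hk] at h
  exact hd.hpq ((Nat.prime_dvd_prime_iff_eq hd.hp hd.hq).mp (hd.hp.dvd_of_dvd_pow h))

theorem Data.zpowers_pgroup (hd : Data p q r αQ αR κ ρQ ρR T) (a : A) :
    IsPGroup p (Subgroup.zpowers a) := fun z => ⟨1, Subtype.ext (by rw [Subgroup.coe_pow, pow_one, hd.expA]; rfl)⟩

/-- Fixed points of an automorphism lift through invariant subgroups. -/
theorem Data.lift_fixed (hd : Data p q r αQ αR κ ρQ ρR T) (a : A) (N : Subgroup Q)
    (hN : ∀ n ∈ N, αQ a n ∈ N) {x : Q} (hx : x⁻¹ * αQ a x ∈ N) :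
    ∃ n ∈ N, αQ a (x * n) = x * n := by
  haveI := Fact.mk hd.hp
  have hall : ∀ g : Subgroup.zpowers a, (∀ n ∈ N, αQ (g : A) n ∈ N) ∧ x⁻¹ * αQ (g : A) x ∈ N := by
    rintro ⟨g, hg⟩
    obtain ⟨i, rfl⟩ := (IsOfFinOrder.mem_powers_iff_mem_zpowers (isOfFinOrder_of_finite a)).mpr hg
    show (∀ n ∈ N, αQ (a ^ i) n ∈ N) ∧ x⁻¹ * αQ (a ^ i) x ∈ N
    clear hg
    induction i with
    | zero => simp
    | succ i ih =>
      rw [pow_succ', map_mul]
      refine ⟨fun n hn => hN _ (ih.1 n hn), ?_⟩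
      rw [MulAut.mul_apply, show x⁻¹ * αQ a (αQ (a ^ i) x) = (x⁻¹ * αQ a x) * αQ a (x⁻¹ * αQ (a ^ i) x) by
        rw [map_mul, map_inv]; group]
      exact N.mul_mem hx (hN _ ih.2)
  obtain ⟨n, hn, hfix⟩ := exists_fixed_in_coset (hd.zpowers_pgroup a) (αQ.comp (Subgroup.zpowers a).subtype) N
    (fun g => (hall g).1) (hd.copQ N) x (fun g => (hall g).2)
  exact ⟨n, hn, hfix ⟨a, Subgroup.mem_zpowers a⟩⟩

/-- An element fixed by `A_R` and by something outside is trivial. -/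
theorem Data.eq_one_of_fixed_two (hd : Data p q r αQ αR κ ρQ ρR T) {a b : A} {x : R} (ha : a ≠ 1)
    (hax : αR a x = x) (hbx : αR b x = x) (hb : ∃ y, αR a y = y ∧ αR b y ≠ y) : x = 1 := by
  refine hd.fpfR x fun c => ?_
  let S : Subgroup A :=
    { carrier := {c | αR c x = x}
      one_mem' := by show αR 1 x = x; simp
      mul_mem' := fun {u v} (hu : αR u x = x) (hv : αR v x = x) => by
        show αR (u * v) x = x; rw [map_mul, MulAut.mul_apply, hv, hu]
      inv_mem' := fun {u} (hu : αR u x = x) => by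
        show αR u⁻¹ x = x
        conv_lhs => rw [← hu]
        rw [map_inv, MulAut.inv_apply_self] }
  haveI := Fact.mk hd.hp
  have hle : Subgroup.zpowers a ≤ S := Subgroup.zpowers_le.mpr hax
  obtain ⟨k, hk, hkc⟩ := (Nat.dvd_prime_pow hd.hp).mp (hd.cardA ▸ Subgroup.card_subgroup_dvd_card S)
  have hoa : orderOf a = p := orderOf_eq_prime (hd.expA a) ha
  rcases Nat.lt_or_ge k 2 with hlt | hge
  · exfalso
    have heq : Subgroup.zpowers a = S := Subgroup.eq_of_le_of_card_ge hle (by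
      rw [Nat.card_zpowers, hoa, hkc]
      calc p ^ k ≤ p ^ 1 := Nat.pow_le_pow_right hd.hp.pos (by omega)
        _ = p := pow_one p)
    obtain ⟨y, hay, hby⟩ := hb
    have hbS : b ∈ Subgroup.zpowers a := heq ▸ (show b ∈ S from hbx)
    obtain ⟨i, rfl⟩ := (IsOfFinOrder.mem_powers_iff_mem_zpowers (isOfFinOrder_of_finite a)).mpr hbS
    refine hby ?_
    show αR (a ^ i) y = y
    clear hbx hbS hby
    induction i with
    | zero => simp
    | succ i ih => rw [pow_succ', map_mul, MulAut.mul_apply, ih, hay]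
  · have htop : S = ⊤ := Subgroup.eq_top_of_card_eq S (by rw [hkc, hd.cardA, show k = 2 by omega])
    exact (htop.ge (Subgroup.mem_top c) : c ∈ S)

/-- A character fixed by an operator centralizing `R` is fixed by `R`. -/
theorem Data.character_fixed (hd : Data p q r αQ αR κ ρQ ρR T) {D Z : Subgroup Q}
    (hD : ∀ d ∈ D, ∀ x, κ x d = d) (hDder : ∀ x y : Q, ⁅x, y⁆ ∈ D) (hDA : ∀ c, ∀ d ∈ D, αQ c d ∈ D)
    (hDfix : ∀ y, (∀ x, κ x y = y) → y ∈ D) (hDZ : D ≤ Z) {a : A} (ha : a ≠ 1) (haR : ∀ x, αR a x = x)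
    (hZa : ∀ z ∈ Z, αQ a z ∈ Z) (hZR : ∀ x, ∀ z ∈ Z, κ x z ∈ Z) (ψ : Z →* Kˣ)
    (hψ : ∀ z : Z, ψ ⟨αQ a z, hZa z z.2⟩ = ψ z) (x : R) (z : Z) :
    ψ ⟨κ x z, hZR x z z.2⟩ = ψ z := by
  let P : ℕ → Z := fun k => ((List.range k).map fun i => (⟨(αQ a ^ i) (z : Q), by
    induction i with
    | zero => simpa using z.2
    | succ i ih => rw [pow_succ', MulAut.mul_apply]; exact hZa _ ih⟩ : Z)).prod
  have hPsucc : ∀ k, (P (k + 1) : Q) = P k * (αQ a ^ k) (z : Q) := fun k => by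
    simp [P, List.range_succ]
  have hPa : ∀ k, αQ a (P k : Q) = (z : Q)⁻¹ * P k * (αQ a ^ k) (z : Q) := by
    intro k
    induction k with
    | zero => simp [P]
    | succ k ih => rw [hPsucc, map_mul, ih, pow_succ', MulAut.mul_apply]; group
  have hap : (αQ a) ^ p = 1 := by rw [← map_pow, hd.expA, map_one]
  have hPD : (P p : Q) ∈ D := by
    have h1 := hPa p
    rw [hap, MulAut.one_apply] at h1
    obtain ⟨d, hdD, hfix⟩ := hd.lift_fixed a D (fun d hd' => hDA a d hd') (x := (P p : Q)) (by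
      rw [h1, show (P p : Q)⁻¹ * ((z : Q)⁻¹ * P p * z) = ⁅(P p : Q)⁻¹, (z : Q)⁻¹⁆ by
        rw [commutatorElement_def]; group]
      exact hDder _ _)
    have := hDfix _ fun x => hd.commute a ha x _ (haR x) hfix
    have h2 := D.mul_mem this (D.inv_mem hdD)
    rwa [mul_inv_cancel_right] at h2
  -- the quotient character is trivial
  have hzmem : ∀ i, (αQ a ^ i) (z : Q) ∈ Z := by
    intro i
    induction i with
    | zero => simpa using z.2
    | succ i ih => rw [pow_succ', MulAut.mul_apply]; exact hZa _ ih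
  have hψi : ∀ i, ψ ⟨_, hzmem i⟩ = ψ z ∧ ψ ⟨_, hZR x _ (hzmem i)⟩ = ψ ⟨κ x z, hZR x z z.2⟩ := by
    intro i
    induction i with
    | zero => exact ⟨rfl, rfl⟩
    | succ i ih =>
      constructor
      · rw [← ih.1, ← hψ ⟨_, hzmem i⟩]
        congr 1
        exact Subtype.ext (by simp [pow_succ'])
      · rw [← ih.2, ← hψ ⟨_, hZR x _ (hzmem i)⟩]
        congr 1
        refine Subtype.ext ?_
        show κ x ((αQ a ^ (i + 1)) (z : Q)) = αQ a (κ x ((αQ a ^ i) (z : Q)))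
        rw [hd.compat, haR, pow_succ', MulAut.mul_apply]
  have hP1 : ∀ k, ψ (P k) = ψ z ^ k ∧
      ψ ⟨κ x (P k : Q), hZR x _ (P k).2⟩ = ψ ⟨κ x z, hZR x z z.2⟩ ^ k := by
    intro k
    induction k with
    | zero =>
      refine ⟨by simp [P], ?_⟩
      rw [pow_zero, ← map_one ψ]
      congr 1
      exact Subtype.ext (by simp [P])
    | succ k ih =>
      constructor
      · rw [pow_succ, ← ih.1, ← (hψi k).1, ← map_mul]
        congr 1
        exact Subtype.ext (hPsucc k)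
      · rw [pow_succ, ← ih.2, ← (hψi k).2, ← map_mul]
        congr 1
        refine Subtype.ext ?_
        show κ x (P (k + 1) : Q) = κ x (P k : Q) * κ x ((αQ a ^ k) (z : Q))
        rw [hPsucc, map_mul]
  have heq : ψ ⟨κ x z, hZR x z z.2⟩ ^ p = ψ z ^ p := by
    rw [← (hP1 p).1, ← (hP1 p).2]
    congr 1
    exact Subtype.ext (hD _ hPD x)
  haveI := Fact.mk hd.hq
  obtain ⟨k, hk⟩ := IsPGroup.iff_card.mp (hd.isQ.to_subgroup Z)
  have hq' : ∀ w : Z, (ψ w) ^ (q ^ k) = 1 := fun w => by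
    rw [← map_pow, ← hk, pow_card_eq_one', map_one]
  have hquot : (ψ ⟨κ x z, hZR x z z.2⟩ / ψ z) = 1 := by
    refine orderOf_eq_one_iff.mp (Nat.eq_one_of_dvd_coprimes
      (((Nat.coprime_primes hd.hp hd.hq).mpr hd.hpq).pow_right k)
      (orderOf_dvd_of_pow_eq_one (by rw [div_pow, heq, div_self'])) (orderOf_dvd_of_pow_eq_one ?_))
    rw [div_pow, hq', hq', div_self']
  exact div_eq_one.mp hquot

/-- All weights of an invariant subgroup are fixed by `R`. -/
theorem Data.weights_fixed (hd : Data p q r αQ αR κ ρQ ρR T) {D Z : Subgroup Q}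
    (hD : ∀ d ∈ D, ∀ x, κ x d = d) (hDder : ∀ x y : Q, ⁅x, y⁆ ∈ D) (hDA : ∀ c, ∀ d ∈ D, αQ c d ∈ D)
    (hDfix : ∀ y, (∀ x, κ x y = y) → y ∈ D) (hDZ : D ≤ Z)
    (hZR : ∀ x, ∀ z ∈ Z, κ x z ∈ Z) (S : Subgroup A) (hZS : ∀ a ∈ S, ∀ z ∈ Z, αQ a z ∈ Z)
    {a₁ : A} (ha₁ : a₁ ≠ 1) (ha₁R : ∀ x, αR a₁ x = x)
    (occ : (Z →* Kˣ) → Prop)
    (hoccR : ∀ ψ, occ ψ → ∀ (x : R) (ψ' : Z →* Kˣ), (∀ z : Z, ψ' z = ψ ⟨κ x z, hZR x z z.2⟩) → occ ψ')
    (hstab : ∀ ψ, occ ψ → ∃ a, ∃ h : a ∈ S, a ≠ 1 ∧ ∀ z : Z, ψ ⟨αQ a z, hZS a h z z.2⟩ = ψ z)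
    {ψ : Z →* Kˣ} (hψ : occ ψ) (x : R) (z : Z) : ψ ⟨κ x z, hZR x z z.2⟩ = ψ z := by
  -- twisting by elements of `R`
  let κZ : R → Z →* Z := fun y => MonoidHom.mk' (fun z => ⟨κ y z, hZR y z z.2⟩) fun z z' =>
    Subtype.ext (map_mul (κ y) _ _)
  have hκ1 : ∀ ψ' : Z →* Kˣ, ψ'.comp (κZ 1) = ψ' := fun ψ' => MonoidHom.ext fun z => by
    show ψ' _ = ψ' z; congr 1; exact Subtype.ext (by show κ 1 (z : Q) = z; simp)
  have hκmul : ∀ (ψ' : Z →* Kˣ) y y', (ψ'.comp (κZ y)).comp (κZ y') = ψ'.comp (κZ (y * y')) :=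
    fun ψ' y y' => MonoidHom.ext fun z => by
      show ψ' _ = ψ' _; congr 1; exact Subtype.ext (by show κ y (κ y' (z : Q)) = κ (y * y') z; simp)
  have hocc : ∀ y, occ (ψ.comp (κZ y)) := fun y => hoccR ψ hψ y _ fun z => rfl
  suffices hall : ψ.comp (κZ x) = ψ from DFunLike.congr_fun hall z
  have hfixR : ∀ y a (h : a ∈ S), a ≠ 1 → (∀ w, αR a w = w) →
      (∀ z : Z, ψ.comp (κZ y) ⟨αQ a z, hZS a h z z.2⟩ = ψ.comp (κZ y) z) →
      ∀ y', ψ.comp (κZ y') = ψ := by
    intro y a h ha hR hfix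
    have hf : ∀ w, (ψ.comp (κZ y)).comp (κZ w) = ψ.comp (κZ y) := fun w => MonoidHom.ext fun z =>
      hd.character_fixed hD hDder hDA hDfix hDZ ha hR (hZS a h) hZR _ hfix w z
    intro y'
    have h1 := hf (y⁻¹ * y')
    have h2 := hf y⁻¹
    rw [hκmul] at h1 h2
    rw [mul_inv_cancel_left] at h1
    rw [mul_inv_cancel, hκ1] at h2
    rw [h1, ← h2]
  -- elements of the orbit with a common fixing operator outside the centralizer of `R` coincide
  have huniq : ∀ y s a (h : a ∈ S), (∃ w, αR a w ≠ w) →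
      (∀ z : Z, ψ.comp (κZ y) ⟨αQ a z, hZS a h z z.2⟩ = ψ.comp (κZ y) z) →
      (∀ z : Z, ψ.comp (κZ (y * s)) ⟨αQ a z, hZS a h z z.2⟩ = ψ.comp (κZ (y * s)) z) →
      ψ.comp (κZ (y * s)) = ψ.comp (κZ y) := by
    intro y s a h hw hy hys
    set μ := ψ.comp (κZ y) with hμ
    let L : Subgroup R :=
      { carrier := {w | μ.comp (κZ w) = μ}
        one_mem' := hκ1 μ
        mul_mem' := fun {u v} (hu : μ.comp (κZ u) = μ) (hv : μ.comp (κZ v) = μ) => by
          show μ.comp (κZ (u * v)) = μ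
          rw [← hκmul, hu, hv]
        inv_mem' := fun {u} (hu : μ.comp (κZ u) = μ) => by
          show μ.comp (κZ u⁻¹) = μ
          conv_lhs => rw [← hu, hκmul, mul_inv_cancel, hκ1] }
    have hfpf : ∀ w, αR a w = w → w = 1 := fun w hw' =>
      hd.eq_one_of_fixed_two ha₁ (ha₁R w) hw' (by
        obtain ⟨y', hy'⟩ := hw; exact ⟨y', ha₁R y', hy'⟩)
    -- the fixing operator normalizes the orbit map
    have htw : ∀ w, (μ.comp (κZ (αR a w))) = μ.comp (κZ w) ↔
        ∀ z : Z, μ.comp (κZ w) ⟨αQ a z, hZS a h z z.2⟩ = μ.comp (κZ w) z := by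
      intro w
      have hcomp : ∀ z : Z, μ.comp (κZ (αR a w)) ⟨αQ a z, hZS a h z z.2⟩ = μ.comp (κZ w) z := by
        intro z
        show μ _ = μ _
        refine Eq.trans ?_ (hy (κZ w z))
        congr 1
        exact Subtype.ext (hd.compat a w z).symm
      constructor
      · intro e z; rw [← hcomp z, e]
      · intro e
        refine MonoidHom.ext fun z => ?_
        obtain ⟨z', rfl⟩ : ∃ z' : Z, (⟨αQ a z', hZS a h z' z'.2⟩ : Z) = z := by
          refine (Finite.injective_iff_surjective.mp ?_) z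
          intro u v huv
          exact Subtype.ext ((αQ a).injective (congrArg Subtype.val huv))
        rw [hcomp, e]
    have hs : μ.comp (κZ s) = μ := by
      have e : μ.comp (κZ (αR a s)) = μ.comp (κZ s) := (htw s).mpr (by rw [hκmul]; exact hys)
      have hmem : αR a s * s⁻¹ ∈ L := by
        show μ.comp (κZ _) = μ
        rw [← hκmul, e, hκmul, mul_inv_cancel, hκ1]
      have hLa : ∀ w ∈ L, αR a w ∈ L := fun w hw' => ((htw w).mpr (by
        rw [show μ.comp (κZ w) = μ from hw']; exact hy)).trans hw'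
      have hinj : ∀ u v, αR a u * u⁻¹ = αR a v * v⁻¹ → u = v := fun u v e' => by
        refine (inv_mul_eq_one.mp (hfpf (v⁻¹ * u) ?_)).symm
        rw [map_mul, map_inv]
        calc (αR a v)⁻¹ * αR a u = (αR a v)⁻¹ * (αR a u * u⁻¹) * u := by group
          _ = (αR a v)⁻¹ * (αR a v * v⁻¹) * u := by rw [e']
          _ = v⁻¹ * u := by group
      obtain ⟨t, ht⟩ := (Finite.injective_iff_surjective
        (f := fun w : L => (⟨αR a w * (w : R)⁻¹, L.mul_mem (hLa w w.2) (L.inv_mem w.2)⟩ : L))).mp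
        (fun u v e' => Subtype.ext (hinj _ _ (congrArg Subtype.val e'))) ⟨_, hmem⟩
      rw [← hinj _ _ (congrArg Subtype.val ht)]
      exact t.2
    rw [← hκmul, ← hμ, hs]
  obtain ⟨b, hbS, hb1, hb⟩ := hstab ψ hψ
  by_cases hbR : ∀ w, αR b w = w
  · exact hfixR 1 b hbS hb1 hbR (fun z => by rw [hκ1]; exact hb z) x
  push Not at hbR
  obtain ⟨b', hb'S, hb'1, hb'⟩ := hstab _ (hocc x)
  by_cases hb'R : ∀ w, αR b' w = w
  · exact hfixR x b' hb'S hb'1 hb'R hb' x
  push Not at hb'R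
  -- move by `b`
  have hmove : ∀ z : Z, ψ.comp (κZ (αR b x)) ⟨αQ b z, hZS b hbS z z.2⟩ = ψ.comp (κZ x) z := fun z => by
    show ψ _ = ψ _
    refine Eq.trans ?_ (hb (κZ x z))
    congr 1
    exact Subtype.ext (hd.compat b x z).symm
  have hbx : ψ.comp (κZ (αR b x)) = ψ.comp (κZ x) := by
    have h := huniq x (x⁻¹ * αR b x) b' hb'S hb'R hb' ?_
    · rwa [mul_inv_cancel_left] at h
    intro z
    rw [mul_inv_cancel_left]
    obtain ⟨z', rfl⟩ : ∃ z' : Z, (⟨αQ b z', hZS b hbS z' z'.2⟩ : Z) = z := by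
      refine (Finite.injective_iff_surjective.mp ?_) z
      intro u v huv
      exact Subtype.ext ((αQ b).injective (congrArg Subtype.val huv))
    rw [hmove, ← hb' z', ← hmove ⟨αQ b' z', hZS b' hb'S z' z'.2⟩]
    congr 1
    refine Subtype.ext ?_
    show αQ b' (αQ b (z' : Q)) = αQ b (αQ b' (z' : Q))
    rw [← MulAut.mul_apply, ← map_mul, hd.commA, map_mul, MulAut.mul_apply]
  have h := huniq 1 x b hbS hbR (fun z => by rw [hκ1]; exact hb z) (fun z => by
    rw [one_mul]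
    conv_lhs => rw [← hbx]
    exact hmove z)
  rwa [one_mul, hκ1] at h

end Cfsg.Agent.Transfer.WardLocal
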