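/-
Reduction of "Fitting height at most two" under coprime fixed-point-free operators to a local centralizing
property of q- and r-subgroups.
-/
import Cfsg.Agent.Transfer.WardLocal
import Cfsg.Agent.Core.MinimalNormal
import Cfsg.Agent.Core.Fitting
import Cfsg.Agent.Core.Cores

set_option autoImplicit false
set_option linter.style.haveILetI false
set_option linter.unusedSectionVars false

namespace Cfsg.Agent.Transfer.FittingReduction

open Cfsg

variable {H : Type*} [Group H] [Finite H] {A : Type*} [Group A] [Finite A]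

/-- If invariant `r`-subgroups centralize `O_q` for `q ≠ r`, `q ≠ ℓ` and `O_ℓ = 1`, the group is
nilpotent. -/
theorem nilpotent_of_centralizes [Group.IsSolvable H] (α : A →* MulAut H) {ℓ : ℕ} (hOl : pCore ℓ H = ⊥)
    (hsyl : ∀ (r : ℕ) [Fact r.Prime], ∃ P : Sylow r H, ∀ a, ∀ x ∈ (P : Subgroup H), α a x ∈ (P : Subgroup H))
    (hloc : ∀ (q r : ℕ) [Fact q.Prime] [Fact r.Prime], q ≠ r → q ≠ ℓ → ∀ R : Subgroup H, IsPGroup r R →
      (∀ a, ∀ x ∈ R, α a x ∈ R) → R ≤ Subgroup.centralizer (pCore q H : Set H)) :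
    Group.IsNilpotent H := by
  classical
  set F := fittingSubgroup H with hF
  by_contra hnil
  have hne : F ≠ ⊤ := fun h => hnil (Core.fittingSubgroup_eq_top_iff.mp h)
  haveI : Nontrivial (H ⧸ F) := QuotientGroup.nontrivial_iff.mpr hne
  -- some core of the quotient is nontrivial
  obtain ⟨r, hr⟩ : ∃ r : Nat.Primes, pCore (r : ℕ) (H ⧸ F) ≠ ⊥ := by
    by_contra h
    push Not at h
    refine Core.fittingSubgroup_ne_bot (G := H ⧸ F) ?_
    rw [Core.fittingSubgroup_eq_iSup]
    exact iSup_eq_bot.mpr h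
  haveI : Fact (r : ℕ).Prime := ⟨r.2⟩
  let K := (pCore (r : ℕ) (H ⧸ F)).comap (QuotientGroup.mk' F)
  haveI hKn : K.Normal := Subgroup.Normal.comap inferInstance _
  obtain ⟨P, hP⟩ := hsyl (r : ℕ)
  have hFK : F ≤ K := fun x hx => by
    show QuotientGroup.mk' F x ∈ pCore (r : ℕ) (H ⧸ F)
    rw [show QuotientGroup.mk' F x = 1 from (QuotientGroup.eq_one_iff x).mpr hx]
    exact Subgroup.one_mem _
  have hαP : ∀ q : ℕ, Fact q.Prime → q ≠ (r : ℕ) →
      (P : Subgroup H) ≤ Subgroup.centralizer (pCore q H : Set H) := fun q hq hqr => by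
    by_cases hql : q = ℓ
    · subst hql
      rw [hOl]
      exact fun x _ => Subgroup.mem_centralizer_iff.mpr fun y hy => by
        rw [Subgroup.mem_bot.mp hy, one_mul, mul_one]
    · exact hloc q r hqr hql P P.2 hP
  -- `P ∩ K` together with the other cores
  let N := (P : Subgroup H) ⊓ K
  let O : Subgroup H := ⨆ q : {q : Nat.Primes // (q : ℕ) ≠ r}, pCore ((q : Nat.Primes) : ℕ) H
  have hK : N ⊔ O = K := by
    refine le_antisymm (sup_le inf_le_right ?_) ?_
    · exact iSup_le fun q => le_trans (by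
        rw [hF, Core.fittingSubgroup_eq_iSup]; exact le_iSup (fun q : Nat.Primes => pCore (q : ℕ) H) q.1) hFK
    · -- `F ≤ N ⊔ O`, and the index is prime to `r`
      have hFle : F ≤ N ⊔ O := by
        rw [hF, Core.fittingSubgroup_eq_iSup]
        refine iSup_le fun q => ?_
        by_cases hq : (q : ℕ) = r
        · refine le_trans (le_inf ?_ ?_) le_sup_left
          · rw [hq]; exact Core.pCore_le_sylow P
          · refine le_trans ?_ hFK
            rw [hF, Core.fittingSubgroup_eq_iSup]
            exact le_iSup (fun q : Nat.Primes => pCore (q : ℕ) H) q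
        · exact le_trans (le_iSup (fun q : {q : Nat.Primes // (q : ℕ) ≠ r} => pCore ((q : Nat.Primes) : ℕ) H) ⟨q, hq⟩) le_sup_right
      -- the image of `N` is everything
      have hmap : (N ⊔ O).map (QuotientGroup.mk' F) = pCore (r : ℕ) (H ⧸ F) := by
        refine le_antisymm ?_ ?_
        · rw [Subgroup.map_le_iff_le_comap]
          refine sup_le inf_le_right ?_
          exact iSup_le fun q => le_trans (by
            rw [hF, Core.fittingSubgroup_eq_iSup]; exact le_iSup (fun q : Nat.Primes => pCore (q : ℕ) H) q.1) hFK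
        · refine le_trans ?_ (Subgroup.map_mono le_sup_left)
          have h1 : pCore (r : ℕ) (H ⧸ F) ≤ (P : Subgroup H).map (QuotientGroup.mk' F) :=
            (Core.pCore_le_sylow (P.mapSurjective (f := QuotientGroup.mk' F) (QuotientGroup.mk'_surjective F))).trans
              (Sylow.coe_mapSurjective _ P).le
          intro X hX
          obtain ⟨x, hx, rfl⟩ := h1 hX
          exact ⟨x, ⟨hx, hX⟩, rfl⟩
      calc K ≤ ((N ⊔ O).map (QuotientGroup.mk' F)).comap (QuotientGroup.mk' F) := by rw [hmap]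
        _ = N ⊔ O := Subgroup.comap_map_eq_self (by rw [QuotientGroup.ker_mk']; exact hFle)
  have hcent : O ≤ Subgroup.centralizer (N : Set H) := iSup_le fun q x hx =>
    Subgroup.mem_centralizer_iff.mpr fun n hn =>
      (Subgroup.mem_centralizer_iff.mp (hαP _ ⟨q.1.2⟩ q.2 hn.1) x hx).symm
  have hOn : O.Normal := by
    refine ⟨fun x hx g => ?_⟩
    have : O.map (MulAut.conj g).toMonoidHom ≤ O := by
      rw [Subgroup.map_iSup]
      refine iSup_le fun q => le_trans ?_
        (le_iSup (fun q : {q : Nat.Primes // (q : ℕ) ≠ r} => pCore ((q : Nat.Primes) : ℕ) H) q)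
      rintro _ ⟨y, hy, rfl⟩
      exact (inferInstance : (pCore ((q.1 : ℕ)) H).Normal).conj_mem y hy g
    exact this ⟨x, hx, rfl⟩
  -- `N` is normal in `K`
  have hnormN : K ≤ Subgroup.normalizer (N : Set H) := by
    rw [← hK]
    refine sup_le Subgroup.le_normalizer (le_trans hcent ?_)
    exact Subgroup.centralizer_le_normalizer _
  have hNnil : Group.IsNilpotent N := (P.2.to_le inf_le_left).isNilpotent
  have hOnil : Group.IsNilpotent O := by
    refine Core.isNilpotent_of_le ?_ (Core.isNilpotent_fittingSubgroup H)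
    exact iSup_le fun q => by
      rw [Core.fittingSubgroup_eq_iSup]; exact le_iSup (fun q : Nat.Primes => pCore (q : ℕ) H) q.1
  have hKnil : Group.IsNilpotent K := by
    haveI : (N.subgroupOf K).Normal := Subgroup.normal_subgroupOf_of_le_normalizer hnormN
    haveI : (O.subgroupOf K).Normal := Subgroup.normal_subgroupOf
    have hNK : N ≤ K := inf_le_right
    have hOK : O ≤ K := hK ▸ le_sup_right
    have h := Core.isNilpotent_sup_of_normal (A := N.subgroupOf K) (B := O.subgroupOf K) inferInstance inferInstance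
      (Core.isNilpotent_congr (Subgroup.subgroupOfEquivOfLe hNK).symm hNnil)
      (Core.isNilpotent_congr (Subgroup.subgroupOfEquivOfLe hOK).symm hOnil)
    rw [← Subgroup.subgroupOf_sup hNK hOK, hK, Subgroup.subgroupOf_self] at h
    exact Core.isNilpotent_top_iff.mp h
  have hKF : K ≤ F := Core.le_fittingSubgroup hKn hKnil
  refine hr ((Subgroup.eq_bot_iff_forall _).mpr fun X hX => ?_)
  obtain ⟨x, rfl⟩ := QuotientGroup.mk'_surjective F X
  exact (QuotientGroup.eq_one_iff x).mpr (hKF hX)

/-- Automorphisms induced on the quotient by an invariant normal subgroup. -/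
noncomputable def quotAct (φ : A →* MulAut H) (N : Subgroup H) [N.Normal]
    (hN : ∀ a, N.map (φ a).toMonoidHom = N) : A →* MulAut (H ⧸ N) :=
  MonoidHom.mk' (fun a => QuotientGroup.congr N N (φ a) (hN a)) fun a b => MulEquiv.ext fun X => by
    obtain ⟨x, rfl⟩ := QuotientGroup.mk'_surjective N X
    show QuotientGroup.mk' N (φ (a * b) x) = QuotientGroup.mk' N (φ a (φ b x))
    rw [map_mul, MulAut.mul_apply]

theorem map_eq_of_forall (φ : A →* MulAut H) {N : Subgroup H} (h : ∀ a, ∀ x ∈ N, φ a x ∈ N) (a : A) :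
    N.map (φ a).toMonoidHom = N :=
  Subgroup.eq_of_le_of_card_ge (Subgroup.map_le_iff_le_comap.mpr fun x hx => h a x hx)
    (Subgroup.card_map_of_injective (φ a).injective).ge

/-- A `p`-group of operators without fixed points acts without fixed points on quotients. -/
theorem fpf_quot {p : ℕ} [Fact p.Prime] (hA : IsPGroup p A) (φ : A →* MulAut H)
    (hcop : ¬ p ∣ Nat.card H) (hfpf : ∀ x, (∀ a, φ a x = x) → x = 1) (N : Subgroup H) [N.Normal]
    (hN : ∀ a, N.map (φ a).toMonoidHom = N) (X : H ⧸ N) (hX : ∀ a, quotAct φ N hN a X = X) : X = 1 := by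
  obtain ⟨x, rfl⟩ := QuotientGroup.mk'_surjective N X
  obtain ⟨n, hn, hfix⟩ := WardLocal.exists_fixed_in_coset hA φ N
    (fun a n hn => (hN a).le ⟨n, hn, rfl⟩)
    (fun h => hcop (h.trans (Subgroup.card_subgroup_dvd_card N))) x
    (fun a => QuotientGroup.eq.mp (hX a).symm)
  refine (QuotientGroup.eq_one_iff x).mpr ?_
  have h1 := hfpf _ hfix
  rw [eq_inv_of_mul_eq_one_left h1]
  exact N.inv_mem hn

universe u

/-- If `G/C_G(V)` is nilpotent for every minimal invariant normal subgroup `V` in all sections, some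
term of the lower central series is nilpotent. -/
theorem exists_nilpotent_term {A : Type*} [Group A] [Finite A] {p : ℕ} [Fact p.Prime] (hA : IsPGroup p A)
    (hloc : ∀ (G : Type u) [Group G] [Finite G], Group.IsSolvable G → ∀ φ : A →* MulAut G,
      ¬ p ∣ Nat.card G → (∀ x, (∀ a, φ a x = x) → x = 1) →
      ∀ (V : Subgroup G) [V.Normal], V ≠ ⊥ → IsMulCommutative V → (∀ a, ∀ x ∈ V, φ a x ∈ V) →
        (∀ W : Subgroup G, W.Normal → (∀ a, ∀ x ∈ W, φ a x ∈ W) → W ≤ V → W ≠ ⊥ → W = V) →
        ∃ k, (⊤ : Subgroup G).lowerCentralSeries k ≤ Subgroup.centralizer (V : Set G)) :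
    ∀ (n : ℕ) (G : Type u) [Group G] [Finite G], Nat.card G ≤ n → Group.IsSolvable G →
      ∀ φ : A →* MulAut G, ¬ p ∣ Nat.card G → (∀ x, (∀ a, φ a x = x) → x = 1) →
        ∃ k, Group.IsNilpotent ((⊤ : Subgroup G).lowerCentralSeries k : Subgroup G) := by
  intro n
  induction n with
  | zero => intro G _ _ h; exact absurd h (by simp [Nat.card_pos.ne'])
  | succ n ih =>
  intro G _ _ hcard hsol φ hp hfpf
  classical
  rcases subsingleton_or_nontrivial G with hs | hnt
  · exact ⟨0, inferInstance⟩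
  haveI := hsol
  obtain ⟨V, ⟨hVn, hVφ, hV1⟩, hVmin⟩ := (Set.toFinite
    {V : Subgroup G | V.Normal ∧ (∀ a, ∀ x ∈ V, φ a x ∈ V) ∧ V ≠ ⊥}).exists_minimal
    ⟨⊤, inferInstance, fun _ _ _ => Subgroup.mem_top _, top_ne_bot⟩
  haveI := hVn
  have hmin : ∀ W : Subgroup G, W.Normal → (∀ a, ∀ x ∈ W, φ a x ∈ W) → W ≤ V → W ≠ ⊥ → W = V :=
    fun W h1 h2 h3 h4 => le_antisymm h3 (hVmin ⟨h1, h2, h4⟩ h3)
  have hVc : IsMulCommutative V := by
    rw [← Subgroup.commutator_self_eq_bot_iff]
    by_contra hne
    have heq : ⁅V, V⁆ = V := hmin _ inferInstance (fun a x hx => by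
      have h : ⁅V, V⁆.map (φ a).toMonoidHom ≤ ⁅V, V⁆ := by
        rw [Subgroup.map_commutator, map_eq_of_forall φ hVφ]
      exact h ⟨x, hx, rfl⟩) (Subgroup.commutator_le_self V) hne
    haveI : Nontrivial V := (Subgroup.nontrivial_iff_ne_bot V).mpr hV1
    refine (Group.IsSolvable.commutator_lt_top_of_nontrivial V).ne ?_
    refine Subgroup.map_injective V.subtype_injective ?_
    rw [Subgroup.map_subtype_commutator, heq, ← MonoidHom.range_eq_map, Subgroup.range_subtype]
  obtain ⟨k, hk⟩ := hloc G hsol φ hp hfpf V hV1 hVc hVφ hmin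
  have hmap := map_eq_of_forall φ hVφ
  have hqlt : Nat.card (G ⧸ V) < Nat.card G := by
    rw [Subgroup.card_eq_card_quotient_mul_card_subgroup V]
    exact lt_mul_of_one_lt_right Nat.card_pos ((Subgroup.one_lt_card_iff_ne_bot V).mpr hV1)
  obtain ⟨m, hm⟩ := ih (G ⧸ V) (by omega) inferInstance (quotAct φ V hmap)
    (fun h => hp (h.trans (Dvd.intro _ (Subgroup.card_eq_card_quotient_mul_card_subgroup V).symm)))
    (fpf_quot hA φ hp hfpf V hmap)
  refine ⟨max k m, ?_⟩
  set L := (⊤ : Subgroup G).lowerCentralSeries (max k m)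
  have hLm : L ≤ (⊤ : Subgroup G).lowerCentralSeries m :=
    Subgroup.lowerCentralSeries_antitone _ (le_max_right k m)
  have hLk : L ≤ Subgroup.centralizer (V : Set G) :=
    le_trans (Subgroup.lowerCentralSeries_antitone _ (le_max_left k m)) hk
  let f : L →* ((⊤ : Subgroup (G ⧸ V)).lowerCentralSeries m : Subgroup (G ⧸ V)) :=
    ((QuotientGroup.mk' V).comp L.subtype).codRestrict _ fun x => by
      rw [← Subgroup.map_top_of_surjective (QuotientGroup.mk' V) (QuotientGroup.mk'_surjective V),
        ← Subgroup.map_lowerCentralSeries]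
      exact ⟨x, hLm x.2, rfl⟩
  haveI := hm
  refine Subgroup.isNilpotent_of_ker_le_center f fun x hx => Subgroup.mem_center_iff.mpr fun y => ?_
  have hxV : (x : G) ∈ V := (QuotientGroup.eq_one_iff _).mp (congrArg Subtype.val hx)
  exact Subtype.ext (Subgroup.mem_centralizer_iff.mp (hLk y.2) x hxV).symm

end Cfsg.Agent.Transfer.FittingReduction
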