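/-
Ward's local step: the minimal counterexample does not exist.
-/
import Cfsg.Agent.Transfer.WardLocal

set_option autoImplicit false
set_option linter.style.haveILetI false
set_option linter.unusedSectionVars false
set_option maxSynthPendingDepth 4

namespace Cfsg.Agent.Transfer.WardLocal

open Module
open scoped commutatorElement

universe uA

variable {K : Type*} [Field K] [IsAlgClosed K] {W : Type*} [AddCommGroup W] [Module K W]
  [FiniteDimensional K W] {Q R : Type*} [Group Q] [Finite Q] [Group R] [Finite R] {A : Type uA} [Group A]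
  [Finite A] {p q r : ℕ} {αQ : A →* MulAut Q} {αR : A →* MulAut R} {κ : R →* MulAut Q}
  {ρQ : Q →* Module.End K W} {ρR : R →* Module.End K W} {T : A →* Module.End K W}

theorem closure_powers_ne_top {q : ℕ} [hq : Fact q.Prime] (hQ : IsPGroup q Q) [Nontrivial Q] :
    Subgroup.closure ((commutator Q : Set Q) ∪ Set.range fun x : Q => x ^ q) ≠ ⊤ := by
  intro h
  have hle : Subgroup.closure ((commutator Q : Set Q) ∪ Set.range fun x : Q => x ^ q) ≤ frattini Q := by
    rw [Subgroup.closure_le]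
    rintro x (hx | ⟨y, rfl⟩)
    · exact FGS3.commutator_le_frattini hQ hx
    · exact FGS3.pow_mem_frattini hQ y
  rw [h, top_le_iff] at hle
  exact bot_ne_top (frattini_nongenerating (K := (⊥ : Subgroup Q)) (by rw [bot_sup_eq]; exact hle))

theorem Data.norm_fixed (hd : Data p q r αQ αR κ ρQ ρR T) [Fintype A] {D : Subgroup Q}
    (hc : ∀ u ∈ D, ∀ v ∈ D, u * v = v * u) (hDA : ∀ c, ∀ d ∈ D, αQ c d ∈ D) (χ : D →* Kˣ)
    (hχ : ∀ c, ∀ d : D, χ ⟨αQ c d, hDA c d d.2⟩ = χ d) (d : D) : χ d = 1 := by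
  classical
  letI : CommGroup D :=
    { (inferInstance : Group D) with mul_comm := fun u v => Subtype.ext (hc u u.2 v v.2) }
  let g : A → D := fun c => ⟨αQ c d, hDA c d d.2⟩
  have h1 : ∏ c, g c = 1 := by
    refine Subtype.ext (hd.fpfQ _ fun e => ?_)
    let f : D →* D := MonoidHom.mk' (fun v => ⟨αQ e v, hDA e v v.2⟩) fun u v => Subtype.ext (map_mul (αQ e) _ _)
    have h2 : f (∏ c, g c) = ∏ c, g c := by
      rw [map_prod]
      refine Fintype.prod_equiv (Equiv.mulLeft e) _ _ fun c => ?_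
      exact Subtype.ext (by show αQ e (αQ c (d : Q)) = αQ (e * c) d; rw [map_mul, MulAut.mul_apply])
    exact congrArg Subtype.val h2
  have h3 : χ d ^ Fintype.card A = 1 := by
    rw [← map_one χ, ← h1, map_prod, Finset.prod_congr rfl fun c _ => hχ c d, Finset.prod_const,
      Finset.card_univ]
  haveI := Fact.mk hd.hq
  obtain ⟨k, hk⟩ := IsPGroup.iff_card.mp (hd.isQ.to_subgroup D)
  rw [← Nat.card_eq_fintype_card, hd.cardA] at h3
  refine orderOf_eq_one_iff.mp (Nat.eq_one_of_dvd_coprimes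
    ((((Nat.coprime_primes hd.hp hd.hq).mpr hd.hpq).pow_right k).pow_left 2)
    (orderOf_dvd_of_pow_eq_one h3) (orderOf_dvd_of_pow_eq_one ?_))
  rw [← map_pow, ← hk, pow_card_eq_one', map_one]

set_option maxHeartbeats 1000000 in
/-- The minimal counterexample to the local step of Ward's theorem. -/
theorem Data.false_of_minimal (hd : Data p q r αQ αR κ ρQ ρR T) [Fintype A]
    (hsum : ∑ a, T a = 0) (hact : ∃ x y, κ x y ≠ y) {a₁ : A} (ha₁ : a₁ ≠ 1) (ha₁R : ∀ x, αR a₁ x = x)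
    (hQmin : ∀ M : Subgroup Q, M ≠ ⊤ → (∀ c, ∀ y ∈ M, αQ c y ∈ M) → (∀ x, ∀ y ∈ M, κ x y ∈ M) →
      ∀ x, ∀ y ∈ M, κ x y = y)
    (hRcomm : ∀ x x' y, κ x (κ x' y) = κ x' (κ x y)) : False := by
  classical
  haveI := Fact.mk hd.hp
  haveI := Fact.mk hd.hq
  haveI := Fact.mk hd.hr
  obtain ⟨x₀, y₀, hact₀⟩ := hact
  haveI : Nontrivial Q := nontrivial_of_ne _ _ hact₀
  -- the fixed subgroup
  let D : Subgroup Q :=
    { carrier := {y | ∀ x, κ x y = y}
      one_mem' := fun x => map_one (κ x)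
      mul_mem' := fun {u v} hu hv x => by rw [map_mul, hu x, hv x]
      inv_mem' := fun {u} hu x => by rw [map_inv, hu x] }
  have hD : ∀ d ∈ D, ∀ x, κ x d = d := fun d hd x => hd x
  have hDA : ∀ c, ∀ d ∈ D, αQ c d ∈ D := fun c d hd' x => by
    obtain ⟨x', rfl⟩ := (αR c).surjective x
    rw [← hd.compat, hd' x']
  have hcharle : ∀ M : Subgroup Q, M.Characteristic → M ≠ ⊤ → M ≤ D := fun M hM hne y hy x =>
    hQmin M hne (fun c w hw => (Subgroup.characteristic_iff_map_eq.mp hM (αQ c)).le ⟨w, hw, rfl⟩)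
      (fun x' w hw => (Subgroup.characteristic_iff_map_eq.mp hM (κ x')).le ⟨w, hw, rfl⟩) x y hy
  haveI : Group.IsNilpotent Q := hd.isQ.isNilpotent
  have hDder : ∀ x y : Q, ⁅x, y⁆ ∈ D := fun x y =>
    hcharle (commutator Q) inferInstance (Group.IsSolvable.commutator_lt_top_of_nontrivial Q).ne
      (Subgroup.commutator_mem_commutator (Subgroup.mem_top x) (Subgroup.mem_top y))
  have hDpow : ∀ y : Q, y ^ q ∈ D := fun y x => by
    refine hQmin _ (closure_powers_ne_top (q := q) hd.isQ) ?_ ?_ x _ (Subgroup.subset_closure (Or.inr ⟨y, rfl⟩))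
    all_goals
      intro c w hw
      refine Subgroup.closure_induction (fun u hu => ?_) (by simp) (fun u v _ _ hu hv => ?_)
        (fun u _ hu => ?_) hw
      · rcases hu with hu | ⟨u', rfl⟩
        · exact Subgroup.subset_closure (Or.inl ((Subgroup.characteristic_iff_map_eq.mp
            (inferInstance : (commutator Q).Characteristic) _).le ⟨u, hu, rfl⟩))
        · rw [map_pow]; exact Subgroup.subset_closure (Or.inr ⟨_, rfl⟩)
      · rw [map_mul]; exact Subgroup.mul_mem _ hu hv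
      · rw [map_inv]; exact Subgroup.inv_mem _ hu
  -- lifting through `R`
  have hliftR : ∀ (N : Subgroup Q) (y : Q), (∀ x, ∀ n ∈ N, κ x n ∈ N) → (∀ x, y⁻¹ * κ x y ∈ N) →
      ∃ n ∈ N, y * n ∈ D := by
    intro N y hN hy
    have hndvd : ¬ r ∣ Nat.card N := fun h => by
      obtain ⟨k, hk⟩ := IsPGroup.iff_card.mp (hd.isQ.to_subgroup N)
      rw [hk] at h
      exact hd.hqr ((Nat.prime_dvd_prime_iff_eq hd.hr hd.hq).mp (hd.hr.dvd_of_dvd_pow h)).symm
    exact exists_fixed_in_coset hd.isR κ N hN hndvd y hy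
  -- `D` is central
  have hcen : ∀ d ∈ D, ∀ y, d * y = y * d := by
    intro d hd' y
    let C := Subgroup.centralizer (D : Set Q)
    suffices hC : C = ⊤ from Subgroup.mem_centralizer_iff.mp (hC.ge (Subgroup.mem_top y)) d hd'
    by_contra hC
    have hCA : ∀ c, ∀ w ∈ C, αQ c w ∈ C := fun c w hw => Subgroup.mem_centralizer_iff.mpr fun e he => by
      have := congrArg (αQ c) (Subgroup.mem_centralizer_iff.mp hw _ (hDA c⁻¹ e he))
      rwa [map_mul, map_mul, map_inv, MulAut.apply_inv_self] at this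
    have hCR : ∀ x, ∀ w ∈ C, κ x w ∈ C := fun x w hw => Subgroup.mem_centralizer_iff.mpr fun e he => by
      have := congrArg (κ x) (Subgroup.mem_centralizer_iff.mp hw e he)
      rwa [map_mul, map_mul, hD e he x] at this
    have hmoved : ∀ x y, y⁻¹ * κ x y ∈ C := fun x y => Subgroup.mem_centralizer_iff.mpr fun e he => by
      have h1 : κ x (y * e * y⁻¹) = y * e * y⁻¹ := by
        refine hD _ ?_ x
        rw [show y * e * y⁻¹ = ⁅y, e⁆ * e by rw [commutatorElement_def]; group]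
        exact D.mul_mem (hDder _ _) he
      simp only [map_mul, map_inv, hD e he x] at h1
      calc e * (y⁻¹ * κ x y) = y⁻¹ * (y * e * y⁻¹) * κ x y := by group
        _ = y⁻¹ * (κ x y * e * (κ x y)⁻¹) * κ x y := by rw [h1]
        _ = _ := by group
    have hCD : C ≤ D := fun w hw x => hQmin C hC hCA hCR x w hw
    obtain ⟨n, hn, hfix⟩ := hliftR C y₀ hCR (fun x => hmoved x y₀)
    refine hact₀ ?_
    have h := hfix x₀
    rw [map_mul, hCD hn x₀] at h
    exact mul_right_cancel h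
  have hDfix : ∀ y, (∀ x, κ x y = y) → y ∈ D := fun y h => h
  haveI : Nontrivial W := by
    by_contra hW
    rw [not_nontrivial_iff_subsingleton] at hW
    exact hact₀ (hd.inj (Subsingleton.elim _ _))
  have htop : ∀ (S : Subgroup A), S = ⊤ → ∑ a : S, T a = 0 := by
    rintro S rfl
    rw [← hsum]
    exact Fintype.sum_equiv Subgroup.topEquiv.toEquiv _ _ fun a => rfl
  by_cases hab : ∀ x y : Q, x * y = y * x
  · -- abelian case
    obtain ⟨hex, -, hstab⟩ := weights hd.isQ hd.hqK ρQ (fun x y => by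
      show ρQ x * ρQ y = ρQ y * ρQ x
      rw [← map_mul, ← map_mul, hab])
    have hne1 : ρQ (y₀⁻¹ * κ x₀ y₀) ≠ 1 := fun h => hact₀ (inv_mul_eq_one.mp (hd.inj (h.trans (map_one ρQ).symm))).symm
    obtain ⟨χ, hχ, hχo⟩ := hex _ hne1
    let occ : ((⊤ : Subgroup Q) →* Kˣ) → Prop := fun ψ => eig (ρQ.comp (⊤ : Subgroup Q).subtype) ψ ≠ ⊥
    have hfix := hd.weights_fixed hD hDder hDA hDfix le_top (fun _ _ _ => Subgroup.mem_top _) ⊤
      (fun _ _ _ _ => Subgroup.mem_top _) ha₁ ha₁R occ ?_ ?_ (ψ := χ.comp (⊤ : Subgroup Q).subtype) ?_ x₀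
      ⟨y₀, Subgroup.mem_top y₀⟩
    · exact hχ (by rw [map_mul, map_inv]; exact inv_mul_eq_one.mpr hfix.symm)
    · intro ψ hψ x ψ' hψ'
      obtain ⟨v, hv, hv0⟩ := (Submodule.ne_bot_iff _).mp hψ
      refine (Submodule.ne_bot_iff _).mpr ⟨ρR x⁻¹ v, fun z => ?_, fun h => hv0 ?_⟩
      · show ρQ (z : Q) (ρR x⁻¹ v) = (ψ' z : K) • ρR x⁻¹ v
        have hc := hd.compatR x⁻¹ (κ x (z : Q))
        rw [show κ x⁻¹ (κ x (z : Q)) = z by rw [map_inv, MulAut.inv_apply_self]] at hc
        rw [← Module.End.mul_apply, ← hc, Module.End.mul_apply, hψ' z, ← map_smul]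
        exact congrArg _ (hv ⟨κ x z, Subgroup.mem_top _⟩)
      · have h2 := congrArg (ρR x) h
        rwa [map_zero, ← Module.End.mul_apply, ← map_mul, mul_inv_cancel, map_one, Module.End.one_apply] at h2
    · intro ψ hψ
      obtain ⟨v, hv, hv0⟩ := (Submodule.ne_bot_iff _).mp hψ
      obtain ⟨a, ha, hfix⟩ := hstab αQ T hd.compatA hsum
        (ψ.comp ((Subgroup.topEquiv : (⊤ : Subgroup Q) ≃* Q).symm.toMonoidHom))
        ((Submodule.ne_bot_iff _).mpr ⟨v, fun z => hv ⟨z, Subgroup.mem_top z⟩, hv0⟩)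
      exact ⟨a, Subgroup.mem_top a, ha, fun z => hfix z⟩
    · obtain ⟨v, hv, hv0⟩ := (Submodule.ne_bot_iff _).mp hχo
      exact (Submodule.ne_bot_iff _).mpr ⟨v, fun z => hv z, hv0⟩
  -- nonabelian case
  push Not at hab
  obtain ⟨xc, yc, hxy⟩ := hab
  let c : D := ⟨⁅xc, yc⁆, hDder xc yc⟩
  have hDc : ∀ u v : D, Commute (ρQ (u : Q)) (ρQ (v : Q)) := fun u v => by
    show ρQ (u : Q) * ρQ (v : Q) = ρQ (v : Q) * ρQ (u : Q)
    rw [← map_mul, ← map_mul, hcen u u.2 v]
  obtain ⟨hexD, -, hstabD⟩ := weights (hd.isQ.to_subgroup D) hd.hqK (ρQ.comp D.subtype) hDc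
  obtain ⟨χ, hχc, hχo⟩ := hexD c (fun h => hxy (commutatorElement_eq_one_iff_mul_comm.mp
    (hd.inj (h.trans (map_one ρQ).symm))))
  let αD : A →* MulAut D := MonoidHom.mk' (fun a =>
    { toFun := fun d => ⟨αQ a d, hDA a d d.2⟩
      invFun := fun d => ⟨αQ a⁻¹ d, hDA a⁻¹ d d.2⟩
      left_inv := fun d => Subtype.ext (by show αQ a⁻¹ (αQ a (d : Q)) = d; rw [map_inv, MulAut.inv_apply_self])
      right_inv := fun d => Subtype.ext (by show αQ a (αQ a⁻¹ (d : Q)) = d; rw [map_inv, MulAut.apply_inv_self])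
      map_mul' := fun u v => Subtype.ext (map_mul (αQ a) _ _) })
    fun a b => MulEquiv.ext fun d => Subtype.ext (by
      show αQ (a * b) (d : Q) = αQ a (αQ b d); rw [map_mul, MulAut.mul_apply])
  obtain ⟨a, ha, haχ⟩ := hstabD αD T (fun a d => hd.compatA a d) hsum χ hχo
  -- the stabilizer of `χ`
  let S : Subgroup A :=
    { carrier := {b | ∀ d : D, χ ⟨αQ b d, hDA b d d.2⟩ = χ d}
      one_mem' := fun d => congrArg χ (Subtype.ext (by show αQ 1 (d : Q) = d; simp))
      mul_mem' := fun {u v} hu hv d => by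
        rw [← hv d, ← hu ⟨αQ v d, hDA v d d.2⟩]
        exact congrArg χ (Subtype.ext (by show αQ (u * v) (d : Q) = αQ u (αQ v d); rw [map_mul, MulAut.mul_apply]))
      inv_mem' := fun {u} hu d => by
        rw [← hu ⟨αQ u⁻¹ d, hDA _ d d.2⟩]
        exact congrArg χ (Subtype.ext (by show αQ u (αQ u⁻¹ (d : Q)) = d; rw [map_inv, MulAut.apply_inv_self])) }
  have haS : a ∈ S := haχ
  have hoa : orderOf a = p := orderOf_eq_prime (hd.expA a) ha
  have hS : S = Subgroup.zpowers a := by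
    refine (Subgroup.eq_of_le_of_card_ge (Subgroup.zpowers_le.mpr haS) ?_).symm
    obtain ⟨k, hk, hkc⟩ := (Nat.dvd_prime_pow hd.hp).mp (hd.cardA ▸ Subgroup.card_subgroup_dvd_card S)
    rw [Nat.card_zpowers, hoa, hkc]
    rcases Nat.lt_or_ge k 2 with hlt | hge
    · calc p ^ k ≤ p ^ 1 := Nat.pow_le_pow_right hd.hp.pos (by omega)
        _ = p := pow_one p
    · have htop : S = ⊤ := Subgroup.eq_top_of_card_eq S (by rw [hkc, hd.cardA, show k = 2 by omega])
      exact absurd (hd.norm_fixed (fun u hu v _ => hcen u hu v) hDA χ (fun b d => (htop.ge (Subgroup.mem_top b) : b ∈ S) d) c) hχc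
  set U1 := eig (ρQ.comp D.subtype) χ with hU1
  have hU1Q : ∀ y, ∀ w ∈ U1, ρQ y w ∈ U1 := fun y w hw d => by
    show ρQ (d : Q) (ρQ y w) = _
    rw [← Module.End.mul_apply, ← map_mul, hcen d d.2 y, map_mul, Module.End.mul_apply,
      show ρQ (d : Q) w = (χ d : K) • w from hw d, map_smul]
  have hU1T : ∀ b ∈ S, ∀ w ∈ U1, T b w ∈ U1 := fun b hb w hw d => by
    obtain ⟨d', rfl⟩ : ∃ d' : D, (⟨αQ b d', hDA b d' d'.2⟩ : D) = d :=
      ⟨(αD b).symm d, (αD b).apply_symm_apply d⟩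
    show ρQ (αQ b (d' : Q)) (T b w) = _
    rw [← Module.End.mul_apply, ← hd.compatA, Module.End.mul_apply,
      show ρQ (d' : Q) w = (χ d' : K) • w from hw d', map_smul, hb d']
  have hU1R : ∀ x, ∀ w ∈ U1, ρR x w ∈ U1 := fun x w hw d => by
    show ρQ (d : Q) (ρR x w) = _
    have hc := hd.compatR x (d : Q)
    rw [hD d d.2 x] at hc
    rw [← Module.End.mul_apply, ← hc, Module.End.mul_apply,
      show ρQ (d : Q) w = (χ d : K) • w from hw d, map_smul]
  haveI : Nontrivial U1 := Submodule.nontrivial_iff_ne_bot.mpr hχo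
  -- the sum over the stabilizer
  have hsumS : ∀ w ∈ U1, ∑ b : S, T b w = 0 := by
    letI : CommGroup D :=
      { (inferInstance : Group D) with mul_comm := fun u v => Subtype.ext (hcen u u.2 v) }
    haveI := Fintype.ofFinite D
    intro w hw
    have h := WeightSpace.sum_stabilizer_eq_zero (ρQ.comp D.subtype) (by
        obtain ⟨k, hk⟩ := IsPGroup.iff_card.mp (hd.isQ.to_subgroup D)
        rw [hk, Nat.cast_pow]; exact pow_ne_zero _ hd.hqK)
      αD (fun b => T b) (fun b d => hd.compatA b d) hsum (χ := χ) (v := w) hw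
      (Finset.univ.filter (· ∈ S)) (fun b => by simp only [Finset.mem_filter, Finset.mem_univ, true_and]; rfl)
    rw [← h]
    exact (Finset.sum_subtype _ (fun b => by simp) (fun b => T b w)).symm
  -- the radical
  let ω₀ : Q → Q → Kˣ := fun u v => χ ⟨⁅u, v⁆, hDder u v⟩
  have hωl : ∀ u u' v, ω₀ (u * u') v = ω₀ u v * ω₀ u' v := fun u u' v => by
    show χ _ = χ _ * χ _
    rw [mul_comm, ← map_mul]
    congr 1
    refine Subtype.ext ?_
    show ⁅u * u', v⁆ = ⁅u', v⁆ * ⁅u, v⁆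
    have hc := hcen _ (hDder u' v) u
    simp only [commutatorElement_def] at hc ⊢
    calc u * u' * v * (u * u')⁻¹ * v⁻¹ = u * (u' * v * u'⁻¹ * v⁻¹) * (v * u⁻¹ * v⁻¹) := by group
      _ = (u' * v * u'⁻¹ * v⁻¹) * u * (v * u⁻¹ * v⁻¹) := by rw [hc]
      _ = _ := by group
  have hωr : ∀ u v v', ω₀ u (v * v') = ω₀ u v * ω₀ u v' := fun u v v' => by
    show χ _ = χ _ * χ _
    rw [← map_mul]
    congr 1
    refine Subtype.ext ?_
    show ⁅u, v * v'⁆ = ⁅u, v⁆ * ⁅u, v'⁆
    have hc := hcen _ (hDder u v') v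
    simp only [commutatorElement_def] at hc ⊢
    calc u * (v * v') * u⁻¹ * (v * v')⁻¹ = u * v * u⁻¹ * ((u * v' * u⁻¹ * v'⁻¹) * v⁻¹) := by group
      _ = u * v * u⁻¹ * (v⁻¹ * (u * v' * u⁻¹ * v'⁻¹)) := by
        congr 1
        calc (u * v' * u⁻¹ * v'⁻¹) * v⁻¹ = v⁻¹ * (v * (u * v' * u⁻¹ * v'⁻¹)) * v⁻¹ := by group
          _ = v⁻¹ * ((u * v' * u⁻¹ * v'⁻¹) * v) * v⁻¹ := by rw [hc]
          _ = _ := by group
      _ = _ := by group
  have hω1 : ∀ v, ω₀ 1 v = 1 ∧ ω₀ v 1 = 1 := fun v => by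
    constructor
    · have h := hωl 1 1 v; rwa [mul_one, left_eq_mul] at h
    · have h := hωr v 1 1; rwa [mul_one, left_eq_mul] at h
  let Z : Subgroup Q :=
    { carrier := {u | ∀ v, ω₀ u v = 1}
      one_mem' := fun v => (hω1 v).1
      mul_mem' := fun {u u'} hu hu' v => by rw [hωl, hu v, hu' v, one_mul]
      inv_mem' := fun {u} hu v => by
        have h := hωl u⁻¹ u v
        rwa [inv_mul_cancel, (hω1 v).1, hu v, mul_one, eq_comm] at h }
  have hDZ : D ≤ Z := fun d hd' v => by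
    show χ _ = 1
    rw [← map_one χ]
    congr 1
    exact Subtype.ext (commutatorElement_eq_one_iff_mul_comm.mpr (hcen d hd' v))
  have hωA : ∀ b ∈ S, ∀ u v, ω₀ (αQ b u) (αQ b v) = ω₀ u v := fun b hb u v => by
    show χ _ = χ _
    refine Eq.trans (congrArg χ (Subtype.ext ?_)) (hb ⟨⁅u, v⁆, hDder u v⟩)
    exact (map_commutatorElement (αQ b) u v).symm
  have hωR : ∀ x u v, ω₀ (κ x u) (κ x v) = ω₀ u v := fun x u v => by
    show χ _ = χ _
    refine congrArg χ (Subtype.ext ?_)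
    show ⁅κ x u, κ x v⁆ = ⁅u, v⁆
    rw [← map_commutatorElement]
    exact hD _ (hDder u v) x
  have hZS : ∀ b ∈ S, ∀ u ∈ Z, αQ b u ∈ Z := fun b hb u hu v => by
    obtain ⟨v', rfl⟩ := (αQ b).surjective v
    rw [hωA b hb]; exact hu v'
  have hZR : ∀ x, ∀ u ∈ Z, κ x u ∈ Z := fun x u hu v => by
    obtain ⟨v', rfl⟩ := (κ x).surjective v
    rw [hωR]; exact hu v'
  have hcommU1 : ∀ u v, ∀ w ∈ U1, ρQ u (ρQ v w) = (ω₀ u v : K) • ρQ v (ρQ u w) := by
    intro u v w hw
    have h1 : u * v = ⁅u, v⁆ * (v * u) := by rw [commutatorElement_def]; group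
    rw [← Module.End.mul_apply, ← map_mul, h1, map_mul, map_mul, Module.End.mul_apply, Module.End.mul_apply]
    exact hU1Q v _ (hU1Q u w hw) ⟨⁅u, v⁆, hDder u v⟩
  set ρ1 := HHExceptional.restrictRep ρQ U1 hU1Q with hρ1
  have hZcomm : ∀ u v : Z, Commute (ρ1 (u : Q)) (ρ1 (v : Q)) := fun u v => LinearMap.ext fun w => Subtype.ext (by
    show ρQ (u : Q) (ρQ (v : Q) w) = ρQ (v : Q) (ρQ (u : Q) w)
    rw [hcommU1 _ _ _ w.2, u.2 v, Units.val_one, one_smul])
  obtain ⟨-, hexZ, hstabZ⟩ := weights (hd.isQ.to_subgroup Z) hd.hqK (ρ1.comp Z.subtype) hZcomm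
  obtain ⟨ψ, hψo⟩ := hexZ inferInstance
  let occ : (Z →* Kˣ) → Prop := fun φ => eig (ρ1.comp Z.subtype) φ ≠ ⊥
  let TS : S →* Module.End K U1 :=
    { toFun := fun b => (T b).restrict (hU1T b b.2)
      map_one' := LinearMap.ext fun w => Subtype.ext (by simp [LinearMap.restrict_apply])
      map_mul' := fun u v => LinearMap.ext fun w => Subtype.ext (by simp [LinearMap.restrict_apply]) }
  let αZ : S →* MulAut Z := MonoidHom.mk' (fun b =>
    { toFun := fun u => ⟨αQ b u, hZS b b.2 u u.2⟩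
      invFun := fun u => ⟨αQ (b : A)⁻¹ u, hZS _ (S.inv_mem b.2) u u.2⟩
      left_inv := fun u => Subtype.ext (by
        show αQ (b : A)⁻¹ (αQ (b : A) (u : Q)) = u; rw [map_inv, MulAut.inv_apply_self])
      right_inv := fun u => Subtype.ext (by
        show αQ (b : A) (αQ (b : A)⁻¹ (u : Q)) = u; rw [map_inv, MulAut.apply_inv_self])
      map_mul' := fun u v => Subtype.ext (map_mul (αQ b) _ _) })
    fun b b' => MulEquiv.ext fun u => Subtype.ext (by
      show αQ ((b : A) * b') (u : Q) = αQ b (αQ b' u); rw [map_mul, MulAut.mul_apply])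
  have hTS : ∀ b z, TS b * (ρ1.comp Z.subtype) z = (ρ1.comp Z.subtype) (αZ b z) * TS b := fun b z =>
    LinearMap.ext fun w => Subtype.ext (LinearMap.congr_fun (hd.compatA b z) (w : W))
  have hsumTS : ∑ b, TS b = 0 := LinearMap.ext fun w => Subtype.ext (by
    rw [LinearMap.sum_apply, LinearMap.zero_apply, Submodule.coe_zero, Submodule.coe_sum]
    exact hsumS w w.2)
  have hstab : ∀ φ, occ φ → ∃ b, ∃ h : b ∈ S, b ≠ 1 ∧ ∀ z : Z, φ ⟨αQ b z, hZS b h z z.2⟩ = φ z := by
    intro φ hφ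
    obtain ⟨b, hb1, hb⟩ := hstabZ αZ TS hTS hsumTS φ hφ
    exact ⟨b, b.2, fun h => hb1 (Subtype.ext h), hb⟩
  have hψR := hd.weights_fixed hD hDder hDA hDfix hDZ hZR S hZS ha₁ ha₁R occ (fun φ hφ x φ' hφ' => by
      obtain ⟨v, hv, hv0⟩ := (Submodule.ne_bot_iff _).mp hφ
      refine (Submodule.ne_bot_iff _).mpr ⟨⟨ρR x⁻¹ v, hU1R _ v v.2⟩, fun z => Subtype.ext ?_, fun h => hv0 ?_⟩
      · show ρQ (z : Q) (ρR x⁻¹ (v : W)) = (φ' z : K) • ρR x⁻¹ (v : W)
        have hc := hd.compatR x⁻¹ (κ x (z : Q))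
        rw [show κ x⁻¹ (κ x (z : Q)) = z by rw [map_inv, MulAut.inv_apply_self]] at hc
        rw [← Module.End.mul_apply, ← hc, Module.End.mul_apply, hφ' z, ← map_smul]
        exact congrArg _ (congrArg Subtype.val (hv ⟨κ x z, hZR x z z.2⟩))
      · refine Subtype.ext ?_
        have h2 := congrArg (fun u : U1 => ρR x (u : W)) h
        simp only [Submodule.coe_zero, map_zero] at h2
        rwa [← Module.End.mul_apply, ← map_mul, mul_inv_cancel, map_one, Module.End.one_apply] at h2)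
    hstab hψo
  have hψa : ∀ z : Z, ψ ⟨αQ a z, hZS a haS z z.2⟩ = ψ z := by
    obtain ⟨b, hbS, hb1, hb⟩ := hstab ψ hψo
    have hb' : b ∈ Subgroup.zpowers a := hS ▸ hbS
    have hgen : a ∈ Subgroup.zpowers b := by
      have : Subgroup.zpowers b = Subgroup.zpowers a := Subgroup.eq_of_le_of_card_ge (Subgroup.zpowers_le.mpr hb')
        (by rw [Nat.card_zpowers, Nat.card_zpowers, hoa, orderOf_eq_prime (hd.expA b) hb1])
      rw [this]; exact Subgroup.mem_zpowers a
    obtain ⟨i, hi⟩ := (IsOfFinOrder.mem_powers_iff_mem_zpowers (isOfFinOrder_of_finite b)).mpr hgen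
    have hiter : ∀ i, ∀ z : Z, ψ ⟨αQ (b ^ i) z, hZS _ (S.pow_mem hbS i) z z.2⟩ = ψ z := by
      intro i
      induction i with
      | zero => intro z; congr 1; exact Subtype.ext (by simp)
      | succ i ih =>
        intro z
        rw [← ih z, ← hb ⟨αQ (b ^ i) z, hZS _ (S.pow_mem hbS i) z z.2⟩]
        congr 1
        exact Subtype.ext (show αQ (b ^ (i + 1)) (z : Q) = αQ b (αQ (b ^ i) z) by rw [pow_succ', map_mul, MulAut.mul_apply])
    intro z
    rw [← hiter i z]
    congr 1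
    exact Subtype.ext (by show αQ a (z : Q) = αQ (b ^ i) z; rw [show b ^ i = a from hi])
  -- the final subspace
  let U : Submodule K W :=
    { carrier := {w | w ∈ U1 ∧ ∀ z : Z, ρQ (z : Q) w = (ψ z : K) • w}
      zero_mem' := ⟨zero_mem _, fun z => by simp⟩
      add_mem' := fun {u v} hu hv => ⟨add_mem hu.1 hv.1, fun z => by rw [map_add, hu.2 z, hv.2 z, smul_add]⟩
      smul_mem' := fun e u hu => ⟨U1.smul_mem e hu.1, fun z => by rw [map_smul, hu.2 z, smul_comm]⟩ }
  have hUQ : ∀ y, ∀ w ∈ U, ρQ y w ∈ U := fun y w hw => ⟨hU1Q y w hw.1, fun z => by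
    rw [hcommU1 _ _ _ hw.1, z.2 y, Units.val_one, one_smul, hw.2 z, map_smul]⟩
  have hUT : ∀ w ∈ U, T a w ∈ U := fun w hw => ⟨hU1T a haS w hw.1, fun z => by
    obtain ⟨z', rfl⟩ : ∃ z' : Z, (⟨αQ a z', hZS a haS z' z'.2⟩ : Z) = z :=
      ⟨(αZ ⟨a, haS⟩).symm z, (αZ ⟨a, haS⟩).apply_symm_apply z⟩
    show ρQ (αQ a (z' : Q)) (T a w) = _
    rw [← Module.End.mul_apply, ← hd.compatA, Module.End.mul_apply, hw.2 z', map_smul, hψa]⟩
  haveI : Nontrivial U := by
    obtain ⟨v, hv, hv0⟩ := (Submodule.ne_bot_iff _).mp hψo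
    refine nontrivial_of_ne (⟨(v : W), v.2, fun z => congrArg Subtype.val (hv z)⟩ : U) 0 ?_
    exact fun h => hv0 (Subtype.ext (congrArg (fun u : U => (u : W)) h))
  set ρU := HHExceptional.restrictRep ρQ U hUQ with hρU
  haveI hZn : Z.Normal := ⟨fun u hu g => by
    rw [show g * u * g⁻¹ = ⁅g, u⁆ * u by rw [commutatorElement_def]; group]
    exact Z.mul_mem (hDZ (hDder _ _)) hu⟩
  letI : CommGroup (Q ⧸ Z) :=
    { (inferInstance : Group (Q ⧸ Z)) with
      mul_comm := fun X Y => by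
        obtain ⟨u, rfl⟩ := QuotientGroup.mk'_surjective Z X
        obtain ⟨v, rfl⟩ := QuotientGroup.mk'_surjective Z Y
        show QuotientGroup.mk' Z u * QuotientGroup.mk' Z v = QuotientGroup.mk' Z v * QuotientGroup.mk' Z u
        rw [← commutatorElement_eq_one_iff_mul_comm, ← map_commutatorElement]
        exact (QuotientGroup.eq_one_iff _).mpr (hDZ (hDder _ _)) }
  let mk := QuotientGroup.mk' Z
  have hXexp : ∀ X : Q ⧸ Z, X ^ q = 1 := fun X => by
    obtain ⟨u, rfl⟩ := QuotientGroup.mk'_surjective Z X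
    exact (QuotientGroup.eq_one_iff _).mpr (hDZ (hDpow u))
  haveI : Nontrivial (Q ⧸ Z) := by
    refine nontrivial_of_ne (mk xc) 1 fun h => hχc ?_
    exact ((QuotientGroup.eq_one_iff _).mp h : xc ∈ Z) yc
  let ω : Q ⧸ Z → Q ⧸ Z → K := fun X Y => (ω₀ X.out Y.out : K)
  have hωmk : ∀ u v, ω (mk u) (mk v) = (ω₀ u v : K) := by
    intro u v
    obtain ⟨z, hz⟩ := QuotientGroup.mk_out_eq_mul Z u
    obtain ⟨z', hz'⟩ := QuotientGroup.mk_out_eq_mul Z v
    show (ω₀ (Quotient.out (mk u)) (Quotient.out (mk v)) : K) = _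
    rw [show Quotient.out (mk u) = u * z from hz, show Quotient.out (mk v) = v * z' from hz', hωl, hωr,
      z.2 (v * (z' : Q)), mul_one]
    have hsk : ω₀ u (z' : Q) = (ω₀ (z' : Q) u)⁻¹ := by
      show χ _ = (χ _)⁻¹
      rw [← map_inv]
      exact congrArg χ (Subtype.ext (commutatorElement_inv _ _).symm)
    rw [hsk, z'.2 u, inv_one, mul_one]
  have hω : WardEndgame.IsPairing ω := by
    refine ⟨fun X Y Z' => ?_, fun X Y Z' => ?_, fun X => ?_, fun X hX => ?_, fun X Y => (ω₀ _ _).ne_zero⟩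
    all_goals
      obtain ⟨u, rfl⟩ := QuotientGroup.mk'_surjective Z X
    · obtain ⟨v, rfl⟩ := QuotientGroup.mk'_surjective Z Y
      obtain ⟨w, rfl⟩ := QuotientGroup.mk'_surjective Z Z'
      rw [← map_mul, hωmk, hωmk, hωmk, hωl, Units.val_mul]
    · obtain ⟨v, rfl⟩ := QuotientGroup.mk'_surjective Z Y
      obtain ⟨w, rfl⟩ := QuotientGroup.mk'_surjective Z Z'
      rw [← map_mul, hωmk, hωmk, hωmk, hωr, Units.val_mul]
    · rw [hωmk]
      show ((χ _ : Kˣ) : K) = 1
      rw [show (⟨⁅u, u⁆, hDder u u⟩ : D) = 1 from Subtype.ext (commutatorElement_self u), map_one, Units.val_one]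
    · exact (QuotientGroup.eq_one_iff u).mpr fun v => Units.ext (by rw [← hωmk]; exact hX (mk v))
  have hmapA : Z.map (αQ a).toMonoidHom = Z := Subgroup.eq_of_le_of_card_ge
    (Subgroup.map_le_iff_le_comap.mpr fun u hu => hZS a haS u hu) (Subgroup.card_map_of_injective (αQ a).injective).ge
  let aX : MulAut (Q ⧸ Z) := QuotientGroup.congr Z Z (αQ a) hmapA
  have haX : ∀ u, aX (mk u) = mk (αQ a u) := fun u => rfl
  have haXp : aX ^ p = 1 := by
    have h : ∀ i u, (aX ^ i) (mk u) = mk (αQ (a ^ i) u) := by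
      intro i
      induction i with
      | zero => intro u; simp
      | succ i ih => intro u; rw [pow_succ', MulAut.mul_apply, ih, haX, pow_succ', map_mul, MulAut.mul_apply]
    refine MulEquiv.ext fun X => ?_
    obtain ⟨u, rfl⟩ := QuotientGroup.mk'_surjective Z X
    rw [show QuotientGroup.mk' Z u = mk u from rfl, h, hd.expA, map_one]
    rfl
  have hinvA : ∀ X Y, ω (aX X) (aX Y) = ω X Y := fun X Y => by
    obtain ⟨u, rfl⟩ := QuotientGroup.mk'_surjective Z X
    obtain ⟨v, rfl⟩ := QuotientGroup.mk'_surjective Z Y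
    rw [haX, haX, hωmk, hωmk, hωA a haS]
  have hmapR : ∀ x, Z.map (κ x).toMonoidHom = Z := fun x => Subgroup.eq_of_le_of_card_ge
    (Subgroup.map_le_iff_le_comap.mpr fun u hu => hZR x u hu) (Subgroup.card_map_of_injective (κ x).injective).ge
  let κX : R →* MulAut (Q ⧸ Z) := MonoidHom.mk' (fun x => QuotientGroup.congr Z Z (κ x) (hmapR x))
    fun x y => MulEquiv.ext fun X => by
      obtain ⟨u, rfl⟩ := QuotientGroup.mk'_surjective Z X
      show mk (κ (x * y) u) = mk (κ x (κ y u))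
      rw [map_mul, MulAut.mul_apply]
  have hκX : ∀ x u, κX x (mk u) = mk (κ x u) := fun x u => rfl
  have hRfix : ∀ X, (∀ x, κX x X = X) → X = 1 := fun X hX => by
    obtain ⟨u, rfl⟩ := QuotientGroup.mk'_surjective Z X
    obtain ⟨n, hn, hnD⟩ := hliftR Z u hZR fun x => QuotientGroup.eq.mp (hX x).symm
    refine (QuotientGroup.eq_one_iff u).mpr ?_
    have h2 := Z.mul_mem (hDZ hnD) (Z.inv_mem hn)
    rwa [mul_inv_cancel_right] at h2
  have hcopX : (Nat.card (Q ⧸ Z)).Coprime p := by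
    obtain ⟨k, hk⟩ := IsPGroup.iff_card.mp (hd.isQ.to_quotient Z)
    rw [hk]; exact ((Nat.coprime_primes hd.hq hd.hp).mpr (Ne.symm hd.hpq)).pow_left k
  -- Hall–Higman on the moved part
  have hHH : WardEndgame.moved aX ≠ ⊥ →
      q = 2 ∧ ∃ n, 1 ≤ n ∧ p = 2 ^ n + 1 ∧ Nat.card (WardEndgame.moved aX) = 2 ^ (2 * n) := by
    intro hmv
    set M := WardEndgame.moved aX
    have haM : ∀ Y ∈ M, aX Y ∈ M := fun Y hY => by
      obtain ⟨w, rfl⟩ := hY
      exact ⟨aX w, by show (aX w)⁻¹ * aX (aX w) = aX (w⁻¹ * aX w); rw [map_mul, map_inv]⟩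
    let Q1 := M.comap mk
    have hQ1a : Q1.map (αQ a).toMonoidHom = Q1 := Subgroup.eq_of_le_of_card_ge
      (Subgroup.map_le_iff_le_comap.mpr fun u hu => show mk (αQ a u) ∈ M from haX u ▸ haM _ hu)
      (Subgroup.card_map_of_injective (αQ a).injective).ge
    let σ1 : MulAut Q1 := ((αQ a).subgroupMap Q1).trans (MulEquiv.subgroupCongr hQ1a)
    -- scalar elements are those of `Z`
    have hscalar : ∀ u : Q1, (u : Q) ∈ Z → ∃ e : K, ρU (u : Q) = e • 1 := fun u hu =>
      ⟨ψ ⟨u, hu⟩, LinearMap.ext fun w => Subtype.ext (w.2.2 ⟨u, hu⟩)⟩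
    have hradM : ∀ u : Q1, (∀ v : Q1, Commute (ρU (u : Q)) (ρU (v : Q))) → (u : Q) ∈ Z := by
      intro u hu
      have h1 : ∀ v : Q1, ω₀ (u : Q) v = 1 := fun v => by
        obtain ⟨w, hw0⟩ := exists_ne (0 : U)
        have h := congrArg Subtype.val (LinearMap.congr_fun (hu v).eq w)
        rw [Module.End.mul_apply, Module.End.mul_apply] at h
        have h' : ρQ (u : Q) (ρQ (v : Q) (w : W)) = ρQ (v : Q) (ρQ (u : Q) (w : W)) := h
        rw [hcommU1 _ _ _ w.2.1] at h'
        refine Units.ext (smul_left_injective K ?_ (h'.trans (one_smul K _).symm))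
        intro h0
        refine hw0 (Subtype.ext ?_)
        have h3 := congrArg (fun y => ρQ (u : Q)⁻¹ (ρQ (v : Q)⁻¹ y)) h0
        simp only [map_zero] at h3
        rwa [← Module.End.mul_apply (ρQ (v : Q)⁻¹), ← map_mul ρQ, inv_mul_cancel, map_one, Module.End.one_apply,
          ← Module.End.mul_apply, ← map_mul, inv_mul_cancel, map_one, Module.End.one_apply] at h3
      refine (QuotientGroup.eq_one_iff (u : Q)).mp (hω.nondeg (mk (u : Q)) fun Y => ?_)
      obtain ⟨k, hk⟩ := exists_pow_eq_self_of_coprime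
        (Nat.Coprime.coprime_dvd_right (orderOf_dvd_natCard Y) hcopX.symm)
      obtain ⟨Y', hY', hYe⟩ := WardEndgame.pow_eq_norm_mul (a := aX) (p := p) Y
      have hY'1 : ω (mk (u : Q)) Y' = 1 := by
        obtain ⟨v, rfl⟩ := QuotientGroup.mk'_surjective Z Y'
        rw [hωmk, h1 ⟨v, hY'⟩, Units.val_one]
      have hN1 : ω (mk (u : Q)) (WardEndgame.norm aX p Y) = 1 := by
        have hc := WardEndgame.apply_norm haXp Y
        have h2 := hω.moved_orth hinvA hc (y := mk (u : Q)) u.2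
        have h3 := hω.self (mk (u : Q) * WardEndgame.norm aX p Y)
        rwa [hω.mul_left, hω.mul_right, hω.mul_right, hω.self, hω.self, one_mul, mul_one, h2, mul_one] at h3
      have h4 : ω (mk (u : Q)) (Y ^ p) = 1 := by rw [hYe, hω.mul_right, hN1, hY'1, one_mul]
      rw [← hk]
      clear hk
      induction k with
      | zero => rw [pow_zero, hω.one_right]
      | succ k ih => rw [pow_succ, hω.mul_right, ih, h4, one_mul]
    have hsumU : ∑ i ∈ Finset.range p, ((T a).restrict hUT) ^ i = 0 := by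
      refine LinearMap.ext fun w => Subtype.ext ?_
      rw [LinearMap.sum_apply, LinearMap.zero_apply, Submodule.coe_zero, Submodule.coe_sum]
      have h2 : ∀ i, ((((T a).restrict hUT) ^ i) w : W) = T (a ^ i) w := by
        intro i
        induction i with
        | zero => simp
        | succ i ih =>
          rw [pow_succ', pow_succ', map_mul, Module.End.mul_apply, Module.End.mul_apply,
            LinearMap.coe_restrict_apply, ih]
      simp only [h2]
      have h3 := hsumS w w.2.1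
      have he : (Finset.univ.filter (· ∈ S)) = (Finset.range p).image (a ^ ·) := by
        ext b
        simp only [Finset.mem_filter, Finset.mem_univ, true_and]
        rw [hS, ← hoa, ← IsOfFinOrder.mem_powers_iff_mem_zpowers (isOfFinOrder_of_finite a)]
        exact mem_powers_iff_mem_range_orderOf
      rw [← Finset.sum_subtype (Finset.univ.filter (· ∈ S)) (fun b => by simp) (fun b => T b (w : W)), he,
        Finset.sum_image (fun i hi j hj hij => pow_injOn_Iio_orderOf
          (by rw [hoa]; exact Finset.mem_range.mp hi) (by rw [hoa]; exact Finset.mem_range.mp hj) hij)] at h3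
      exact h3
    have hTρ1 : ∀ u : Q1, (T a).restrict hUT * ρU (u : Q) = ρU ((σ1 u : Q1) : Q) * (T a).restrict hUT :=
      fun u => LinearMap.ext fun w => Subtype.ext (LinearMap.congr_fun (hd.compatA a u) (w : W))
    have hcomm1 : ∀ u v : Q1, ∃ e : K, ρU (u : Q) * ρU (v : Q) = e • (ρU (v : Q) * ρU (u : Q)) :=
      fun u v => ⟨ω₀ u v, LinearMap.ext fun w => Subtype.ext (hcommU1 u v w w.2.1)⟩
    have hfix1 : ∀ u : Q1, (∃ e : K, ρU ((σ1 u : Q1) : Q) = e • ρU (u : Q)) → ∃ e : K, ρU (u : Q) = e • 1 := by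
      rintro u ⟨e, he⟩
      have hin : (u : Q)⁻¹ * αQ a u ∈ Q1 :=
        Q1.mul_mem (Q1.inv_mem u.2) (show mk (αQ a (u : Q)) ∈ M from haX u ▸ haM _ u.2)
      have hmem : (u : Q)⁻¹ * αQ a u ∈ Z := hradM ⟨_, hin⟩ fun v => by
        show Commute (ρU ((u : Q)⁻¹ * αQ a u)) (ρU (v : Q))
        rw [map_mul, show ρU (αQ a (u : Q)) = e • ρU (u : Q) from he, mul_smul_comm, ← map_mul, inv_mul_cancel,
          map_one]
        exact (Commute.one_left _).smul_left e
      exact hscalar u ((QuotientGroup.eq_one_iff (u : Q)).mp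
        (WardEndgame.fixed_inf_moved haXp hcopX u.2 (QuotientGroup.eq.mpr hmem).symm))
    have hne1 : ∃ u : Q1, ∀ e : K, ρU (u : Q) ≠ e • 1 := by
      by_contra h
      push Not at h
      refine hmv ((Subgroup.eq_bot_iff_forall _).mpr fun Y hY => ?_)
      obtain ⟨u, rfl⟩ := QuotientGroup.mk'_surjective Z Y
      refine (QuotientGroup.eq_one_iff u).mpr (hradM ⟨u, hY⟩ fun v => ?_)
      obtain ⟨e, he⟩ := h ⟨u, hY⟩
      rw [show ρU ((⟨u, hY⟩ : Q1) : Q) = e • 1 from he]
      exact (Commute.one_left _).smul_left e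
    obtain ⟨h2, n, hn, hpn, hidx⟩ := HHExceptional.exceptional hd.hp hd.hpK (hd.isQ.to_subgroup Q1)
      (ρU.comp Q1.subtype) ((T a).restrict hUT) σ1 hsumU hTρ1 hcomm1
      (fun u hu => hscalar u (hradM u hu)) hfix1 hne1
    refine ⟨h2, n, hn, hpn, ?_⟩
    rw [← hidx (Z.subgroupOf Q1) fun u => ⟨fun hu => hscalar u hu, fun ⟨e, he⟩ => hradM u fun v => by
      rw [show ρU (u : Q) = e • 1 from he]; exact (Commute.one_left _).smul_left e⟩]
    have hker : Z.subgroupOf Q1 = (mk.comp Q1.subtype).ker := by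
      ext u
      rw [Subgroup.mem_subgroupOf, MonoidHom.mem_ker]
      exact (QuotientGroup.eq_one_iff (u : Q)).symm
    rw [hker, Subgroup.index_ker, MonoidHom.range_comp, Subgroup.range_subtype,
      Subgroup.map_comap_eq_self_of_surjective (QuotientGroup.mk'_surjective Z)]
  -- the commutative image of `R`
  let B := κX.range
  letI : CommGroup B :=
    { (inferInstance : Group B) with
      mul_comm := by
        rintro ⟨_, x, rfl⟩ ⟨_, y, rfl⟩
        refine Subtype.ext (MulEquiv.ext fun X => ?_)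
        obtain ⟨u, rfl⟩ := QuotientGroup.mk'_surjective Z X
        show mk (κ x (κ y u)) = mk (κ y (κ x u))
        rw [hRcomm] }
  haveI : Finite B := Set.Finite.to_subtype (Set.finite_range κX)
  obtain ⟨kr, hkr⟩ := IsPGroup.iff_card.mp hd.isR
  obtain ⟨jB, -, hjB⟩ := (Nat.dvd_prime_pow hd.hr).mp (hkr ▸ Subgroup.card_range_dvd κX)
  by_cases hafix : ∀ x, αR a x = x
  · -- `a` centralizes `R`
    have hfpfX : ∀ X, aX X = X → X = 1 := fun X hX => by
      obtain ⟨u, rfl⟩ := QuotientGroup.mk'_surjective Z X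
      obtain ⟨n, hn, hfix⟩ := hd.lift_fixed a Z (hZS a haS) (x := u) (QuotientGroup.eq.mp hX.symm)
      have hmem : u * n ∈ D := fun x => hd.commute a ha x _ (hafix x) hfix
      refine (QuotientGroup.eq_one_iff u).mpr ?_
      have h2 := Z.mul_mem (hDZ hmem) (Z.inv_mem hn)
      rwa [mul_inv_cancel_right] at h2
    have hmv : WardEndgame.moved aX ≠ ⊥ := fun h => by
      obtain ⟨X, hX⟩ := exists_ne (1 : Q ⧸ Z)
      exact hX (hfpfX X ((WardEndgame.moved_eq_bot_iff aX).mp h X))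
    obtain ⟨h2, n, hn, hpn, hMc⟩ := hHH hmv
    subst h2
    have hcard : Nat.card (Q ⧸ Z) = 2 ^ (2 * n) := by
      rw [WardEndgame.card_split haXp hcopX, hMc]
      have hC : (aX.toMonoidHom.eqLocus (MonoidHom.id (Q ⧸ Z))) = ⊥ :=
        (Subgroup.eq_bot_iff_forall _).mpr fun X hX => hfpfX X hX
      rw [hC, Subgroup.card_bot, one_mul]
    obtain ⟨X, hX1⟩ := exists_ne (1 : Q ⧸ Z)
    refine hX1 (hRfix X fun x => ?_)
    have hgp : κX x ^ p = 1 := WardEndgame.trivial_of_centralizer hd.hp hn hpn hXexp hcard hω aX haXp hfpfX hinvA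
      (κX x) (fun Y => by
        obtain ⟨u, rfl⟩ := QuotientGroup.mk'_surjective Z Y
        show mk (κ x (αQ a u)) = mk (αQ a (κ x u))
        rw [hd.compat, hafix])
      (fun Y Y' => by
        obtain ⟨u, rfl⟩ := QuotientGroup.mk'_surjective Z Y
        obtain ⟨v, rfl⟩ := QuotientGroup.mk'_surjective Z Y'
        rw [hκX, hκX, hωmk, hωmk, hωR])
    have hgr : κX x ^ (r ^ kr) = 1 := by rw [← map_pow, ← hkr, pow_card_eq_one', map_one]
    have : κX x = 1 := orderOf_eq_one_iff.mp (Nat.eq_one_of_dvd_coprimes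
      (((Nat.coprime_primes hd.hp hd.hr).mpr hd.hpr).pow_right kr)
      (orderOf_dvd_of_pow_eq_one hgp) (orderOf_dvd_of_pow_eq_one hgr))
    rw [this]; rfl
  · -- `a` acts without fixed points on `R`
    push Not at hafix
    have hconj : ∀ x, aX * κX x * aX⁻¹ = κX (αR a x) := fun x => by
      refine mul_inv_eq_of_eq_mul (MulEquiv.ext fun Y => ?_)
      obtain ⟨u, rfl⟩ := QuotientGroup.mk'_surjective Z Y
      show mk (αQ a (κ x u)) = mk (κ (αR a x) (αQ a u))
      rw [hd.compat]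
    have hfpfR : ∀ x, αR a x = x → x = 1 := fun x hx => hd.eq_one_of_fixed_two ha₁ (ha₁R x) hx (by
      obtain ⟨y, hy⟩ := hafix; exact ⟨y, ha₁R y, hy⟩)
    let t : MulAut B :=
      { toFun := fun b => ⟨aX * b * aX⁻¹, by obtain ⟨x, hx⟩ := b.2; exact ⟨αR a x, by rw [← hconj, hx]⟩⟩
        invFun := fun b => ⟨aX⁻¹ * b * aX, by
          obtain ⟨x, hx⟩ := b.2
          refine ⟨(αR a).symm x, ?_⟩
          have h := hconj ((αR a).symm x)
          rw [MulEquiv.apply_symm_apply, hx] at h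
          rw [← h]; group⟩
        left_inv := fun b => Subtype.ext (by simp only; group)
        right_inv := fun b => Subtype.ext (by simp only; group)
        map_mul' := fun b c => Subtype.ext (by simp only [Subgroup.coe_mul]; group) }
    refine WardEndgame.false_of_frobenius (q := q) hd.hp hd.hpq hXexp hω aX haXp hinvA (B := B) B.subtype
      (by rw [show Nat.card B = r ^ jB from hjB]; exact ((Nat.coprime_primes hd.hr hd.hq).mpr (Ne.symm hd.hqr)).pow_left jB)
      (fun X hX => hRfix X fun x => hX ⟨κX x, x, rfl⟩) t ?_ ?_ ?_ hHH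
    · refine MulEquiv.ext fun b => Subtype.ext ?_
      have h : ∀ i, (((t ^ i) b : B) : MulAut (Q ⧸ Z)) = aX ^ i * b * (aX ^ i)⁻¹ := by
        intro i
        induction i with
        | zero => simp
        | succ i ih =>
          rw [pow_succ', MulAut.mul_apply]
          show aX * (((t ^ i) b : B) : MulAut (Q ⧸ Z)) * aX⁻¹ = _
          rw [ih, pow_succ']; group
      rw [h, haXp]; simp
    · intro b hb
      obtain ⟨x, hx⟩ := b.2
      have hbx : κX (αR a x) = κX x := by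
        rw [← hconj, hx]; exact congrArg Subtype.val hb
      let L := κX.ker
      have hL : ∀ w ∈ L, αR a w ∈ L := fun w hw => by
        show κX _ = 1
        rw [← hconj, show κX w = 1 from hw, mul_one, mul_inv_cancel]
      have hinj : ∀ u v, u⁻¹ * αR a u = v⁻¹ * αR a v → u = v := fun u v e => by
        refine (mul_inv_eq_one.mp (hfpfR (u * v⁻¹) ?_))
        rw [map_mul, map_inv]
        calc αR a u * (αR a v)⁻¹ = u * (u⁻¹ * αR a u) * (αR a v)⁻¹ := by group
          _ = u * (v⁻¹ * αR a v) * (αR a v)⁻¹ := by rw [e]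
          _ = u * v⁻¹ := by group
      obtain ⟨w, hw⟩ := (Finite.injective_iff_surjective
        (f := fun w : L => (⟨(w : R)⁻¹ * αR a w, L.mul_mem (L.inv_mem w.2) (hL w w.2)⟩ : L))).mp
        (fun u v e => Subtype.ext (hinj _ _ (congrArg Subtype.val e)))
        ⟨x⁻¹ * αR a x, by show κX _ = 1; rw [map_mul, map_inv, hbx, inv_mul_cancel]⟩
      refine Subtype.ext ?_
      rw [← hx, ← hinj _ _ (congrArg Subtype.val hw)]
      exact w.2
    · intro b X
      show aX ((b : MulAut (Q ⧸ Z)) X) = (aX * b * aX⁻¹) (aX X)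
      simp only [MulAut.mul_apply, MulAut.inv_apply_self]

end Cfsg.Agent.Transfer.WardLocal
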