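/-
Ward's theorem: a solvable group with a fixed-point-free elementary abelian group of operators of order p²
has Fitting height at most two.
-/
import Cfsg.Agent.Transfer.WardStep
import Cfsg.Agent.Transfer.FittingReduction
import Cfsg.Agent.Core.ThompsonFPF
import Cfsg.Prelude.Def_Transfer

set_option autoImplicit false
set_option linter.style.haveILetI false
set_option linter.unusedSectionVars false
set_option maxSynthPendingDepth 4

namespace Cfsg.Agent.Transfer.Ward

open Cfsg Module
open scoped commutatorElement TensorProduct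

theorem norm_identity {M : Type*} [CommGroup M] [Finite M] {p : ℕ} (hp : p.Prime) (a b : MulAut M)
    (hb : ∀ m, b m = m → m = 1) (hab : ∀ j : ℕ, ∀ m, (a * b ^ j) m = m → m = 1) (hcomm : a * b = b * a)
    (ha : a ^ p = 1) (hb' : b ^ p = 1) (hcop : (Nat.card M).Coprime p) (m : M) : m = 1 := by
  classical
  have hnb : ∀ x, WardEndgame.norm b p x = 1 := fun x => hb _ (WardEndgame.apply_norm hb' x)
  have hc : Commute a b := hcomm
  have hnab : ∀ j : ℕ, WardEndgame.norm (a * b ^ j) p m = 1 := fun j => hab j _ (WardEndgame.apply_norm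
    (by rw [(hc.pow_right j).mul_pow, ha, one_mul, ← pow_mul, mul_comm, pow_mul, hb', one_pow]) m)
  have hprod : ∏ j ∈ Finset.range p, WardEndgame.norm (a * b ^ j) p m = m ^ p := by
    unfold WardEndgame.norm
    rw [Finset.prod_comm, Finset.prod_eq_single 0]
    · simp
    · intro i hi hi0
      have hip := Finset.mem_range.mp hi
      have e : ∀ j, ((a * b ^ j) ^ i) m = (a ^ i) ((b ^ (i * j % p)) m) := fun j => by
        rw [(hc.pow_right j).mul_pow, ← pow_mul, mul_comm j i, MulAut.mul_apply]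
        conv_lhs => rw [← Nat.div_add_mod (i * j) p, pow_add, pow_mul, hb', one_pow, one_mul]
      rw [Finset.prod_congr rfl fun j _ => e j, ← map_prod]
      have hinj : Set.InjOn (fun j => i * j % p) (Finset.range p : Finset ℕ) := by
        intro u hu v hv huv
        have h : u ≡ v [MOD p] := Nat.ModEq.cancel_left_of_coprime
          (Nat.coprime_of_lt_prime hi0 hip hp) huv
        rw [Finset.mem_coe, Finset.mem_range] at hu hv
        rwa [Nat.ModEq, Nat.mod_eq_of_lt hu, Nat.mod_eq_of_lt hv] at h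
      have himg : (Finset.range p).image (fun j => i * j % p) = Finset.range p := by
        refine Finset.eq_of_subset_of_card_le (fun x hx => ?_) ?_
        · obtain ⟨j, -, rfl⟩ := Finset.mem_image.mp hx
          exact Finset.mem_range.mpr (Nat.mod_lt _ hp.pos)
        · rw [Finset.card_image_of_injOn hinj]
      rw [← Finset.prod_image (f := fun k => (b ^ k) m) hinj, himg]
      exact (congrArg (a ^ i) (hnb m)).trans (map_one _)
    · exact fun h => absurd (Finset.mem_range.mpr hp.pos) h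
  rw [Finset.prod_eq_one fun j _ => hnab j] at hprod
  exact WardEndgame.pow_injective_of_coprime hcop (hprod.symm.trans (one_pow p).symm)

variable {K : Type*} [Field K] [IsAlgClosed K] {W : Type*} [AddCommGroup W] [Module K W]
  [FiniteDimensional K W] {H : Type*} [Group H] [Finite H] {A : Type*} [Group A] [Finite A]

/-- An invariant subgroup as a group with operators. -/
def resAct (α : A →* MulAut H) (Q : Subgroup H) (hQ : ∀ a, ∀ x ∈ Q, α a x ∈ Q) : A →* MulAut Q :=
  MonoidHom.mk' (fun a =>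
    { toFun := fun x => ⟨α a x, hQ a x x.2⟩
      invFun := fun x => ⟨α a⁻¹ x, hQ a⁻¹ x x.2⟩
      left_inv := fun x => Subtype.ext (by show α a⁻¹ (α a (x : H)) = x; rw [map_inv, MulAut.inv_apply_self])
      right_inv := fun x => Subtype.ext (by show α a (α a⁻¹ (x : H)) = x; rw [map_inv, MulAut.apply_inv_self])
      map_mul' := fun u v => Subtype.ext (map_mul (α a) _ _) })
    fun a b => MulEquiv.ext fun x => Subtype.ext (by
      show α (a * b) (x : H) = α a (α b x); rw [map_mul, MulAut.mul_apply])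

theorem exists_generators {p : ℕ} [Fact p.Prime] (hexp : ∀ a : A, a ^ p = 1) (hcard : Nat.card A = p ^ 2) :
    ∃ a b : A, b ≠ 1 ∧ ∀ j : ℕ, a * b ^ j ≠ 1 := by
  have hp : p.Prime := Fact.out
  haveI : Nontrivial A := Finite.one_lt_card_iff_nontrivial.mp (by rw [hcard]; exact Nat.one_lt_pow two_ne_zero hp.one_lt)
  obtain ⟨b, hb⟩ := exists_ne (1 : A)
  have hne : Subgroup.zpowers b ≠ ⊤ := fun h => by
    have := congrArg (fun S : Subgroup A => Nat.card S) h
    simp only [Subgroup.card_top, hcard, Nat.card_zpowers, orderOf_eq_prime (hexp b) hb] at this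
    nlinarith [hp.two_le]
  obtain ⟨a, ha⟩ : ∃ a, a ∉ Subgroup.zpowers b := by
    by_contra h
    push Not at h
    exact hne (eq_top_iff.mpr fun x _ => h x)
  refine ⟨a, b, hb, fun j h => ha ?_⟩
  rw [eq_inv_of_mul_eq_one_left h]
  exact Subgroup.inv_mem _ (Subgroup.pow_mem _ (Subgroup.mem_zpowers b) j)

/-- Invariant `q`- and `r`-subgroups, one normalizing the other, centralize each other. -/
theorem le_centralizer_of_fpf {p q r : ℕ} [Fact p.Prime] [Fact q.Prime] [Fact r.Prime] (hqr : q ≠ r)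
    (hpq : p ≠ q) (hpr : p ≠ r) (hqK : (q : K) ≠ 0) (hpK : (p : K) ≠ 0)
    (hcommA : ∀ a b : A, a * b = b * a) (hexp : ∀ a : A, a ^ p = 1) (hcard : Nat.card A = p ^ 2)
    [Fintype A] (α : A →* MulAut H) (ρ : H →* Module.End K W) (hρ : Function.Injective ρ)
    (T : A →* Module.End K W) (hT : ∀ a h, T a * ρ h = ρ (α a h) * T a) (hsum : ∑ a, T a = 0)
    (hfpf : ∀ x, (∀ a, α a x = x) → x = 1)
    (hcomm : ∀ a : A, a ≠ 1 → ∀ x y, α a x = x → α a y = y → (orderOf x).Coprime (orderOf y) → x * y = y * x)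
    (Q R : Subgroup H) (hQ : IsPGroup q Q) (hR : IsPGroup r R) (hQA : ∀ a, ∀ x ∈ Q, α a x ∈ Q)
    (hRA : ∀ a, ∀ x ∈ R, α a x ∈ R) (hRQ : R ≤ Subgroup.normalizer (Q : Set H)) :
    R ≤ Subgroup.centralizer (Q : Set H) := by
  classical
  by_contra hcon
  obtain ⟨R₀, ⟨hR₀R, hR₀A, hR₀Q⟩, hR₀min⟩ := (Set.toFinite
    {S : Subgroup H | S ≤ R ∧ (∀ a, ∀ x ∈ S, α a x ∈ S) ∧ ¬ S ≤ Subgroup.centralizer (Q : Set H)}).exists_minimal
    ⟨R, le_rfl, hRA, hcon⟩
  have hsmall : ∀ S : Subgroup H, S ≤ R₀ → S ≠ R₀ → (∀ a, ∀ x ∈ S, α a x ∈ S) →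
      S ≤ Subgroup.centralizer (Q : Set H) := fun S h1 h2 h3 => by
    by_contra h
    exact h2 (le_antisymm h1 (hR₀min ⟨h1.trans hR₀R, h3, h⟩ h1))
  have hR₀ : IsPGroup r R₀ := hR.to_le hR₀R
  haveI : Group.IsNilpotent R₀ := hR₀.isNilpotent
  have hR₀1 : R₀ ≠ ⊥ := fun h => hR₀Q (by rw [h]; exact bot_le)
  haveI : Nontrivial R₀ := (Subgroup.nontrivial_iff_ne_bot R₀).mpr hR₀1
  have hder : ⁅R₀, R₀⁆ ≤ Subgroup.centralizer (Q : Set H) := by
    refine hsmall _ (Subgroup.commutator_le_self R₀) ?_ ?_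
    · intro h
      refine (Group.IsSolvable.commutator_lt_top_of_nontrivial R₀).ne ?_
      refine Subgroup.map_injective R₀.subtype_injective ?_
      rw [Subgroup.map_subtype_commutator, h, ← MonoidHom.range_eq_map, Subgroup.range_subtype]
    · intro a x hx
      have h : ⁅R₀, R₀⁆.map (α a).toMonoidHom ≤ ⁅R₀, R₀⁆ := by
        rw [Subgroup.map_commutator, FittingReduction.map_eq_of_forall α hR₀A]
      exact h ⟨x, hx, rfl⟩
  obtain ⟨k, hkR⟩ := IsPGroup.iff_card.mp hR₀
  have hcopR : ∀ N : Subgroup R₀, ¬ p ∣ Nat.card N := fun N h => by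
    have h2 := h.trans (Subgroup.card_subgroup_dvd_card N)
    rw [hkR] at h2
    exact hpr ((Nat.prime_dvd_prime_iff_eq Fact.out Fact.out).mp ((Fact.out : p.Prime).dvd_of_dvd_pow h2))
  set αR := resAct α R₀ hR₀A with hαR
  -- an operator centralizing `R₀`
  obtain ⟨a₁, ha₁, ha₁R⟩ : ∃ a₁ : A, a₁ ≠ 1 ∧ ∀ x : R₀, αR a₁ x = x := by
    by_contra h
    push Not at h
    let Dr : Subgroup R₀ := (Subgroup.centralizer (Q : Set H)).subgroupOf R₀
    have hDcomm : ∀ u v : R₀, ⁅u, v⁆ ∈ Dr := fun u v => by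
      show ((⁅u, v⁆ : R₀) : H) ∈ Subgroup.centralizer (Q : Set H)
      exact hder (by
        rw [show ((⁅u, v⁆ : R₀) : H) = ⁅(u : H), (v : H)⁆ from map_commutatorElement R₀.subtype u v]
        exact Subgroup.commutator_mem_commutator u.2 v.2)
    haveI hDn : Dr.Normal := ⟨fun u hu g => by
      rw [show g * u * g⁻¹ = ⁅g, u⁆ * u by rw [commutatorElement_def]; group]
      exact Dr.mul_mem (hDcomm g u) hu⟩
    have hfixle : ∀ a : A, a ≠ 1 → ∀ x : R₀, αR a x = x → x ∈ Dr := by
      intro a ha x hx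
      let F : Subgroup H :=
        { carrier := {y | y ∈ R₀ ∧ α a y = y}
          one_mem' := ⟨R₀.one_mem, map_one _⟩
          mul_mem' := fun {u v} hu hv => ⟨R₀.mul_mem hu.1 hv.1, by rw [map_mul, hu.2, hv.2]⟩
          inv_mem' := fun {u} hu => ⟨R₀.inv_mem hu.1, by rw [map_inv, hu.2]⟩ }
      refine hsmall F (fun y hy => hy.1) ?_ (fun b y hy => ⟨hR₀A b y hy.1, by
        rw [← MulAut.mul_apply, ← map_mul, hcommA, map_mul, MulAut.mul_apply, hy.2]⟩)
        ⟨x.2, congrArg Subtype.val hx⟩
      intro hF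
      obtain ⟨y, hy⟩ := h a ha
      exact hy (Subtype.ext (hF.ge y.2).2)
    have hDA : ∀ a, ∀ x ∈ Dr, αR a x ∈ Dr := fun a x hx => Subgroup.mem_centralizer_iff.mpr fun y hy => by
      have h := congrArg (α a) (Subgroup.mem_centralizer_iff.mp hx _ (hQA a⁻¹ y hy))
      rwa [map_mul, map_mul, map_inv, MulAut.apply_inv_self] at h
    have hDmap := FittingReduction.map_eq_of_forall αR hDA
    letI : CommGroup (R₀ ⧸ Dr) :=
      { (inferInstance : Group (R₀ ⧸ Dr)) with
        mul_comm := fun X Y => by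
          obtain ⟨u, rfl⟩ := QuotientGroup.mk'_surjective Dr X
          obtain ⟨v, rfl⟩ := QuotientGroup.mk'_surjective Dr Y
          rw [← commutatorElement_eq_one_iff_mul_comm, ← map_commutatorElement]
          exact (QuotientGroup.eq_one_iff _).mpr (hDcomm u v) }
    let β := FittingReduction.quotAct αR Dr hDmap
    have hzp : ∀ a : A, IsPGroup p (Subgroup.zpowers a) := fun a z =>
      ⟨1, Subtype.ext (by rw [Subgroup.coe_pow, pow_one, hexp]; rfl)⟩
    have hβ : ∀ a : A, a ≠ 1 → ∀ X, β a X = X → X = 1 := by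
      intro a ha X hX
      obtain ⟨x, rfl⟩ := QuotientGroup.mk'_surjective Dr X
      have hall : ∀ g : Subgroup.zpowers a, x⁻¹ * αR (g : A) x ∈ Dr := fun g => by
        have hg : β (g : A) (QuotientGroup.mk' Dr x) = QuotientGroup.mk' Dr x := by
          obtain ⟨i, hi⟩ := (IsOfFinOrder.mem_powers_iff_mem_zpowers (isOfFinOrder_of_finite a)).mpr g.2
          rw [show (g : A) = a ^ i from hi.symm]
          clear hi
          induction i with
          | zero => simp
          | succ i ih => rw [pow_succ', map_mul, MulAut.mul_apply, ih, hX]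
        exact QuotientGroup.eq.mp hg.symm
      obtain ⟨n, hn, hfix⟩ := WardLocal.exists_fixed_in_coset (hzp a) (αR.comp (Subgroup.zpowers a).subtype) Dr
        (fun g n hn => hDA _ n hn) (hcopR Dr) x hall
      have hm := hfixle a ha _ (hfix ⟨a, Subgroup.mem_zpowers a⟩)
      refine (QuotientGroup.eq_one_iff x).mpr ?_
      have h2 := Dr.mul_mem hm (Dr.inv_mem hn)
      rwa [mul_inv_cancel_right] at h2
    obtain ⟨a, b, hb, hab⟩ := exists_generators hexp hcard
    refine hR₀Q fun x hx => ?_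
    suffices hD : (⟨x, hx⟩ : R₀) ∈ Dr from hD
    refine (QuotientGroup.eq_one_iff (⟨x, hx⟩ : R₀)).mp ?_
    refine norm_identity Fact.out (β a) (β b) (hβ b hb) (fun j m hm => hβ _ (hab j) m (by
        rw [map_mul, map_pow]; exact hm))
      (by rw [← map_mul, ← map_mul, hcommA]) (by rw [← map_pow, hexp, map_one])
      (by rw [← map_pow, hexp, map_one]) ?_ _
    obtain ⟨j, hj⟩ := IsPGroup.iff_card.mp (hR₀.to_quotient Dr)
    rw [hj]; exact ((Nat.coprime_primes Fact.out Fact.out).mpr (Ne.symm hpr)).pow_left j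
  -- a minimal invariant subgroup of `Q` moved by `R₀`
  obtain ⟨Q₀, ⟨hQ₀Q, hQ₀A, hQ₀R, hQ₀⟩, hQ₀min⟩ := (Set.toFinite
    {S : Subgroup H | S ≤ Q ∧ (∀ a, ∀ x ∈ S, α a x ∈ S) ∧ R₀ ≤ Subgroup.normalizer (S : Set H) ∧
      ¬ R₀ ≤ Subgroup.centralizer (S : Set H)}).exists_minimal
    ⟨Q, le_rfl, hQA, hR₀R.trans hRQ, hR₀Q⟩
  let κ : R₀ →* MulAut Q₀ := Q₀.normalizerMonoidHom.comp (Subgroup.inclusion hQ₀R)
  have hκ : ∀ (x : R₀) (y : Q₀), ((κ x y : Q₀) : H) = x * y * (x : H)⁻¹ := fun x y => rfl
  have hcompat : ∀ (a : A) (x : R₀) (y : Q₀),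
      resAct α Q₀ hQ₀A a (κ x y) = κ (αR a x) (resAct α Q₀ hQ₀A a y) := fun a x y => Subtype.ext (by
    show α a ((x : H) * y * (x : H)⁻¹) = α a x * α a y * (α a x)⁻¹
    rw [map_mul, map_mul, map_inv])
  have hd : WardLocal.Data p q r (resAct α Q₀ hQ₀A) αR κ (ρ.comp Q₀.subtype) (ρ.comp R₀.subtype) T :=
    { hp := Fact.out, hq := Fact.out, hr := Fact.out, hqr := hqr, hpq := hpq, hpr := hpr, hqK := hqK,
      hpK := hpK, commA := hcommA, expA := hexp, cardA := hcard, isQ := hQ.to_le hQ₀Q, isR := hR₀,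
      inj := hρ.comp Q₀.subtype_injective
      compat := hcompat
      compatR := fun x y => by
        show ρ (x : H) * ρ (y : H) = ρ ((x : H) * y * (x : H)⁻¹) * ρ (x : H)
        rw [← map_mul, ← map_mul, inv_mul_cancel_right]
      compatA := fun a y => hT a y
      fpfQ := fun y hy => Subtype.ext (hfpf _ fun a => congrArg Subtype.val (hy a))
      fpfR := fun x hx => Subtype.ext (hfpf _ fun a => congrArg Subtype.val (hx a))
      commute := fun a ha x y hx hy => Subtype.ext (by
        rw [hκ]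
        refine mul_inv_eq_of_eq_mul (hcomm a ha x y (congrArg Subtype.val hx) (congrArg Subtype.val hy) ?_)
        obtain ⟨i, hi⟩ := IsPGroup.iff_orderOf.mp hR₀ x
        obtain ⟨j, hj⟩ := IsPGroup.iff_orderOf.mp (hQ.to_le hQ₀Q) y
        rw [Subgroup.orderOf_coe, Subgroup.orderOf_coe, hi, hj]
        exact Nat.Coprime.pow _ _ ((Nat.coprime_primes Fact.out Fact.out).mpr (Ne.symm hqr))) }
  refine hd.false_of_minimal hsum ?_ ha₁ ha₁R ?_ ?_
  · by_contra h
    push Not at h
    refine hQ₀ fun x hx => Subgroup.mem_centralizer_iff.mpr fun y hy => ?_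
    exact (mul_inv_eq_iff_eq_mul.mp (congrArg Subtype.val (h ⟨x, hx⟩ ⟨y, hy⟩))).symm
  · intro M hM hMA hMR x y hy
    refine Subtype.ext ?_
    have hle : M.map Q₀.subtype ≤ Q₀ := Subgroup.map_subtype_le M
    by_contra hne
    refine hM (Subgroup.map_injective Q₀.subtype_injective ?_)
    rw [← MonoidHom.range_eq_map, Subgroup.range_subtype]
    refine le_antisymm hle (hQ₀min ⟨hle.trans hQ₀Q, ?_, ?_, ?_⟩ hle)
    · rintro a _ ⟨z, hz, rfl⟩
      exact ⟨resAct α Q₀ hQ₀A a z, hMA a z hz, rfl⟩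
    · intro g hg
      refine Subgroup.mem_normalizer_iff.mpr fun z => ⟨?_, ?_⟩
      · rintro ⟨w, hw, rfl⟩
        exact ⟨κ ⟨g, hg⟩ w, hMR _ w hw, rfl⟩
      · rintro ⟨w, hw, hwe⟩
        refine ⟨κ ⟨g, hg⟩⁻¹ w, hMR _ w hw, ?_⟩
        show g⁻¹ * (w : H) * g⁻¹⁻¹ = z
        rw [show (w : H) = g * z * g⁻¹ from hwe]; group
    · intro h
      refine hne ?_
      have h2 := Subgroup.mem_centralizer_iff.mp (h x.2) (y : H) ⟨y, hy, rfl⟩
      rw [hκ]
      exact mul_inv_eq_of_eq_mul h2.symm
  · intro x x' y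
    have hc : (⁅x, x'⁆ : R₀) ∈ κ.ker := by
      refine MulEquiv.ext fun z => Subtype.ext ?_
      rw [hκ]
      refine mul_inv_eq_of_eq_mul ?_
      exact (Subgroup.mem_centralizer_iff.mp (hder (by
        rw [show ((⁅x, x'⁆ : R₀) : H) = ⁅(x : H), (x' : H)⁆ from map_commutatorElement R₀.subtype x x']
        exact Subgroup.commutator_mem_commutator x.2 x'.2)) _ (hQ₀Q z.2)).symm
    rw [MonoidHom.mem_ker, map_commutatorElement, commutatorElement_eq_one_iff_mul_comm] at hc
    rw [← MulAut.mul_apply, hc, MulAut.mul_apply]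

theorem fitting_height_le_two {G : Type*} [Group G] [Finite G] (hG : Group.IsSolvable G) {p : ℕ}
    (hp : p.Prime) (A : Subgroup (MulAut G)) (hA : Cfsg.IsElementaryAbelian p A)
    (hcard : Nat.card A = p ^ 2) (hfpf : ∀ g : G, (∀ a ∈ A, a g = g) → g = 1) :
    ∃ k, Group.IsNilpotent ((⊤ : Subgroup G).lowerCentralSeries k : Subgroup G) := by
  classical
  haveI := Fact.mk hp
  have hexp : ∀ a : A, a ^ p = 1 := fun a => Subtype.ext (hA.2 a a.2)
  have hAp : IsPGroup p A := fun a => ⟨1, by rw [pow_one, hexp]⟩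
  haveI := hA.1
  have hcommA : ∀ a b : A, a * b = b * a := fun a b => mul_comm' a b
  have hpG : ¬ p ∣ Nat.card G := by
    letI : MulAction A G :=
      { smul := fun a g => (a : MulAut G) g, one_smul := fun g => rfl, mul_smul := fun a b g => rfl }
    have h1 : MulAction.fixedPoints A G = {1} := by
      ext g
      simp only [MulAction.mem_fixedPoints, Set.mem_singleton_iff]
      exact ⟨fun hg => hfpf g fun a ha => hg ⟨a, ha⟩, fun hg a => by rw [hg]; exact map_one (a : MulAut G)⟩
    have h := hAp.card_modEq_card_fixedPoints G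
    rw [h1, Nat.card_coe_set_eq, Set.ncard_singleton] at h
    intro hd
    have h0 : 1 ≡ 0 [MOD p] := h.symm.trans (Nat.modEq_zero_iff_dvd.mpr hd)
    exact hp.ne_one (Nat.dvd_one.mp (Nat.modEq_zero_iff_dvd.mp h0))
  refine FittingReduction.exists_nilpotent_term (A := A) hAp ?_ (Nat.card G) G le_rfl hG A.subtype hpG
    (fun x hx => hfpf x fun a ha => hx ⟨a, ha⟩)
  intro G _ _ hG φ hpG hfpf V _ hV1 hVc hVA hmin
  haveI := hG
  haveI := Fintype.ofFinite A
  obtain ⟨ℓ, hℓ, hℓV⟩ := Nat.exists_prime_and_dvd (mt Subgroup.card_eq_one.mp hV1)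
  haveI := Fact.mk hℓ
  haveI := hVc
  letI : CommGroup V := { (inferInstance : Group V) with mul_comm := hVc.1.1 }
  have hVe : ∀ v : V, v ^ ℓ = 1 := by
    let f : V →* V := powMonoidHom ℓ
    have hker : (f.ker).map V.subtype = V := by
      refine hmin _ ?_ ?_ (Subgroup.map_subtype_le _) ?_
      · haveI : (f.ker).Characteristic := Subgroup.characteristic_iff_comap_eq.mpr fun e => by
          ext v
          simp only [Subgroup.mem_comap, MonoidHom.mem_ker, f, powMonoidHom_apply, MulEquiv.coe_toMonoidHom,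
            ← map_pow, map_eq_one_iff e e.injective]
        infer_instance
      · rintro a _ ⟨v, hv, rfl⟩
        refine ⟨resAct φ V hVA a v, ?_, rfl⟩
        show (resAct φ V hVA a v) ^ ℓ = 1
        rw [← map_pow, show v ^ ℓ = 1 from hv, map_one]
      · intro hb
        rw [Subgroup.map_eq_bot_iff_of_injective _ V.subtype_injective] at hb
        obtain ⟨v, hv⟩ := exists_prime_orderOf_dvd_card' ℓ hℓV
        have : v = 1 := (Subgroup.eq_bot_iff_forall _).mp hb v (show v ^ ℓ = 1 by rw [← hv, pow_orderOf_eq_one])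
        rw [this, orderOf_one] at hv
        exact hℓ.ne_one hv.symm
    intro v
    obtain ⟨w, hw, he⟩ := hker.ge v.2
    rw [← show w = v from Subtype.ext he]
    exact hw
  letI : Module (ZMod ℓ) (Additive V) := ModuleBC.modOfExp hVe
  haveI : Finite (Additive V) := inferInstanceAs (Finite V)
  haveI : FiniteDimensional (ZMod ℓ) (Additive V) := Module.Finite.of_finite
  set C := Subgroup.centralizer (V : Set G) with hC
  have hCA : ∀ a, ∀ c ∈ C, φ a c ∈ C := fun a c hc => Subgroup.mem_centralizer_iff.mpr fun v hv => by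
    have h := congrArg (φ a) (Subgroup.mem_centralizer_iff.mp hc _ (hVA a⁻¹ v hv))
    rwa [map_mul, map_mul, map_inv, MulAut.apply_inv_self] at h
  have hCmap := FittingReduction.map_eq_of_forall φ hCA
  set α := FittingReduction.quotAct φ C hCmap with hα
  let cj : (G ⧸ C) →* MulAut V := QuotientGroup.lift C (MulAut.conjNormal (H := V)) (by
    intro c hc
    refine MulEquiv.ext fun v => Subtype.ext ?_
    rw [MulAut.conjNormal_apply, MulAut.one_apply,
      ← Subgroup.mem_centralizer_iff.mp hc v v.2, mul_inv_cancel_right])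
  let ρ := (ModuleBC.bcRep ℓ).comp cj
  let T := (ModuleBC.bcRep ℓ).comp (resAct φ V hVA)
  have hρ : Function.Injective ρ := (ModuleBC.bcRep_injective ℓ).comp ((injective_iff_map_eq_one cj).mpr fun X hX => by
    obtain ⟨g, rfl⟩ := QuotientGroup.mk'_surjective C X
    refine (QuotientGroup.eq_one_iff g).mpr (Subgroup.mem_centralizer_iff.mpr fun v hv => ?_)
    have h2 := congrArg (fun e : MulAut V => ((e ⟨v, hv⟩ : V) : G)) hX
    exact (mul_inv_eq_iff_eq_mul.mp h2).symm)
  have hTρ : ∀ a h, T a * ρ h = ρ (α a h) * T a := fun a h => by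
    obtain ⟨g, rfl⟩ := QuotientGroup.mk'_surjective C h
    show ModuleBC.bcRep ℓ _ * ModuleBC.bcRep ℓ _ = ModuleBC.bcRep ℓ _ * ModuleBC.bcRep ℓ _
    rw [← map_mul, ← map_mul]
    congr 1
    refine MulEquiv.ext fun v => Subtype.ext ?_
    show φ a (g * (v : G) * g⁻¹) = φ a g * φ a v * (φ a g)⁻¹
    rw [map_mul, map_mul, map_inv]
  have hsum : ∑ a, T a = 0 := by
    have h1 : ∑ a, ModuleBC.toEnd ℓ (resAct φ V hVA a) = 0 := by
      refine LinearMap.ext fun u => ?_
      rw [LinearMap.sum_apply, LinearMap.zero_apply]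
      obtain ⟨x, hx⟩ := Additive.ofMul.surjective (∑ a, ModuleBC.toEnd ℓ (resAct φ V hVA a) u)
      rw [← hx]
      have : x = 1 := Subtype.ext (hfpf _ fun c => by
        refine congrArg Subtype.val (Additive.ofMul.injective (?_ : Additive.ofMul (resAct φ V hVA c x) = _))
        rw [← ModuleBC.toEnd_apply ℓ, hx, map_sum]
        refine Fintype.sum_equiv (Equiv.mulLeft c) _ _ fun a => ?_
        rw [← Module.End.mul_apply, ← map_mul, ← map_mul]; rfl)
      rw [this, ofMul_one]
    have := congrArg (Module.End.baseChangeHom (ZMod ℓ) (ModuleBC.Kbar ℓ) (Additive V)) h1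
    rw [map_sum, map_zero] at this
    exact this
  have hpH : ¬ p ∣ Nat.card (G ⧸ C) := fun h =>
    hpG (h.trans (Dvd.intro _ (Subgroup.card_eq_card_quotient_mul_card_subgroup C).symm))
  have hfpfH := FittingReduction.fpf_quot hAp φ hpG hfpf C hCmap
  have hcommH : ∀ a : A, a ≠ 1 → ∀ x y, α a x = x → α a y = y → (orderOf x).Coprime (orderOf y) → x * y = y * x := by
    intro a ha x y hx hy hxy
    let Ca : Subgroup (G ⧸ C) :=
      { carrier := {z | α a z = z}
        one_mem' := map_one _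
        mul_mem' := fun {u v} (hu : α a u = u) (hv : α a v = v) => by
          show α a (u * v) = u * v
          rw [map_mul, hu, hv]
        inv_mem' := fun {u} (hu : α a u = u) => by show α a u⁻¹ = u⁻¹; rw [map_inv, hu] }
    have hCaA : ∀ b, ∀ z ∈ Ca, α b z ∈ Ca := fun b z (hz : α a z = z) => by
      show α a (α b z) = α b z
      rw [← MulAut.mul_apply, ← map_mul, hcommA, map_mul, MulAut.mul_apply, hz]
    obtain ⟨b, hb⟩ : ∃ b, b ∉ Subgroup.zpowers a := by
      by_contra h
      push Not at h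
      have := congrArg (fun S : Subgroup A => Nat.card S) (eq_top_iff.mpr fun z _ => h z : Subgroup.zpowers a = ⊤)
      simp only [Subgroup.card_top, hcard, Nat.card_zpowers, orderOf_eq_prime (hexp a) ha] at this
      nlinarith [hp.two_le]
    let β := resAct α Ca hCaA b
    have hnil : Group.IsNilpotent Ca := Core.ThompsonFPF.fpf_aux hp _ le_rfl β (fun z hz => Subtype.ext ?_)
      (fun z => ?_)
    · haveI := hnil
      have hc := OddLocal.commute_of_coprime_orderOf (x := (⟨x, hx⟩ : Ca)) (y := ⟨y, hy⟩)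
        (by rw [← Subgroup.orderOf_coe, ← Subgroup.orderOf_coe]; exact hxy)
      exact congrArg Subtype.val hc.eq
    · refine hfpfH _ fun c => ?_
      let S : Subgroup A :=
        { carrier := {c | α c (z : G ⧸ C) = z}
          one_mem' := by show α 1 (z : G ⧸ C) = z; simp
          mul_mem' := fun {u v} (hu : α u (z : G ⧸ C) = z) (hv : α v (z : G ⧸ C) = z) => by
            show α (u * v) (z : G ⧸ C) = z; rw [map_mul, MulAut.mul_apply, hv, hu]
          inv_mem' := fun {u} (hu : α u (z : G ⧸ C) = z) => by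
            show α u⁻¹ (z : G ⧸ C) = z
            conv_lhs => rw [← hu]
            rw [map_inv, MulAut.inv_apply_self] }
      have htop : S = ⊤ := by
        have hlt : Nat.card (Subgroup.zpowers a) < Nat.card S := by
          refine lt_of_le_of_ne (Subgroup.card_le_of_le (Subgroup.zpowers_le.mpr z.2)) fun e => hb ?_
          rw [Subgroup.eq_of_le_of_card_ge (Subgroup.zpowers_le.mpr (show a ∈ S from z.2)) e.ge]
          exact congrArg Subtype.val hz
        rw [Nat.card_zpowers, orderOf_eq_prime (hexp a) ha] at hlt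
        obtain ⟨k, hk, hkc⟩ := (Nat.dvd_prime_pow hp).mp (hcard ▸ Subgroup.card_subgroup_dvd_card S)
        refine Subgroup.eq_top_of_card_eq S ?_
        rw [hkc, hcard]
        rcases Nat.lt_or_ge k 2 with hlt2 | hge
        · exfalso
          rw [hkc] at hlt
          have : p ^ k ≤ p ^ 1 := Nat.pow_le_pow_right hp.pos (by omega)
          rw [pow_one] at this
          omega
        · rw [show k = 2 by omega]
      exact (htop.ge (Subgroup.mem_top c) : c ∈ S)
    · rw [Core.ThompsonFPF.iterate_eq_pow]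
      show (β ^ p) z = z
      rw [← map_pow, hexp, map_one]
      rfl
  have hnilH : Group.IsNilpotent (G ⧸ C) := by
    refine FittingReduction.nilpotent_of_centralizes α (ℓ := ℓ) ?_ ?_ ?_
    · set N := (pCore ℓ (G ⧸ C)).comap (QuotientGroup.mk' C) with hN
      haveI : N.Normal := Subgroup.Normal.comap inferInstance _
      have hVN : V ⊓ Subgroup.centralizer (N : Set G) = V := by
        refine hmin _ inferInstance ?_ inf_le_left ?_
        · rintro a w ⟨hw1, hw2⟩
          refine ⟨hVA a w hw1, Subgroup.mem_centralizer_iff.mpr fun k hk => ?_⟩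
          have hk' : φ a⁻¹ k ∈ N := by
            show α a⁻¹ (QuotientGroup.mk' C k) ∈ pCore ℓ (G ⧸ C)
            exact (Subgroup.characteristic_iff_map_eq.mp inferInstance (α a⁻¹)).le ⟨_, hk, rfl⟩
          have := congrArg (φ a) (Subgroup.mem_centralizer_iff.mp hw2 _ hk')
          rwa [map_mul, map_mul, map_inv, MulAut.apply_inv_self] at this
        · letI : MulAction (G ⧸ C) V := MulAction.compHom V cj
          have h1 : (1 : V) ∈ MulAction.fixedPoints (pCore ℓ (G ⧸ C)) V := fun x => map_one (cj (x : G ⧸ C))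
          obtain ⟨v, hv, hv1⟩ := (Core.isPGroup_pCore ℓ (G ⧸ C)).exists_fixed_point_of_prime_dvd_card_of_fixed_point
            V hℓV h1
          refine fun hb => hv1 (Subtype.ext ((Subgroup.eq_bot_iff_forall _).mp hb (v : G)
            ⟨v.2, Subgroup.mem_centralizer_iff.mpr fun k hk => ?_⟩)).symm
          have h2 := congrArg Subtype.val (hv ⟨QuotientGroup.mk' C k, hk⟩)
          exact mul_inv_eq_iff_eq_mul.mp h2
      rw [Subgroup.eq_bot_iff_forall]
      intro X hX
      obtain ⟨g, rfl⟩ := QuotientGroup.mk'_surjective C X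
      exact (QuotientGroup.eq_one_iff g).mpr (Subgroup.mem_centralizer_iff.mpr fun v hv =>
        ((Subgroup.mem_centralizer_iff.mp (hVN.ge hv).2) g hX).symm)
    · intro r _
      letI : MulDistribMulAction A (G ⧸ C) := MulDistribMulAction.compHom (G ⧸ C) α
      have hnd : ¬ p ∣ Nat.card (Sylow r (G ⧸ C)) := fun h => hpH (h.trans
        ((Sylow.card_dvd_index (default : Sylow r (G ⧸ C))).trans (Subgroup.index_dvd_card _)))
      obtain ⟨P, hP⟩ := hAp.nonempty_fixed_point_of_prime_not_dvd_card (Sylow r (G ⧸ C)) hnd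
      refine ⟨P, fun a x hx => ?_⟩
      have h := congrArg (fun S : Sylow r (G ⧸ C) => (S : Subgroup (G ⧸ C))) (hP a)
      simp only [Sylow.pointwise_smul_def] at h
      exact h.le ⟨x, hx, rfl⟩
    · intro q r _ _ hqr hqℓ R hR hRA x hx
      by_cases hrp : r = p
      · subst hrp
        obtain ⟨j, hj⟩ := IsPGroup.iff_card.mp hR
        have hj0 : j = 0 := by
          by_contra h
          exact hpH ((hj ▸ dvd_pow_self r h).trans (Subgroup.card_subgroup_dvd_card R))
        rw [hj0, pow_zero, Subgroup.card_eq_one] at hj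
        rw [hj, Subgroup.mem_bot] at hx
        rw [hx]; exact Subgroup.one_mem _
      by_cases hqp : q = p
      · subst hqp
        obtain ⟨j, hj⟩ := IsPGroup.iff_card.mp (Core.isPGroup_pCore q (G ⧸ C))
        have hj0 : j = 0 := by
          by_contra h
          exact hpH ((hj ▸ dvd_pow_self q h).trans (Subgroup.card_subgroup_dvd_card _))
        rw [hj0, pow_zero, Subgroup.card_eq_one] at hj
        rw [hj]
        exact Subgroup.mem_centralizer_iff.mpr fun y hy => by rw [Subgroup.mem_bot.mp hy, one_mul, mul_one]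
      refine le_centralizer_of_fpf hqr (Ne.symm hqp) (Ne.symm hrp) (ModuleBC.natCast_ne_zero ℓ ?_)
        (ModuleBC.natCast_ne_zero ℓ ?_) hcommA hexp hcard α ρ hρ T hTρ hsum hfpfH hcommH _ R
        (Core.isPGroup_pCore q (G ⧸ C)) hR
        (fun a y hy => (Subgroup.characteristic_iff_map_eq.mp inferInstance (α a)).le ⟨y, hy, rfl⟩) hRA
        (Subgroup.normalizer_eq_top (pCore q (G ⧸ C)) ▸ le_top) hx
      · exact fun h => hqℓ ((Nat.prime_dvd_prime_iff_eq hℓ Fact.out).mp h).symm
      · intro h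
        have := (Nat.prime_dvd_prime_iff_eq hℓ hp).mp h
        exact hpG ((this ▸ hℓV).trans (Subgroup.card_subgroup_dvd_card V))
  obtain ⟨k, hk⟩ := Subgroup.nilpotent_iff_lowerCentralSeries.mp hnilH
  refine ⟨k, fun g hg => (QuotientGroup.eq_one_iff g).mp ?_⟩
  have : QuotientGroup.mk' C g ∈ (⊤ : Subgroup (G ⧸ C)).lowerCentralSeries k := by
    rw [← Subgroup.map_top_of_surjective (QuotientGroup.mk' C) (QuotientGroup.mk'_surjective C),
      ← Subgroup.map_lowerCentralSeries]
    exact ⟨g, hg, rfl⟩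
  rwa [hk, Subgroup.mem_bot] at this

end Cfsg.Agent.Transfer.Ward
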