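import Mathlib

/-! The Heisenberg group inside `GL_{n+2}` over a commutative ring. -/

set_option autoImplicit false

namespace Cfsg.Agent.Transfer.Heis

open Matrix

variable {R : Type*} [CommRing R] {n : ℕ}

/-- A middle vector padded with zeros. -/
def mid (a : Fin n → R) : Fin (n + 2) → R := Fin.cons 0 (Fin.snoc a 0)

/-- The first basis vector. -/
def fst : Fin (n + 2) → R := Pi.single 0 1

/-- The last basis vector. -/
def lst : Fin (n + 2) → R := Pi.single (Fin.last (n + 1)) 1

/-- The nilpotent part. -/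
def nil (a b : Fin n → R) (c : R) : Matrix (Fin (n + 2)) (Fin (n + 2)) R :=
  vecMulVec fst (mid a + c • lst) + vecMulVec (mid b) lst

theorem mid_zero : mid (0 : Fin n → R) = 0 := by
  ext i
  refine Fin.cases ?_ (fun j => ?_) i
  · simp [mid]
  · refine Fin.lastCases ?_ (fun k => ?_) j <;> simp [mid]

theorem mid_add (a b : Fin n → R) : mid (a + b) = mid a + mid b := by
  ext i
  refine Fin.cases ?_ (fun j => ?_) i
  · simp [mid]
  · refine Fin.lastCases ?_ (fun k => ?_) j <;> simp [mid]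

theorem mid_dot (a b : Fin n → R) : mid a ⬝ᵥ mid b = a ⬝ᵥ b := by
  simp [dotProduct, mid, Fin.sum_univ_succ, Fin.sum_univ_castSucc (n := n)]

theorem mid_fst (a : Fin n → R) : mid a ⬝ᵥ fst = 0 := by
  simp [fst, mid, dotProduct_single]

theorem mid_lst (a : Fin n → R) : lst ⬝ᵥ mid a = 0 := by
  simp [lst, mid, single_dotProduct, ← Fin.succ_last]

theorem lst_fst : (lst : Fin (n + 2) → R) ⬝ᵥ fst = 0 := by
  simp [lst, fst, dotProduct_single, Pi.single_apply, Fin.ext_iff]

theorem nil_zero : nil (0 : Fin n → R) 0 0 = 0 := by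
  simp [nil, mid_zero]

theorem nil_add (a a' b b' : Fin n → R) (c c' : R) :
    nil a b c + nil a' b' c' = nil (a + a') (b + b') (c + c') := by
  simp only [nil, mid_add, add_smul, vecMulVec_add, add_vecMulVec]
  abel

theorem nil_mul (a a' b b' : Fin n → R) (c c' : R) :
    nil a b c * nil a' b' c' = (a ⬝ᵥ b') • vecMulVec fst lst := by
  simp only [nil, Matrix.add_mul, Matrix.mul_add, vecMulVec_mul_vecMulVec, add_dotProduct,
    smul_dotProduct, mid_fst, mid_dot, mid_lst, lst_fst, smul_zero, add_zero, zero_smul,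
    vecMulVec_smul]
  simp

theorem nil_center (z : R) : nil (0 : Fin n → R) 0 z = z • vecMulVec fst lst := by
  simp [nil, mid_zero, vecMulVec_smul]

theorem one_add_mul (a a' b b' : Fin n → R) (c c' : R) :
    (1 + nil a b c) * (1 + nil a' b' c') = 1 + nil (a + a') (b + b') (c + c' + a ⬝ᵥ b') := by
  rw [Matrix.add_mul, Matrix.mul_add, Matrix.mul_add, nil_mul, ← nil_center, Matrix.one_mul,
    Matrix.one_mul, Matrix.mul_one]
  rw [show nil (a + a') (b + b') (c + c' + a ⬝ᵥ b') =
    nil a b c + nil a' b' c' + nil 0 0 (a ⬝ᵥ b') by rw [nil_add, nil_add, add_zero, add_zero]]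
  abel

theorem nil_apply_fst (a b : Fin n → R) (c : R) (j : Fin n) :
    nil a b c 0 j.castSucc.succ = a j := by
  simp [nil, vecMulVec_apply, fst, lst, mid, Pi.single_apply, Fin.ext_iff, j.2.ne]

theorem nil_apply_lst (a b : Fin n → R) (c : R) (j : Fin n) :
    nil a b c j.castSucc.succ (Fin.last (n + 1)) = b j := by
  simp [nil, vecMulVec_apply, fst, lst, mid, Pi.single_apply, Fin.ext_iff]

theorem nil_apply_corner (a b : Fin n → R) (c : R) :
    nil a b c 0 (Fin.last (n + 1)) = c := by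
  simp [nil, vecMulVec_apply, fst, lst, mid, Pi.single_apply, ← Fin.succ_last]

theorem nil_inj {a a' b b' : Fin n → R} {c c' : R} (h : 1 + nil a b c = 1 + nil a' b' c') :
    a = a' ∧ b = b' ∧ c = c' := by
  have h' := add_left_cancel h
  refine ⟨funext fun j => ?_, funext fun j => ?_, ?_⟩
  · rw [← nil_apply_fst a b c j, h', nil_apply_fst]
  · rw [← nil_apply_lst a b c j, h', nil_apply_lst]
  · rw [← nil_apply_corner a b c, h', nil_apply_corner]

/-- The Heisenberg element. -/
def elt (v : (Fin n → R) × (Fin n → R) × R) : GL (Fin (n + 2)) R where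
  val := 1 + nil v.1 v.2.1 v.2.2
  inv := 1 + nil (-v.1) (-v.2.1) (-v.2.2 + v.1 ⬝ᵥ v.2.1)
  val_inv := by
    rw [one_add_mul]
    simp [dotProduct_neg, nil_zero]
  inv_val := by
    rw [one_add_mul]
    simp [neg_dotProduct, nil_zero]

theorem elt_mul (v w : (Fin n → R) × (Fin n → R) × R) :
    elt v * elt w = elt (v.1 + w.1, v.2.1 + w.2.1, v.2.2 + w.2.2 + v.1 ⬝ᵥ w.2.1) :=
  Units.ext (one_add_mul _ _ _ _ _ _)

theorem elt_zero : elt (0 : (Fin n → R) × (Fin n → R) × R) = 1 :=
  Units.ext (by simp [elt, nil_zero])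

theorem elt_injective : Function.Injective (elt : (Fin n → R) × (Fin n → R) × R → GL (Fin (n + 2)) R) := by
  intro v w h
  obtain ⟨h1, h2, h3⟩ := nil_inj (congrArg Units.val h)
  exact Prod.ext h1 (Prod.ext h2 h3)

/-- The Heisenberg subgroup. -/
def heis (n : ℕ) (R : Type*) [CommRing R] : Subgroup (GL (Fin (n + 2)) R) where
  carrier := Set.range elt
  one_mem' := ⟨0, elt_zero⟩
  mul_mem' := by rintro _ _ ⟨v, rfl⟩ ⟨w, rfl⟩; exact ⟨_, (elt_mul v w).symm⟩
  inv_mem' := by
    rintro _ ⟨v, rfl⟩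
    exact ⟨(-v.1, -v.2.1, -v.2.2 + v.1 ⬝ᵥ v.2.1), Units.ext rfl⟩

theorem elt_pow (v : (Fin n → R) × (Fin n → R) × R) (k : ℕ) :
    elt v ^ k = elt ((k : R) • v.1, (k : R) • v.2.1,
      (k : R) * v.2.2 + (k.choose 2 : R) * (v.1 ⬝ᵥ v.2.1)) := by
  induction k with
  | zero => simp [← elt_zero]; rfl
  | succ k ih =>
    rw [pow_succ, ih, elt_mul]
    congr 1
    refine Prod.ext ?_ (Prod.ext ?_ ?_)
    · simp [add_smul]
    · simp [add_smul]
    · rw [Nat.choose_succ_succ', Nat.choose_one_right]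
      simp [smul_dotProduct]
      ring

end Cfsg.Agent.Transfer.Heis
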