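import Mathlib
import Cfsg.Prelude.Def_BaumannBlocks
import Cfsg.Agent.Transfer.Gruen
import Cfsg.Agent.FGS3.PGroupBasic

/-!
The Hall–Wielandt theorem: a weakly closed subgroup satisfying an Engel condition on a Sylow
subgroup controls the largest `p`-factor group.
-/

set_option autoImplicit false
set_option linter.unusedSectionVars false
set_option linter.style.haveILetI false

namespace Cfsg.Agent.Transfer.HallWielandt

open Cfsg

variable {G : Type*} [Group G] {H : Subgroup G} {A : Type*} [AddCommGroup A]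

/-- The transfer cocycle. -/
noncomputable def cocycle (π : H →* Multiplicative A) (g : G) (ξ : G ⧸ H) : A :=
  Multiplicative.toAdd (π ⟨(g • ξ).out⁻¹ * g * ξ.out, by
    rw [mul_assoc]
    apply QuotientGroup.eq.mp
    calc ((g • ξ).out : G ⧸ H) = g • ξ := QuotientGroup.out_eq' _
      _ = g • (ξ.out : G ⧸ H) := by rw [QuotientGroup.out_eq']
      _ = ((g * ξ.out : G) : G ⧸ H) := rfl⟩)

theorem cocycle_mul (π : H →* Multiplicative A) (g h : G) (ξ : G ⧸ H) :
    cocycle π (g * h) ξ = cocycle π g (h • ξ) + cocycle π h ξ := by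
  simp only [cocycle]
  rw [← toAdd_mul, ← map_mul]
  congr 2
  apply Subtype.ext
  simp only [Subgroup.coe_mul, mul_smul]
  group

theorem cocycle_one (π : H →* Multiplicative A) (ξ : G ⧸ H) : cocycle π 1 ξ = 0 := by
  have h := cocycle_mul π 1 1 ξ
  rw [one_mul, one_smul] at h
  simpa using h

theorem cocycle_pow (π : H →* Multiplicative A) (g : G) (ξ : G ⧸ H) (m : ℕ) :
    cocycle π (g ^ m) ξ = ∑ j ∈ Finset.range m, cocycle π g (g ^ j • ξ) := by
  induction m with
  | zero => simp [cocycle_one]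
  | succ m ih => rw [pow_succ', cocycle_mul, Finset.sum_range_succ, ih, add_comm]

theorem cocycle_fixed (π : H →* Multiplicative A) {g : G} {ξ : G ⧸ H} (h : g • ξ = ξ) :
    ∃ hm : ξ.out⁻¹ * g * ξ.out ∈ H, cocycle π g ξ = Multiplicative.toAdd (π ⟨_, hm⟩) := by
  have hm : (g • ξ).out⁻¹ * g * ξ.out ∈ H := by
    rw [mul_assoc]
    apply QuotientGroup.eq.mp
    calc ((g • ξ).out : G ⧸ H) = g • ξ := QuotientGroup.out_eq' _
      _ = g • (ξ.out : G ⧸ H) := by rw [QuotientGroup.out_eq']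
      _ = ((g * ξ.out : G) : G ⧸ H) := rfl
  rw [h] at hm
  refine ⟨hm, ?_⟩
  simp only [cocycle, h]

/-- The transfer cocycle summed over a set of cosets. -/
noncomputable def vSum (π : H →* Multiplicative A) (S : Finset (G ⧸ H)) (g : G) : A :=
  ∑ ξ ∈ S, cocycle π g ξ

theorem vSum_mul (π : H →* Multiplicative A) {S : Finset (G ⧸ H)} (g : G) {h : G}
    (hS : ∀ ξ ∈ S, h • ξ ∈ S) : vSum π S (g * h) = vSum π S g + vSum π S h := by
  classical
  simp only [vSum, cocycle_mul, Finset.sum_add_distrib]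
  congr 1
  have himg : S.image (fun ξ => h • ξ) = S :=
    Finset.eq_of_subset_of_card_le (Finset.image_subset_iff.mpr hS)
      (le_of_eq (Finset.card_image_of_injective S (MulAction.injective h)).symm)
  conv_rhs => rw [← himg]
  rw [Finset.sum_image fun a _ b _ hab => MulAction.injective h hab]

theorem vSum_conj [DecidableEq (G ⧸ H)] (π : H →* Multiplicative A) {S : Finset (G ⧸ H)} (u : G)
    {g : G} (hS : ∀ ξ ∈ S, g • ξ ∈ S) :
    vSum π (S.image (fun ξ => u • ξ)) (u * g * u⁻¹) = vSum π S g := by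
  simp only [vSum]
  rw [Finset.sum_image fun a _ b _ hab => MulAction.injective u hab]
  have e : ∀ ξ, cocycle π (u * g * u⁻¹) (u • ξ) =
      cocycle π g ξ + (cocycle π u (g • ξ) - cocycle π u ξ) := by
    intro ξ
    have h1 := cocycle_mul π (u * g * u⁻¹) u ξ
    rw [inv_mul_cancel_right, cocycle_mul] at h1
    rw [eq_sub_of_add_eq h1.symm]
    abel
  rw [Finset.sum_congr rfl fun ξ _ => e ξ, Finset.sum_add_distrib, Finset.sum_sub_distrib]
  have himg : S.image (fun ξ => g • ξ) = S :=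
    Finset.eq_of_subset_of_card_le (Finset.image_subset_iff.mpr hS)
      (le_of_eq (Finset.card_image_of_injective S (MulAction.injective g)).symm)
  have e2 : ∑ ξ ∈ S, cocycle π u (g • ξ) = ∑ ξ ∈ S, cocycle π u ξ := by
    conv_rhs => rw [← himg]
    rw [Finset.sum_image fun a _ b _ hab => MulAction.injective g hab]
  rw [e2, sub_self, add_zero]

/-- A sum over `S` vanishes if it vanishes over each class. -/
theorem sum_eq_zero_of_classes {α β : Type*} [DecidableEq β] (S : Finset α) (K : α → β) (f : α → A)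
    (h : ∀ η ∈ S, ∑ x ∈ S.filter (fun x => K x = K η), f x = 0) : ∑ x ∈ S, f x = 0 := by
  rw [← Finset.sum_fiberwise_of_maps_to (t := S.image K) fun x hx => Finset.mem_image_of_mem K hx]
  refine Finset.sum_eq_zero fun k hk => ?_
  obtain ⟨η, hη, rfl⟩ := Finset.mem_image.mp hk
  exact h η hη

variable [Finite G] {p : ℕ} [hp : Fact p.Prime]

/-- The orbit of a subgroup on cosets. -/
noncomputable def orb (K : Subgroup G) (ξ : G ⧸ H) : Finset (G ⧸ H) :=
  (Set.toFinite {η : G ⧸ H | ∃ k ∈ K, k • ξ = η}).toFinset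

theorem mem_orb {K : Subgroup G} {ξ η : G ⧸ H} : η ∈ orb K ξ ↔ ∃ k ∈ K, k • ξ = η :=
  Set.Finite.mem_toFinset _

theorem self_mem_orb (K : Subgroup G) (ξ : G ⧸ H) : ξ ∈ orb K ξ :=
  mem_orb.mpr ⟨1, K.one_mem, one_smul _ _⟩

theorem orb_smul {K : Subgroup G} {ξ : G ⧸ H} {k : G} (hk : k ∈ K) :
    orb K (k • ξ) = orb K ξ := by
  ext η
  simp only [mem_orb]
  constructor
  · rintro ⟨j, hj, rfl⟩
    exact ⟨j * k, K.mul_mem hj hk, mul_smul _ _ _⟩
  · rintro ⟨j, hj, rfl⟩
    exact ⟨j * k⁻¹, K.mul_mem hj (K.inv_mem hk), by rw [← mul_smul, inv_mul_cancel_right]⟩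

theorem smul_mem_orb {K : Subgroup G} {ξ η : G ⧸ H} {k : G} (hk : k ∈ K) (h : η ∈ orb K ξ) :
    k • η ∈ orb K ξ := by
  obtain ⟨j, hj, rfl⟩ := mem_orb.mp h
  exact mem_orb.mpr ⟨k * j, K.mul_mem hk hj, mul_smul _ _ _⟩

/-- Only fixed points contribute, if all proper powers contribute nothing. -/
theorem sum_eq_sum_fixed (π : H →* Multiplicative A) {x : G}
    (hmin : ∀ (m : ℕ) (η : G ⧸ H), 1 < m → m ∣ orderOf x → x ^ m • η = η → cocycle π (x ^ m) η = 0)
    {S : Finset (G ⧸ H)} [DecidablePred fun η : G ⧸ H => x • η = η] (hS : ∀ η ∈ S, x • η ∈ S) :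
    vSum π S x = ∑ η ∈ S.filter (fun η => x • η = η), cocycle π x η := by
  classical
  have key : ∑ η ∈ S.filter (fun η => ¬ x • η = η), cocycle π x η = 0 := by
    refine sum_eq_zero_of_classes _ (fun η => orb (Subgroup.zpowers x) η) _ fun η hη => ?_
    rw [Finset.mem_filter] at hη
    set m := Function.minimalPeriod (fun a : G ⧸ H => x • a) η
    have hper : ∀ n : ℕ, x ^ n • η = η ↔ m ∣ n := fun n => by
      rw [← Function.isPeriodicPt_iff_minimalPeriod_dvd, Function.IsPeriodicPt, Function.IsFixedPt,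
        smul_iterate]
    have hmdvd : m ∣ orderOf x := (hper _).mp (by rw [pow_orderOf_eq_one, one_smul])
    have hm0 : 0 < m := Nat.pos_of_dvd_of_pos hmdvd (orderOf_pos x)
    have hm1 : 1 < m := by
      rcases Nat.lt_or_ge 1 m with h | h
      · exact h
      · exact absurd (by simpa using (hper 1).mpr (by rw [show m = 1 by omega])) hη.2
    have hSj : ∀ j : ℕ, x ^ j • η ∈ S := by
      intro j
      induction j with
      | zero => simpa using hη.1
      | succ j ih => rw [pow_succ', mul_smul]; exact hS _ ih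
    have hset : (S.filter fun a => ¬ x • a = a).filter
        (fun a => orb (Subgroup.zpowers x) a = orb (Subgroup.zpowers x) η) =
        (Finset.range m).image fun j : ℕ => x ^ j • η := by
      ext a
      simp only [Finset.mem_filter, Finset.mem_image, Finset.mem_range]
      constructor
      · rintro ⟨-, ha⟩
        obtain ⟨k, hk, rfl⟩ := mem_orb.mp (ha ▸ self_mem_orb (Subgroup.zpowers x) a)
        obtain ⟨n, rfl⟩ := (isOfFinOrder_of_finite x).mem_powers_iff_mem_zpowers.mpr hk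
        refine ⟨n % m, Nat.mod_lt _ hm0, ?_⟩
        show x ^ (n % m) • η = x ^ n • η
        conv_rhs => rw [show n = n % m + m * (n / m) from (Nat.mod_add_div n m).symm, pow_add, mul_smul,
          (hper _).mpr (dvd_mul_right _ _)]
      · rintro ⟨j, -, rfl⟩
        refine ⟨⟨hSj j, fun h => hη.2 ?_⟩, orb_smul (pow_mem (Subgroup.mem_zpowers x) j)⟩
        apply MulAction.injective (x ^ j)
        show x ^ j • x • η = x ^ j • η
        rw [← mul_smul, ← pow_succ, pow_succ', mul_smul]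
        exact h
    rw [hset, Finset.sum_image, ← cocycle_pow]
    · exact hmin m η hm1 hmdvd ((hper m).mpr dvd_rfl)
    · intro i hi j hj hij
      have hcancel : ∀ i j, i ≤ j → j < m → x ^ i • η = x ^ j • η → i = j := by
        intro i j hle hj h
        rw [show j = i + (j - i) by omega, pow_add, mul_smul] at h
        have h2 := (hper _).mp (MulAction.injective (x ^ i) h).symm
        have := Nat.eq_zero_of_dvd_of_lt h2 (by omega)
        omega
      simp only [Finset.coe_range, Set.mem_Iio] at hi hj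
      rcases le_total i j with h | h
      · exact hcancel i j h hj hij
      · exact (hcancel j i h hi hij.symm).symm
  rw [vSum, ← Finset.sum_filter_add_sum_filter_not S (fun η => x • η = η), key, add_zero]

theorem intCast_choose_pred (p : ℕ) [Fact p.Prime] :
    ∀ j, j ≤ p - 1 → (((p - 1).choose j : ℕ) : ZMod p) = (-1) ^ j := by
  intro j hj
  induction j with
  | zero => simp
  | succ j ih =>
    have hpos := (Fact.out : p.Prime).pos
    have h1 : (p.choose (j + 1) : ZMod p) = 0 := (CharP.cast_eq_zero_iff (ZMod p) p _).mpr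
      ((Fact.out : p.Prime).dvd_choose_self (by omega) (by omega))
    have hsucc : p.choose (j + 1) = (p - 1).choose j + (p - 1).choose (j + 1) := by
      obtain ⟨q, hq⟩ : ∃ q, p = q + 1 := ⟨p - 1, by omega⟩
      subst hq
      exact Nat.choose_succ_succ q j
    rw [hsucc, Nat.cast_add] at h1
    have h2 := ih (by omega)
    rw [pow_succ]
    linear_combination h1 - h2

/-- The Engel condition kills the sum of the conjugates. -/
theorem sum_conj_eq_zero {R : Subgroup G} {z : G} (hzR : ∀ y ∈ R, z⁻¹ * y * z ∈ R)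
    (hpA : ∀ a : A, p • a = 0) (ψ : G → A) (hψ : ∀ a ∈ R, ∀ b ∈ R, ψ (a * b) = ψ a + ψ b)
    (heng : ∀ y ∈ R, (fun y : G => y⁻¹ * z⁻¹ * y * z)^[p - 1] y = 1) {y : G} (hy : y ∈ R) :
    ∑ i ∈ Finset.range p, ψ ((z ^ i)⁻¹ * y * z ^ i) = 0 := by
  set f := fun y : G => y⁻¹ * z⁻¹ * y * z with hf
  have hψ1 : ψ 1 = 0 := by
    have := hψ 1 R.one_mem 1 R.one_mem
    simpa using this
  have hconjR : ∀ (i : ℕ), ∀ y ∈ R, (z ^ i)⁻¹ * y * z ^ i ∈ R := by
    intro i
    induction i with
    | zero => intro y hy; simpa using hy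
    | succ i ih =>
      intro y hy
      have := hzR _ (ih y hy)
      simpa [pow_succ, mul_assoc] using this
  have hfR : ∀ y ∈ R, f y ∈ R := fun y hy => by
    rw [show f y = y⁻¹ * (z⁻¹ * y * z) by simp [hf, mul_assoc]]
    exact R.mul_mem (R.inv_mem hy) (hzR y hy)
  have key : ∀ (k : ℕ) (y : G), y ∈ R →
      ψ (f^[k] y) = (fwdDiff 1)^[k] (fun i : ℕ => ψ ((z ^ i)⁻¹ * y * z ^ i)) 0 := by
    intro k
    induction k with
    | zero => intro y _; simp
    | succ k ih =>
      intro y hy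
      rw [Function.iterate_succ_apply, ih _ (hfR y hy), Function.iterate_succ_apply]
      refine congrArg (fun F => (fwdDiff 1)^[k] F 0) ?_
      funext i
      simp only [fwdDiff]
      have e : (z ^ (i + 1))⁻¹ * y * z ^ (i + 1) =
          ((z ^ i)⁻¹ * y * z ^ i) * ((z ^ i)⁻¹ * f y * z ^ i) := by
        simp only [hf]; group
      rw [e, hψ _ (hconjR i y hy) _ (hconjR i _ (hfR y hy))]
      abel
  have h := key (p - 1) y hy
  rw [heng y hy, hψ1, fwdDiff_iter_eq_sum_shift] at h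
  rw [h, show Finset.range (p - 1 + 1) = Finset.range p by
    rw [Nat.sub_add_cancel hp.out.pos]]
  refine Finset.sum_congr rfl fun k hk => ?_
  rw [Finset.mem_range] at hk
  simp only [zero_add, smul_eq_mul, mul_one]
  have hc : (((-1 : ℤ) ^ (p - 1 - k) * ((p - 1).choose k : ℤ) : ℤ) : ZMod p) = ((1 : ℤ) : ZMod p) := by
    push_cast
    rw [intCast_choose_pred p k (by omega), ← pow_add, Nat.sub_add_cancel (by omega)]
    exact ZMod.pow_card_sub_one_eq_one (neg_ne_zero.mpr one_ne_zero)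
  rw [ZMod.intCast_eq_intCast_iff_dvd_sub] at hc
  obtain ⟨d, hd⟩ := hc
  rw [show (-1 : ℤ) ^ (p - 1 - k) * ((p - 1).choose k : ℤ) = 1 - (p : ℤ) * d by rw [← hd]; ring,
    sub_smul, one_smul, mul_smul, natCast_zsmul, hpA, sub_zero]

/-- Transfer into an elementary abelian group, when a weakly closed subgroup satisfies the Engel
condition. -/
theorem apply_eq_zero (P : Sylow p G) (Q : Subgroup G) (hQ : IsWeaklyClosed Q (P : Subgroup G))
    (h : ∀ u ∈ (P : Subgroup G), ∀ z ∈ Q, (fun y : G => y⁻¹ * z⁻¹ * y * z)^[p - 1] u = 1)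
    (hH : Subgroup.normalizer (Q : Set G) = H) (hPH : (P : Subgroup G) ≤ H) (π : H →* Multiplicative A)
    (hpA : ∀ a : A, p • a = 0) [Fintype (G ⧸ H)] :
    ∀ (n : ℕ) (x : G) (hx : x ∈ (P : Subgroup G)), orderOf x = n →
      vSum π Finset.univ x = 0 → Multiplicative.toAdd (π ⟨x, hPH hx⟩) = 0 := by
  intro n
  induction n using Nat.strong_induction_on with
  | _ n ih =>
  intro x hx hn hT
  classical
  subst hn
  -- contributions of proper powers vanish
  have hTpow : ∀ m : ℕ, vSum π Finset.univ (x ^ m) = 0 := by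
    intro m
    induction m with
    | zero => simp [vSum, cocycle_one]
    | succ m ihm => rw [pow_succ, vSum_mul π _ (fun _ _ => Finset.mem_univ _), ihm, hT, add_zero]
  have hmin : ∀ (m : ℕ) (η : G ⧸ H), 1 < m → m ∣ orderOf x → x ^ m • η = η →
      cocycle π (x ^ m) η = 0 := by
    intro m η hm hdvd hfix
    obtain ⟨hmem, hval⟩ := cocycle_fixed π hfix
    rw [hval]
    set d : H := ⟨_, hmem⟩
    let PH : Sylow p H := P.subtype hPH
    obtain ⟨k, hk⟩ := (P.2 ⟨x, hx⟩)
    have hxpow : x ^ p ^ k = 1 := congrArg Subtype.val hk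
    have hdp : IsPGroup p (Subgroup.zpowers d) := by
      refine IsPGroup.of_surjective (H := Subgroup.zpowers d) (G := Subgroup.zpowers d) ?_ (MonoidHom.id _)
        Function.surjective_id
      obtain ⟨j, -, hj⟩ := (Nat.dvd_prime_pow hp.out).mp (show orderOf d ∣ p ^ k by
        apply orderOf_dvd_of_pow_eq_one
        apply Subtype.ext
        simp only [SubmonoidClass.coe_pow, Subgroup.coe_one, d]
        rw [show η.out⁻¹ * x ^ m * η.out = η.out⁻¹ * x ^ m * η.out⁻¹⁻¹ by rw [inv_inv], conj_pow,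
          ← pow_mul, mul_comm m, pow_mul, hxpow, one_pow, mul_one, mul_inv_cancel])
      exact IsPGroup.of_card (by rw [Nat.card_zpowers, hj])
    obtain ⟨g, hg⟩ := exists_map_conj_le_sylow PH hdp
    have hgd : g * d * g⁻¹ ∈ (PH : Subgroup H) := hg ⟨d, Subgroup.mem_zpowers d, by simp⟩
    have hgP : ((g * d * g⁻¹ : H) : G) ∈ (P : Subgroup G) := hgd
    have hord : orderOf ((g * d * g⁻¹ : H) : G) < orderOf x := by
      have e : ((g * d * g⁻¹ : H) : G) = ((g : G) * η.out⁻¹) * x ^ m * ((g : G) * η.out⁻¹)⁻¹ := by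
        simp only [Subgroup.coe_mul, InvMemClass.coe_inv, d]; group
      have e2 := orderOf_injective (MulAut.conj ((g : G) * η.out⁻¹)).toMonoidHom
          (MulAut.conj ((g : G) * η.out⁻¹)).injective (x ^ m)
      simp only [MulEquiv.coe_toMonoidHom, MulAut.conj_apply] at e2
      rw [e, e2, orderOf_pow_of_dvd (by omega) hdvd]
      exact Nat.div_lt_self (orderOf_pos x) hm
    have hT' : vSum π Finset.univ ((g * d * g⁻¹ : H) : G) = 0 := by
      have e : ((g * d * g⁻¹ : H) : G) = ((g : G) * η.out⁻¹) * x ^ m * ((g : G) * η.out⁻¹)⁻¹ := by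
        simp only [Subgroup.coe_mul, InvMemClass.coe_inv, d]; group
      rw [e]
      have h := vSum_conj π (S := Finset.univ) ((g : G) * η.out⁻¹) (g := x ^ m) fun _ _ => Finset.mem_univ _
      rw [Finset.image_univ_of_surjective (MulAction.surjective _)] at h
      rw [h, hTpow]
    have hres := ih _ hord _ hgP rfl hT'
    rw [show (⟨((g * d * g⁻¹ : H) : G), hPH hgP⟩ : H) = g * d * g⁻¹ from Subtype.ext rfl] at hres
    simp only [map_mul, map_inv, toAdd_mul, toAdd_inv] at hres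
    rw [← hres]; abel
  -- the trivial coset
  set ξ0 : G ⧸ H := ((1 : G) : G ⧸ H)
  have hfix0 : ∀ u ∈ H, u • ξ0 = ξ0 := fun u hu => by
    show (((u * 1 : G)) : G ⧸ H) = ((1 : G) : G ⧸ H)
    rw [QuotientGroup.eq]
    simpa using H.inv_mem hu
  have hfix0' : ∀ u : G, u • ξ0 = ξ0 → u ∈ H := fun u hu => by
    have hu' : (((u * 1 : G)) : G ⧸ H) = ((1 : G) : G ⧸ H) := hu
    rw [QuotientGroup.eq] at hu'
    simpa using H.inv_mem hu'
  set Fx := Finset.univ.filter fun η : G ⧸ H => x • η = η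
  have h0 : cocycle π x ξ0 = Multiplicative.toAdd (π ⟨x, hPH hx⟩) := by
    obtain ⟨hm, hval⟩ := cocycle_fixed π (hfix0 x (hPH hx))
    obtain ⟨w, hw⟩ := QuotientGroup.mk_out_eq_mul H (1 : G)
    rw [one_mul] at hw
    rw [hval, show (⟨_, hm⟩ : H) = w⁻¹ * ⟨x, hPH hx⟩ * w from Subtype.ext (by
      simp only [Subgroup.coe_mul, InvMemClass.coe_inv, ξ0, hw])]
    simp only [map_mul, map_inv, toAdd_mul, toAdd_inv]
    abel
  rw [sum_eq_sum_fixed π hmin (fun _ _ => Finset.mem_univ _),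
    ← Finset.add_sum_erase _ _ (show ξ0 ∈ Fx from Finset.mem_filter.mpr ⟨Finset.mem_univ _, hfix0 x (hPH hx)⟩),
    h0] at hT
  rw [show ∑ η ∈ Fx.erase ξ0, cocycle π x η = 0 from ?_, add_zero] at hT
  · exact hT
  -- the other `P`-orbits
  refine sum_eq_zero_of_classes _ (fun η => orb (P : Subgroup G) η) _ fun ξ hξ => ?_
  rw [Finset.mem_erase] at hξ
  set D := (P : Subgroup G) ⊓ MulAction.stabilizer G ξ
  -- `Q` moves `ξ`
  have hQD : ¬ Q ≤ D := by
    intro hle
    refine hξ.1 ?_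
    obtain ⟨g, rfl⟩ := QuotientGroup.mk_surjective ξ
    have hQH : Q.map (MulAut.conj g⁻¹).toMonoidHom ≤ H := by
      rintro _ ⟨q, hq, rfl⟩
      have h1 : q • (g : G ⧸ H) = g := (hle hq).2
      have h1' : ((q * g : G) : G ⧸ H) = g := h1
      rw [QuotientGroup.eq] at h1'
      simpa [mul_assoc] using H.inv_mem h1'
    let PH : Sylow p H := P.subtype hPH
    obtain ⟨w, hw⟩ := exists_map_conj_le_sylow PH
      (((P.2.to_le hQ.1).map (MulAut.conj g⁻¹).toMonoidHom).comap_subtype (K := H))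
    have hle' : Q.map (MulAut.conj ((w : G) * g⁻¹)).toMonoidHom ≤ (P : Subgroup G) := by
      rintro _ ⟨q, hq, rfl⟩
      have h2 : (⟨_, hQH (Subgroup.mem_map_of_mem _ hq)⟩ : H) ∈
          (Q.map (MulAut.conj g⁻¹).toMonoidHom).subgroupOf H := Subgroup.mem_map_of_mem _ hq
      have h3 : (((w * ⟨_, hQH (Subgroup.mem_map_of_mem _ hq)⟩ * w⁻¹ : H)) : G) ∈ (P : Subgroup G) :=
        hw ⟨_, h2, rfl⟩
      simpa [mul_assoc] using h3
    have hn : (w : G) * g⁻¹ ∈ H := by
      exact hH.le (mem_normalizer_iff_map_conj.mpr (hQ.2 _ hle'))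
    have hg : g ∈ H := by
      simpa using H.inv_mem (H.mul_mem (H.inv_mem w.2) hn)
    rw [QuotientGroup.eq]
    simpa using H.inv_mem hg
  -- a subgroup `R` with `Q ≰ R` maximal above `D`
  obtain ⟨R, -, hRmax⟩ := (Set.toFinite {R : Subgroup G | D ≤ R ∧ R ≤ (P : Subgroup G) ∧ ¬ Q ≤ R}).exists_le_maximal
    (a := D) ⟨le_rfl, inf_le_left, hQD⟩
  obtain ⟨hDR, hRP, hQR⟩ := hRmax.prop
  have hlt : R < (P : Subgroup G) := lt_of_le_of_ne hRP fun h => hQR (h ▸ hQ.1)
  have hN := Cfsg.Agent.FGS3.lt_inf_normalizer P.2 hlt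
  have hQN : Q ≤ Subgroup.normalizer (R : Set G) := by
    by_contra hcon
    have hmem : (P : Subgroup G) ⊓ Subgroup.normalizer (R : Set G) ∈
        {R : Subgroup G | D ≤ R ∧ R ≤ (P : Subgroup G) ∧ ¬ Q ≤ R} :=
      ⟨hDR.trans hN.le, inf_le_left, fun h => hcon (h.trans inf_le_right)⟩
    exact hN.not_ge (hRmax.2 hmem hN.le)
  obtain ⟨z, hzQ, hzR, hzp⟩ : ∃ z ∈ Q, z ∉ R ∧ z ^ p ∈ R := by
    obtain ⟨y, hyQ, hyR⟩ := SetLike.not_le_iff_exists.mp hQR
    obtain ⟨k, hk⟩ := P.2 ⟨y, hQ.1 hyQ⟩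
    have hk' : y ^ p ^ k = 1 := congrArg Subtype.val hk
    have hex : ∃ k, y ^ p ^ k ∈ R := ⟨k, hk'.symm ▸ R.one_mem⟩
    have hne : Nat.find hex ≠ 0 := fun h0 => hyR (by simpa [h0] using Nat.find_spec hex)
    obtain ⟨j, hj⟩ : ∃ j, Nat.find hex = j + 1 := ⟨Nat.find hex - 1, by omega⟩
    refine ⟨y ^ p ^ j, pow_mem hyQ _, Nat.find_min hex (by omega), ?_⟩
    rw [← pow_mul, ← pow_succ, ← hj]
    exact Nat.find_spec hex
  have hzP : z ∈ (P : Subgroup G) := hQ.1 hzQ
  set E := R ⊔ Subgroup.zpowers z with hE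
  have hEP : E ≤ (P : Subgroup G) := sup_le hRP (Subgroup.zpowers_le.mpr hzP)
  have hzN : Subgroup.zpowers z ≤ Subgroup.normalizer (R : Set G) := Subgroup.zpowers_le.mpr (hQN hzQ)
  have hdisj : ∀ i, i < p → ∀ j, j < p → i ≤ j → ∀ r ∈ R, ∀ r' ∈ R,
      z ^ i • (r • ξ) = z ^ j • (r' • ξ) → i = j := by
    intro i hi j hj hij r hr r' hr' h
    by_contra hne
    have h2 : ((z ^ i * r)⁻¹ * (z ^ j * r')) ∈ D := by
      refine ⟨(P : Subgroup G).mul_mem ((P : Subgroup G).inv_mem (mul_mem (pow_mem hzP _) (hRP hr)))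
        (mul_mem (pow_mem hzP _) (hRP hr')), ?_⟩
      show ((z ^ i * r)⁻¹ * (z ^ j * r')) • ξ = ξ
      rw [mul_smul, inv_smul_eq_iff, mul_smul, mul_smul]
      exact h.symm
    have h3 : z ^ (j - i) ∈ R := by
      have := R.mul_mem (R.mul_mem hr (hDR h2)) (R.inv_mem hr')
      rw [show r * ((z ^ i * r)⁻¹ * (z ^ j * r')) * r'⁻¹ = (z ^ i)⁻¹ * z ^ j by group,
        show j = i + (j - i) by omega, pow_add, inv_mul_cancel_left] at this
      exact this
    have hco : (j - i).Coprime p := by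
      rw [Nat.coprime_comm, hp.out.coprime_iff_not_dvd]
      intro hd
      have := Nat.le_of_dvd (by omega) hd
      omega
    have hb := Nat.gcd_eq_gcd_ab (j - i) p
    rw [hco] at hb
    apply hzR
    have h4 : z ^ (1 : ℤ) ∈ R := by
      rw [show (1 : ℤ) = ((j - i : ℕ) : ℤ) * (j - i).gcdA p + (p : ℤ) * (j - i).gcdB p by
        rw [← hb]; norm_num, zpow_add, zpow_mul, zpow_mul, zpow_natCast, zpow_natCast]
      exact R.mul_mem (R.zpow_mem h3 _) (R.zpow_mem hzp _)
    simpa using h4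
  -- decomposition of `E ξ`
  have hdec : orb E ξ = (Finset.range p).biUnion fun i => (orb R ξ).image fun η => z ^ i • η := by
    ext η
    simp only [Finset.mem_biUnion, Finset.mem_range, Finset.mem_image, mem_orb]
    constructor
    · rintro ⟨e, he, rfl⟩
      have he' : e ∈ ((Subgroup.zpowers z ⊔ R : Subgroup G) : Set G) := by
        rw [sup_comm]; exact he
      rw [Subgroup.coe_mul_of_left_le_normalizer_right _ _ hzN] at he'
      obtain ⟨a, ha, r, hr, rfl⟩ := Set.mem_mul.mp he'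
      obtain ⟨n, rfl⟩ := (isOfFinOrder_of_finite z).mem_powers_iff_mem_zpowers.mpr ha
      refine ⟨n % p, Nat.mod_lt _ hp.out.pos, ((z ^ p) ^ (n / p) * r) • ξ,
        ⟨_, R.mul_mem (pow_mem hzp _) hr, rfl⟩, ?_⟩
      rw [← mul_smul, ← mul_assoc, ← pow_mul, ← pow_add, Nat.mod_add_div]
    · rintro ⟨i, -, _, ⟨r, hr, rfl⟩, rfl⟩
      exact ⟨z ^ i * r, E.mul_mem (pow_mem (Subgroup.mem_sup_right (Subgroup.mem_zpowers z)) _)
        (Subgroup.mem_sup_left hr), mul_smul _ _ _⟩
  have hψ : ∀ a ∈ R, ∀ b ∈ R, vSum π (orb R ξ) (a * b) = vSum π (orb R ξ) a + vSum π (orb R ξ) b :=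
    fun a _ b hb => vSum_mul π a fun _ hη => smul_mem_orb hb hη
  have hEsum : ∀ y ∈ R, vSum π (orb E ξ) y = 0 := by
    intro y hy
    rw [hdec, vSum, Finset.sum_biUnion]
    · refine Eq.trans (Finset.sum_congr rfl fun i _ => ?_) (sum_conj_eq_zero (R := R) (z := z)
        (fun a ha => (Subgroup.mem_normalizer_iff''.mp (hQN hzQ) a).mp ha) hpA _ hψ
        (fun a ha => h a (hRP ha) z hzQ) hy)
      have hz : (z ^ i)⁻¹ * y * z ^ i ∈ R :=
        (Subgroup.mem_normalizer_iff''.mp (hzN (pow_mem (Subgroup.mem_zpowers z) i)) y).mp hy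
      have h1 := vSum_conj π (S := orb R ξ) (z ^ i) (g := (z ^ i)⁻¹ * y * z ^ i)
        fun _ hη => smul_mem_orb hz hη
      rw [show z ^ i * ((z ^ i)⁻¹ * y * z ^ i) * (z ^ i)⁻¹ = y by group] at h1
      exact h1
    · intro i hi j hj hne
      simp only [Finset.coe_range, Set.mem_Iio] at hi hj
      rw [Function.onFun, Finset.disjoint_left]
      intro η h1 h2
      simp only [Finset.mem_image, mem_orb] at h1 h2
      obtain ⟨_, ⟨r, hr, rfl⟩, e1⟩ := h1
      obtain ⟨_, ⟨r', hr', rfl⟩, e2⟩ := h2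
      rcases le_total i j with hle | hle
      · exact hne (hdisj i hi j hj hle r hr r' hr' (e1.trans e2.symm))
      · exact hne (hdisj j hj i hi hle r' hr' r hr (e2.trans e1.symm)).symm
  -- blocks `u E ξ`
  set T := (Fx.erase ξ0).filter fun η => orb (P : Subgroup G) η = orb (P : Subgroup G) ξ with hT'
  have hsel : ∀ η, ∃ u, η ∈ T → u ∈ (P : Subgroup G) ∧ u • ξ = η := by
    intro η
    by_cases hη : η ∈ T
    · obtain ⟨u, hu, e⟩ := mem_orb.mp ((Finset.mem_filter.mp hη).2 ▸ self_mem_orb (P : Subgroup G) η)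
      exact ⟨u, fun _ => ⟨hu, e⟩⟩
    · exact ⟨1, fun h => absurd h hη⟩
  choose u hu using hsel
  refine sum_eq_zero_of_classes T (fun η => (orb E ξ).image fun a => u η • a) _ fun η hη => ?_
  obtain ⟨huP, huη⟩ := hu η hη
  set U := (orb E ξ).image fun a => u η • a with hUdef
  have hfix : x • η = η :=
    (Finset.mem_filter.mp (Finset.mem_of_mem_erase (Finset.mem_filter.mp hη).1)).2
  have hx' : (u η)⁻¹ * x * u η ∈ D := by
    refine ⟨mul_mem (mul_mem ((P : Subgroup G).inv_mem huP) hx) huP, ?_⟩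
    show ((u η)⁻¹ * x * u η) • ξ = ξ
    rw [mul_smul, mul_smul, huη, hfix, inv_smul_eq_iff, huη]
  have hxE : (u η)⁻¹ * x * u η ∈ E := Subgroup.mem_sup_left (hDR hx')
  have hset : T.filter (fun a => (orb E ξ).image (fun b => u a • b) = U) = U.filter fun a => x • a = a := by
    ext a
    simp only [Finset.mem_filter]
    constructor
    · rintro ⟨haT, haU⟩
      refine ⟨haU ▸ Finset.mem_image.mpr ⟨ξ, self_mem_orb E ξ, (hu a haT).2⟩, ?_⟩
      exact (Finset.mem_filter.mp (Finset.mem_of_mem_erase (Finset.mem_filter.mp haT).1)).2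
    · rintro ⟨haU, hafix⟩
      obtain ⟨b, hb, rfl⟩ := Finset.mem_image.mp haU
      obtain ⟨e, he, rfl⟩ := mem_orb.mp hb
      have haT : u η • e • ξ ∈ T := by
        refine Finset.mem_filter.mpr ⟨Finset.mem_erase.mpr ⟨fun h0' => ?_,
          Finset.mem_filter.mpr ⟨Finset.mem_univ _, hafix⟩⟩, ?_⟩
        · refine hξ.1 ?_
          have h1 : ξ = (u η * e)⁻¹ • ξ0 := by rw [← h0', ← mul_smul (u η) e ξ, inv_smul_smul]
          rw [h1]
          exact hfix0 _ (H.inv_mem (H.mul_mem (hPH huP) (hPH (hEP he))))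
        · rw [← mul_smul]; exact orb_smul (mul_mem huP (hEP he))
      obtain ⟨ha1, ha2⟩ := hu _ haT
      refine ⟨haT, ?_⟩
      set a := u η • e • ξ
      have hd : (u η * e)⁻¹ * u a ∈ D := by
        refine ⟨mul_mem ((P : Subgroup G).inv_mem (mul_mem huP (hEP he))) ha1, ?_⟩
        show ((u η * e)⁻¹ * u a) • ξ = ξ
        rw [mul_smul, ha2, inv_smul_eq_iff, mul_smul]
      have he2 : (u η)⁻¹ * u a ∈ E := by
        have := E.mul_mem he (Subgroup.mem_sup_left (hDR hd))
        rwa [mul_inv_rev, mul_assoc, mul_inv_cancel_left] at this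
      ext b
      simp only [hUdef, Finset.mem_image]
      constructor
      · rintro ⟨c, hc, rfl⟩
        exact ⟨((u η)⁻¹ * u a) • c, smul_mem_orb he2 hc, by rw [← mul_smul, mul_inv_cancel_left]⟩
      · rintro ⟨c, hc, rfl⟩
        exact ⟨((u η)⁻¹ * u a)⁻¹ • c, smul_mem_orb (E.inv_mem he2) hc, by
          rw [← mul_smul]; congr 1; group⟩
  rw [hset]
  have hUinv : ∀ a ∈ U, x • a ∈ U := by
    intro a ha
    obtain ⟨b, hb, rfl⟩ := Finset.mem_image.mp ha
    exact Finset.mem_image.mpr ⟨((u η)⁻¹ * x * u η) • b, smul_mem_orb hxE hb, by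
      rw [← mul_smul, ← mul_smul]; congr 1; group⟩
  rw [← sum_eq_sum_fixed π hmin hUinv]
  have h1 := vSum_conj π (S := orb E ξ) (u η) (g := (u η)⁻¹ * x * u η) fun _ hb => smul_mem_orb hxE hb
  rw [show u η * ((u η)⁻¹ * x * u η) * (u η)⁻¹ = x by group, hEsum _ (hDR hx')] at h1
  exact h1

/-- **Hall–Wielandt**. -/
theorem pResidualOf_normalizer_eq (P : Sylow p G) (Q : Subgroup G)
    (hQ : IsWeaklyClosed Q (P : Subgroup G))
    (h : ∀ u ∈ (P : Subgroup G), ∀ z ∈ Q, (fun y : G => y⁻¹ * z⁻¹ * y * z)^[p - 1] u = 1) :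
    pResidualOf p (Subgroup.normalizer (Q : Set G)) =
      pResidual p G ⊓ Subgroup.normalizer (Q : Set G) := by
  classical
  generalize hH : Subgroup.normalizer (Q : Set G) = H
  have hPH : (P : Subgroup G) ≤ H := by
    intro x hx
    rw [← hH, mem_normalizer_iff_map_conj]
    refine hQ.2 x ?_
    rintro _ ⟨q, hq, rfl⟩
    simpa using mul_mem (mul_mem hx (hQ.1 hq)) (inv_mem hx)
  have hle : pResidualOf p H ≤ pResidual p G ⊓ H :=
    le_inf (pResidual_map_subtype_le H) (Subgroup.map_subtype_le _)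
  let PH : Sylow p H := P.subtype hPH
  haveI hnorm : (((pResidual p H).map H.subtype).subgroupOf H).Normal := by
    rw [Subgroup.subgroupOf, Subgroup.comap_map_eq_self_of_injective H.subtype_injective]
    exact pResidual_normal
  have hn : (P : Subgroup G) ≤ Subgroup.normalizer (((pResidual p H).map H.subtype : Subgroup G) : Set G) :=
    hPH.trans (Subgroup.le_normalizer_of_normal_subgroupOf (Subgroup.map_subtype_le _))
  let σ : (P : Subgroup G) →* H ⧸ pResidual p H :=
    (QuotientGroup.mk' (pResidual p H)).comp (Subgroup.inclusion hPH)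
  have hσ : Function.Surjective σ := by
    intro q
    obtain ⟨y, rfl⟩ := QuotientGroup.mk'_surjective _ q
    obtain ⟨a, ha, k, hk, e⟩ := Subgroup.mem_sup_of_normal_right.mp
      ((sylow_sup_pResidual PH).ge (Subgroup.mem_top y))
    refine ⟨⟨(a : G), ha⟩, ?_⟩
    show QuotientGroup.mk' _ _ = QuotientGroup.mk' _ y
    rw [← e, map_mul, (QuotientGroup.eq_one_iff k).mpr hk |> (fun h => (show QuotientGroup.mk' (pResidual p H) k = 1 from h)),
      mul_one]
    congr 1
  let N := (frattini (P : Subgroup G)).map σ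
  haveI hNn : N.Normal := Subgroup.Normal.map inferInstance σ hσ
  have hgen : ∀ q : H ⧸ pResidual p H, ∃ a : (P : Subgroup G), σ a = q := hσ
  have hcomm : ∀ a b : (H ⧸ pResidual p H) ⧸ N, a * b = b * a := by
    intro a b
    obtain ⟨a, rfl⟩ := QuotientGroup.mk'_surjective N a
    obtain ⟨b, rfl⟩ := QuotientGroup.mk'_surjective N b
    obtain ⟨a, rfl⟩ := hσ a
    obtain ⟨b, rfl⟩ := hσ b
    rw [← commutatorElement_eq_one_iff_mul_comm, ← map_commutatorElement, ← map_commutatorElement]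
    exact (QuotientGroup.eq_one_iff _).mpr (Subgroup.mem_map_of_mem σ
      (FGS3.commutator_le_frattini P.2 (Subgroup.commutator_mem_commutator (Subgroup.mem_top _) (Subgroup.mem_top _))))
  letI : CommGroup ((H ⧸ pResidual p H) ⧸ N) := { (inferInstance : Group _) with mul_comm := hcomm }
  let π : H →* Multiplicative (Additive ((H ⧸ pResidual p H) ⧸ N)) :=
    MonoidHom.mk' (fun y => Multiplicative.ofAdd (Additive.ofMul
      (QuotientGroup.mk' N (QuotientGroup.mk' (pResidual p H) y)))) fun a b => by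
        rw [map_mul, map_mul]; rfl
  have hpA : ∀ a : Additive ((H ⧸ pResidual p H) ⧸ N), p • a = 0 := by
    intro a
    obtain ⟨a, rfl⟩ := (Additive.ofMul).surjective a
    obtain ⟨a, rfl⟩ := QuotientGroup.mk'_surjective N a
    obtain ⟨a, rfl⟩ := hσ a
    rw [← ofMul_pow, ← map_pow, ← map_pow]
    show Additive.ofMul _ = Additive.ofMul 1
    congr 1
    exact (QuotientGroup.eq_one_iff _).mpr
      (Subgroup.mem_map_of_mem σ (FGS3.pow_mem_frattini P.2 a))
  haveI : Fintype (G ⧸ H) := Fintype.ofFinite _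
  -- the transfer kills `O^p(G)`
  have hres : ∀ g ∈ pResidual p G, vSum π Finset.univ g = 0 := by
    intro g hg
    induction hg using Subgroup.closure_induction with
    | mem g hg =>
      have hpow : ∀ m : ℕ, vSum π Finset.univ (g ^ m) = m • vSum π Finset.univ g := by
        intro m
        induction m with
        | zero => simp [vSum, cocycle_one]
        | succ m ihm => rw [pow_succ, vSum_mul π _ (fun _ _ => Finset.mem_univ _), ihm, succ_nsmul]
      have h0 : orderOf g • vSum π Finset.univ g = 0 := by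
        rw [← hpow, pow_orderOf_eq_one]; simp [vSum, cocycle_one]
      have hg' : Nat.gcd (orderOf g) p = 1 := hg
      rw [← AddMonoid.addOrderOf_eq_one_iff, ← Nat.dvd_one, ← hg']
      exact Nat.dvd_gcd (addOrderOf_dvd_of_nsmul_eq_zero h0) (addOrderOf_dvd_of_nsmul_eq_zero (hpA _))
    | one => simp [vSum, cocycle_one]
    | mul a b _ _ ha hb => rw [vSum_mul π _ (fun _ _ => Finset.mem_univ _), ha, hb, add_zero]
    | inv a _ ha =>
      have := vSum_mul π (S := Finset.univ) a⁻¹ (h := a) (fun _ _ => Finset.mem_univ _)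
      rw [inv_mul_cancel, ha, add_zero] at this
      rw [← this]; simp [vSum, cocycle_one]
  set R₀ := (P : Subgroup G) ⊓ (pResidual p H).map H.subtype
  have heq : (P : Subgroup G) ⊓ pResidual p G = R₀ := by
    refine tate_core P R₀ (le_inf inf_le_left (inf_le_right.trans (pResidual_map_subtype_le H)))
      (fun g hg => ?_) ?_
    · rw [Subgroup.mem_normalizer_iff]
      intro a
      rw [Subgroup.mem_inf, Subgroup.mem_inf, ← Subgroup.mem_normalizer_iff.mp (Subgroup.le_normalizer hg) a,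
        ← Subgroup.mem_normalizer_iff.mp (hn hg) a]
    rintro x ⟨hxP, hxR⟩
    have h0 := apply_eq_zero P Q hQ h hH hPH π hpA _ x hxP rfl (hres x hxR)
    have h1 : QuotientGroup.mk' N (QuotientGroup.mk' (pResidual p H) ⟨x, hPH hxP⟩) = 1 := h0
    obtain ⟨f, hf, hfx⟩ := (QuotientGroup.eq_one_iff _).mp h1
    have hk : (Subgroup.inclusion hPH f)⁻¹ * ⟨x, hPH hxP⟩ ∈ pResidual p H := QuotientGroup.eq.mp hfx
    rw [show x = ((Subgroup.inclusion hPH f)⁻¹ * ⟨x, hPH hxP⟩ : H).1 * (((⟨x, hxP⟩ : (P : Subgroup G))⁻¹ * f * ⟨x, hxP⟩ : (P : Subgroup G)) : G) by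
      simp only [Subgroup.coe_mul, InvMemClass.coe_inv, Subgroup.coe_inclusion]; group]
    refine Subgroup.mul_mem _ (Subgroup.mem_sup_left ⟨?_, ⟨_, hk, rfl⟩⟩) (Subgroup.mem_sup_right ?_)
    · exact (P : Subgroup G).mul_mem ((P : Subgroup G).inv_mem f.2) hxP
    · refine ⟨(⟨x, hxP⟩ : (P : Subgroup G))⁻¹ * f * ⟨x, hxP⟩, ?_, rfl⟩
      have := (inferInstance : (frattini (P : Subgroup G)).Normal).conj_mem f hf ⟨x, hxP⟩⁻¹
      rwa [inv_inv] at this
  refine le_antisymm hle ?_
  rintro y ⟨hy, hyH⟩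
  obtain ⟨a, ha, k, hk, e⟩ := Subgroup.mem_sup_of_normal_right.mp
    ((sylow_sup_pResidual PH).ge (Subgroup.mem_top (⟨y, hyH⟩ : H)))
  have e' : (a : G) * k = y := congrArg Subtype.val e
  have hkR : (k : G) ∈ (pResidual p H).map H.subtype := ⟨k, hk, rfl⟩
  have haR : (a : G) ∈ R₀ := heq ▸ ⟨ha, by
    rw [show (a : G) = y * (k : G)⁻¹ by rw [← e', mul_inv_cancel_right]]
    exact mul_mem hy ((pResidual p G).inv_mem (pResidual_map_subtype_le H hkR))⟩
  rw [← e']
  exact Subgroup.mul_mem ((pResidual p H).map H.subtype) haR.2 hkR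

end Cfsg.Agent.Transfer.HallWielandt
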