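/-
Hall–Higman on a group modulo a radical with a pairing, and the elimination of an operator normalizing an
abelian group of isometries.
-/
import Cfsg.Agent.Transfer.WardEndgame
import Cfsg.Agent.Transfer.HHExceptional

set_option autoImplicit false
set_option linter.style.haveILetI false
set_option linter.unusedSectionVars false
set_option maxSynthPendingDepth 4

namespace Cfsg.Agent.Transfer.HHPairing

open Module WardEndgame
open scoped commutatorElement

section HH

variable {K : Type*} [Field K] [IsAlgClosed K] {U : Type*} [AddCommGroup U] [Module K U]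
  [FiniteDimensional K U] [Nontrivial U] {Q : Type*} [Group Q] [Finite Q]

/-- Hall–Higman for an invariant subgroup `Q1` that is nondegenerate and fixed-point-free modulo `Z`. -/
theorem hh_sub {q m : ℕ} [Fact q.Prime] (hm : m.Prime) (hmK : (m : K) ≠ 0) (hQ : IsPGroup q Q)
    (ρ : Q →* Module.End K U) (T : Module.End K U) (σ : MulAut Q)
    (hT : ∑ i ∈ Finset.range m, T ^ i = 0) (hTρ : ∀ x, T * ρ x = ρ (σ x) * T)
    (ω₀ : Q → Q → Kˣ) (hcomm : ∀ u v, ρ u * ρ v = (ω₀ u v : K) • (ρ v * ρ u)) (Z : Subgroup Q)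
    (hZ : ∀ z ∈ Z, ∃ e : K, ρ z = e • 1) (Q1 : Subgroup Q) (hσ1 : ∀ u ∈ Q1, σ u ∈ Q1)
    (hrad : ∀ u ∈ Q1, (∀ v ∈ Q1, ω₀ u v = 1) → u ∈ Z) (hfix : ∀ u ∈ Q1, u⁻¹ * σ u ∈ Z → u ∈ Z)
    (hne : ∃ u ∈ Q1, u ∉ Z) :
    q = 2 ∧ ∃ n, 1 ≤ n ∧ m = 2 ^ n + 1 ∧ (Z.subgroupOf Q1).index = 2 ^ (2 * n) := by
  classical
  have hmap : Q1.map σ.toMonoidHom = Q1 := Subgroup.eq_of_le_of_card_ge
    (Subgroup.map_le_iff_le_comap.mpr hσ1) (Subgroup.card_map_of_injective σ.injective).ge
  let σ1 : MulAut Q1 := (σ.subgroupMap Q1).trans (MulEquiv.subgroupCongr hmap)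
  have hω1 : ∀ u v, Commute (ρ u) (ρ v) → ω₀ u v = 1 := fun u v h => by
    refine Units.ext ?_
    rw [Units.val_one]
    refine HHExceptional.smul_rho_injective ρ (v * u) ?_
    rw [map_mul, ← hcomm, h.eq, one_smul]
  have hrad' : ∀ u : Q1, (∀ v : Q1, Commute (ρ (u : Q)) (ρ (v : Q))) → (u : Q) ∈ Z := fun u hu =>
    hrad u u.2 fun v hv => hω1 _ _ (hu ⟨v, hv⟩)
  have hsc : ∀ u : Q1, (∃ e : K, ρ (u : Q) = e • 1) → (u : Q) ∈ Z := fun u ⟨e, he⟩ => hrad' u fun v => by
    rw [he]; exact (Commute.one_left _).smul_left e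
  obtain ⟨h2, n, hn, hmn, hidx⟩ := HHExceptional.exceptional hm hmK (hQ.to_subgroup Q1) (ρ.comp Q1.subtype) T σ1
    hT (fun x => hTρ x) (fun u v => ⟨_, hcomm u v⟩) (fun u hu => hZ _ (hrad' u hu)) (fun u ⟨e, he⟩ => by
      refine hZ _ (hfix u u.2 (hrad _ (Q1.mul_mem (Q1.inv_mem u.2) (hσ1 u u.2)) fun v _ => hω1 _ _ ?_))
      rw [map_mul, show ρ (σ (u : Q)) = e • ρ (u : Q) from he, mul_smul_comm, ← map_mul, inv_mul_cancel, map_one]
      exact (Commute.one_left _).smul_left e) (by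
      obtain ⟨u, hu, huZ⟩ := hne
      exact ⟨⟨u, hu⟩, fun e he => huZ (hsc ⟨u, hu⟩ ⟨e, he⟩)⟩)
  exact ⟨h2, n, hn, hmn, hidx (Z.subgroupOf Q1) fun u => ⟨fun hu => hZ _ hu, fun hu => hsc u hu⟩⟩

end HH

variable {X : Type*} [CommGroup X] [Finite X] {K : Type*} [Field K]

/-- The moved part is nondegenerate. -/
theorem moved_nondeg {ω : X → X → K} (hω : IsPairing ω) {a : MulAut X} {m : ℕ} (ha : a ^ m = 1)
    (hcop : (Nat.card X).Coprime m) (hinv : ∀ x y, ω (a x) (a y) = ω x y) {u : X} (hu : u ∈ moved a)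
    (horth : ∀ v ∈ moved a, ω u v = 1) : u = 1 := by
  refine hω.nondeg u fun x => ?_
  obtain ⟨k, hk⟩ := exists_pow_eq_self_of_coprime
    (Nat.Coprime.coprime_dvd_right (orderOf_dvd_natCard x) hcop.symm)
  obtain ⟨y, hy, hxy⟩ := pow_eq_norm_mul (a := a) (p := m) x
  have hN : ω u (norm a m x) = 1 := by
    have h2 := hω.moved_orth hinv (apply_norm ha x) hu
    have h3 := hω.self (u * norm a m x)
    rwa [hω.mul_left, hω.mul_right, hω.mul_right, hω.self, hω.self, one_mul, mul_one, h2, mul_one] at h3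
  have h4 : ω u (x ^ m) = 1 := by rw [hxy, hω.mul_right, hN, horth y hy, one_mul]
  rw [← hk]
  clear hk
  induction k with
  | zero => rw [pow_zero, hω.one_right]
  | succ k ih => rw [pow_succ, hω.mul_right, ih, h4, one_mul]

/-- The conclusion of Hall–Higman on invariant nondegenerate subgroups without fixed points. -/
def HHBound (q m : ℕ) (ω : X → X → K) (a : MulAut X) : Prop :=
  ∀ M : Subgroup X, (∀ x ∈ M, a x ∈ M) → (∀ x ∈ M, a x = x → x = 1) →
    (∀ u ∈ M, (∀ v ∈ M, ω u v = 1) → u = 1) → M ≠ ⊥ →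
      q = 2 ∧ ∃ n, 1 ≤ n ∧ m = 2 ^ n + 1 ∧ Nat.card M = 2 ^ (2 * n)

theorem HHBound.moved {q m : ℕ} {ω : X → X → K} {a : MulAut X} (h : HHBound q m ω a) (hω : IsPairing ω)
    (ha : a ^ m = 1) (hcop : (Nat.card X).Coprime m) (hinv : ∀ x y, ω (a x) (a y) = ω x y)
    (hne : moved a ≠ ⊥) :
    q = 2 ∧ ∃ n, 1 ≤ n ∧ m = 2 ^ n + 1 ∧ Nat.card (WardEndgame.moved a) = 2 ^ (2 * n) := by
  refine h _ ?_ (fun x hx => fixed_inf_moved ha hcop hx) (fun u hu => moved_nondeg hω ha hcop hinv hu) hne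
  rintro _ ⟨x, rfl⟩
  exact ⟨a x, by show (a x)⁻¹ * a (a x) = a (x⁻¹ * a x); rw [map_mul, map_inv]⟩

/-- Restriction of an automorphism to an invariant subgroup. -/
noncomputable def rs (g : MulAut X) (S : Subgroup X) (h : ∀ x ∈ S, g x ∈ S) : MulAut S :=
  MulEquiv.ofBijective (MonoidHom.mk' (fun x : S => (⟨g x, h x x.2⟩ : S)) fun u v => Subtype.ext (map_mul g _ _))
    (Finite.injective_iff_bijective.mp fun u v e => Subtype.ext (g.injective (congrArg Subtype.val e)))

theorem rs_apply (g : MulAut X) (S : Subgroup X) (h : ∀ x ∈ S, g x ∈ S) (x : S) :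
    ((rs g S h x : S) : X) = g x := rfl

theorem rs_pow (g : MulAut X) (S : Subgroup X) (h : ∀ x ∈ S, g x ∈ S) (i : ℕ) (x : S) :
    (((rs g S h ^ i) x : S) : X) = (g ^ i) (x : X) := by
  induction i with
  | zero => simp
  | succ i ih => rw [pow_succ', pow_succ', MulAut.mul_apply, MulAut.mul_apply, rs_apply, ih]

set_option maxHeartbeats 800000 in
/-- An operator in the exceptional Hall–Higman situation normalizing an abelian group of isometries without
common fixed points acts trivially. -/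
theorem trivial_of_pairing {q m : ℕ} [Fact q.Prime] (hm : m.Prime) (hmq : m ≠ q) (hexp : ∀ x : X, x ^ q = 1)
    {ω : X → X → K} (hω : IsPairing ω) (a : MulAut X) (ha : a ^ m = 1)
    (hinv : ∀ x y, ω (a x) (a y) = ω x y) {B : Type*} [CommGroup B] [Finite B] (β : B →* MulAut X)
    (hβi : Function.Injective β)
    (hBq : (Nat.card B).Coprime q) (hBm : (Nat.card B).Coprime m)
    (hiso : ∀ b x y, ω (β b x) (β b y) = ω x y)
    (hB : ∀ x, (∀ b, β b x = x) → x = 1) (t : MulAut B) (ht : t ^ m = 1)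
    (hcomp : ∀ b x, a (β b x) = β (t b) (a x)) (hHH : HHBound q m ω a) (x : X) : a x = x := by
  classical
  obtain ⟨k, hk⟩ := IsPGroup.iff_card.mp (fun x => ⟨1, by rw [pow_one, hexp]⟩ : IsPGroup q X)
  have hcopX : (Nat.card X).Coprime m := by
    rw [hk]; exact ((Nat.coprime_primes Fact.out hm).mpr (Ne.symm hmq)).pow_left k
  set B1 := WardEndgame.moved t with hB1
  by_cases hB1b : B1 = ⊥
  · -- `a` commutes with `B`
    have htb : ∀ b, t b = b := (moved_eq_bot_iff t).mp hB1b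
    by_contra hax
    have hMne : WardEndgame.moved a ≠ ⊥ := fun h => hax ((moved_eq_bot_iff a).mp h x)
    obtain ⟨hq2, n, hn, hmn, hMc⟩ := hHH.moved hω ha hcopX hinv hMne
    subst hq2
    set M := WardEndgame.moved a
    have haM : ∀ y ∈ M, a y ∈ M := by
      rintro _ ⟨y, rfl⟩
      exact ⟨a y, by show (a y)⁻¹ * a (a y) = a (y⁻¹ * a y); rw [map_mul, map_inv]⟩
    have hcomm : ∀ b y, a (β b y) = β b (a y) := fun b y => by rw [hcomp, htb]
    have hbM : ∀ b, ∀ y ∈ M, β b y ∈ M := by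
      rintro b _ ⟨y, rfl⟩
      exact ⟨β b y, by show (β b y)⁻¹ * a (β b y) = β b (y⁻¹ * a y); rw [map_mul, map_inv, hcomm]⟩
    let ωM : M → M → K := fun u v => ω (u : X) v
    have hωM : IsPairing ωM :=
      ⟨fun u v w => hω.mul_left _ _ _, fun u v w => hω.mul_right _ _ _, fun u => hω.self _,
        fun u hu => Subtype.ext (moved_nondeg hω ha hcopX hinv u.2 fun v hv => hu ⟨v, hv⟩), fun u v => hω.ne_zero _ _⟩
    refine hMne ((Subgroup.eq_bot_iff_forall _).mpr fun y hy => hB y fun b => ?_)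
    have hgm := trivial_of_centralizer hm hn hmn (fun u : M => Subtype.ext (hexp u)) hMc hωM (rs a M haM)
      (MulEquiv.ext fun u => Subtype.ext (by rw [rs_pow, ha]; rfl))
      (fun u hu => Subtype.ext (fixed_inf_moved ha hcopX u.2 (congrArg Subtype.val hu))) (fun u v => hinv _ _)
      (rs (β b) M (hbM b)) (fun u => Subtype.ext (hcomm b u).symm) (fun u v => hiso b _ _)
    have h1 : β (b ^ m) y = y := by
      have := congrArg Subtype.val (MulEquiv.congr_fun hgm ⟨y, hy⟩)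
      rwa [rs_pow, ← map_pow] at this
    obtain ⟨j, hj⟩ := exists_pow_eq_self_of_coprime
      (Nat.Coprime.coprime_dvd_right (orderOf_dvd_natCard b) hBm.symm)
    rw [← hj]
    clear hj
    induction j with
    | zero => simp
    | succ j ih => rw [pow_succ, map_mul, MulAut.mul_apply, h1, ih]
  exfalso
  haveI := Fintype.ofFinite B1
  have htB1 : ∀ b ∈ B1, t b ∈ B1 := by
    rintro _ ⟨y, rfl⟩
    exact ⟨t y, by show (t y)⁻¹ * t (t y) = t (y⁻¹ * t y); rw [map_mul, map_inv]⟩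
  set t1 := rs t B1 htB1 with ht1
  -- the norm of `B1`
  let N : X →* X := ∏ b : B1, (β (b : B)).toMonoidHom
  have hN : ∀ y, N y = ∏ b : B1, β (b : B) y := fun y => by
    simp only [N, MonoidHom.finsetProd_apply]; rfl
  let X1 : Subgroup X := N.ker
  have haX1 : ∀ y ∈ X1, a y ∈ X1 := fun y (hy : N y = 1) => by
    show N (a y) = 1
    rw [hN, ← map_one a, ← hy, hN, map_prod]
    refine (Fintype.prod_equiv t1.toEquiv _ _ fun b => ?_).symm
    exact hcomp b y
  have hbN : ∀ (b : B) y, N (β b y) = β b (N y) := fun b y => by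
    rw [hN, hN, map_prod]
    refine Finset.prod_congr rfl fun c _ => ?_
    rw [← MulAut.mul_apply, ← map_mul, mul_comm, map_mul, MulAut.mul_apply]
  have hbX1 : ∀ (b : B), ∀ y ∈ X1, β b y ∈ X1 := fun b y (hy : N y = 1) => by
    show N _ = 1
    rw [hbN, hy, map_one]
  have hfixN : ∀ (b : B1) y, β (b : B) (N y) = N y := fun b y => by
    rw [hN, map_prod]
    refine Fintype.prod_equiv (Equiv.mulLeft b) _ _ fun c => ?_
    show β (b : B) (β (c : B) y) = β ((b * c : B1) : B) y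
    rw [Subgroup.coe_mul, map_mul, MulAut.mul_apply]
  have hmvX1 : ∀ (b : B1) y, y⁻¹ * β (b : B) y ∈ X1 := fun b y => by
    show N _ = 1
    rw [map_mul, map_inv, hbN, hfixN, inv_mul_cancel]
  have hcard1 : (Nat.card B1).Coprime q := Nat.Coprime.coprime_dvd_left (Subgroup.card_subgroup_dvd_card _) hBq
  have hroot : ∀ y : X, y ^ Nat.card B1 = 1 → y = 1 := fun y hy => orderOf_eq_one_iff.mp
    (Nat.eq_one_of_dvd_coprimes hcard1 (orderOf_dvd_of_pow_eq_one hy) (orderOf_dvd_of_pow_eq_one (hexp y)))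
  have hωN : ∀ u v, ω u (N v) = ω (N u) v := fun u v => by
    have hl : ∀ (s : Finset B1) (f : B1 → X), ω u (∏ i ∈ s, f i) = ∏ i ∈ s, ω u (f i) := fun s f => by
      induction s using Finset.induction_on with
      | empty => rw [Finset.prod_empty, Finset.prod_empty, hω.one_right]
      | insert i s hi ih => rw [Finset.prod_insert hi, Finset.prod_insert hi, hω.mul_right, ih]
    have hr : ∀ (s : Finset B1) (f : B1 → X), ω (∏ i ∈ s, f i) v = ∏ i ∈ s, ω (f i) v := fun s f => by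
      induction s using Finset.induction_on with
      | empty => rw [Finset.prod_empty, Finset.prod_empty, hω.one_left]
      | insert i s hi ih => rw [Finset.prod_insert hi, Finset.prod_insert hi, hω.mul_left, ih]
    rw [hN, hN, hl, hr]
    refine Fintype.prod_equiv (Equiv.inv B1) _ _ fun c => ?_
    show ω u (β (c : B) v) = ω (β ((c⁻¹ : B1) : B) u) v
    rw [Subgroup.coe_inv, map_inv]
    conv_lhs => rw [← MulAut.apply_inv_self X (β (c : B)) u]
    exact hiso _ _ _
  have hnd : ∀ u ∈ X1, (∀ v ∈ X1, ω u v = 1) → u = 1 := fun u hu horth => hω.nondeg u fun v => by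
    have h1 : ω u (v ^ Nat.card B1) = 1 := by
      have hd : v ^ Nat.card B1 = N v * (∏ b : B1, (v⁻¹ * β (b : B) v))⁻¹ := by
        rw [hN, Finset.prod_mul_distrib, Finset.prod_const, Finset.card_univ, Nat.card_eq_fintype_card,
          mul_inv, ← inv_pow, inv_inv, mul_comm (v ^ _), ← mul_assoc, mul_inv_cancel, one_mul]
      rw [hd, hω.mul_right, hωN, show N u = 1 from hu, hω.one_left, one_mul]
      exact horth _ (X1.inv_mem (Subgroup.prod_mem _ fun b _ => hmvX1 b v))
    obtain ⟨j, hj⟩ := exists_pow_eq_self_of_coprime (Nat.Coprime.coprime_dvd_right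
      (orderOf_dvd_of_pow_eq_one (hexp v)) hcard1)
    rw [← hj]
    clear hj
    induction j with
    | zero => rw [pow_zero, hω.one_right]
    | succ j ih => rw [pow_succ, hω.mul_right, ih, h1, one_mul]
  let ω1 : X1 → X1 → K := fun u v => ω (u : X) v
  have hω1 : IsPairing ω1 :=
    ⟨fun u v w => hω.mul_left _ _ _, fun u v w => hω.mul_right _ _ _, fun u => hω.self _,
      fun u hu => Subtype.ext (hnd u u.2 fun v hv => hu ⟨v, hv⟩), fun u v => hω.ne_zero _ _⟩
  haveI : Nontrivial X1 := by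
    obtain ⟨⟨b, hb⟩, hb1'⟩ := Subgroup.ne_bot_iff_exists_ne_one.mp hB1b
    have hb1 : b ≠ 1 := fun e => hb1' (Subtype.ext e)
    obtain ⟨y, hy⟩ : ∃ y, β b y ≠ y := by
      by_contra h
      push Not at h
      exact hb1 (hβi ((MulEquiv.ext h : β b = 1).trans (map_one β).symm))
    exact nontrivial_of_ne (⟨y⁻¹ * β b y, hmvX1 ⟨b, hb⟩ y⟩ : X1) 1
      fun h => hy (inv_mul_eq_one.mp (congrArg Subtype.val h)).symm
  set a1 := rs a X1 haX1 with ha1
  have ha1p : a1 ^ m = 1 := MulEquiv.ext fun u => Subtype.ext (by rw [ha1, rs_pow, ha]; rfl)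
  let β1 : B1 →* MulAut X1 := MonoidHom.mk' (fun b => rs (β (b : B)) X1 (hbX1 b)) fun b c =>
    MulEquiv.ext fun u => Subtype.ext (by
      show β ((b * c : B1) : B) (u : X) = β (b : B) (β (c : B) u)
      rw [Subgroup.coe_mul, map_mul, MulAut.mul_apply])
  have hcopB : (Nat.card B).Coprime m := hBm
  refine false_of_frobenius (q := q) hm hmq (fun u : X1 => Subtype.ext (hexp u)) hω1 a1 ha1p (fun u v => hinv _ _)
    β1 hcard1 ?_ t1 (MulEquiv.ext fun b => Subtype.ext (by rw [ht1, rs_pow, ht]; rfl))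
    (fun b hb => Subtype.ext (fixed_inf_moved ht hcopB b.2 (congrArg Subtype.val hb)))
    (fun b u => Subtype.ext (hcomp b u)) ?_
  · intro u hu
    refine Subtype.ext (hroot _ ?_)
    have h1 : N (u : X) = (u : X) ^ Nat.card B1 := by
      have hu' : ∀ b : B1, β (b : B) (u : X) = (u : X) := fun b => congrArg Subtype.val (hu b)
      rw [hN]
      simp only [hu', Finset.prod_const, Finset.card_univ, Nat.card_eq_fintype_card]
    rw [← h1]; exact u.2
  · intro hmv
    have hcop1 : (Nat.card X1).Coprime m := Nat.Coprime.coprime_dvd_left (Subgroup.card_subgroup_dvd_card _) hcopX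
    set M := (WardEndgame.moved a1).map X1.subtype with hM
    have h1 : ∀ y ∈ M, a y ∈ M := by
      rintro _ ⟨u, ⟨w, rfl⟩, rfl⟩
      refine ⟨a1 (w⁻¹ * a1 w), ⟨a1 w, ?_⟩, rfl⟩
      show (a1 w)⁻¹ * a1 (a1 w) = a1 (w⁻¹ * a1 w)
      rw [map_mul, map_inv]
    have h2 : ∀ y ∈ M, a y = y → y = 1 := by
      rintro _ ⟨u, hu, rfl⟩ hfix
      exact congrArg Subtype.val (fixed_inf_moved ha1p hcop1 hu (Subtype.ext hfix))
    have h3 : ∀ u ∈ M, (∀ v ∈ M, ω u v = 1) → u = 1 := by
      rintro _ ⟨u, hu, rfl⟩ horth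
      exact congrArg Subtype.val (moved_nondeg hω1 ha1p hcop1 (fun u v => hinv _ _) hu
        fun v hv => horth _ ⟨v, hv, rfl⟩)
    obtain ⟨hq2, n, hn, hmn, hc⟩ := hHH M h1 h2 h3
      (fun h => hmv ((Subgroup.map_eq_bot_iff_of_injective _ X1.subtype_injective).mp h))
    exact ⟨hq2, n, hn, hmn, by rwa [hM, Subgroup.card_map_of_injective X1.subtype_injective] at hc⟩

end Cfsg.Agent.Transfer.HHPairing
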