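/-
Non-abelian operator groups of order p·o (p, o distinct primes, σ of order p generating a normal
subgroup) and the characters of groups they act on.
-/
import Cfsg.Agent.Transfer.WardLocal

set_option autoImplicit false
set_option linter.style.haveILetI false
set_option linter.unusedSectionVars false
set_option maxSynthPendingDepth 4

namespace Cfsg.Agent.Transfer.PQ

open scoped commutatorElement

universe uA

variable {A : Type uA} [Group A] [Finite A]

/-- `A` is non-abelian of order `p·o` with `σ` spanning the normal subgroup of order `p`. -/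
structure IsPQ (p o : ℕ) (σ : A) : Prop where
  hp : p.Prime
  ho : o.Prime
  hne : p ≠ o
  hσ : orderOf σ = p
  normal : (Subgroup.zpowers σ).Normal
  card : Nat.card A = p * o
  nonab : ∃ a b : A, a * b ≠ b * a

variable {p o : ℕ} {σ : A}

theorem IsPQ.sigma_ne_one (h : IsPQ p o σ) : σ ≠ 1 := fun e => h.hp.ne_one (by rw [← h.hσ, e, orderOf_one])

theorem IsPQ.top_of_mem (h : IsPQ p o σ) {S : Subgroup A} (hσ : σ ∈ S) {a : A} (ha : a ∈ S)
    (hna : a ∉ Subgroup.zpowers σ) : S = ⊤ := by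
  have hle : Subgroup.zpowers σ ≤ S := Subgroup.zpowers_le.mpr hσ
  have h1 : p ∣ Nat.card S := h.hσ ▸ Nat.card_zpowers σ ▸ Subgroup.card_dvd_of_le hle
  obtain ⟨m, hm⟩ := h1
  have h2 : m ∣ o := (Nat.mul_dvd_mul_iff_left h.hp.pos).mp (hm ▸ h.card ▸ Subgroup.card_subgroup_dvd_card S)
  rcases (Nat.dvd_prime h.ho).mp h2 with rfl | rfl
  · refine absurd ?_ hna
    rw [Subgroup.eq_of_le_of_card_ge hle (by rw [hm, mul_one, Nat.card_zpowers, h.hσ])]
    exact ha
  · exact Subgroup.eq_top_of_card_eq S (by rw [hm, h.card])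

theorem IsPQ.orderOf_outside (h : IsPQ p o σ) {a : A} (ha : a ∉ Subgroup.zpowers σ) : orderOf a = o := by
  have ha1 : a ≠ 1 := fun e => ha (e ▸ Subgroup.one_mem _)
  have hdvd : orderOf a ∣ p * o := h.card ▸ orderOf_dvd_natCard a
  obtain ⟨x, y, hx, hy, hxy⟩ := exists_dvd_and_dvd_of_dvd_mul hdvd
  rcases (Nat.dvd_prime h.hp).mp hx with ex | ex <;> rcases (Nat.dvd_prime h.ho).mp hy with ey | ey <;>
    rw [ex, ey] at hxy
  · exact absurd (orderOf_eq_one_iff.mp (by simpa using hxy)) ha1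
  · simpa using hxy
  · exfalso
    have hao : orderOf a = p := by simpa using hxy
    haveI := Fact.mk h.hp
    -- the unique subgroup of order p
    haveI := h.normal
    have h3 : orderOf (QuotientGroup.mk' (Subgroup.zpowers σ) a) ∣ 1 := by
      have hidx : Nat.card (A ⧸ Subgroup.zpowers σ) = o := by
        have := Subgroup.card_eq_card_quotient_mul_card_subgroup (Subgroup.zpowers σ)
        rw [h.card, Nat.card_zpowers, h.hσ, mul_comm p o] at this
        exact (Nat.eq_of_mul_eq_mul_right h.hp.pos this).symm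
      refine dvd_of_eq (Nat.eq_one_of_dvd_coprimes ((Nat.coprime_primes h.hp h.ho).mpr h.hne)
        (hao ▸ orderOf_map_dvd _ a) (hidx ▸ orderOf_dvd_natCard _))
    rw [Nat.dvd_one, orderOf_eq_one_iff] at h3
    exact ha ((QuotientGroup.eq_one_iff a).mp h3)
  · exfalso
    have hgen : Subgroup.zpowers a = ⊤ := Subgroup.eq_top_of_card_eq _ (by rw [Nat.card_zpowers, hxy, h.card])
    obtain ⟨u, v, huv⟩ := h.nonab
    obtain ⟨i, rfl⟩ := Subgroup.mem_zpowers_iff.mp (hgen.ge (Subgroup.mem_top u))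
    obtain ⟨j, rfl⟩ := Subgroup.mem_zpowers_iff.mp (hgen.ge (Subgroup.mem_top v))
    exact huv (by rw [← zpow_add, ← zpow_add, add_comm])

/-- A subgroup containing an element outside `⟨σ⟩` is generated by it or everything. -/
theorem IsPQ.eq_zpowers_or_top (h : IsPQ p o σ) {S : Subgroup A} {a : A} (ha : a ∈ S)
    (hna : a ∉ Subgroup.zpowers σ) : S = Subgroup.zpowers a ∨ S = ⊤ := by
  have hle : Subgroup.zpowers a ≤ S := Subgroup.zpowers_le.mpr ha
  have h1 : o ∣ Nat.card S := h.orderOf_outside hna ▸ Nat.card_zpowers a ▸ Subgroup.card_dvd_of_le hle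
  obtain ⟨m, hm⟩ := h1
  have h2 : m ∣ p := (Nat.mul_dvd_mul_iff_left h.ho.pos).mp
    (hm ▸ (mul_comm p o ▸ h.card ▸ Subgroup.card_subgroup_dvd_card S))
  rcases (Nat.dvd_prime h.hp).mp h2 with rfl | rfl
  · exact Or.inl (Subgroup.eq_of_le_of_card_ge hle (by rw [hm, mul_one, Nat.card_zpowers, h.orderOf_outside hna])).symm
  · exact Or.inr (Subgroup.eq_top_of_card_eq S (by rw [hm, h.card, mul_comm]))

theorem IsPQ.exists_outside (h : IsPQ p o σ) : ∃ a, a ∉ Subgroup.zpowers σ := by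
  by_contra hc
  push Not at hc
  have := congrArg (fun S : Subgroup A => Nat.card S) (eq_top_iff.mpr fun z _ => hc z : Subgroup.zpowers σ = ⊤)
  simp only [Subgroup.card_top, h.card, Nat.card_zpowers, h.hσ] at this
  exact h.ho.ne_one (Nat.eq_of_mul_eq_mul_left h.hp.pos (by rw [mul_one]; exact this.symm))

theorem IsPQ.zpowers_of_mem (h : IsPQ p o σ) {a : A} (ha : a ∈ Subgroup.zpowers σ) (ha1 : a ≠ 1) :
    Subgroup.zpowers a = Subgroup.zpowers σ := by
  haveI := Fact.mk h.hp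
  refine Subgroup.eq_of_le_of_card_ge (Subgroup.zpowers_le.mpr ha) ?_
  have hd : orderOf a ∣ p := h.hσ ▸ orderOf_dvd_of_mem_zpowers ha
  rcases (Nat.dvd_prime h.hp).mp hd with e | e
  · exact absurd (orderOf_eq_one_iff.mp e) ha1
  · rw [Nat.card_zpowers, Nat.card_zpowers, e, h.hσ]

theorem IsPQ.pgroup_zpowers (_h : IsPQ p o σ) {a : A} {m : ℕ} (hm : orderOf a = m) :
    IsPGroup m (Subgroup.zpowers a) := fun z => by
  obtain ⟨i, hi⟩ := Subgroup.mem_zpowers_iff.mp z.2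
  refine ⟨1, Subtype.ext ?_⟩
  rw [Subgroup.coe_pow, ← hi, pow_one, ← zpow_natCast, zpow_comm, zpow_natCast, ← hm, pow_orderOf_eq_one,
    one_zpow]
  rfl

variable {Q : Type*} [Group Q] [Finite Q]

theorem forall_zpowers (φ : A →* MulAut Q) {a : A} {N : Subgroup Q} (hN : ∀ n ∈ N, φ a n ∈ N) {x : Q}
    (hx : x⁻¹ * φ a x ∈ N) (g : Subgroup.zpowers a) :
    (∀ n ∈ N, φ (g : A) n ∈ N) ∧ x⁻¹ * φ (g : A) x ∈ N := by
  obtain ⟨i, hi⟩ := (IsOfFinOrder.mem_powers_iff_mem_zpowers (isOfFinOrder_of_finite a)).mpr g.2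
  rw [show (g : A) = a ^ i from hi.symm]
  clear hi
  induction i with
  | zero => simp
  | succ i ih =>
    rw [pow_succ', map_mul]
    refine ⟨fun n hn => hN _ (ih.1 n hn), ?_⟩
    rw [MulAut.mul_apply, show x⁻¹ * φ a (φ (a ^ i) x) = (x⁻¹ * φ a x) * φ a (x⁻¹ * φ (a ^ i) x) by
      rw [map_mul, map_inv]; group]
    exact N.mul_mem hx (hN _ ih.2)

/-- Fixed points of one element lift. -/
theorem lift_one {m : ℕ} (hm : m.Prime) {a : A} (ha : orderOf a = m) (φ : A →* MulAut Q) (N : Subgroup Q)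
    (hcop : ¬ m ∣ Nat.card N) (hN : ∀ n ∈ N, φ a n ∈ N) {x : Q} (hx : x⁻¹ * φ a x ∈ N) :
    ∃ n ∈ N, φ a (x * n) = x * n := by
  haveI := Fact.mk hm
  have hP : IsPGroup m (Subgroup.zpowers a) := fun z => by
    obtain ⟨i, hi⟩ := Subgroup.mem_zpowers_iff.mp z.2
    refine ⟨1, Subtype.ext ?_⟩
    rw [Subgroup.coe_pow, ← hi, pow_one, ← zpow_natCast, zpow_comm, zpow_natCast, ← ha, pow_orderOf_eq_one,
      one_zpow]
    rfl
  have hall := forall_zpowers φ hN hx
  obtain ⟨n, hn, hfix⟩ := WardLocal.exists_fixed_in_coset hP (φ.comp (Subgroup.zpowers a).subtype) N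
    (fun g => (hall g).1) hcop x (fun g => (hall g).2)
  exact ⟨n, hn, hfix ⟨a, Subgroup.mem_zpowers a⟩⟩

/-- Fixed points of `A` lift through invariant subgroups. -/
theorem IsPQ.lift_all (h : IsPQ p o σ) (φ : A →* MulAut Q) (hp : ¬ p ∣ Nat.card Q) (ho : ¬ o ∣ Nat.card Q)
    (N : Subgroup Q) (hN : ∀ a, ∀ n ∈ N, φ a n ∈ N) {x : Q} (hx : ∀ a, x⁻¹ * φ a x ∈ N) :
    ∃ n ∈ N, ∀ a, φ a (x * n) = x * n := by
  obtain ⟨n, hn, hfix⟩ := lift_one h.hp h.hσ φ N (fun hd => hp (hd.trans (Subgroup.card_subgroup_dvd_card N)))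
    (hN σ) (hx σ)
  obtain ⟨τ, hτ⟩ := h.exists_outside
  let F : Subgroup Q := N ⊓ (φ σ).toMonoidHom.eqLocus (MonoidHom.id Q)
  have hFτ : ∀ y, φ σ y = y → φ σ (φ τ y) = φ τ y := fun y hy => by
    obtain ⟨i, hi⟩ := (IsOfFinOrder.mem_powers_iff_mem_zpowers (isOfFinOrder_of_finite σ)).mpr
      (h.normal.conj_mem σ (Subgroup.mem_zpowers σ) τ⁻¹)
    have hσi : σ * τ = τ * σ ^ i := by
      rw [show σ ^ i = τ⁻¹ * σ * τ⁻¹⁻¹ from hi, inv_inv]; group
    rw [← MulAut.mul_apply, ← map_mul, hσi, map_mul, MulAut.mul_apply]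
    congr 1
    clear hi hσi
    induction i with
    | zero => simp
    | succ i ih => rw [pow_succ', map_mul, MulAut.mul_apply, ih, hy]
  obtain ⟨m, hm, hfix'⟩ := lift_one h.ho (h.orderOf_outside hτ) φ F
    (fun hd => ho (hd.trans (Subgroup.card_subgroup_dvd_card F)))
    (fun y hy => ⟨hN τ y hy.1, hFτ y hy.2⟩) (x := x * n) (by
      refine ⟨?_, ?_⟩
      · rw [map_mul, mul_inv_rev, show n⁻¹ * x⁻¹ * (φ τ x * φ τ n) = n⁻¹ * (x⁻¹ * φ τ x) * φ τ n by group]
        exact N.mul_mem (N.mul_mem (N.inv_mem hn) (hx τ)) (hN τ n hn)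
      · show φ σ ((x * n)⁻¹ * φ τ (x * n)) = (x * n)⁻¹ * φ τ (x * n)
        rw [map_mul (φ σ), map_inv, hfix, hFτ _ hfix])
  refine ⟨n * m, N.mul_mem hn hm.1, fun a => ?_⟩
  rw [← mul_assoc]
  let S : Subgroup A :=
    { carrier := {a | φ a (x * n * m) = x * n * m}
      one_mem' := by show φ 1 (x * n * m) = x * n * m; simp
      mul_mem' := fun {u v} (hu : φ u _ = _) (hv : φ v _ = _) => by
        show φ (u * v) _ = _
        rw [map_mul φ u v, MulAut.mul_apply, hv, hu]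
      inv_mem' := fun {u} (hu : φ u _ = _) => by
        show φ u⁻¹ _ = _
        conv_lhs => rw [← hu]
        rw [map_inv, MulAut.inv_apply_self] }
  have hσS : σ ∈ S := by
    show φ σ (x * n * m) = x * n * m
    rw [map_mul, hfix, show φ σ m = m from hm.2]
  exact ((h.top_of_mem hσS (show τ ∈ S from hfix') hτ).ge (Subgroup.mem_top a) : a ∈ S)

/-- A character fixed by `A` is trivial when `A` has no fixed points. -/
theorem IsPQ.char_trivial (h : IsPQ p o σ) (φ : A →* MulAut Q) (hp : ¬ p ∣ Nat.card Q) (ho : ¬ o ∣ Nat.card Q)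
    (hfpf : ∀ y, (∀ a, φ a y = y) → y = 1) {Z : Subgroup Q} (hZ : ∀ a, ∀ z ∈ Z, φ a z ∈ Z)
    {M : Type*} [CommGroup M] (χ : Z →* M) (hχ : ∀ a, ∀ z : Z, χ ⟨φ a z, hZ a z z.2⟩ = χ z) (z : Z) :
    χ z = 1 := by
  let N := χ.ker.map Z.subtype
  obtain ⟨n, hn, hfix⟩ := h.lift_all φ hp ho N (fun a y hy => by
      obtain ⟨w, hw, rfl⟩ := hy
      exact ⟨⟨φ a w, hZ a w w.2⟩, (hχ a w).trans hw, rfl⟩) (x := (z : Q)) fun a => by
    refine ⟨z⁻¹ * ⟨φ a z, hZ a z z.2⟩, ?_, rfl⟩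
    show χ _ = 1
    rw [map_mul, map_inv, hχ, inv_mul_cancel]
  obtain ⟨w, hw, rfl⟩ := hn
  have h1 : z * w = 1 := Subtype.ext (hfpf _ hfix)
  have h2 := congrArg χ h1
  rwa [map_mul, show χ w = 1 from hw, mul_one, map_one] at h2

/-- The twist of a character by an operator. -/
def tw {Z : Subgroup Q} (φ : A →* MulAut Q) (hZ : ∀ a, ∀ z ∈ Z, φ a z ∈ Z) {M : Type*} [CommGroup M]
    (a : A) (χ : Z →* M) : Z →* M :=
  χ.comp (MonoidHom.mk' (fun z : Z => (⟨φ a z, hZ a z z.2⟩ : Z)) fun u v => Subtype.ext (map_mul (φ a) _ _))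

/-- The product of the twists by `⟨σ⟩` of a character fixed by some `τ ∉ ⟨σ⟩` is trivial. -/
theorem IsPQ.prod_sigma_trivial (h : IsPQ p o σ) (φ : A →* MulAut Q) (hp : ¬ p ∣ Nat.card Q)
    (ho : ¬ o ∣ Nat.card Q) (hfpf : ∀ y, (∀ a, φ a y = y) → y = 1) {Z : Subgroup Q}
    (hZ : ∀ a, ∀ z ∈ Z, φ a z ∈ Z) {M : Type*} [CommGroup M] (χ : Z →* M) {τ : A}
    (hτ : τ ∉ Subgroup.zpowers σ) (hfix : tw φ hZ τ χ = χ) [Fintype (Subgroup.zpowers σ)] (z : Z) :
    ∏ a : Subgroup.zpowers σ, χ ⟨φ (a : A) z, hZ _ z z.2⟩ = 1 := by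
  let Ψ : Z →* M := ∏ a : Subgroup.zpowers σ, tw φ hZ (a : A) χ
  have hΨ : ∀ w : Z, Ψ w = ∏ a : Subgroup.zpowers σ, χ ⟨φ (a : A) w, hZ _ w w.2⟩ := fun w => by
    simp only [Ψ, MonoidHom.finset_prod_apply]; rfl
  rw [← hΨ]
  refine h.char_trivial φ hp ho hfpf hZ Ψ (fun b w => ?_) z
  let S : Subgroup A :=
    { carrier := {b | ∀ w : Z, Ψ ⟨φ b w, hZ b w w.2⟩ = Ψ w}
      one_mem' := fun w => congrArg Ψ (Subtype.ext (by simp))
      mul_mem' := fun {u v} hu hv w => by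
        rw [← hv w, ← hu ⟨φ v w, hZ v w w.2⟩]
        exact congrArg Ψ (Subtype.ext (by simp))
      inv_mem' := fun {u} hu w => by
        rw [← hu ⟨φ u⁻¹ w, hZ _ w w.2⟩]
        exact congrArg Ψ (Subtype.ext (by simp)) }
  suffices htop : S = ⊤ from (htop.ge (Subgroup.mem_top b) : b ∈ S) w
  refine h.top_of_mem (S := S) (fun w => ?_) (a := τ) (fun w => ?_) hτ
  · rw [hΨ, hΨ]
    refine Fintype.prod_equiv (Equiv.mulRight (⟨σ, Subgroup.mem_zpowers σ⟩ : Subgroup.zpowers σ)) _ _ fun a => ?_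
    exact congrArg χ (Subtype.ext (by simp))
  · rw [hΨ, hΨ]
    haveI := h.normal
    let e : Subgroup.zpowers σ ≃ Subgroup.zpowers σ :=
      { toFun := fun a => ⟨τ⁻¹ * a * τ, by simpa using h.normal.conj_mem _ a.2 τ⁻¹⟩
        invFun := fun a => ⟨τ * a * τ⁻¹, h.normal.conj_mem _ a.2 τ⟩
        left_inv := fun a => Subtype.ext (by simp only; group)
        right_inv := fun a => Subtype.ext (by simp only; group) }
    refine Fintype.prod_equiv e _ _ fun a => ?_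
    show χ _ = χ _
    have h2 := DFunLike.congr_fun hfix ⟨φ (τ⁻¹ * (a : A) * τ) w, hZ _ w w.2⟩
    refine Eq.trans ?_ h2
    refine congrArg χ (Subtype.ext ?_)
    show φ (a : A) (φ τ (w : Q)) = φ τ (φ (τ⁻¹ * (a : A) * τ) w)
    rw [← MulAut.mul_apply, ← map_mul, ← MulAut.mul_apply, ← map_mul]
    congr 2
    group

end Cfsg.Agent.Transfer.PQ
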