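/-
Characters of a group acted on by R and by operators A of order p·o, each with a nontrivial stabilizer in A.
-/
import Cfsg.Agent.Transfer.PQBasic

set_option autoImplicit false
set_option linter.style.haveILetI false
set_option linter.unusedSectionVars false
set_option maxSynthPendingDepth 4

namespace Cfsg.Agent.Transfer.PQ

universe uA

variable {A : Type uA} [Group A] [Finite A] {p o : ℕ} {σ : A}

theorem IsPQ.exists_conj (h : IsPQ p o σ) {b b' : A} (hb : b ∉ Subgroup.zpowers σ)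
    (hb' : b' ∉ Subgroup.zpowers σ) :
    ∃ a ∈ Subgroup.zpowers σ, b ∈ Subgroup.zpowers (a⁻¹ * b' * a) := by
  haveI := h.normal
  haveI := Fact.mk h.ho
  have hidx : Nat.card (A ⧸ Subgroup.zpowers σ) = o := by
    have := Subgroup.card_eq_card_quotient_mul_card_subgroup (Subgroup.zpowers σ)
    rw [h.card, Nat.card_zpowers, h.hσ, mul_comm p o] at this
    exact (Nat.eq_of_mul_eq_mul_right h.hp.pos this).symm
  set mk := QuotientGroup.mk' (Subgroup.zpowers σ) with hmk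
  have hb1 : mk b ≠ 1 := fun e => hb ((QuotientGroup.eq_one_iff b).mp e)
  obtain ⟨j, hj⟩ := mem_powers_of_prime_card hidx (g := mk b) (g' := mk b') hb1
  have hjb : b ^ j ∉ Subgroup.zpowers σ := fun e => hb' ((QuotientGroup.eq_one_iff b').mp (by
    show mk b' = 1
    rw [← hj]; show mk b ^ j = 1
    rw [← map_pow]; exact (QuotientGroup.eq_one_iff _).mpr e))
  have hc : (b ^ j)⁻¹ * b' ∈ Subgroup.zpowers σ := QuotientGroup.eq.mp (by
    show mk (b ^ j) = mk b'
    rw [map_pow]; exact hj)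
  let g : Subgroup.zpowers σ → Subgroup.zpowers σ := fun a =>
    ⟨(b ^ j)⁻¹ * a * b ^ j * (a : A)⁻¹, Subgroup.mul_mem _ (by simpa using h.normal.conj_mem _ a.2 (b ^ j)⁻¹)
      (Subgroup.inv_mem _ a.2)⟩
  have hginj : Function.Injective g := by
    intro u v huv
    have e := congrArg Subtype.val huv
    simp only [g] at e
    set c := b ^ j with hc'
    have hw : c⁻¹ * ((v : A)⁻¹ * u) * c = (v : A)⁻¹ * u := by
      calc c⁻¹ * ((v : A)⁻¹ * u) * c
          = (c⁻¹ * (v : A) * c * (v : A)⁻¹ * v)⁻¹ * (c⁻¹ * (u : A) * c * (u : A)⁻¹ * u) := by group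
        _ = (c⁻¹ * (v : A) * c * (v : A)⁻¹ * v)⁻¹ * (c⁻¹ * (v : A) * c * (v : A)⁻¹ * u) := by rw [e]
        _ = _ := by group
    by_contra hne
    have hw1 : (v : A)⁻¹ * u ≠ 1 := fun e1 => hne (Subtype.ext (inv_mul_eq_one.mp e1).symm)
    have hwmem : (v : A)⁻¹ * u ∈ Subgroup.zpowers σ := Subgroup.mul_mem _ (Subgroup.inv_mem _ v.2) u.2
    set w := (v : A)⁻¹ * (u : A) with hw'
    have hσc : σ * c = c * σ := by
      have hσw : σ ∈ Subgroup.zpowers w := by rw [h.zpowers_of_mem hwmem hw1]; exact Subgroup.mem_zpowers σ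
      obtain ⟨i, hi⟩ := Subgroup.mem_zpowers_iff.mp hσw
      have hcw : Commute w c := by
        show w * c = c * w
        calc w * c = c * (c⁻¹ * w * c) := by group
          _ = c * w := by rw [hw]
      rw [← hi]
      exact (hcw.zpow_left i).eq
    have htop : Subgroup.centralizer ({c} : Set A) = ⊤ := h.top_of_mem
      (Subgroup.mem_centralizer_iff.mpr fun y hy => by rw [Set.mem_singleton_iff.mp hy]; exact hσc.symm)
      (Subgroup.mem_centralizer_iff.mpr fun y hy => by rw [Set.mem_singleton_iff.mp hy]) hjb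
    have hσc2 : Subgroup.centralizer ({σ} : Set A) = ⊤ := h.top_of_mem
      (Subgroup.mem_centralizer_iff.mpr fun y hy => by rw [Set.mem_singleton_iff.mp hy])
      (Subgroup.mem_centralizer_iff.mpr fun y hy => by rw [Set.mem_singleton_iff.mp hy]; exact hσc) hjb
    have hcen : Subgroup.center A = ⊤ := h.top_of_mem
      (Subgroup.mem_center_iff.mpr fun x => (Subgroup.mem_centralizer_iff.mp (hσc2.ge (Subgroup.mem_top x)) σ rfl).symm)
      (Subgroup.mem_center_iff.mpr fun x => (Subgroup.mem_centralizer_iff.mp (htop.ge (Subgroup.mem_top x)) c rfl).symm)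
      hjb
    obtain ⟨x, y, hxy⟩ := h.nonab
    exact hxy (Subgroup.mem_center_iff.mp (hcen.ge (Subgroup.mem_top y)) x)
  obtain ⟨a, ha⟩ := (Finite.injective_iff_surjective.mp hginj) ⟨_, hc⟩
  refine ⟨a, a.2, ?_⟩
  have e : (b ^ j)⁻¹ * a * b ^ j * (a : A)⁻¹ = (b ^ j)⁻¹ * b' := congrArg Subtype.val ha
  have e2 : (a : A)⁻¹ * b' * a = b ^ j := by
    calc (a : A)⁻¹ * b' * a = (a : A)⁻¹ * b ^ j * ((b ^ j)⁻¹ * b') * a := by group
      _ = (a : A)⁻¹ * b ^ j * ((b ^ j)⁻¹ * a * b ^ j * (a : A)⁻¹) * a := by rw [e]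
      _ = _ := by group
  rw [e2]
  rw [Subgroup.eq_of_le_of_card_ge (Subgroup.zpowers_le.mpr (Subgroup.pow_mem _ (Subgroup.mem_zpowers b) j))
    (by rw [Nat.card_zpowers, Nat.card_zpowers, h.orderOf_outside hb, h.orderOf_outside hjb])]
  exact Subgroup.mem_zpowers b

variable {Q R : Type*} [Group Q] [Finite Q] [Group R] [Finite R] {M : Type*} [CommGroup M]

/-- Twisting a character by an element of `R` or `A`. -/
def cmp {G : Type*} (f : G → MulAut Q) (g : G) (χ : Q →* M) : Q →* M := χ.comp (f g).toMonoidHom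

theorem cmp_apply {G : Type*} (f : G → MulAut Q) (g : G) (χ : Q →* M) (x : Q) : cmp f g χ x = χ (f g x) := rfl

theorem cmp_mul {G : Type*} [Group G] (f : G →* MulAut Q) (g g' : G) (χ : Q →* M) :
    cmp f g' (cmp f g χ) = cmp f (g * g') χ := MonoidHom.ext fun x => by simp [cmp_apply]

theorem cmp_one {G : Type*} [Group G] (f : G →* MulAut Q) (χ : Q →* M) : cmp f 1 χ = χ :=
  MonoidHom.ext fun x => by simp [cmp_apply]

/-- The stabilizer of a character. -/
def stab {G : Type*} [Group G] (f : G →* MulAut Q) (χ : Q →* M) : Subgroup G where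
  carrier := {g | cmp f g χ = χ}
  one_mem' := cmp_one f χ
  mul_mem' {g g'} (hg : cmp f g χ = χ) (hg' : cmp f g' χ = χ) := by
    show cmp f (g * g') χ = χ
    rw [← cmp_mul, hg, hg']
  inv_mem' {g} (hg : cmp f g χ = χ) := by
    show cmp f g⁻¹ χ = χ
    conv_lhs => rw [← hg, cmp_mul, mul_inv_cancel, cmp_one]

theorem mem_stab {G : Type*} [Group G] {f : G →* MulAut Q} {χ : Q →* M} {g : G} :
    g ∈ stab f χ ↔ cmp f g χ = χ := Iff.rfl

variable {αQ : A →* MulAut Q} {αR : A →* MulAut R} {κ : R →* MulAut Q}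

/-- The compatibility of the two actions on characters. -/
theorem cmp_compat (hcompat : ∀ a x y, αQ a (κ x y) = κ (αR a x) (αQ a y)) (a : A) (x : R) (χ : Q →* M) :
    cmp κ x (cmp αQ a χ) = cmp αQ a (cmp κ (αR a x) χ) :=
  MonoidHom.ext fun y => congrArg χ (hcompat a x y)

/-- A character fixed by an operator centralizing `R` is fixed by `R`, if the fixed points of that operator
are fixed by `R`. -/
theorem fixed_of_commute {m : ℕ} (hm : m.Prime) {a : A} (ha : orderOf a = m) (hQ : ¬ m ∣ Nat.card Q)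
    (hcompat : ∀ a x y, αQ a (κ x y) = κ (αR a x) (αQ a y)) (haR : ∀ x, αR a x = x)
    (hfix : ∀ y, αQ a y = y → ∀ x, κ x y = y) {χ : Q →* M} (hχ : cmp αQ a χ = χ) (x : R) :
    cmp κ x χ = χ := by
  refine MonoidHom.ext fun y => ?_
  let δ : Q →* M := cmp κ x χ / χ
  have hδa : ∀ z, δ (αQ a z) = δ z := fun z => by
    have h2 : cmp αQ a (cmp κ x χ) = cmp κ x χ := by
      have h3 := cmp_compat hcompat a x χ
      rw [haR, hχ] at h3
      exact h3.symm
    show cmp κ x χ (αQ a z) / χ (αQ a z) = cmp κ x χ z / χ z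
    rw [← cmp_apply αQ a (cmp κ x χ), ← cmp_apply αQ a χ, h2, hχ]
  obtain ⟨n, hn, hfixed⟩ := lift_one hm ha αQ δ.ker (fun h => hQ (h.trans (Subgroup.card_subgroup_dvd_card _)))
    (fun n hn => by rw [MonoidHom.mem_ker, hδa]; exact hn) (x := y) (by
      rw [MonoidHom.mem_ker, map_mul, map_inv, hδa, inv_mul_cancel])
  have h1 : δ (y * n) = 1 := by
    show cmp κ x χ (y * n) / χ (y * n) = 1
    rw [cmp_apply, hfix _ hfixed x, div_self']
  rw [map_mul, hn, mul_one] at h1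
  exact div_eq_one.mp h1

theorem stab_kappa_ker {χ : Q →* M} {u : R} (hu : κ u = 1) : u ∈ stab κ χ :=
  MonoidHom.ext fun y => by rw [cmp_apply, hu]; rfl

/-- Two translates fixed by an operator acting without fixed points modulo the kernel coincide. -/
theorem orbit_unique {a : A} (hcompat : ∀ a x y, αQ a (κ x y) = κ (αR a x) (αQ a y))
    (hcommκ : ∀ x y, κ (x * y) = κ (y * x))
    (hfpf : ∀ u, κ (αR a u) = κ u → κ u = 1) {χ : Q →* M} {s : R}
    (hχ : cmp αQ a χ = χ) (hs : cmp αQ a (cmp κ s χ) = cmp κ s χ) : cmp κ s χ = χ := by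
  have htw : ∀ u, cmp αQ a (cmp κ (αR a u) χ) = cmp κ u χ := fun u => by rw [← cmp_compat hcompat, hχ]
  have hainj : ∀ ψ ψ' : Q →* M, cmp αQ a ψ = cmp αQ a ψ' → ψ = ψ' := fun ψ ψ' e => MonoidHom.ext fun y => by
    obtain ⟨z, rfl⟩ := (αQ a).surjective y
    exact DFunLike.congr_fun e z
  let L := stab κ χ
  have hcmp : ∀ u v, κ u = κ v → cmp κ u χ = cmp κ v χ := fun u v e =>
    MonoidHom.ext fun y => by rw [cmp_apply, cmp_apply, e]
  have hLa : ∀ u ∈ L, αR a u ∈ L := fun u hu => hainj _ _ (by rw [htw, hu, hχ])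
  have hker : ∀ u ∈ κ.ker, αR a u ∈ κ.ker := fun u (hu : κ u = 1) => MulEquiv.ext fun y => by
    obtain ⟨z, rfl⟩ := (αQ a).surjective y
    rw [← hcompat, hu]; rfl
  have hsL : αR a s * s⁻¹ ∈ L := by
    have e : cmp κ (αR a s) χ = cmp κ s χ := hainj _ _ (by rw [htw, hs])
    show cmp κ _ χ = χ
    rw [← cmp_mul, e, cmp_mul, mul_inv_cancel, cmp_one]
  -- the images in `κ.range`
  let f : κ.range → κ.range := fun z =>
    ⟨κ (αR a z.2.choose * z.2.choose⁻¹), ⟨_, rfl⟩⟩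
  have hf : ∀ u, f ⟨κ u, u, rfl⟩ = ⟨κ (αR a u * u⁻¹), _, rfl⟩ := fun u => by
    refine Subtype.ext ?_
    show κ (αR a _ * _⁻¹) = κ (αR a u * u⁻¹)
    have hch : κ (⟨κ u, u, rfl⟩ : κ.range).2.choose = κ u := (⟨κ u, u, rfl⟩ : κ.range).2.choose_spec
    have hk : αR a ((⟨κ u, u, rfl⟩ : κ.range).2.choose⁻¹ * u) ∈ κ.ker :=
      hker _ (by rw [MonoidHom.mem_ker, map_mul, map_inv, hch, inv_mul_cancel])
    rw [MonoidHom.mem_ker, map_mul, map_inv, map_mul, map_inv, inv_mul_eq_one] at hk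
    rw [map_mul, map_mul, map_inv, map_inv, hch, hk]
  haveI : Finite κ.range := Set.Finite.to_subtype (Set.finite_range κ)
  have hfinj : Function.Injective f := by
    rintro ⟨_, u, rfl⟩ ⟨_, v, rfl⟩ e
    rw [hf, hf] at e
    have e' : κ (αR a u * u⁻¹) = κ (αR a v * v⁻¹) := congrArg Subtype.val e
    refine Subtype.ext ?_
    have h1 : κ (αR a (v⁻¹ * u)) = κ (v⁻¹ * u) := by
      calc κ (αR a (v⁻¹ * u)) = (κ (αR a v))⁻¹ * κ (αR a u * u⁻¹) * κ u := by simp [map_mul, map_inv, mul_assoc]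
        _ = (κ (αR a v))⁻¹ * κ (αR a v * v⁻¹) * κ u := by rw [e']
        _ = _ := by simp [map_mul, map_inv, mul_assoc]
    have h2 := hfpf _ h1
    rw [map_mul, map_inv, inv_mul_eq_one] at h2
    exact h2.symm
  let LB : Subgroup R := L
  have hmaps : Set.MapsTo f {z | ∃ u ∈ L, κ u = z} {z | ∃ u ∈ L, κ u = z} := by
    rintro ⟨_, u₀, rfl⟩ ⟨u, hu, hue⟩
    refine ⟨αR a u * u⁻¹, L.mul_mem (hLa u hu) (L.inv_mem hu), ?_⟩
    have h1 : f ⟨κ u₀, u₀, rfl⟩ = f ⟨κ u, u, rfl⟩ := congrArg f (Subtype.ext hue.symm)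
    rw [h1, hf]
  obtain ⟨⟨_, u, rfl⟩, ⟨t, ht, hte⟩, hu⟩ := ((Set.Finite.surjOn_iff_bijOn_of_mapsTo (Set.toFinite _) hmaps).mpr
    ((Set.toFinite _).injOn_iff_bijOn_of_mapsTo hmaps |>.mp hfinj.injOn)) (show (⟨κ (αR a s * s⁻¹), _, rfl⟩ : κ.range) ∈
      {z : κ.range | ∃ u ∈ L, κ u = z} from ⟨_, hsL, rfl⟩)
  have h3 : (⟨κ u, u, rfl⟩ : κ.range) = ⟨κ s, s, rfl⟩ := hfinj (by rw [hu, hf])
  exact (hcmp t s (hte.trans (congrArg Subtype.val h3))).symm.trans ht |> fun e => e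

/-- Weights when `σ` centralizes `R`. -/
theorem weights_fixed_commute (h : IsPQ p o σ) (hpQ : ¬ p ∣ Nat.card Q) (hpR : ¬ p ∣ Nat.card R)
    (hcompat : ∀ a x y, αQ a (κ x y) = κ (αR a x) (αQ a y))
    (hσR : ∀ x, αR σ x = x) (hfix : ∀ y, αQ σ y = y → ∀ x, κ x y = y)
    (hfpfR : ∀ x, (∀ a, αR a x = x) → x = 1)
    (occ : (Q →* M) → Prop) (hoccR : ∀ χ, occ χ → ∀ x, occ (cmp κ x χ))
    (hstab : ∀ χ, occ χ → ∃ a, a ≠ 1 ∧ cmp αQ a χ = χ) {χ : Q →* M} (hχ : occ χ) (x : R) :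
    cmp κ x χ = χ := by
  have hPR : ∀ a ∈ Subgroup.zpowers σ, ∀ x, αR a x = x := fun a ha x => by
    obtain ⟨i, rfl⟩ := (IsOfFinOrder.mem_powers_iff_mem_zpowers (isOfFinOrder_of_finite σ)).mpr ha
    show αR (σ ^ i) x = x
    clear ha
    induction i with
    | zero => simp
    | succ i ih => rw [pow_succ', map_mul, MulAut.mul_apply, ih, hσR]
  have hPstab : ∀ ψ : Q →* M, ∀ a ∈ Subgroup.zpowers σ, a ≠ 1 → cmp αQ a ψ = ψ → ∀ y, cmp κ y ψ = ψ :=
    fun ψ a ha ha1 hψ y => by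
      have hσψ : σ ∈ stab αQ ψ := by
        have h1 : Subgroup.zpowers a ≤ stab αQ ψ := Subgroup.zpowers_le.mpr hψ
        rw [h.zpowers_of_mem ha ha1] at h1
        exact h1 (Subgroup.mem_zpowers σ)
      exact fixed_of_commute h.hp h.hσ hpQ hcompat hσR hfix hσψ y
  obtain ⟨b, hb1, hb⟩ := hstab χ hχ
  by_cases hbP : b ∈ Subgroup.zpowers σ
  · exact hPstab χ b hbP hb1 hb x
  have hPc : ∀ a ∈ Subgroup.zpowers σ, ∀ (y : R) (ψ : Q →* M), cmp κ y (cmp αQ a ψ) = cmp αQ a (cmp κ y ψ) :=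
    fun a ha y ψ => by rw [cmp_compat hcompat, hPR a ha]
  let S : Subgroup R :=
    { carrier := {y | ∃ a ∈ Subgroup.zpowers σ, cmp κ y χ = cmp αQ a χ}
      one_mem' := ⟨1, Subgroup.one_mem _, by rw [cmp_one, cmp_one]⟩
      mul_mem' := by
        rintro u v ⟨a, ha, e⟩ ⟨a', ha', e'⟩
        exact ⟨a' * a, Subgroup.mul_mem _ ha' ha, by rw [← cmp_mul, e, hPc a ha, e', cmp_mul]⟩
      inv_mem' := by
        rintro u ⟨a, ha, e⟩
        refine ⟨a⁻¹, Subgroup.inv_mem _ ha, ?_⟩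
        have e2 := congrArg (cmp κ u⁻¹) e
        rw [cmp_mul, mul_inv_cancel, cmp_one, hPc a ha] at e2
        have e3 := congrArg (cmp αQ a⁻¹) e2
        rw [cmp_mul, mul_inv_cancel, cmp_one] at e3
        exact e3.symm }
  have hbfpf : ∀ u, αR b u = u → u = 1 := fun u hu => hfpfR u fun c => by
    let F : Subgroup A :=
      { carrier := {c | αR c u = u}
        one_mem' := by show αR 1 u = u; simp
        mul_mem' := fun {c d} (hc : αR c u = u) (hd : αR d u = u) => by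
          show αR (c * d) u = u; rw [map_mul, MulAut.mul_apply, hd, hc]
        inv_mem' := fun {c} (hc : αR c u = u) => by
          show αR c⁻¹ u = u
          conv_lhs => rw [← hc]
          rw [map_inv, MulAut.inv_apply_self] }
    exact ((h.top_of_mem (S := F) (hσR u) (show b ∈ F from hu) hbP).ge (Subgroup.mem_top c) : c ∈ F)
  have hstep : ∀ y : R, (αR b)⁻¹ y * y⁻¹ ∈ S ∨ cmp κ y χ = χ := fun y => by
    obtain ⟨b', hb'1, hb'⟩ := hstab _ (hoccR χ hχ y)
    by_cases hb'P : b' ∈ Subgroup.zpowers σ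
    · right
      have h1 := hPstab _ b' hb'P hb'1 hb' y⁻¹
      rw [cmp_mul, mul_inv_cancel, cmp_one] at h1
      exact h1.symm
    · left
      obtain ⟨a, ha, hab⟩ := h.exists_conj hbP hb'P
      have hfixb : cmp αQ b (cmp αQ a (cmp κ y χ)) = cmp αQ a (cmp κ y χ) := by
        have : a⁻¹ * b' * a ∈ stab αQ (cmp αQ a (cmp κ y χ)) := by
          show cmp αQ _ (cmp αQ a (cmp κ y χ)) = _
          rw [cmp_mul, show a * (a⁻¹ * b' * a) = b' * a by group, ← cmp_mul, hb']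
        exact Subgroup.zpowers_le.mpr this hab
      have ha' : b⁻¹ * a * b ∈ Subgroup.zpowers σ := by simpa using h.normal.conj_mem a ha b⁻¹
      have hy' : αR b ((αR b)⁻¹ y) = y := MulAut.apply_inv_self _ _ _
      rw [← hPc a ha] at hfixb
      refine ⟨a * (b⁻¹ * a * b)⁻¹, Subgroup.mul_mem _ ha (Subgroup.inv_mem _ ha'), ?_⟩
      have h1 : cmp αQ (b⁻¹ * a * b) χ = cmp αQ b (cmp αQ a χ) := by
        conv_lhs => rw [← hb]
        rw [cmp_mul, cmp_mul, show b * (b⁻¹ * a * b) = a * b by group]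
      have h2 := cmp_compat hcompat b ((αR b)⁻¹ y) (cmp αQ a χ)
      rw [hy'] at h2
      have e1 : cmp κ ((αR b)⁻¹ y) (cmp αQ (b⁻¹ * a * b) χ) = cmp κ y (cmp αQ a χ) := by
        rw [h1, h2, hfixb]
      rw [hPc _ ha', hPc a ha] at e1
      have e2 := congrArg (cmp αQ (b⁻¹ * a * b)⁻¹) e1
      rw [cmp_mul, mul_inv_cancel, cmp_one, cmp_mul] at e2
      have e3 := congrArg (cmp κ y⁻¹) e2
      rw [cmp_mul, hPc _ (Subgroup.mul_mem _ ha (Subgroup.inv_mem _ ha')), cmp_mul, mul_inv_cancel, cmp_one] at e3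
      exact e3
  have hall : ∀ y, y ∈ S := fun z => by
    obtain ⟨y, hy⟩ := (Finite.injective_iff_surjective (f := fun y => (αR b)⁻¹ y * y⁻¹)).mp (fun u v e => by
      have e' : (αR b)⁻¹ u * u⁻¹ = (αR b)⁻¹ v * v⁻¹ := e
      have e1 : (αR b)⁻¹ (v⁻¹ * u) = v⁻¹ * u := by
        calc (αR b)⁻¹ (v⁻¹ * u) = ((αR b)⁻¹ v)⁻¹ * ((αR b)⁻¹ u * u⁻¹) * u := by rw [map_mul, map_inv]; group
          _ = ((αR b)⁻¹ v)⁻¹ * ((αR b)⁻¹ v * v⁻¹) * u := by rw [e']
          _ = _ := by group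
      have e2 := congrArg (αR b) e1
      rw [MulAut.apply_inv_self] at e2
      exact (inv_mul_eq_one.mp (hbfpf _ e2.symm)).symm) z
    rcases hstep y with hy' | hy'
    · exact hy ▸ hy'
    · have hyS : (αR b)⁻¹ y ∈ S := by
        refine ⟨1, Subgroup.one_mem _, ?_⟩
        rw [cmp_one]
        have h1 := cmp_compat (M := M) hcompat b ((αR b)⁻¹ y) χ
        rw [hb, MulAut.apply_inv_self, hy', hb] at h1
        exact h1
      exact hy ▸ S.mul_mem hyS (S.inv_mem ⟨1, Subgroup.one_mem _, by rw [cmp_one]; exact hy'⟩)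
  -- the orbit is trivial
  obtain ⟨a, ha, hxa⟩ := hall x
  have hiter : ∀ n, cmp κ (x ^ n) χ = cmp αQ (a ^ n) χ := by
    intro n
    induction n with
    | zero => simp [cmp_one]
    | succ n ih => rw [pow_succ, ← cmp_mul, ih, hPc _ (Subgroup.pow_mem _ ha n), hxa, cmp_mul, ← pow_succ']
  obtain ⟨k, hk⟩ : ∃ k, (x ^ p) ^ k = x := exists_pow_eq_self_of_coprime
    (Nat.Coprime.coprime_dvd_right (orderOf_dvd_natCard x) (h.hp.coprime_iff_not_dvd.mpr hpR))
  have hap : a ^ p = 1 := orderOf_dvd_iff_pow_eq_one.mp (h.hσ ▸ orderOf_dvd_of_mem_zpowers ha)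
  rw [← hk, ← pow_mul, hiter, pow_mul, hap, one_pow, cmp_one]

/-- Weights when `σ` acts without fixed points modulo the kernel: either fixed, or some `τ` fixes the whole
orbit. -/
theorem weights_orbit (h : IsPQ p o σ) (hpQ : ¬ p ∣ Nat.card Q) (hoQ : ¬ o ∣ Nat.card Q) (hpR : ¬ p ∣ Nat.card R)
    (hcompat : ∀ a x y, αQ a (κ x y) = κ (αR a x) (αQ a y)) (hcommκ : ∀ x y, κ (x * y) = κ (y * x))
    (hfpfσ : ∀ u, κ (αR σ u) = κ u → κ u = 1)
    (hfpf : ∀ y, (∀ a, αQ a y = y) → y = 1)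
    (occ : (Q →* M) → Prop) (hoccR : ∀ χ, occ χ → ∀ x, occ (cmp κ x χ))
    (hstab : ∀ χ, occ χ → ∃ a, a ≠ 1 ∧ cmp αQ a χ = χ) {χ : Q →* M} (hχ : occ χ) :
    (∀ x, cmp κ x χ = χ) ∨ ∃ b, b ∉ Subgroup.zpowers σ ∧ ∀ x, cmp αQ b (cmp κ x χ) = cmp κ x χ := by
  classical
  let O : Set (Q →* M) := {ψ | ∃ x, cmp κ x χ = ψ}
  have hOa : ∀ (a : A) (x : R), cmp αQ a (cmp κ x χ) = cmp κ ((αR a)⁻¹ x) (cmp αQ a χ) := fun a x => by
    conv_lhs => rw [← MulAut.apply_inv_self R (αR a) x]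
    rw [← cmp_compat hcompat]
  let SO : Subgroup A :=
    { carrier := {a | ∃ x, cmp κ x χ = cmp αQ a χ}
      one_mem' := ⟨1, by rw [cmp_one, cmp_one]⟩
      mul_mem' := by
        rintro a a' ⟨x, hx⟩ ⟨x', hx'⟩
        refine ⟨x' * (αR a')⁻¹ x, ?_⟩
        rw [← cmp_mul, hx', ← hOa, hx, cmp_mul]
      inv_mem' := by
        rintro a ⟨x, hx⟩
        refine ⟨αR a x⁻¹, ?_⟩
        have e := congrArg (cmp κ x⁻¹) hx
        rw [cmp_mul, mul_inv_cancel, cmp_one, cmp_compat hcompat a x⁻¹] at e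
        have e2 := congrArg (cmp αQ a⁻¹) e
        rw [cmp_mul, mul_inv_cancel, cmp_one] at e2
        exact e2.symm }
  have hmemSO : ∀ a x, cmp αQ a (cmp κ x χ) = cmp κ x χ → a ∈ SO := fun a x e => by
    refine ⟨x * ((αR a)⁻¹ x)⁻¹, ?_⟩
    rw [← cmp_mul, ← e, hOa, cmp_mul, mul_inv_cancel, cmp_one]
  obtain ⟨b, hb1, hb⟩ := hstab χ hχ
  by_cases hσO : σ ∈ SO
  swap
  · -- the stabilizer of the orbit has order `o`
    have hbP : b ∉ Subgroup.zpowers σ := fun hbP => hσO (by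
      have : Subgroup.zpowers b ≤ SO := Subgroup.zpowers_le.mpr (hmemSO b 1 (by rw [cmp_one]; exact hb))
      rw [h.zpowers_of_mem hbP hb1] at this
      exact this (Subgroup.mem_zpowers σ))
    have hSO : SO = Subgroup.zpowers b := (h.eq_zpowers_or_top (hmemSO b 1 (by rw [cmp_one]; exact hb)) hbP).resolve_right
      fun e => hσO (e.ge (Subgroup.mem_top σ))
    refine Or.inr ⟨b, hbP, fun x => ?_⟩
    obtain ⟨b', hb'1, hb'⟩ := hstab _ (hoccR χ hχ x)
    have hb'O : b' ∈ Subgroup.zpowers b := hSO ▸ hmemSO b' x hb'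
    haveI := Fact.mk h.ho
    have hz : Subgroup.zpowers b' = Subgroup.zpowers b := by
      refine Subgroup.eq_of_le_of_card_ge (Subgroup.zpowers_le.mpr hb'O) ?_
      rw [Nat.card_zpowers, Nat.card_zpowers, h.orderOf_outside hbP]
      have hd : orderOf b' ∣ o := h.orderOf_outside hbP ▸ orderOf_dvd_of_mem_zpowers hb'O
      rcases (Nat.dvd_prime h.ho).mp hd with e | e
      · exact absurd (orderOf_eq_one_iff.mp e) hb'1
      · rw [e]
    have : Subgroup.zpowers b' ≤ stab αQ (cmp κ x χ) := Subgroup.zpowers_le.mpr hb'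
    exact this (hz ▸ Subgroup.mem_zpowers b)
  -- `σ` stabilizes the orbit, so fixes a point of it
  refine Or.inl ?_
  obtain ⟨μ, ⟨x₀, hμ⟩, hμσ⟩ : ∃ μ ∈ O, cmp αQ σ μ = μ := by
    haveI := Fact.mk h.hp
    have hfin : O.Finite := Set.finite_range _
    haveI : Finite O := hfin.to_subtype
    have hcardO : Nat.card O ∣ Nat.card R := by
      have e : R ⧸ stab κ χ ≃ O := Equiv.ofBijective
        (Quotient.lift (fun x => (⟨cmp κ x⁻¹ χ, x⁻¹, rfl⟩ : O)) (fun u v huv => by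
          refine Subtype.ext ?_
          have h1 : u⁻¹ * v ∈ stab κ χ := QuotientGroup.leftRel_apply.mp huv
          show cmp κ u⁻¹ χ = cmp κ v⁻¹ χ
          conv_rhs => rw [← (h1 : cmp κ (u⁻¹ * v) χ = χ), cmp_mul, mul_inv_cancel_right]))
        ⟨fun X Y e => by
          obtain ⟨u, rfl⟩ := QuotientGroup.mk_surjective X
          obtain ⟨v, rfl⟩ := QuotientGroup.mk_surjective Y
          have e' : cmp κ u⁻¹ χ = cmp κ v⁻¹ χ := congrArg Subtype.val e
          refine QuotientGroup.eq.mpr ?_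
          show cmp κ (u⁻¹ * v) χ = χ
          rw [← cmp_mul, e', cmp_mul, inv_mul_cancel, cmp_one],
        fun ⟨ψ, x, hx⟩ => ⟨QuotientGroup.mk x⁻¹, Subtype.ext (by show cmp κ x⁻¹⁻¹ χ = ψ; rw [inv_inv, hx])⟩⟩
      rw [← Nat.card_congr e]
      exact Subgroup.index_dvd_card _
    have hmapO : ∀ a ∈ SO, ∀ ψ ∈ O, cmp αQ a ψ ∈ O := by
      rintro a ⟨z, hz⟩ _ ⟨x, rfl⟩
      exact ⟨z * (αR a)⁻¹ x, by rw [← cmp_mul, hz, ← hOa]⟩
    letI : MulAction (Subgroup.zpowers σ) O :=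
      { smul := fun g ψ => ⟨cmp αQ (g : A)⁻¹ ψ, hmapO _ (SO.inv_mem (Subgroup.zpowers_le.mpr hσO g.2)) _ ψ.2⟩
        one_smul := fun ψ => Subtype.ext (by
          show cmp αQ (1 : A)⁻¹ (ψ : Q →* M) = ψ; rw [inv_one, cmp_one])
        mul_smul := fun g g' ψ => Subtype.ext (by
          show cmp αQ ((g : A) * g')⁻¹ (ψ : Q →* M) = cmp αQ (g : A)⁻¹ (cmp αQ (g' : A)⁻¹ ψ)
          rw [cmp_mul, mul_inv_rev]) }
    obtain ⟨μ, hμ⟩ := (h.pgroup_zpowers h.hσ).nonempty_fixed_point_of_prime_not_dvd_card O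
      fun hd => hpR (hd.trans hcardO)
    refine ⟨μ, μ.2, ?_⟩
    have := congrArg Subtype.val (hμ ⟨σ⁻¹, Subgroup.inv_mem _ (Subgroup.mem_zpowers σ)⟩)
    refine Eq.trans ?_ this
    show cmp αQ σ (μ : Q →* M) = cmp αQ σ⁻¹⁻¹ μ
    rw [inv_inv]
  subst hμ
  have huniq : ∀ x, cmp αQ σ (cmp κ x χ) = cmp κ x χ → cmp κ x χ = cmp κ x₀ χ := fun x hx => by
    have h1 := orbit_unique hcompat hcommκ hfpfσ (s := x₀⁻¹ * x) hμσ (by
      rw [cmp_mul, mul_inv_cancel_left]; exact hx)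
    rwa [cmp_mul, mul_inv_cancel_left] at h1
  have hone : ∀ x, cmp κ x χ = cmp κ x₀ χ := fun x => by
    obtain ⟨b', hb'1, hb'⟩ := hstab _ (hoccR χ hχ x)
    by_cases hb'P : b' ∈ Subgroup.zpowers σ
    · refine huniq x ?_
      have : Subgroup.zpowers b' ≤ stab αQ (cmp κ x χ) := Subgroup.zpowers_le.mpr hb'
      rw [h.zpowers_of_mem hb'P hb'1] at this
      exact this (Subgroup.mem_zpowers σ)
    · -- the fixed point is fixed by everything
      obtain ⟨z, hz⟩ := hmemSO b' x hb'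
      have hbμ : cmp αQ b' (cmp κ x₀ χ) = cmp κ (z * (αR b')⁻¹ x₀) χ := by rw [← cmp_mul, hz, ← hOa]
      have hσb : cmp αQ σ (cmp αQ b' (cmp κ x₀ χ)) = cmp αQ b' (cmp κ x₀ χ) := by
        have hin : b' * σ * b'⁻¹ ∈ stab αQ (cmp κ x₀ χ) :=
          Subgroup.zpowers_le.mpr (show σ ∈ stab αQ (cmp κ x₀ χ) from hμσ) (h.normal.conj_mem σ (Subgroup.mem_zpowers σ) b')
        rw [cmp_mul, show b' * σ = (b' * σ * b'⁻¹) * b' by group, ← cmp_mul, show cmp αQ _ (cmp κ x₀ χ) = _ from hin]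
      rw [hbμ] at hσb
      have htriv : ∀ a : A, cmp αQ a (cmp κ x₀ χ) = cmp κ x₀ χ := fun a =>
        ((h.top_of_mem (S := stab αQ (cmp κ x₀ χ)) hμσ (a := b') (by
          show cmp αQ b' _ = _; rw [hbμ, huniq _ hσb]) hb'P).ge (Subgroup.mem_top a) : a ∈ stab αQ (cmp κ x₀ χ))
      have h1 : cmp κ x₀ χ = 1 := MonoidHom.ext fun y => by
        have h2 := h.char_trivial αQ hpQ hoQ hfpf (Z := ⊤) (fun a z _ => Subgroup.mem_top _)
          ((cmp κ x₀ χ).comp (⊤ : Subgroup Q).subtype) (fun a z => DFunLike.congr_fun (htriv a) (z : Q))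
          ⟨y, Subgroup.mem_top y⟩
        exact h2
      have h3 : ∀ z, cmp κ z χ = 1 := fun z => by
        have e : cmp κ z χ = cmp κ (x₀⁻¹ * z) (cmp κ x₀ χ) := by rw [cmp_mul, mul_inv_cancel_left]
        rw [e, h1]; exact MonoidHom.ext fun y => rfl
      rw [h3 x, h1]
  intro x
  rw [hone x, ← hone 1, cmp_one]

/-- The averaging step: in coprime characteristic a character whose orbit is fixed by some `τ` is fixed. -/
theorem fixed_of_orbit (h : IsPQ p o σ) (hpQ : ¬ p ∣ Nat.card Q) (hoQ : ¬ o ∣ Nat.card Q)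
    (hcop : (Nat.card Q).Coprime (Nat.card R))
    (hcompat : ∀ a x y, αQ a (κ x y) = κ (αR a x) (αQ a y)) (hcommκ : ∀ x y, κ (x * y) = κ (y * x))
    (hfpfσ : ∀ u, κ (αR σ u) = κ u → κ u = 1)
    (hfpf : ∀ y, (∀ a, αQ a y = y) → y = 1) {χ : Q →* M} {b : A} (hbP : b ∉ Subgroup.zpowers σ)
    (hb : ∀ x, cmp αQ b (cmp κ x χ) = cmp κ x χ) (x : R) : cmp κ x χ = χ := by
  classical
  haveI := Fintype.ofFinite (Subgroup.zpowers σ)
  haveI := h.normal
  have hb0 : cmp αQ b χ = χ := by have := hb 1; rwa [cmp_one] at this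
  set L := stab κ χ with hL
  haveI := Fintype.ofFinite L
  have hcmpker : ∀ {u v : R}, κ u = κ v → ∀ ψ : Q →* M, cmp κ u ψ = cmp κ v ψ := fun e ψ =>
    MonoidHom.ext fun y => by rw [cmp_apply, cmp_apply, e]
  have hswap : ∀ u v (ψ : Q →* M), cmp κ v (cmp κ u ψ) = cmp κ u (cmp κ v ψ) := fun u v ψ => by
    rw [cmp_mul, cmp_mul]; exact hcmpker (hcommκ u v) ψ
  -- translates by `⟨σ⟩` and the group each of them is fixed by
  have hgen : ∀ a : A, ∀ y : R,
      y⁻¹ * αR (a⁻¹ * b * a) y ∈ stab κ (cmp αQ a χ) := fun a y => by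
    show cmp κ _ (cmp αQ a χ) = _
    rw [cmp_compat hcompat]
    congr 1
    rw [map_mul, map_inv, ← MulAut.mul_apply, ← map_mul, show a * (a⁻¹ * b * a) = b * a by group, map_mul,
      MulAut.mul_apply]
    generalize αR a y = w
    have e1 := cmp_compat (M := M) hcompat b w χ
    rw [hb0, hb] at e1
    -- `e1 : cmp κ w χ = cmp κ (αR b w) χ`
    rw [← cmp_mul, hswap, ← e1, cmp_mul, mul_inv_cancel, cmp_one]
  have hsurj : ∀ a : Subgroup.zpowers σ, (a : A) ≠ 1 → ∀ z : R,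
      ∃ u ∈ L, ∃ t ∈ stab κ (cmp αQ (a : A) χ), κ z = κ (t * u) := by
    intro a ha z
    set b' := (a : A)⁻¹ * b * a with hb'
    set c := b⁻¹ * b' with hc
    have hcP : c ∈ Subgroup.zpowers σ := by
      rw [show c = b⁻¹ * (a : A)⁻¹ * b * a by rw [hc, hb']; group]
      exact Subgroup.mul_mem _ (by simpa using h.normal.conj_mem _ (Subgroup.inv_mem _ a.2) b⁻¹) a.2
    have hc1 : c ≠ 1 := fun e => by
      have hcomm : b * a = (a : A) * b := by
        have : b' = b := by rw [show b' = b * c by rw [hc]; group, e, mul_one]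
        calc b * a = (a : A) * b' := by rw [hb']; group
          _ = _ := by rw [this]
      have hσb : σ * b = b * σ := by
        obtain ⟨i, hi⟩ := Subgroup.mem_zpowers_iff.mp (show σ ∈ Subgroup.zpowers (a : A) by
          rw [h.zpowers_of_mem a.2 ha]; exact Subgroup.mem_zpowers σ)
        rw [← hi]; exact (Commute.zpow_left (show Commute (a : A) b from hcomm.symm) i).eq
      obtain ⟨x', y', hxy⟩ := h.nonab
      have hσc2 : Subgroup.centralizer ({σ} : Set A) = ⊤ := h.top_of_mem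
        (Subgroup.mem_centralizer_iff.mpr fun y hy => by rw [Set.mem_singleton_iff.mp hy])
        (Subgroup.mem_centralizer_iff.mpr fun y hy => by rw [Set.mem_singleton_iff.mp hy]; exact hσb) hbP
      have htop : Subgroup.centralizer ({b} : Set A) = ⊤ := h.top_of_mem
        (Subgroup.mem_centralizer_iff.mpr fun y hy => by rw [Set.mem_singleton_iff.mp hy]; exact hσb.symm)
        (Subgroup.mem_centralizer_iff.mpr fun y hy => by rw [Set.mem_singleton_iff.mp hy]) hbP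
      have hcen : Subgroup.center A = ⊤ := h.top_of_mem
        (Subgroup.mem_center_iff.mpr fun x => (Subgroup.mem_centralizer_iff.mp (hσc2.ge (Subgroup.mem_top x)) σ rfl).symm)
        (Subgroup.mem_center_iff.mpr fun x => (Subgroup.mem_centralizer_iff.mp (htop.ge (Subgroup.mem_top x)) b rfl).symm)
        hbP
      exact hxy (Subgroup.mem_center_iff.mp (hcen.ge (Subgroup.mem_top y')) x')
    -- `y ↦ y⁻¹ (c y)` is onto modulo the kernel
    have hfpfc : ∀ u, κ (αR c u) = κ u → κ u = 1 := by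
      intro u hu
      refine hfpfσ u ?_
      obtain ⟨i, hi⟩ := (IsOfFinOrder.mem_powers_iff_mem_zpowers (isOfFinOrder_of_finite c)).mpr
        (show σ ∈ Subgroup.zpowers c by rw [h.zpowers_of_mem hcP hc1]; exact Subgroup.mem_zpowers σ)
      rw [← show c ^ i = σ from hi]
      clear hi
      induction i with
      | zero => simp
      | succ i ih =>
        rw [pow_succ', map_mul αR, MulAut.mul_apply]
        have hker : κ ((αR (c ^ i) u)⁻¹ * u) = 1 := by rw [map_mul, map_inv, ih, inv_mul_cancel]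
        have hk2 : κ (αR c ((αR (c ^ i) u)⁻¹ * u)) = 1 := MulEquiv.ext fun y => by
          obtain ⟨w, rfl⟩ := (αQ c).surjective y
          rw [← hcompat, hker]; rfl
        rw [map_mul (αR c), map_mul κ, map_inv, map_inv, inv_mul_eq_one] at hk2
        rw [hk2, hu]
    haveI : Finite κ.range := Set.Finite.to_subtype (Set.finite_range κ)
    let g : κ.range → κ.range := fun y => ⟨κ (y.2.choose⁻¹ * αR c y.2.choose), ⟨_, rfl⟩⟩
    have hginj : Function.Injective g := by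
      intro Y Y' e
      have e' : κ (Y.2.choose⁻¹ * αR c Y.2.choose) = κ (Y'.2.choose⁻¹ * αR c Y'.2.choose) := congrArg Subtype.val e
      refine Subtype.ext ?_
      rw [← Y.2.choose_spec, ← Y'.2.choose_spec]
      set u := Y.2.choose
      set v := Y'.2.choose
      have h1 : κ (αR c (u * v⁻¹)) = κ (u * v⁻¹) := by
        calc κ (αR c (u * v⁻¹)) = κ u * κ (u⁻¹ * αR c u) * (κ (αR c v))⁻¹ := by simp [map_mul, map_inv, mul_assoc]
          _ = κ u * κ (v⁻¹ * αR c v) * (κ (αR c v))⁻¹ := by rw [e']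
          _ = _ := by simp [map_mul, map_inv, mul_assoc]
      have h2 := hfpfc _ h1
      rw [map_mul, map_inv, mul_inv_eq_one] at h2
      exact h2
    obtain ⟨Y, hY⟩ := Finite.injective_iff_surjective.mp hginj ⟨κ z, z, rfl⟩
    set y := Y.2.choose with hy
    -- decompose
    refine ⟨(αR b' y)⁻¹ * αR c y, ?_, y⁻¹ * αR b' y, hgen a y, ?_⟩
    · show cmp κ _ χ = χ
      have hw : αR b' y = αR b (αR c y) := by
        rw [← MulAut.mul_apply, ← map_mul, hc, mul_inv_cancel_left]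
      rw [hw]
      generalize αR c y = w
      have h3 := hgen 1 w
      rw [inv_one, one_mul, mul_one] at h3
      have h4 : cmp κ (w⁻¹ * αR b w) χ = χ := by
        have h3' : cmp κ (w⁻¹ * αR b w) (cmp αQ 1 χ) = cmp αQ 1 χ := h3
        rwa [cmp_one] at h3'
      have h5 : (w⁻¹ * αR b w) ∈ stab κ χ := h4
      have h6 := (stab κ χ).inv_mem h5
      rw [mul_inv_rev, inv_inv] at h6
      exact h6
    · rw [mul_assoc, ← mul_assoc (αR b' y), mul_inv_cancel, one_mul]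
      exact (congrArg Subtype.val hY).symm
  -- averaging
  let G : R → (Q →* M) := fun z => ∏ a : Subgroup.zpowers σ, cmp κ z (cmp αQ (a : A) χ)
  have hG : ∀ z : R, ∏ a : Subgroup.zpowers σ, cmp αQ (a : A) (cmp κ z χ) = 1 := fun z => MonoidHom.ext fun y => by
    rw [MonoidHom.finset_prod_apply, MonoidHom.one_apply]
    exact h.prod_sigma_trivial αQ hpQ hoQ hfpf (Z := ⊤) (fun a w _ => Subgroup.mem_top _)
      ((cmp κ z χ).comp (⊤ : Subgroup Q).subtype) hbP
      (MonoidHom.ext fun w => DFunLike.congr_fun (hb z) (w : Q)) ⟨y, Subgroup.mem_top y⟩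
  have hsum : ∀ z : R, ∏ u : L, ∏ a : Subgroup.zpowers σ, cmp κ (((αR (a : A))⁻¹ z) * u) (cmp αQ (a : A) χ) = 1 := by
    intro z
    refine Finset.prod_eq_one fun u _ => ?_
    have h1 := congrArg (cmp κ (u : R)) (hG z)
    refine Eq.trans ?_ (h1.trans (MonoidHom.ext fun y => rfl))
    show _ = cmp κ (u : R) (∏ a : Subgroup.zpowers σ, cmp αQ (a : A) (cmp κ z χ))
    refine MonoidHom.ext fun y => ?_
    rw [cmp_apply, MonoidHom.finset_prod_apply, MonoidHom.finset_prod_apply]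
    refine Finset.prod_congr rfl fun a _ => ?_
    rw [← cmp_mul, cmp_compat hcompat (a : A) ((αR (a : A))⁻¹ z), MulAut.apply_inv_self]
    rfl
  have hconst : ∀ a : Subgroup.zpowers σ, (a : A) ≠ 1 → ∀ z : R,
      ∏ u : L, cmp κ (z * u) (cmp αQ (a : A) χ) = ∏ u : L, cmp κ (u : R) (cmp αQ (a : A) χ) := by
    intro a ha z
    obtain ⟨u₀, hu₀, t, ht, he⟩ := hsurj a ha z
    refine Fintype.prod_equiv (Equiv.mulLeft (⟨u₀, hu₀⟩ : L)) _ _ fun u => ?_
    show cmp κ (z * (u : R)) _ = cmp κ (u₀ * (u : R)) _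
    rw [← cmp_mul, ← cmp_mul, hcmpker he, ← cmp_mul, show cmp κ t _ = _ from ht]
  have hpow : (cmp κ x χ) ^ Fintype.card L = χ ^ Fintype.card L := by
    have key : ∀ z, (cmp κ z χ) ^ Fintype.card L *
        ∏ a ∈ Finset.univ.erase (1 : Subgroup.zpowers σ), ∏ u : L, cmp κ (u : R) (cmp αQ (a : A) χ) = 1 := by
      intro z
      have h1 := hsum z
      rw [Finset.prod_comm, ← Finset.mul_prod_erase _ _ (Finset.mem_univ (1 : Subgroup.zpowers σ))] at h1
      rw [← h1]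
      refine congrArg₂ (· * ·) ?_ (Finset.prod_congr rfl fun a ha => (hconst a (fun e => (Finset.mem_erase.mp ha).1
        (Subtype.ext e)) _).symm)
      rw [Finset.prod_congr rfl (g := fun _ => cmp κ z χ), Finset.prod_const, Finset.card_univ]
      intro u _
      simp only [OneMemClass.coe_one, map_one, inv_one, MulAut.one_apply, cmp_one]
      rw [← cmp_mul, hswap, show cmp κ (u : R) χ = χ from u.2]
    have k1 := key x
    have k2 := key 1
    rw [cmp_one] at k2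
    exact mul_right_cancel (k1.trans k2.symm)
  refine MonoidHom.ext fun y => ?_
  have h1 := DFunLike.congr_fun hpow y
  rw [MonoidHom.pow_apply, MonoidHom.pow_apply] at h1
  have hq : (cmp κ x χ y / χ y) ^ Nat.card Q = 1 := by
    rw [div_pow, ← map_pow, ← map_pow, pow_card_eq_one', map_one, map_one, div_self']
  have hl : (cmp κ x χ y / χ y) ^ Fintype.card L = 1 := by rw [div_pow, h1, div_self']
  refine div_eq_one.mp (orderOf_eq_one_iff.mp (Nat.eq_one_of_dvd_coprimes ?_ (orderOf_dvd_of_pow_eq_one hq)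
    (orderOf_dvd_of_pow_eq_one hl)))
  rw [← Nat.card_eq_fintype_card]
  exact Nat.Coprime.coprime_dvd_right (Subgroup.card_subgroup_dvd_card L) hcop

end Cfsg.Agent.Transfer.PQ
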