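/-
The minimal counterexample to the local step for operator groups of order p·o does not exist.
-/
import Cfsg.Agent.Transfer.PQWeights
import Cfsg.Agent.Transfer.HHPairing
import Cfsg.Agent.Transfer.WardStep

set_option autoImplicit false
set_option linter.style.haveILetI false
set_option linter.unusedSectionVars false
set_option maxSynthPendingDepth 4

namespace Cfsg.Agent.Transfer.PQ

open Module WardLocal
open scoped commutatorElement

universe uA

variable {K : Type*} [Field K] [IsAlgClosed K] {W : Type*} [AddCommGroup W] [Module K W]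
  [FiniteDimensional K W] {Q R : Type*} [Group Q] [Finite Q] [Group R] [Finite R] {A : Type uA} [Group A]
  [Finite A]

/-- The common data. -/
structure Data (p o q r : ℕ) (σ : A) (αQ : A →* MulAut Q) (αR : A →* MulAut R) (κ : R →* MulAut Q)
    (ρQ : Q →* Module.End K W) (ρR : R →* Module.End K W) (T : A →* Module.End K W) : Prop where
  hA : IsPQ p o σ
  hq : q.Prime
  hr : r.Prime
  hqr : q ≠ r
  hpq : p ≠ q
  hoq : o ≠ q
  hpr : p ≠ r
  hor : o ≠ r
  hqK : (q : K) ≠ 0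
  hpK : (p : K) ≠ 0
  hoK : (o : K) ≠ 0
  isQ : IsPGroup q Q
  isR : IsPGroup r R
  inj : Function.Injective ρQ
  compat : ∀ a x y, αQ a (κ x y) = κ (αR a x) (αQ a y)
  compatR : ∀ x y, ρR x * ρQ y = ρQ (κ x y) * ρR x
  compatA : ∀ a y, T a * ρQ y = ρQ (αQ a y) * T a
  fpfQ : ∀ y, (∀ a, αQ a y = y) → y = 1
  fpfR : ∀ x, (∀ a, αR a x = x) → x = 1
  commute : (∀ x, αR σ x = x) → ∀ y, αQ σ y = y → ∀ x, κ x y = y

variable {p o q r : ℕ} {σ : A} {αQ : A →* MulAut Q} {αR : A →* MulAut R} {κ : R →* MulAut Q}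
  {ρQ : Q →* Module.End K W} {ρR : R →* Module.End K W} {T : A →* Module.End K W}

theorem not_dvd_pgroup {G : Type*} [Group G] [Finite G] {q m : ℕ} (hq : q.Prime) (hm : m.Prime) (hne : m ≠ q)
    (hG : IsPGroup q G) : ¬ m ∣ Nat.card G := fun h => by
  haveI := Fact.mk hq
  obtain ⟨k, hk⟩ := IsPGroup.iff_card.mp hG
  rw [hk] at h
  exact hne ((Nat.prime_dvd_prime_iff_eq hm hq).mp (hm.dvd_of_dvd_pow h))

theorem Data.isUnit_T (_hd : Data p o q r σ αQ αR κ ρQ ρR T) (a : A) : IsUnit (T a) :=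
  ⟨⟨T a, T a⁻¹, by rw [← map_mul, mul_inv_cancel, map_one], by rw [← map_mul, inv_mul_cancel, map_one]⟩, rfl⟩

set_option maxHeartbeats 1000000 in
/-- The minimal counterexample to the local step. -/
theorem Data.false_of_minimal (hd : Data p o q r σ αQ αR κ ρQ ρR T) [Fintype A]
    (hsum : ∑ a, T a = 0) (hact : ∃ x y, κ x y ≠ y)
    (hRσ : (∀ x, αR σ x = x) ∨ ∀ u, κ (αR σ u) = κ u → κ u = 1)
    (hQmin : ∀ M : Subgroup Q, M ≠ ⊤ → (∀ c, ∀ y ∈ M, αQ c y ∈ M) → (∀ x, ∀ y ∈ M, κ x y ∈ M) →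
      ∀ x, ∀ y ∈ M, κ x y = y)
    (hRcomm : ∀ x x' y, κ x (κ x' y) = κ x' (κ x y)) : False := by
  classical
  haveI := Fact.mk hd.hq
  haveI := Fact.mk hd.hr
  haveI := Fact.mk hd.hA.hp
  haveI := Fact.mk hd.hA.ho
  have hpQ := not_dvd_pgroup hd.hq hd.hA.hp hd.hpq hd.isQ
  have hoQ := not_dvd_pgroup hd.hq hd.hA.ho hd.hoq hd.isQ
  have hpR := not_dvd_pgroup hd.hr hd.hA.hp hd.hpr hd.isR
  have hcommκ : ∀ x y, κ (x * y) = κ (y * x) := fun x y => MulEquiv.ext fun z => by
    rw [map_mul, map_mul, MulAut.mul_apply, MulAut.mul_apply, hRcomm]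
  obtain ⟨kQ, hkQ⟩ := IsPGroup.iff_card.mp hd.isQ
  obtain ⟨kR, hkR⟩ := IsPGroup.iff_card.mp hd.isR
  have hcopQR : (Nat.card Q).Coprime (Nat.card R) := by
    rw [hkQ, hkR]; exact Nat.Coprime.pow _ _ ((Nat.coprime_primes hd.hq hd.hr).mpr hd.hqr)
  -- weights with stabilizers are fixed by `R`
  have hfixed : ∀ (occ : (Q →* Kˣ) → Prop), (∀ χ, occ χ → ∀ x, occ (cmp κ x χ)) →
      (∀ χ, occ χ → ∃ a, a ≠ 1 ∧ cmp αQ a χ = χ) → ∀ χ, occ χ → ∀ x, cmp κ x χ = χ := by
    intro occ hoccR hstab χ hχ x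
    rcases hRσ with hσR | hσR
    · exact weights_fixed_commute hd.hA hpQ hpR hd.compat hσR (hd.commute hσR) hd.fpfR occ hoccR hstab hχ x
    · rcases weights_orbit hd.hA hpQ hoQ hpR hd.compat hcommκ hσR hd.fpfQ occ hoccR hstab hχ with h | ⟨b, hb, hbx⟩
      · exact h x
      · exact fixed_of_orbit hd.hA hpQ hoQ hcopQR hd.compat hcommκ hσR hd.fpfQ hb hbx x
  obtain ⟨x₀, y₀, hact₀⟩ := hact
  haveI : Nontrivial Q := nontrivial_of_ne _ _ hact₀
  -- the fixed subgroup
  let D : Subgroup Q :=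
    { carrier := {y | ∀ x, κ x y = y}
      one_mem' := fun x => map_one (κ x)
      mul_mem' := fun {u v} hu hv x => by rw [map_mul, hu x, hv x]
      inv_mem' := fun {u} hu x => by rw [map_inv, hu x] }
  have hD : ∀ d ∈ D, ∀ x, κ x d = d := fun d hd x => hd x
  have hDA : ∀ c, ∀ d ∈ D, αQ c d ∈ D := fun c d hd' x => by
    obtain ⟨x', rfl⟩ := (αR c).surjective x
    rw [← hd.compat, hd' x']
  have hcharle : ∀ M : Subgroup Q, M.Characteristic → M ≠ ⊤ → M ≤ D := fun M hM hne y hy x =>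
    hQmin M hne (fun c w hw => (Subgroup.characteristic_iff_map_eq.mp hM (αQ c)).le ⟨w, hw, rfl⟩)
      (fun x' w hw => (Subgroup.characteristic_iff_map_eq.mp hM (κ x')).le ⟨w, hw, rfl⟩) x y hy
  haveI : Group.IsNilpotent Q := hd.isQ.isNilpotent
  have hDder : ∀ x y : Q, ⁅x, y⁆ ∈ D := fun x y =>
    hcharle (commutator Q) inferInstance (Group.IsSolvable.commutator_lt_top_of_nontrivial Q).ne
      (Subgroup.commutator_mem_commutator (Subgroup.mem_top x) (Subgroup.mem_top y))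
  have hDpow : ∀ y : Q, y ^ q ∈ D := fun y x => by
    refine hQmin _ (closure_powers_ne_top (q := q) hd.isQ) ?_ ?_ x _ (Subgroup.subset_closure (Or.inr ⟨y, rfl⟩))
    all_goals
      intro c w hw
      refine Subgroup.closure_induction (fun u hu => ?_) (by simp) (fun u v _ _ hu hv => ?_)
        (fun u _ hu => ?_) hw
      · rcases hu with hu | ⟨u', rfl⟩
        · exact Subgroup.subset_closure (Or.inl ((Subgroup.characteristic_iff_map_eq.mp
            (inferInstance : (commutator Q).Characteristic) _).le ⟨u, hu, rfl⟩))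
        · rw [map_pow]; exact Subgroup.subset_closure (Or.inr ⟨_, rfl⟩)
      · rw [map_mul]; exact Subgroup.mul_mem _ hu hv
      · rw [map_inv]; exact Subgroup.inv_mem _ hu
  -- lifting through `R`
  have hliftR : ∀ (N : Subgroup Q) (y : Q), (∀ x, ∀ n ∈ N, κ x n ∈ N) → (∀ x, y⁻¹ * κ x y ∈ N) →
      ∃ n ∈ N, y * n ∈ D := by
    intro N y hN hy
    have hndvd : ¬ r ∣ Nat.card N := fun h => by
      obtain ⟨k, hk⟩ := IsPGroup.iff_card.mp (hd.isQ.to_subgroup N)
      rw [hk] at h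
      exact hd.hqr ((Nat.prime_dvd_prime_iff_eq hd.hr hd.hq).mp (hd.hr.dvd_of_dvd_pow h)).symm
    exact exists_fixed_in_coset hd.isR κ N hN hndvd y hy
  -- `D` is central
  have hcen : ∀ d ∈ D, ∀ y, d * y = y * d := by
    intro d hd' y
    let C := Subgroup.centralizer (D : Set Q)
    suffices hC : C = ⊤ from Subgroup.mem_centralizer_iff.mp (hC.ge (Subgroup.mem_top y)) d hd'
    by_contra hC
    have hCA : ∀ c, ∀ w ∈ C, αQ c w ∈ C := fun c w hw => Subgroup.mem_centralizer_iff.mpr fun e he => by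
      have := congrArg (αQ c) (Subgroup.mem_centralizer_iff.mp hw _ (hDA c⁻¹ e he))
      rwa [map_mul, map_mul, map_inv, MulAut.apply_inv_self] at this
    have hCR : ∀ x, ∀ w ∈ C, κ x w ∈ C := fun x w hw => Subgroup.mem_centralizer_iff.mpr fun e he => by
      have := congrArg (κ x) (Subgroup.mem_centralizer_iff.mp hw e he)
      rwa [map_mul, map_mul, hD e he x] at this
    have hmoved : ∀ x y, y⁻¹ * κ x y ∈ C := fun x y => Subgroup.mem_centralizer_iff.mpr fun e he => by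
      have h1 : κ x (y * e * y⁻¹) = y * e * y⁻¹ := by
        refine hD _ ?_ x
        rw [show y * e * y⁻¹ = ⁅y, e⁆ * e by rw [commutatorElement_def]; group]
        exact D.mul_mem (hDder _ _) he
      simp only [map_mul, map_inv, hD e he x] at h1
      calc e * (y⁻¹ * κ x y) = y⁻¹ * (y * e * y⁻¹) * κ x y := by group
        _ = y⁻¹ * (κ x y * e * (κ x y)⁻¹) * κ x y := by rw [h1]
        _ = _ := by group
    have hCD : C ≤ D := fun w hw x => hQmin C hC hCA hCR x w hw
    obtain ⟨n, hn, hfix⟩ := hliftR C y₀ hCR (fun x => hmoved x y₀)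
    refine hact₀ ?_
    have h := hfix x₀
    rw [map_mul, hCD hn x₀] at h
    exact mul_right_cancel h
  have hDfix : ∀ y, (∀ x, κ x y = y) → y ∈ D := fun y h => h
  haveI : Nontrivial W := by
    by_contra hW
    rw [not_nontrivial_iff_subsingleton] at hW
    exact hact₀ (hd.inj (Subsingleton.elim _ _))
  by_cases hab : ∀ x y : Q, x * y = y * x
  · -- abelian case
    obtain ⟨hex, -, hstab⟩ := weights hd.isQ hd.hqK ρQ (fun x y => by
      show ρQ x * ρQ y = ρQ y * ρQ x
      rw [← map_mul, ← map_mul, hab])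
    have hne1 : ρQ (y₀⁻¹ * κ x₀ y₀) ≠ 1 := fun h => hact₀ (inv_mul_eq_one.mp (hd.inj (h.trans (map_one ρQ).symm))).symm
    obtain ⟨χ, hχ, hχo⟩ := hex _ hne1
    have hfix := hfixed (fun ψ => eig ρQ ψ ≠ ⊥) (fun ψ hψ x => by
      obtain ⟨v, hv, hv0⟩ := (Submodule.ne_bot_iff _).mp hψ
      refine (Submodule.ne_bot_iff _).mpr ⟨ρR x⁻¹ v, fun z => ?_, fun h => hv0 ?_⟩
      · have hc := hd.compatR x⁻¹ (κ x z)
        rw [show κ x⁻¹ (κ x z) = z by rw [map_inv, MulAut.inv_apply_self]] at hc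
        rw [← Module.End.mul_apply, ← hc, Module.End.mul_apply, hv (κ x z), map_smul]
        rfl
      · have h2 := congrArg (ρR x) h
        rwa [map_zero, ← Module.End.mul_apply, ← map_mul, mul_inv_cancel, map_one, Module.End.one_apply] at h2)
      (fun ψ hψ => by
        obtain ⟨a, ha, hfix⟩ := hstab αQ T hd.compatA hsum ψ hψ
        exact ⟨a, ha, MonoidHom.ext hfix⟩) χ hχo x₀
    refine hχ ?_
    rw [map_mul, map_inv, show χ (κ x₀ y₀) = χ y₀ from DFunLike.congr_fun hfix y₀, inv_mul_cancel]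
  -- nonabelian case
  push Not at hab
  obtain ⟨xc, yc, hxy⟩ := hab
  let c : D := ⟨⁅xc, yc⁆, hDder xc yc⟩
  have hDc : ∀ u v : D, Commute (ρQ (u : Q)) (ρQ (v : Q)) := fun u v => by
    show ρQ (u : Q) * ρQ (v : Q) = ρQ (v : Q) * ρQ (u : Q)
    rw [← map_mul, ← map_mul, hcen u u.2 v]
  obtain ⟨hexD, -, hstabD⟩ := weights (hd.isQ.to_subgroup D) hd.hqK (ρQ.comp D.subtype) hDc
  obtain ⟨χ, hχc, hχo⟩ := hexD c (fun h => hxy (commutatorElement_eq_one_iff_mul_comm.mp
    (hd.inj (h.trans (map_one ρQ).symm))))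
  let αD : A →* MulAut D := MonoidHom.mk' (fun a =>
    { toFun := fun d => ⟨αQ a d, hDA a d d.2⟩
      invFun := fun d => ⟨αQ a⁻¹ d, hDA a⁻¹ d d.2⟩
      left_inv := fun d => Subtype.ext (by show αQ a⁻¹ (αQ a (d : Q)) = d; rw [map_inv, MulAut.inv_apply_self])
      right_inv := fun d => Subtype.ext (by show αQ a (αQ a⁻¹ (d : Q)) = d; rw [map_inv, MulAut.apply_inv_self])
      map_mul' := fun u v => Subtype.ext (map_mul (αQ a) _ _) })
    fun a b => MulEquiv.ext fun d => Subtype.ext (by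
      show αQ (a * b) (d : Q) = αQ a (αQ b d); rw [map_mul, MulAut.mul_apply])
  obtain ⟨a, ha, haχ⟩ := hstabD αD T (fun a d => hd.compatA a d) hsum χ hχo
  -- the stabilizer of `χ`
  let S : Subgroup A :=
    { carrier := {b | ∀ d : D, χ ⟨αQ b d, hDA b d d.2⟩ = χ d}
      one_mem' := fun d => congrArg χ (Subtype.ext (by show αQ 1 (d : Q) = d; simp))
      mul_mem' := fun {u v} hu hv d => by
        rw [← hv d, ← hu ⟨αQ v d, hDA v d d.2⟩]
        exact congrArg χ (Subtype.ext (by show αQ (u * v) (d : Q) = αQ u (αQ v d); rw [map_mul, MulAut.mul_apply]))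
      inv_mem' := fun {u} hu d => by
        rw [← hu ⟨αQ u⁻¹ d, hDA _ d d.2⟩]
        exact congrArg χ (Subtype.ext (by show αQ u (αQ u⁻¹ (d : Q)) = d; rw [map_inv, MulAut.apply_inv_self])) }
  have haS : a ∈ S := haχ
  have hStop : S ≠ ⊤ := fun htop => hχc (Units.ext (congrArg (fun u : Kˣ => (u : K))
    (hd.hA.char_trivial αQ hpQ hoQ hd.fpfQ hDA χ (fun b d => (htop.ge (Subgroup.mem_top b) : b ∈ S) d) c)))
  -- a generator of prime order
  obtain ⟨a, haS, ha, m, hm, hmS, hS, hoa, hmo, haσ⟩ : ∃ a ∈ S, a ≠ 1 ∧ ∃ m : ℕ, m.Prime ∧ (m = p ∨ m = o) ∧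
      S = Subgroup.zpowers a ∧ orderOf a = m ∧ (a = σ ∨ m = o) ∧ (a = σ ∨ a ∉ Subgroup.zpowers σ) := by
    by_cases haP : a ∈ Subgroup.zpowers σ
    · have hσS : σ ∈ S := by
        have : Subgroup.zpowers a ≤ S := Subgroup.zpowers_le.mpr haS
        rw [hd.hA.zpowers_of_mem haP ha] at this
        exact this (Subgroup.mem_zpowers σ)
      refine ⟨σ, hσS, hd.hA.sigma_ne_one, p, hd.hA.hp, Or.inl rfl, le_antisymm (fun b hb => ?_)
        (Subgroup.zpowers_le.mpr hσS), hd.hA.hσ, Or.inl rfl, Or.inl rfl⟩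
      by_contra hbP
      exact hStop (hd.hA.top_of_mem hσS hb hbP)
    · exact ⟨a, haS, ha, o, hd.hA.ho, Or.inr rfl, (hd.hA.eq_zpowers_or_top haS haP).resolve_right hStop,
        hd.hA.orderOf_outside haP, Or.inr rfl, Or.inr haP⟩
  have hmq : m ≠ q := by rcases hmS with rfl | rfl; exacts [hd.hpq, hd.hoq]
  have hmr : m ≠ r := by rcases hmS with rfl | rfl; exacts [hd.hpr, hd.hor]
  have hmK : (m : K) ≠ 0 := by rcases hmS with rfl | rfl; exacts [hd.hpK, hd.hoK]
  set U1 := eig (ρQ.comp D.subtype) χ with hU1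
  have hU1Q : ∀ y, ∀ w ∈ U1, ρQ y w ∈ U1 := fun y w hw d => by
    show ρQ (d : Q) (ρQ y w) = _
    rw [← Module.End.mul_apply, ← map_mul, hcen d d.2 y, map_mul, Module.End.mul_apply,
      show ρQ (d : Q) w = (χ d : K) • w from hw d, map_smul]
  have hU1T : ∀ b ∈ S, ∀ w ∈ U1, T b w ∈ U1 := fun b hb w hw d => by
    obtain ⟨d', rfl⟩ : ∃ d' : D, (⟨αQ b d', hDA b d' d'.2⟩ : D) = d :=
      ⟨(αD b).symm d, (αD b).apply_symm_apply d⟩
    show ρQ (αQ b (d' : Q)) (T b w) = _
    rw [← Module.End.mul_apply, ← hd.compatA, Module.End.mul_apply,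
      show ρQ (d' : Q) w = (χ d' : K) • w from hw d', map_smul, hb d']
  have hU1R : ∀ x, ∀ w ∈ U1, ρR x w ∈ U1 := fun x w hw d => by
    show ρQ (d : Q) (ρR x w) = _
    have hc := hd.compatR x (d : Q)
    rw [hD d d.2 x] at hc
    rw [← Module.End.mul_apply, ← hc, Module.End.mul_apply,
      show ρQ (d : Q) w = (χ d : K) • w from hw d, map_smul]
  haveI : Nontrivial U1 := Submodule.nontrivial_iff_ne_bot.mpr hχo
  -- the sum over the stabilizer
  have hsumS : ∀ w ∈ U1, ∑ b : S, T b w = 0 := by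
    letI : CommGroup D :=
      { (inferInstance : Group D) with mul_comm := fun u v => Subtype.ext (hcen u u.2 v) }
    haveI := Fintype.ofFinite D
    intro w hw
    have h := WeightSpace.sum_stabilizer_eq_zero (ρQ.comp D.subtype) (by
        obtain ⟨k, hk⟩ := IsPGroup.iff_card.mp (hd.isQ.to_subgroup D)
        rw [hk, Nat.cast_pow]; exact pow_ne_zero _ hd.hqK)
      αD (fun b => T b) (fun b d => hd.compatA b d) hsum (χ := χ) (v := w) hw
      (Finset.univ.filter (· ∈ S)) (fun b => by simp only [Finset.mem_filter, Finset.mem_univ, true_and]; rfl)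
    rw [← h]
    exact (Finset.sum_subtype _ (fun b => by simp) (fun b => T b w)).symm
  -- the radical
  let ω₀ : Q → Q → Kˣ := fun u v => χ ⟨⁅u, v⁆, hDder u v⟩
  have hωl : ∀ u u' v, ω₀ (u * u') v = ω₀ u v * ω₀ u' v := fun u u' v => by
    show χ _ = χ _ * χ _
    rw [mul_comm, ← map_mul]
    congr 1
    refine Subtype.ext ?_
    show ⁅u * u', v⁆ = ⁅u', v⁆ * ⁅u, v⁆
    have hc := hcen _ (hDder u' v) u
    simp only [commutatorElement_def] at hc ⊢
    calc u * u' * v * (u * u')⁻¹ * v⁻¹ = u * (u' * v * u'⁻¹ * v⁻¹) * (v * u⁻¹ * v⁻¹) := by group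
      _ = (u' * v * u'⁻¹ * v⁻¹) * u * (v * u⁻¹ * v⁻¹) := by rw [hc]
      _ = _ := by group
  have hωr : ∀ u v v', ω₀ u (v * v') = ω₀ u v * ω₀ u v' := fun u v v' => by
    show χ _ = χ _ * χ _
    rw [← map_mul]
    congr 1
    refine Subtype.ext ?_
    show ⁅u, v * v'⁆ = ⁅u, v⁆ * ⁅u, v'⁆
    have hc := hcen _ (hDder u v') v
    simp only [commutatorElement_def] at hc ⊢
    calc u * (v * v') * u⁻¹ * (v * v')⁻¹ = u * v * u⁻¹ * ((u * v' * u⁻¹ * v'⁻¹) * v⁻¹) := by group
      _ = u * v * u⁻¹ * (v⁻¹ * (u * v' * u⁻¹ * v'⁻¹)) := by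
        congr 1
        calc (u * v' * u⁻¹ * v'⁻¹) * v⁻¹ = v⁻¹ * (v * (u * v' * u⁻¹ * v'⁻¹)) * v⁻¹ := by group
          _ = v⁻¹ * ((u * v' * u⁻¹ * v'⁻¹) * v) * v⁻¹ := by rw [hc]
          _ = _ := by group
      _ = _ := by group
  have hω1 : ∀ v, ω₀ 1 v = 1 ∧ ω₀ v 1 = 1 := fun v => by
    constructor
    · have h := hωl 1 1 v; rwa [mul_one, left_eq_mul] at h
    · have h := hωr v 1 1; rwa [mul_one, left_eq_mul] at h
  let Z : Subgroup Q :=
    { carrier := {u | ∀ v, ω₀ u v = 1}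
      one_mem' := fun v => (hω1 v).1
      mul_mem' := fun {u u'} hu hu' v => by rw [hωl, hu v, hu' v, one_mul]
      inv_mem' := fun {u} hu v => by
        have h := hωl u⁻¹ u v
        rwa [inv_mul_cancel, (hω1 v).1, hu v, mul_one, eq_comm] at h }
  have hDZ : D ≤ Z := fun d hd' v => by
    show χ _ = 1
    rw [← map_one χ]
    congr 1
    exact Subtype.ext (commutatorElement_eq_one_iff_mul_comm.mpr (hcen d hd' v))
  have hωA : ∀ b ∈ S, ∀ u v, ω₀ (αQ b u) (αQ b v) = ω₀ u v := fun b hb u v => by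
    show χ _ = χ _
    refine Eq.trans (congrArg χ (Subtype.ext ?_)) (hb ⟨⁅u, v⁆, hDder u v⟩)
    exact (map_commutatorElement (αQ b) u v).symm
  have hωR : ∀ x u v, ω₀ (κ x u) (κ x v) = ω₀ u v := fun x u v => by
    show χ _ = χ _
    refine congrArg χ (Subtype.ext ?_)
    show ⁅κ x u, κ x v⁆ = ⁅u, v⁆
    rw [← map_commutatorElement]
    exact hD _ (hDder u v) x
  have hZS : ∀ b ∈ S, ∀ u ∈ Z, αQ b u ∈ Z := fun b hb u hu v => by
    obtain ⟨v', rfl⟩ := (αQ b).surjective v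
    rw [hωA b hb]; exact hu v'
  have hZR : ∀ x, ∀ u ∈ Z, κ x u ∈ Z := fun x u hu v => by
    obtain ⟨v', rfl⟩ := (κ x).surjective v
    rw [hωR]; exact hu v'
  have hcommU1 : ∀ u v, ∀ w ∈ U1, ρQ u (ρQ v w) = (ω₀ u v : K) • ρQ v (ρQ u w) := by
    intro u v w hw
    have h1 : u * v = ⁅u, v⁆ * (v * u) := by rw [commutatorElement_def]; group
    rw [← Module.End.mul_apply, ← map_mul, h1, map_mul, map_mul, Module.End.mul_apply, Module.End.mul_apply]
    exact hU1Q v _ (hU1Q u w hw) ⟨⁅u, v⁆, hDder u v⟩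
  set ρ1 := HHExceptional.restrictRep ρQ U1 hU1Q with hρ1
  have hZcomm : ∀ u v : Z, Commute (ρ1 (u : Q)) (ρ1 (v : Q)) := fun u v => LinearMap.ext fun w => Subtype.ext (by
    show ρQ (u : Q) (ρQ (v : Q) w) = ρQ (v : Q) (ρQ (u : Q) w)
    rw [hcommU1 _ _ _ w.2, u.2 v, Units.val_one, one_smul])
  obtain ⟨-, hexZ, hstabZ⟩ := weights (hd.isQ.to_subgroup Z) hd.hqK (ρ1.comp Z.subtype) hZcomm
  obtain ⟨ψ, hψo⟩ := hexZ inferInstance
  let TS : S →* Module.End K U1 :=
    { toFun := fun b => (T b).restrict (hU1T b b.2)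
      map_one' := LinearMap.ext fun w => Subtype.ext (by simp [LinearMap.restrict_apply])
      map_mul' := fun u v => LinearMap.ext fun w => Subtype.ext (by simp [LinearMap.restrict_apply]) }
  let αZ : S →* MulAut Z := MonoidHom.mk' (fun b =>
    { toFun := fun u => ⟨αQ b u, hZS b b.2 u u.2⟩
      invFun := fun u => ⟨αQ (b : A)⁻¹ u, hZS _ (S.inv_mem b.2) u u.2⟩
      left_inv := fun u => Subtype.ext (by
        show αQ (b : A)⁻¹ (αQ (b : A) (u : Q)) = u; rw [map_inv, MulAut.inv_apply_self])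
      right_inv := fun u => Subtype.ext (by
        show αQ (b : A) (αQ (b : A)⁻¹ (u : Q)) = u; rw [map_inv, MulAut.apply_inv_self])
      map_mul' := fun u v => Subtype.ext (map_mul (αQ b) _ _) })
    fun b b' => MulEquiv.ext fun u => Subtype.ext (by
      show αQ ((b : A) * b') (u : Q) = αQ b (αQ b' u); rw [map_mul, MulAut.mul_apply])
  have hTS : ∀ b z, TS b * (ρ1.comp Z.subtype) z = (ρ1.comp Z.subtype) (αZ b z) * TS b := fun b z =>
    LinearMap.ext fun w => Subtype.ext (LinearMap.congr_fun (hd.compatA b z) (w : W))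
  have hsumTS : ∑ b, TS b = 0 := LinearMap.ext fun w => Subtype.ext (by
    rw [LinearMap.sum_apply, LinearMap.zero_apply, Submodule.coe_zero, Submodule.coe_sum]
    exact hsumS w w.2)
  have hψa : ∀ z : Z, ψ ⟨αQ a z, hZS a haS z z.2⟩ = ψ z := by
    obtain ⟨b, hb1, hb⟩ := hstabZ αZ TS hTS hsumTS ψ hψo
    let F : Subgroup S :=
      { carrier := {c | ∀ z : Z, ψ (αZ c z) = ψ z}
        one_mem' := fun z => by rw [map_one]; rfl
        mul_mem' := fun {u v} hu hv z => by rw [map_mul, MulAut.mul_apply, hu, hv]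
        inv_mem' := fun {u} hu z => by
          conv_rhs => rw [← MulAut.apply_inv_self Z (αZ u) z, hu]
          rw [map_inv] }
    have hcardS : Nat.card S = m := by rw [hS, Nat.card_zpowers, hoa]
    haveI := Fact.mk hm
    haveI : Fact (Nat.card S).Prime := ⟨hcardS.symm ▸ hm⟩
    rcases F.eq_bot_or_eq_top_of_prime_card with h | h
    · exact absurd (Subgroup.mem_bot.mp (h ▸ (show b ∈ F from hb))) hb1
    · exact fun z => (h.ge (Subgroup.mem_top (⟨a, haS⟩ : S)) : (⟨a, haS⟩ : S) ∈ F) z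
  -- the final subspace
  let U : Submodule K W :=
    { carrier := {w | w ∈ U1 ∧ ∀ z : Z, ρQ (z : Q) w = (ψ z : K) • w}
      zero_mem' := ⟨zero_mem _, fun z => by simp⟩
      add_mem' := fun {u v} hu hv => ⟨add_mem hu.1 hv.1, fun z => by rw [map_add, hu.2 z, hv.2 z, smul_add]⟩
      smul_mem' := fun e u hu => ⟨U1.smul_mem e hu.1, fun z => by rw [map_smul, hu.2 z, smul_comm]⟩ }
  have hUQ : ∀ y, ∀ w ∈ U, ρQ y w ∈ U := fun y w hw => ⟨hU1Q y w hw.1, fun z => by
    rw [hcommU1 _ _ _ hw.1, z.2 y, Units.val_one, one_smul, hw.2 z, map_smul]⟩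
  have hUT : ∀ w ∈ U, T a w ∈ U := fun w hw => ⟨hU1T a haS w hw.1, fun z => by
    obtain ⟨z', rfl⟩ : ∃ z' : Z, (⟨αQ a z', hZS a haS z' z'.2⟩ : Z) = z :=
      ⟨(αZ ⟨a, haS⟩).symm z, (αZ ⟨a, haS⟩).apply_symm_apply z⟩
    show ρQ (αQ a (z' : Q)) (T a w) = _
    rw [← Module.End.mul_apply, ← hd.compatA, Module.End.mul_apply, hw.2 z', map_smul, hψa]⟩
  haveI : Nontrivial U := by
    obtain ⟨v, hv, hv0⟩ := (Submodule.ne_bot_iff _).mp hψo
    refine nontrivial_of_ne (⟨(v : W), v.2, fun z => congrArg Subtype.val (hv z)⟩ : U) 0 ?_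
    exact fun h => hv0 (Subtype.ext (congrArg (fun u : U => (u : W)) h))
  set ρU := HHExceptional.restrictRep ρQ U hUQ with hρU
  haveI hZn : Z.Normal := ⟨fun u hu g => by
    rw [show g * u * g⁻¹ = ⁅g, u⁆ * u by rw [commutatorElement_def]; group]
    exact Z.mul_mem (hDZ (hDder _ _)) hu⟩
  letI : CommGroup (Q ⧸ Z) :=
    { (inferInstance : Group (Q ⧸ Z)) with
      mul_comm := fun X Y => by
        obtain ⟨u, rfl⟩ := QuotientGroup.mk'_surjective Z X
        obtain ⟨v, rfl⟩ := QuotientGroup.mk'_surjective Z Y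
        show QuotientGroup.mk' Z u * QuotientGroup.mk' Z v = QuotientGroup.mk' Z v * QuotientGroup.mk' Z u
        rw [← commutatorElement_eq_one_iff_mul_comm, ← map_commutatorElement]
        exact (QuotientGroup.eq_one_iff _).mpr (hDZ (hDder _ _)) }
  let mk := QuotientGroup.mk' Z
  have hXexp : ∀ X : Q ⧸ Z, X ^ q = 1 := fun X => by
    obtain ⟨u, rfl⟩ := QuotientGroup.mk'_surjective Z X
    exact (QuotientGroup.eq_one_iff _).mpr (hDZ (hDpow u))
  haveI : Nontrivial (Q ⧸ Z) := by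
    refine nontrivial_of_ne (mk xc) 1 fun h => hχc ?_
    exact ((QuotientGroup.eq_one_iff _).mp h : xc ∈ Z) yc
  let ω : Q ⧸ Z → Q ⧸ Z → K := fun X Y => (ω₀ X.out Y.out : K)
  have hωmk : ∀ u v, ω (mk u) (mk v) = (ω₀ u v : K) := by
    intro u v
    obtain ⟨z, hz⟩ := QuotientGroup.mk_out_eq_mul Z u
    obtain ⟨z', hz'⟩ := QuotientGroup.mk_out_eq_mul Z v
    show (ω₀ (Quotient.out (mk u)) (Quotient.out (mk v)) : K) = _
    rw [show Quotient.out (mk u) = u * z from hz, show Quotient.out (mk v) = v * z' from hz', hωl, hωr,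
      z.2 (v * (z' : Q)), mul_one]
    have hsk : ω₀ u (z' : Q) = (ω₀ (z' : Q) u)⁻¹ := by
      show χ _ = (χ _)⁻¹
      rw [← map_inv]
      exact congrArg χ (Subtype.ext (commutatorElement_inv _ _).symm)
    rw [hsk, z'.2 u, inv_one, mul_one]
  have hω : WardEndgame.IsPairing ω := by
    refine ⟨fun X Y Z' => ?_, fun X Y Z' => ?_, fun X => ?_, fun X hX => ?_, fun X Y => (ω₀ _ _).ne_zero⟩
    all_goals
      obtain ⟨u, rfl⟩ := QuotientGroup.mk'_surjective Z X
    · obtain ⟨v, rfl⟩ := QuotientGroup.mk'_surjective Z Y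
      obtain ⟨w, rfl⟩ := QuotientGroup.mk'_surjective Z Z'
      rw [← map_mul, hωmk, hωmk, hωmk, hωl, Units.val_mul]
    · obtain ⟨v, rfl⟩ := QuotientGroup.mk'_surjective Z Y
      obtain ⟨w, rfl⟩ := QuotientGroup.mk'_surjective Z Z'
      rw [← map_mul, hωmk, hωmk, hωmk, hωr, Units.val_mul]
    · rw [hωmk]
      show ((χ _ : Kˣ) : K) = 1
      rw [show (⟨⁅u, u⁆, hDder u u⟩ : D) = 1 from Subtype.ext (commutatorElement_self u), map_one, Units.val_one]
    · exact (QuotientGroup.eq_one_iff u).mpr fun v => Units.ext (by rw [← hωmk]; exact hX (mk v))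
  have hmapA : Z.map (αQ a).toMonoidHom = Z := Subgroup.eq_of_le_of_card_ge
    (Subgroup.map_le_iff_le_comap.mpr fun u hu => hZS a haS u hu) (Subgroup.card_map_of_injective (αQ a).injective).ge
  let aX : MulAut (Q ⧸ Z) := QuotientGroup.congr Z Z (αQ a) hmapA
  have haX : ∀ u, aX (mk u) = mk (αQ a u) := fun u => rfl
  have ham : a ^ m = 1 := by rw [← hoa, pow_orderOf_eq_one]
  have haXp : aX ^ m = 1 := by
    have h : ∀ i u, (aX ^ i) (mk u) = mk (αQ (a ^ i) u) := by
      intro i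
      induction i with
      | zero => intro u; simp
      | succ i ih => intro u; rw [pow_succ', MulAut.mul_apply, ih, haX, pow_succ', map_mul, MulAut.mul_apply]
    refine MulEquiv.ext fun X => ?_
    obtain ⟨u, rfl⟩ := QuotientGroup.mk'_surjective Z X
    rw [show QuotientGroup.mk' Z u = mk u from rfl, h, ham, map_one]
    rfl
  have hinvA : ∀ X Y, ω (aX X) (aX Y) = ω X Y := fun X Y => by
    obtain ⟨u, rfl⟩ := QuotientGroup.mk'_surjective Z X
    obtain ⟨v, rfl⟩ := QuotientGroup.mk'_surjective Z Y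
    rw [haX, haX, hωmk, hωmk, hωA a haS]
  have hmapR : ∀ x, Z.map (κ x).toMonoidHom = Z := fun x => Subgroup.eq_of_le_of_card_ge
    (Subgroup.map_le_iff_le_comap.mpr fun u hu => hZR x u hu) (Subgroup.card_map_of_injective (κ x).injective).ge
  let κX : R →* MulAut (Q ⧸ Z) := MonoidHom.mk' (fun x => QuotientGroup.congr Z Z (κ x) (hmapR x))
    fun x y => MulEquiv.ext fun X => by
      obtain ⟨u, rfl⟩ := QuotientGroup.mk'_surjective Z X
      show mk (κ (x * y) u) = mk (κ x (κ y u))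
      rw [map_mul, MulAut.mul_apply]
  have hκX : ∀ x u, κX x (mk u) = mk (κ x u) := fun x u => rfl
  have hRfix : ∀ X, (∀ x, κX x X = X) → X = 1 := fun X hX => by
    obtain ⟨u, rfl⟩ := QuotientGroup.mk'_surjective Z X
    obtain ⟨n, hn, hnD⟩ := hliftR Z u hZR fun x => QuotientGroup.eq.mp (hX x).symm
    refine (QuotientGroup.eq_one_iff u).mpr ?_
    have h2 := Z.mul_mem (hDZ hnD) (Z.inv_mem hn)
    rwa [mul_inv_cancel_right] at h2
  have hcopX : (Nat.card (Q ⧸ Z)).Coprime m := by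
    obtain ⟨k, hk⟩ := IsPGroup.iff_card.mp (hd.isQ.to_quotient Z)
    rw [hk]; exact ((Nat.coprime_primes hd.hq hm).mpr (Ne.symm hmq)).pow_left k
  -- Hall–Higman
  have hsumU : ∑ i ∈ Finset.range m, ((T a).restrict hUT) ^ i = 0 := by
    refine LinearMap.ext fun w => Subtype.ext ?_
    rw [LinearMap.sum_apply, LinearMap.zero_apply, Submodule.coe_zero, Submodule.coe_sum]
    have h2 : ∀ i, ((((T a).restrict hUT) ^ i) w : W) = T (a ^ i) w := by
      intro i
      induction i with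
      | zero => simp
      | succ i ih =>
        rw [pow_succ', pow_succ', map_mul, Module.End.mul_apply, Module.End.mul_apply,
          LinearMap.coe_restrict_apply, ih]
    simp only [h2]
    have h3 := hsumS w w.2.1
    have he : (Finset.univ.filter (· ∈ S)) = (Finset.range m).image (a ^ ·) := by
      ext b
      simp only [Finset.mem_filter, Finset.mem_univ, true_and]
      rw [hS, ← hoa, ← IsOfFinOrder.mem_powers_iff_mem_zpowers (isOfFinOrder_of_finite a)]
      exact mem_powers_iff_mem_range_orderOf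
    rw [← Finset.sum_subtype (Finset.univ.filter (· ∈ S)) (fun b => by simp) (fun b => T b (w : W)), he,
      Finset.sum_image (fun i hi j hj hij => pow_injOn_Iio_orderOf
        (by rw [hoa]; exact Finset.mem_range.mp hi) (by rw [hoa]; exact Finset.mem_range.mp hj) hij)] at h3
    exact h3
  have hcommU : ∀ u v, ρU u * ρU v = (ω₀ u v : K) • (ρU v * ρU u) :=
    fun u v => LinearMap.ext fun w => Subtype.ext (hcommU1 u v w w.2.1)
  have hHH : HHPairing.HHBound q m ω aX := by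
    intro M haM hMfpf hMnd hMne
    let Q1 := M.comap mk
    obtain ⟨h2, n, hn, hmn, hidx⟩ := HHPairing.hh_sub hm hmK hd.isQ ρU ((T a).restrict hUT) (αQ a) hsumU
      (fun u => LinearMap.ext fun w => Subtype.ext (LinearMap.congr_fun (hd.compatA a u) (w : W))) ω₀ hcommU Z
      (fun z hz => ⟨ψ ⟨z, hz⟩, LinearMap.ext fun w => Subtype.ext (w.2.2 ⟨z, hz⟩)⟩) Q1
      (fun u hu => show mk (αQ a u) ∈ M from haX u ▸ haM _ hu)
      (fun u hu h => (QuotientGroup.eq_one_iff u).mp (hMnd (mk u) hu fun Y hY => by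
        obtain ⟨v, rfl⟩ := QuotientGroup.mk'_surjective Z Y
        rw [hωmk, h v hY, Units.val_one]))
      (fun u hu h => (QuotientGroup.eq_one_iff u).mp (hMfpf (mk u) hu (QuotientGroup.eq.mpr h).symm))
      (by
        obtain ⟨Y, hY, hY1⟩ := (Subgroup.ne_bot_iff_exists_ne_one.mp hMne).elim fun ⟨Y, hY⟩ h =>
          (⟨Y, hY, fun e => h (Subtype.ext e)⟩ : ∃ Y, Y ∈ M ∧ Y ≠ 1)
        obtain ⟨u, rfl⟩ := QuotientGroup.mk'_surjective Z Y
        exact ⟨u, hY, fun h => hY1 ((QuotientGroup.eq_one_iff u).mpr h)⟩)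
    refine ⟨h2, n, hn, hmn, ?_⟩
    have hker : Z.subgroupOf Q1 = (mk.comp Q1.subtype).ker := by
      ext u
      rw [Subgroup.mem_subgroupOf, MonoidHom.mem_ker]
      exact (QuotientGroup.eq_one_iff (u : Q)).symm
    rwa [hker, Subgroup.index_ker, MonoidHom.range_comp, Subgroup.range_subtype,
      Subgroup.map_comap_eq_self_of_surjective (QuotientGroup.mk'_surjective Z)] at hidx
  have hHHm := hHH.moved hω haXp hcopX hinvA
  have hωκ : ∀ x X Y, ω (κX x X) (κX x Y) = ω X Y := fun x X Y => by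
    obtain ⟨u, rfl⟩ := QuotientGroup.mk'_surjective Z X
    obtain ⟨v, rfl⟩ := QuotientGroup.mk'_surjective Z Y
    rw [hκX, hκX, hωmk, hωmk, hωR]
  by_cases hc : a = σ ∧ ∀ x, αR σ x = x
  · -- `a` centralizes `R`
    obtain ⟨rfl, hafix⟩ := hc
    have hfpfX : ∀ X, aX X = X → X = 1 := fun X hX => by
      obtain ⟨u, rfl⟩ := QuotientGroup.mk'_surjective Z X
      obtain ⟨n, hn, hfix⟩ := lift_one hm hoa αQ Z (fun h => not_dvd_pgroup hd.hq hm hmq hd.isQ
        (h.trans (Subgroup.card_subgroup_dvd_card Z))) (hZS a haS) (x := u) (QuotientGroup.eq.mp hX.symm)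
      have hmem : u * n ∈ D := fun x => hd.commute hafix _ hfix x
      refine (QuotientGroup.eq_one_iff u).mpr ?_
      have h2 := Z.mul_mem (hDZ hmem) (Z.inv_mem hn)
      rwa [mul_inv_cancel_right] at h2
    obtain ⟨X, hX1⟩ := exists_ne (1 : Q ⧸ Z)
    obtain ⟨h2, n, hn, hmn, hMc⟩ := hHHm fun h => hX1 (hfpfX X ((WardEndgame.moved_eq_bot_iff aX).mp h X))
    subst h2
    have hcard : Nat.card (Q ⧸ Z) = 2 ^ (2 * n) := by
      rw [WardEndgame.card_split haXp hcopX, hMc]
      have hC : (aX.toMonoidHom.eqLocus (MonoidHom.id (Q ⧸ Z))) = ⊥ :=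
        (Subgroup.eq_bot_iff_forall _).mpr fun Y hY => hfpfX Y hY
      rw [hC, Subgroup.card_bot, one_mul]
    refine hX1 (hRfix X fun x => ?_)
    have hgp : κX x ^ m = 1 := WardEndgame.trivial_of_centralizer hm hn hmn hXexp hcard hω aX haXp hfpfX hinvA
      (κX x) (fun Y => by
        obtain ⟨u, rfl⟩ := QuotientGroup.mk'_surjective Z Y
        show mk (κ x (αQ a u)) = mk (αQ a (κ x u))
        rw [hd.compat, hafix])
      (hωκ x)
    have hgr : κX x ^ (r ^ kR) = 1 := by rw [← map_pow, ← hkR, pow_card_eq_one', map_one]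
    have : κX x = 1 := orderOf_eq_one_iff.mp (Nat.eq_one_of_dvd_coprimes
      (((Nat.coprime_primes hm hd.hr).mpr hmr).pow_right kR)
      (orderOf_dvd_of_pow_eq_one hgp) (orderOf_dvd_of_pow_eq_one hgr))
    rw [this]; rfl
  -- the commutative image of `R`
  let B := κX.range
  letI : CommGroup B :=
    { (inferInstance : Group B) with
      mul_comm := by
        rintro ⟨_, x, rfl⟩ ⟨_, y, rfl⟩
        refine Subtype.ext (MulEquiv.ext fun X => ?_)
        obtain ⟨u, rfl⟩ := QuotientGroup.mk'_surjective Z X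
        show mk (κ x (κ y u)) = mk (κ y (κ x u))
        rw [hRcomm] }
  haveI : Finite B := Set.Finite.to_subtype (Set.finite_range κX)
  obtain ⟨jB, -, hjB⟩ := (Nat.dvd_prime_pow hd.hr).mp (hkR ▸ Subgroup.card_range_dvd κX)
  have hconj : ∀ x, aX * κX x * aX⁻¹ = κX (αR a x) := fun x => by
    refine mul_inv_eq_of_eq_mul (MulEquiv.ext fun Y => ?_)
    obtain ⟨u, rfl⟩ := QuotientGroup.mk'_surjective Z Y
    show mk (αQ a (κ x u)) = mk (κ (αR a x) (αQ a u))
    rw [hd.compat]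
  let t : MulAut B :=
    { toFun := fun b => ⟨aX * b * aX⁻¹, by obtain ⟨x, hx⟩ := b.2; exact ⟨αR a x, by rw [← hconj, hx]⟩⟩
      invFun := fun b => ⟨aX⁻¹ * b * aX, by
        obtain ⟨x, hx⟩ := b.2
        refine ⟨(αR a).symm x, ?_⟩
        have h := hconj ((αR a).symm x)
        rw [MulEquiv.apply_symm_apply, hx] at h
        rw [← h]; group⟩
      left_inv := fun b => Subtype.ext (by simp only; group)
      right_inv := fun b => Subtype.ext (by simp only; group)
      map_mul' := fun b c => Subtype.ext (by simp only [Subgroup.coe_mul]; group) }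
  have htm : t ^ m = 1 := by
    refine MulEquiv.ext fun b => Subtype.ext ?_
    have h : ∀ i, (((t ^ i) b : B) : MulAut (Q ⧸ Z)) = aX ^ i * b * (aX ^ i)⁻¹ := by
      intro i
      induction i with
      | zero => simp
      | succ i ih =>
        rw [pow_succ', MulAut.mul_apply]
        show aX * (((t ^ i) b : B) : MulAut (Q ⧸ Z)) * aX⁻¹ = _
        rw [ih, pow_succ']; group
    rw [h, haXp]; simp
  have hcomp : ∀ (b : B) X, aX (B.subtype b X) = B.subtype (t b) (aX X) := fun b X => by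
    show aX ((b : MulAut (Q ⧸ Z)) X) = (aX * b * aX⁻¹) (aX X)
    simp only [MulAut.mul_apply, MulAut.inv_apply_self]
  have hBq : (Nat.card B).Coprime q := by
    rw [show Nat.card B = r ^ jB from hjB]; exact ((Nat.coprime_primes hd.hr hd.hq).mpr (Ne.symm hd.hqr)).pow_left jB
  have hBm : (Nat.card B).Coprime m := by
    rw [show Nat.card B = r ^ jB from hjB]; exact ((Nat.coprime_primes hd.hr hm).mpr (Ne.symm hmr)).pow_left jB
  have hB : ∀ X, (∀ b : B, B.subtype b X = X) → X = 1 := fun X hX => hRfix X fun x => hX ⟨κX x, x, rfl⟩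
  -- when `a` has no fixed point on `B`
  have hfrob : (∀ b, t b = b → b = 1) → False := fun ht => WardEndgame.false_of_frobenius (q := q) hm hmq hXexp hω
    aX haXp hinvA B.subtype hBq hB t htm ht hcomp hHHm
  have htκ : ∀ x, t ⟨κX x, x, rfl⟩ = ⟨κX (αR a x), _, rfl⟩ := fun x => Subtype.ext (hconj x)
  -- fixed points of `t` come from fixed points of `a`
  have hfixlift : ∀ b, t b = b → ∃ x, αR a x = x ∧ κX x = (b : MulAut (Q ⧸ Z)) := by
    rintro ⟨_, x, rfl⟩ hb
    rw [htκ] at hb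
    obtain ⟨n, hn, hfix⟩ := lift_one hm hoa αR κX.ker (fun h => not_dvd_pgroup hd.hr hm hmr hd.isR
        (h.trans (Subgroup.card_subgroup_dvd_card _)))
      (fun w hw => by rw [MonoidHom.mem_ker, ← hconj, show κX w = 1 from hw, mul_one, mul_inv_cancel])
      (x := x) (by
        rw [MonoidHom.mem_ker, map_mul, map_inv, show κX (αR a x) = κX x from congrArg Subtype.val hb, inv_mul_cancel])
    exact ⟨x * n, hfix, by rw [map_mul, show κX n = 1 from hn, mul_one]⟩
  rcases hRσ with hσR | hσR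
  · -- `σ` centralizes `R`, so `a` has no fixed point
    refine hfrob fun b hb => ?_
    obtain ⟨x, hx, hxb⟩ := hfixlift b hb
    let F : Subgroup A :=
      { carrier := {c | αR c x = x}
        one_mem' := by show αR 1 x = x; simp
        mul_mem' := fun {u v} (hu : αR u x = x) (hv : αR v x = x) => by
          show αR (u * v) x = x; rw [map_mul, MulAut.mul_apply, hv, hu]
        inv_mem' := fun {u} (hu : αR u x = x) => by
          show αR u⁻¹ x = x
          conv_lhs => rw [← hu]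
          rw [map_inv, MulAut.inv_apply_self] }
    have hx1 : x = 1 := hd.fpfR x fun cA => ((hd.hA.top_of_mem (S := F) (hσR x) (show a ∈ F from hx)
      (haσ.resolve_left fun e => hc ⟨e, hσR⟩)).ge (Subgroup.mem_top cA) : cA ∈ F)
    exact Subtype.ext (by rw [← hxb, hx1, map_one]; rfl)
  rcases haσ with rfl | haσ
  · -- `σ` has no fixed point modulo the kernel
    refine hfrob fun b hb => ?_
    obtain ⟨x, hx, hxb⟩ := hfixlift b hb
    refine Subtype.ext ?_
    rw [← hxb]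
    refine MulEquiv.ext fun X => ?_
    obtain ⟨u, rfl⟩ := QuotientGroup.mk'_surjective Z X
    show mk (κ x u) = mk u
    rw [hσR x (by rw [hx])]; rfl
  -- the outside operator acts trivially
  have htriv : ∀ X, aX X = X := HHPairing.trivial_of_pairing hm hmq hXexp hω aX haXp hinvA B.subtype
    B.subtype_injective hBq hBm (fun b X Y => by obtain ⟨x, hx⟩ := b.2; show ω ((b : MulAut _) X) ((b : MulAut _) Y) = _; rw [← hx, hωκ])
    hB t htm hcomp hHH
  obtain ⟨X, hX1⟩ := exists_ne (1 : Q ⧸ Z)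
  refine hX1 (hRfix X fun x => ?_)
  obtain ⟨v, rfl⟩ := QuotientGroup.mk'_surjective Z X
  rw [hκX]
  let δ : Q → Q →* Kˣ := fun u => MonoidHom.mk' (fun y => ω₀ u y) (hωr u)
  have hδfix : ∀ u, cmp αQ a (δ u) = δ u := fun u => MonoidHom.ext fun y => Units.ext (by
    show (ω₀ u (αQ a y) : K) = ω₀ u y
    rw [← hωmk, ← hωmk, ← haX, htriv])
  have hδR : ∀ z u, cmp κ z (δ u) = δ (κ z⁻¹ u) := fun z u => MonoidHom.ext fun y => by
    show ω₀ u (κ z y) = ω₀ (κ z⁻¹ u) y
    rw [← hωR z (κ z⁻¹ u) y, map_inv, MulAut.apply_inv_self]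
  have hR := fun u => fixed_of_orbit hd.hA hpQ hoQ hcopQR hd.compat hcommκ hσR hd.fpfQ (χ := δ u) haσ
    (fun z => by rw [hδR]; exact hδfix _) x
  refine (QuotientGroup.eq.mpr (fun y => ?_)).symm
  -- `v⁻¹ κ x v` lies in the radical
  have hsk : ∀ u y, ω₀ u y = (ω₀ y u)⁻¹ := fun u y => by
    show χ _ = (χ _)⁻¹
    rw [← map_inv]
    exact congrArg χ (Subtype.ext (commutatorElement_inv _ _).symm)
  rw [hsk, inv_eq_one]
  show δ y (v⁻¹ * κ x v) = 1
  rw [map_mul, map_inv, ← cmp_apply κ x (δ y) v, hR y, inv_mul_cancel]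

end Cfsg.Agent.Transfer.PQ
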