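/-
A solvable group with fixed-point-free operators forming a non-abelian group of order p·o has Fitting height at
most two.
-/
import Cfsg.Agent.Transfer.PQStep
import Cfsg.Agent.Transfer.WardMain
import Cfsg.Agent.Transfer.FittingReduction
import Cfsg.Agent.Core.ThompsonFPF
import Cfsg.Prelude.Def_Transfer

set_option autoImplicit false
set_option linter.style.haveILetI false
set_option linter.unusedSectionVars false
set_option maxSynthPendingDepth 4

namespace Cfsg.Agent.Transfer.PQ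

open Cfsg Module Ward
open scoped commutatorElement TensorProduct Pointwise

universe u uA

variable {A : Type uA} [Group A] [Finite A] {p o : ℕ} {σ : A}

/-- Fixed-point-freeness passes to quotients. -/
theorem IsPQ.fpf_quot (h : IsPQ p o σ) {H : Type*} [Group H] [Finite H] (φ : A →* MulAut H)
    (hp : ¬ p ∣ Nat.card H) (ho : ¬ o ∣ Nat.card H) (hfpf : ∀ x, (∀ a, φ a x = x) → x = 1) (N : Subgroup H)
    [N.Normal] (hN : ∀ a, N.map (φ a).toMonoidHom = N) (X : H ⧸ N)
    (hX : ∀ a, FittingReduction.quotAct φ N hN a X = X) : X = 1 := by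
  obtain ⟨x, rfl⟩ := QuotientGroup.mk'_surjective N X
  obtain ⟨n, hn, hfix⟩ := h.lift_all φ hp ho N (fun a n hn => (hN a).le ⟨n, hn, rfl⟩) (x := x)
    fun a => QuotientGroup.eq.mp (hX a).symm
  refine (QuotientGroup.eq_one_iff x).mpr ?_
  rw [eq_inv_of_mul_eq_one_left (hfpf _ hfix)]
  exact N.inv_mem hn

/-- An invariant Sylow subgroup. -/
theorem IsPQ.exists_sylow (h : IsPQ p o σ) {H : Type*} [Group H] [Finite H] (φ : A →* MulAut H)
    (hp : ¬ p ∣ Nat.card H) (ho : ¬ o ∣ Nat.card H) (r : ℕ) [Fact r.Prime] :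
    ∃ P : Sylow r H, ∀ a, ∀ x ∈ (P : Subgroup H), φ a x ∈ (P : Subgroup H) := by
  classical
  haveI := Fact.mk h.hp
  haveI := Fact.mk h.ho
  letI : MulDistribMulAction A H := MulDistribMulAction.compHom H φ
  have hnp : ¬ p ∣ Nat.card (Sylow r H) := fun hd => hp (hd.trans
    ((Sylow.card_dvd_index (default : Sylow r H)).trans (Subgroup.index_dvd_card _)))
  obtain ⟨P₀, hP₀'⟩ := (h.pgroup_zpowers h.hσ).nonempty_fixed_point_of_prime_not_dvd_card (Sylow r H) hnp
  have hP₀ : σ • P₀ = P₀ := hP₀' ⟨σ, Subgroup.mem_zpowers σ⟩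
  -- conjugation commutes with the operators
  have hconj : ∀ (a : A) (g : H) (P : Sylow r H), a • (g • P) = (φ a g) • (a • P) := fun a g P => by
    refine Sylow.ext ?_
    simp only [Sylow.coe_subgroup_smul, Sylow.pointwise_smul_def]
    ext x
    simp only [Subgroup.mem_pointwise_smul_iff_inv_smul_mem]
    show (MulAut.conj g)⁻¹ • (a⁻¹ • x) ∈ (P : Subgroup H) ↔ a⁻¹ • ((MulAut.conj (φ a g))⁻¹ • x) ∈ (P : Subgroup H)
    show (MulAut.conj g)⁻¹ (φ a⁻¹ x) ∈ (P : Subgroup H) ↔ φ a⁻¹ ((MulAut.conj (φ a g))⁻¹ x) ∈ (P : Subgroup H)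
    rw [show φ a⁻¹ ((MulAut.conj (φ a g))⁻¹ x) = (MulAut.conj g)⁻¹ (φ a⁻¹ x) by
      simp [MulAut.conj_inv_apply]]
  let C : Subgroup H := (φ σ).toMonoidHom.eqLocus (MonoidHom.id H)
  let F : Set (Sylow r H) := {P | σ • P = P}
  have hF : F = MulAction.orbit C P₀ := by
    ext P
    constructor
    · intro hP
      obtain ⟨g, hg⟩ := MulAction.exists_smul_eq H P₀ P
      have hg1 : (φ σ g) • P₀ = g • P₀ := by
        conv_lhs => rw [← hP₀, ← hconj, hg]
        rw [hg]; exact hP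
      have hmem : g⁻¹ * φ σ g ∈ MulAction.stabilizer H P₀ := by
        rw [MulAction.mem_stabilizer_iff, mul_smul, hg1, inv_smul_smul]
      obtain ⟨n, hn, hfix⟩ := lift_one h.hp h.hσ φ _ (fun hd => hp (hd.trans (Subgroup.card_subgroup_dvd_card _)))
        (fun n hn => by
          rw [MulAction.mem_stabilizer_iff] at hn ⊢
          conv_lhs => rw [← hP₀]
          rw [← hconj, hn, hP₀]) hmem
      refine ⟨⟨g * n, hfix⟩, ?_⟩
      show (g * n) • P₀ = P
      rw [mul_smul, show n • P₀ = P₀ from hn, hg]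
    · rintro ⟨⟨c, hc⟩, rfl⟩
      show σ • (c • P₀) = c • P₀
      rw [hconj, show φ σ c = c from hc, hP₀]
  have hcardF : Nat.card F ∣ Nat.card H := by
    rw [hF, Nat.card_congr (MulAction.orbitEquivQuotientStabilizer C P₀)]
    exact (Subgroup.index_dvd_card _).trans (Subgroup.card_subgroup_dvd_card C)
  obtain ⟨τ, hτ⟩ := h.exists_outside
  have hτF : ∀ a : A, ∀ P ∈ F, a • P ∈ F := fun a P (hP : σ • P = P) => by
    show σ • (a • P) = a • P
    obtain ⟨i, hi⟩ := (IsOfFinOrder.mem_powers_iff_mem_zpowers (isOfFinOrder_of_finite σ)).mpr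
      (h.normal.conj_mem σ (Subgroup.mem_zpowers σ) a⁻¹)
    rw [← mul_smul, show σ * a = a * σ ^ i by rw [show σ ^ i = a⁻¹ * σ * a⁻¹⁻¹ from hi, inv_inv]; group, mul_smul]
    congr 1
    clear hi
    induction i with
    | zero => rw [pow_zero, one_smul]
    | succ i ih => rw [pow_succ', mul_smul, ih, hP]
  letI : MulAction (Subgroup.zpowers τ) F :=
    { smul := fun g P => ⟨(g : A) • (P : Sylow r H), hτF _ _ P.2⟩
      one_smul := fun P => Subtype.ext (one_smul A _)
      mul_smul := fun g g' P => Subtype.ext (mul_smul (g : A) g' _) }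
  obtain ⟨⟨P, hPF⟩, hP⟩ := (h.pgroup_zpowers (h.orderOf_outside hτ)).nonempty_fixed_point_of_prime_not_dvd_card F
    fun hd => ho (hd.trans hcardF)
  have hPτ : τ • P = P := congrArg Subtype.val (hP ⟨τ, Subgroup.mem_zpowers τ⟩)
  refine ⟨P, fun a x hx => ?_⟩
  have ha : a • P = P := ((h.top_of_mem (S := MulAction.stabilizer A P) hPF (show τ ∈ _ from hPτ) hτ).ge
    (Subgroup.mem_top a) : a ∈ MulAction.stabilizer A P)
  have h' := congrArg (fun S : Sylow r H => (S : Subgroup H)) ha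
  simp only [Sylow.pointwise_smul_def] at h'
  exact h'.le ⟨x, hx, rfl⟩

/-- The fixed points of `σ` form a nilpotent group. -/
theorem IsPQ.nilpotent_fixed (h : IsPQ p o σ) {H : Type*} [Group H] [Finite H] (φ : A →* MulAut H)
    (hfpf : ∀ x, (∀ a, φ a x = x) → x = 1) :
    Group.IsNilpotent ((φ σ).toMonoidHom.eqLocus (MonoidHom.id H) : Subgroup H) := by
  set C : Subgroup H := (φ σ).toMonoidHom.eqLocus (MonoidHom.id H)
  have hCA : ∀ a, ∀ z ∈ C, φ a z ∈ C := fun a z (hz : φ σ z = z) => by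
    show φ σ (φ a z) = φ a z
    obtain ⟨i, hi⟩ := (IsOfFinOrder.mem_powers_iff_mem_zpowers (isOfFinOrder_of_finite σ)).mpr
      (h.normal.conj_mem σ (Subgroup.mem_zpowers σ) a⁻¹)
    rw [← MulAut.mul_apply, ← map_mul, show σ * a = a * σ ^ i by
      rw [show σ ^ i = a⁻¹ * σ * a⁻¹⁻¹ from hi, inv_inv]; group, map_mul, MulAut.mul_apply]
    congr 1
    clear hi
    induction i with
    | zero => simp
    | succ i ih => rw [pow_succ', map_mul, MulAut.mul_apply, ih, hz]
  obtain ⟨τ, hτ⟩ := h.exists_outside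
  refine Core.ThompsonFPF.fpf_aux h.ho _ le_rfl (resAct φ C hCA τ) (fun z hz => Subtype.ext ?_) (fun z => ?_)
  · refine hfpf _ fun a => ?_
    let S : Subgroup A :=
      { carrier := {c | φ c (z : H) = z}
        one_mem' := by show φ 1 (z : H) = z; simp
        mul_mem' := fun {u v} (hu : φ u (z : H) = z) (hv : φ v (z : H) = z) => by
          show φ (u * v) (z : H) = z; rw [map_mul, MulAut.mul_apply, hv, hu]
        inv_mem' := fun {u} (hu : φ u (z : H) = z) => by
          show φ u⁻¹ (z : H) = z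
          conv_lhs => rw [← hu]
          rw [map_inv, MulAut.inv_apply_self] }
    exact ((h.top_of_mem (S := S) z.2 (show τ ∈ S from congrArg Subtype.val hz) hτ).ge (Subgroup.mem_top a) : a ∈ S)
  · rw [Core.ThompsonFPF.iterate_eq_pow]
    show ((resAct φ C hCA τ) ^ o) z = z
    rw [← map_pow, ← h.orderOf_outside hτ, pow_orderOf_eq_one, map_one]
    rfl

variable {K : Type*} [Field K] [IsAlgClosed K] {W : Type*} [AddCommGroup W] [Module K W]
  [FiniteDimensional K W] {H : Type*} [Group H] [Finite H]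

/-- The local step. -/
theorem IsPQ.le_centralizer (h : IsPQ p o σ) {q r : ℕ} [Fact q.Prime] [Fact r.Prime] (hqr : q ≠ r)
    (hpq : p ≠ q) (hoq : o ≠ q) (hpr : p ≠ r) (hor : o ≠ r) (hqK : (q : K) ≠ 0) (hpK : (p : K) ≠ 0)
    (hoK : (o : K) ≠ 0) [Fintype A] (α : A →* MulAut H) (ρ : H →* Module.End K W) (hρ : Function.Injective ρ)
    (T : A →* Module.End K W) (hT : ∀ a h, T a * ρ h = ρ (α a h) * T a) (hsum : ∑ a, T a = 0)
    (hfpf : ∀ x, (∀ a, α a x = x) → x = 1)
    (Q R : Subgroup H) (hQ : IsPGroup q Q) (hR : IsPGroup r R) (hQA : ∀ a, ∀ x ∈ Q, α a x ∈ Q)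
    (hRA : ∀ a, ∀ x ∈ R, α a x ∈ R) (hRQ : R ≤ Subgroup.normalizer (Q : Set H)) :
    R ≤ Subgroup.centralizer (Q : Set H) := by
  classical
  have hnil := h.nilpotent_fixed α hfpf
  by_contra hcon
  obtain ⟨R₀, ⟨hR₀R, hR₀A, hR₀Q⟩, hR₀min⟩ := (Set.toFinite
    {S : Subgroup H | S ≤ R ∧ (∀ a, ∀ x ∈ S, α a x ∈ S) ∧ ¬ S ≤ Subgroup.centralizer (Q : Set H)}).exists_minimal
    ⟨R, le_rfl, hRA, hcon⟩
  have hsmall : ∀ S : Subgroup H, S ≤ R₀ → S ≠ R₀ → (∀ a, ∀ x ∈ S, α a x ∈ S) →
      S ≤ Subgroup.centralizer (Q : Set H) := fun S h1 h2 h3 => by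
    by_contra h
    exact h2 (le_antisymm h1 (hR₀min ⟨h1.trans hR₀R, h3, h⟩ h1))
  have hR₀ : IsPGroup r R₀ := hR.to_le hR₀R
  haveI : Group.IsNilpotent R₀ := hR₀.isNilpotent
  have hR₀1 : R₀ ≠ ⊥ := fun h => hR₀Q (by rw [h]; exact bot_le)
  haveI : Nontrivial R₀ := (Subgroup.nontrivial_iff_ne_bot R₀).mpr hR₀1
  have hder : ⁅R₀, R₀⁆ ≤ Subgroup.centralizer (Q : Set H) := by
    refine hsmall _ (Subgroup.commutator_le_self R₀) ?_ ?_
    · intro h
      refine (Group.IsSolvable.commutator_lt_top_of_nontrivial R₀).ne ?_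
      refine Subgroup.map_injective R₀.subtype_injective ?_
      rw [Subgroup.map_subtype_commutator, h, ← MonoidHom.range_eq_map, Subgroup.range_subtype]
    · intro a x hx
      have h : ⁅R₀, R₀⁆.map (α a).toMonoidHom ≤ ⁅R₀, R₀⁆ := by
        rw [Subgroup.map_commutator, FittingReduction.map_eq_of_forall α hR₀A]
      exact h ⟨x, hx, rfl⟩
  set αR := resAct α R₀ hR₀A with hαR
  -- a minimal invariant subgroup of `Q` moved by `R₀`
  obtain ⟨Q₀, ⟨hQ₀Q, hQ₀A, hQ₀R, hQ₀⟩, hQ₀min⟩ := (Set.toFinite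
    {S : Subgroup H | S ≤ Q ∧ (∀ a, ∀ x ∈ S, α a x ∈ S) ∧ R₀ ≤ Subgroup.normalizer (S : Set H) ∧
      ¬ R₀ ≤ Subgroup.centralizer (S : Set H)}).exists_minimal
    ⟨Q, le_rfl, hQA, hR₀R.trans hRQ, hR₀Q⟩
  let κ : R₀ →* MulAut Q₀ := Q₀.normalizerMonoidHom.comp (Subgroup.inclusion hQ₀R)
  have hκ : ∀ (x : R₀) (y : Q₀), ((κ x y : Q₀) : H) = x * y * (x : H)⁻¹ := fun x y => rfl
  have hcompat : ∀ (a : A) (x : R₀) (y : Q₀),
      resAct α Q₀ hQ₀A a (κ x y) = κ (αR a x) (resAct α Q₀ hQ₀A a y) := fun a x y => Subtype.ext (by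
    show α a ((x : H) * y * (x : H)⁻¹) = α a x * α a y * (α a x)⁻¹
    rw [map_mul, map_mul, map_inv])
  have hRσ : (∀ x, αR σ x = x) ∨ ∀ u, κ (αR σ u) = κ u → κ u = 1 := by
    by_cases hall : ∀ x, αR σ x = x
    · exact Or.inl hall
    right
    intro u hu
    let F : Subgroup H :=
      { carrier := {y | y ∈ R₀ ∧ α σ y = y}
        one_mem' := ⟨R₀.one_mem, map_one _⟩
        mul_mem' := fun {u v} hu hv => ⟨R₀.mul_mem hu.1 hv.1, by rw [map_mul, hu.2, hv.2]⟩
        inv_mem' := fun {u} hu => ⟨R₀.inv_mem hu.1, by rw [map_inv, hu.2]⟩ }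
    have hFc := hsmall F (fun y hy => hy.1) (fun hF => hall fun x => Subtype.ext (hF.ge x.2).2) fun b y hy => by
      refine ⟨hR₀A b y hy.1, ?_⟩
      obtain ⟨i, hi⟩ := (IsOfFinOrder.mem_powers_iff_mem_zpowers (isOfFinOrder_of_finite σ)).mpr
        (h.normal.conj_mem σ (Subgroup.mem_zpowers σ) b⁻¹)
      rw [← MulAut.mul_apply, ← map_mul, show σ * b = b * σ ^ i by
        rw [show σ ^ i = b⁻¹ * σ * b⁻¹⁻¹ from hi, inv_inv]; group, map_mul, MulAut.mul_apply]
      congr 1
      clear hi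
      induction i with
      | zero => simp
      | succ i ih => rw [pow_succ', map_mul, MulAut.mul_apply, ih, hy.2]
    obtain ⟨n, hn, hfix⟩ := lift_one h.hp h.hσ αR κ.ker
      (fun hd => not_dvd_pgroup Fact.out h.hp hpr hR₀ (hd.trans (Subgroup.card_subgroup_dvd_card _)))
      (fun w hw => by
        rw [MonoidHom.mem_ker]
        refine MulEquiv.ext fun z => ?_
        obtain ⟨z', rfl⟩ := (resAct α Q₀ hQ₀A σ).surjective z
        rw [← hcompat, show κ w = 1 from hw]; rfl)
      (x := u) (by rw [MonoidHom.mem_ker, map_mul, map_inv, hu, inv_mul_cancel])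
    have h1 : κ (u * n) = 1 := MulEquiv.ext fun z => Subtype.ext (by
      rw [hκ, MulAut.one_apply]
      exact mul_inv_eq_of_eq_mul (Subgroup.mem_centralizer_iff.mp (hFc ⟨(u * n).2, congrArg Subtype.val hfix⟩) _
        (hQ₀Q z.2)).symm)
    rwa [map_mul, show κ n = 1 from hn, mul_one] at h1
  have hd : Data p o q r σ (resAct α Q₀ hQ₀A) αR κ (ρ.comp Q₀.subtype) (ρ.comp R₀.subtype) T :=
    { hA := h, hq := Fact.out, hr := Fact.out, hqr := hqr, hpq := hpq, hoq := hoq, hpr := hpr, hor := hor,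
      hqK := hqK, hpK := hpK, hoK := hoK, isQ := hQ.to_le hQ₀Q, isR := hR₀,
      inj := hρ.comp Q₀.subtype_injective
      compat := hcompat
      compatR := fun x y => by
        show ρ (x : H) * ρ (y : H) = ρ ((x : H) * y * (x : H)⁻¹) * ρ (x : H)
        rw [← map_mul, ← map_mul, inv_mul_cancel_right]
      compatA := fun a y => hT a y
      fpfQ := fun y hy => Subtype.ext (hfpf _ fun a => congrArg Subtype.val (hy a))
      fpfR := fun x hx => Subtype.ext (hfpf _ fun a => congrArg Subtype.val (hx a))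
      commute := fun hx y hy x => Subtype.ext (by
        rw [hκ]
        refine mul_inv_eq_of_eq_mul ?_
        haveI := hnil
        have hc := OddLocal.commute_of_coprime_orderOf
          (x := (⟨x, congrArg Subtype.val (hx x)⟩ : (α σ).toMonoidHom.eqLocus (MonoidHom.id H)))
          (y := ⟨y, congrArg Subtype.val hy⟩) (by
            rw [← Subgroup.orderOf_coe, ← Subgroup.orderOf_coe]
            obtain ⟨i, hi⟩ := IsPGroup.iff_orderOf.mp hR₀ x
            obtain ⟨j, hj⟩ := IsPGroup.iff_orderOf.mp (hQ.to_le hQ₀Q) y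
            show (orderOf (x : H)).Coprime (orderOf (y : H))
            rw [Subgroup.orderOf_coe, Subgroup.orderOf_coe, hi, hj]
            exact Nat.Coprime.pow _ _ ((Nat.coprime_primes Fact.out Fact.out).mpr (Ne.symm hqr)))
        exact congrArg Subtype.val hc.eq) }
  refine hd.false_of_minimal hsum ?_ hRσ ?_ ?_
  · by_contra h
    push Not at h
    refine hQ₀ fun x hx => Subgroup.mem_centralizer_iff.mpr fun y hy => ?_
    exact (mul_inv_eq_iff_eq_mul.mp (congrArg Subtype.val (h ⟨x, hx⟩ ⟨y, hy⟩))).symm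
  · intro M hM hMA hMR x y hy
    refine Subtype.ext ?_
    have hle : M.map Q₀.subtype ≤ Q₀ := Subgroup.map_subtype_le M
    by_contra hne
    refine hM (Subgroup.map_injective Q₀.subtype_injective ?_)
    rw [← MonoidHom.range_eq_map, Subgroup.range_subtype]
    refine le_antisymm hle (hQ₀min ⟨hle.trans hQ₀Q, ?_, ?_, ?_⟩ hle)
    · rintro a _ ⟨z, hz, rfl⟩
      exact ⟨resAct α Q₀ hQ₀A a z, hMA a z hz, rfl⟩
    · intro g hg
      refine Subgroup.mem_normalizer_iff.mpr fun z => ⟨?_, ?_⟩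
      · rintro ⟨w, hw, rfl⟩
        exact ⟨κ ⟨g, hg⟩ w, hMR _ w hw, rfl⟩
      · rintro ⟨w, hw, hwe⟩
        refine ⟨κ ⟨g, hg⟩⁻¹ w, hMR _ w hw, ?_⟩
        show g⁻¹ * (w : H) * g⁻¹⁻¹ = z
        rw [show (w : H) = g * z * g⁻¹ from hwe]; group
    · intro h
      refine hne ?_
      have h2 := Subgroup.mem_centralizer_iff.mp (h x.2) (y : H) ⟨y, hy, rfl⟩
      rw [hκ]
      exact mul_inv_eq_of_eq_mul h2.symm
  · intro x x' y
    have hc : (⁅x, x'⁆ : R₀) ∈ κ.ker := by
      refine MulEquiv.ext fun z => Subtype.ext ?_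
      rw [hκ]
      refine mul_inv_eq_of_eq_mul ?_
      exact (Subgroup.mem_centralizer_iff.mp (hder (by
        rw [show ((⁅x, x'⁆ : R₀) : H) = ⁅(x : H), (x' : H)⁆ from map_commutatorElement R₀.subtype x x']
        exact Subgroup.commutator_mem_commutator x.2 x'.2)) _ (hQ₀Q z.2)).symm
    rw [MonoidHom.mem_ker, map_commutatorElement, commutatorElement_eq_one_iff_mul_comm] at hc
    rw [← MulAut.mul_apply, hc, MulAut.mul_apply]

/-- If `G/C_G(V)` is nilpotent for every minimal invariant normal subgroup `V` in all sections, some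
term of the lower central series is nilpotent. -/
theorem IsPQ.exists_nilpotent_term (hA : IsPQ p o σ)
    (hloc : ∀ (G : Type u) [Group G] [Finite G], Group.IsSolvable G → ∀ φ : A →* MulAut G,
      ¬ p ∣ Nat.card G → ¬ o ∣ Nat.card G → (∀ x, (∀ a, φ a x = x) → x = 1) →
      ∀ (V : Subgroup G) [V.Normal], V ≠ ⊥ → IsMulCommutative V → (∀ a, ∀ x ∈ V, φ a x ∈ V) →
        (∀ W : Subgroup G, W.Normal → (∀ a, ∀ x ∈ W, φ a x ∈ W) → W ≤ V → W ≠ ⊥ → W = V) →
        ∃ k, (⊤ : Subgroup G).lowerCentralSeries k ≤ Subgroup.centralizer (V : Set G)) :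
    ∀ (n : ℕ) (G : Type u) [Group G] [Finite G], Nat.card G ≤ n → Group.IsSolvable G →
      ∀ φ : A →* MulAut G, ¬ p ∣ Nat.card G → ¬ o ∣ Nat.card G → (∀ x, (∀ a, φ a x = x) → x = 1) →
        ∃ k, Group.IsNilpotent ((⊤ : Subgroup G).lowerCentralSeries k : Subgroup G) := by
  intro n
  induction n with
  | zero => intro G _ _ h; exact absurd h (by simp [Nat.card_pos.ne'])
  | succ n ih =>
  intro G _ _ hcard hsol φ hp ho hfpf
  classical
  rcases subsingleton_or_nontrivial G with hs | hnt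
  · exact ⟨0, inferInstance⟩
  haveI := hsol
  obtain ⟨V, ⟨hVn, hVφ, hV1⟩, hVmin⟩ := (Set.toFinite
    {V : Subgroup G | V.Normal ∧ (∀ a, ∀ x ∈ V, φ a x ∈ V) ∧ V ≠ ⊥}).exists_minimal
    ⟨⊤, inferInstance, fun _ _ _ => Subgroup.mem_top _, top_ne_bot⟩
  haveI := hVn
  have hmin : ∀ W : Subgroup G, W.Normal → (∀ a, ∀ x ∈ W, φ a x ∈ W) → W ≤ V → W ≠ ⊥ → W = V :=
    fun W h1 h2 h3 h4 => le_antisymm h3 (hVmin ⟨h1, h2, h4⟩ h3)
  have hVc : IsMulCommutative V := by
    rw [← Subgroup.commutator_self_eq_bot_iff]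
    by_contra hne
    have heq : ⁅V, V⁆ = V := hmin _ inferInstance (fun a x hx => by
      have h : ⁅V, V⁆.map (φ a).toMonoidHom ≤ ⁅V, V⁆ := by
        rw [Subgroup.map_commutator, FittingReduction.map_eq_of_forall φ hVφ]
      exact h ⟨x, hx, rfl⟩) (Subgroup.commutator_le_self V) hne
    haveI : Nontrivial V := (Subgroup.nontrivial_iff_ne_bot V).mpr hV1
    refine (Group.IsSolvable.commutator_lt_top_of_nontrivial V).ne ?_
    refine Subgroup.map_injective V.subtype_injective ?_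
    rw [Subgroup.map_subtype_commutator, heq, ← MonoidHom.range_eq_map, Subgroup.range_subtype]
  obtain ⟨k, hk⟩ := hloc G hsol φ hp ho hfpf V hV1 hVc hVφ hmin
  have hmap := FittingReduction.map_eq_of_forall φ hVφ
  have hqlt : Nat.card (G ⧸ V) < Nat.card G := by
    rw [Subgroup.card_eq_card_quotient_mul_card_subgroup V]
    exact lt_mul_of_one_lt_right Nat.card_pos ((Subgroup.one_lt_card_iff_ne_bot V).mpr hV1)
  obtain ⟨m, hm⟩ := ih (G ⧸ V) (by omega) inferInstance (FittingReduction.quotAct φ V hmap)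
    (fun h => hp (h.trans (Dvd.intro _ (Subgroup.card_eq_card_quotient_mul_card_subgroup V).symm)))
    (fun h => ho (h.trans (Dvd.intro _ (Subgroup.card_eq_card_quotient_mul_card_subgroup V).symm)))
    (hA.fpf_quot φ hp ho hfpf V hmap)
  refine ⟨max k m, ?_⟩
  set L := (⊤ : Subgroup G).lowerCentralSeries (max k m)
  have hLm : L ≤ (⊤ : Subgroup G).lowerCentralSeries m :=
    Subgroup.lowerCentralSeries_antitone _ (le_max_right k m)
  have hLk : L ≤ Subgroup.centralizer (V : Set G) :=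
    le_trans (Subgroup.lowerCentralSeries_antitone _ (le_max_left k m)) hk
  let f : L →* ((⊤ : Subgroup (G ⧸ V)).lowerCentralSeries m : Subgroup (G ⧸ V)) :=
    ((QuotientGroup.mk' V).comp L.subtype).codRestrict _ fun x => by
      rw [← Subgroup.map_top_of_surjective (QuotientGroup.mk' V) (QuotientGroup.mk'_surjective V),
        ← Subgroup.map_lowerCentralSeries]
      exact ⟨x, hLm x.2, rfl⟩
  haveI := hm
  refine Subgroup.isNilpotent_of_ker_le_center f fun x hx => Subgroup.mem_center_iff.mpr fun y => ?_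
  have hxV : (x : G) ∈ V := (QuotientGroup.eq_one_iff _).mp (congrArg Subtype.val hx)
  exact Subtype.ext (Subgroup.mem_centralizer_iff.mp (hLk y.2) x hxV).symm

/-- Fitting height at most two. -/
theorem IsPQ.fitting_height_le_two {A : Type uA} [Group A] [Finite A] {p o : ℕ} {σ : A} (h : IsPQ p o σ)
    {G : Type u} [Group G] [Finite G] (hG : Group.IsSolvable G) (φ : A →* MulAut G)
    (hpG : ¬ p ∣ Nat.card G) (hoG : ¬ o ∣ Nat.card G) (hfpf : ∀ g : G, (∀ a, φ a g = g) → g = 1) :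
    ∃ k, Group.IsNilpotent ((⊤ : Subgroup G).lowerCentralSeries k : Subgroup G) := by
  classical
  refine h.exists_nilpotent_term ?_ (Nat.card G) G le_rfl hG φ hpG hoG hfpf
  intro G _ _ hG φ hpG hoG hfpf V _ hV1 hVc hVA hmin
  haveI := hG
  haveI := Fintype.ofFinite A
  obtain ⟨ℓ, hℓ, hℓV⟩ := Nat.exists_prime_and_dvd (mt Subgroup.card_eq_one.mp hV1)
  haveI := Fact.mk hℓ
  haveI := hVc
  letI : CommGroup V := { (inferInstance : Group V) with mul_comm := hVc.1.1 }
  have hVe : ∀ v : V, v ^ ℓ = 1 := by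
    let f : V →* V := powMonoidHom ℓ
    have hker : (f.ker).map V.subtype = V := by
      refine hmin _ ?_ ?_ (Subgroup.map_subtype_le _) ?_
      · haveI : (f.ker).Characteristic := Subgroup.characteristic_iff_comap_eq.mpr fun e => by
          ext v
          simp only [Subgroup.mem_comap, MonoidHom.mem_ker, f, powMonoidHom_apply, MulEquiv.coe_toMonoidHom,
            ← map_pow, map_eq_one_iff e e.injective]
        infer_instance
      · rintro a _ ⟨v, hv, rfl⟩
        refine ⟨resAct φ V hVA a v, ?_, rfl⟩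
        show (resAct φ V hVA a v) ^ ℓ = 1
        rw [← map_pow, show v ^ ℓ = 1 from hv, map_one]
      · intro hb
        rw [Subgroup.map_eq_bot_iff_of_injective _ V.subtype_injective] at hb
        obtain ⟨v, hv⟩ := exists_prime_orderOf_dvd_card' ℓ hℓV
        have : v = 1 := (Subgroup.eq_bot_iff_forall _).mp hb v (show v ^ ℓ = 1 by rw [← hv, pow_orderOf_eq_one])
        rw [this, orderOf_one] at hv
        exact hℓ.ne_one hv.symm
    intro v
    obtain ⟨w, hw, he⟩ := hker.ge v.2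
    rw [← show w = v from Subtype.ext he]
    exact hw
  letI : Module (ZMod ℓ) (Additive V) := ModuleBC.modOfExp hVe
  haveI : Finite (Additive V) := inferInstanceAs (Finite V)
  haveI : FiniteDimensional (ZMod ℓ) (Additive V) := Module.Finite.of_finite
  set C := Subgroup.centralizer (V : Set G) with hC
  have hCA : ∀ a, ∀ c ∈ C, φ a c ∈ C := fun a c hc => Subgroup.mem_centralizer_iff.mpr fun v hv => by
    have h := congrArg (φ a) (Subgroup.mem_centralizer_iff.mp hc _ (hVA a⁻¹ v hv))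
    rwa [map_mul, map_mul, map_inv, MulAut.apply_inv_self] at h
  have hCmap := FittingReduction.map_eq_of_forall φ hCA
  set α := FittingReduction.quotAct φ C hCmap with hα
  let cj : (G ⧸ C) →* MulAut V := QuotientGroup.lift C (MulAut.conjNormal (H := V)) (by
    intro c hc
    refine MulEquiv.ext fun v => Subtype.ext ?_
    rw [MulAut.conjNormal_apply, MulAut.one_apply,
      ← Subgroup.mem_centralizer_iff.mp hc v v.2, mul_inv_cancel_right])
  let ρ := (ModuleBC.bcRep ℓ).comp cj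
  let T := (ModuleBC.bcRep ℓ).comp (resAct φ V hVA)
  have hρ : Function.Injective ρ := (ModuleBC.bcRep_injective ℓ).comp ((injective_iff_map_eq_one cj).mpr fun X hX => by
    obtain ⟨g, rfl⟩ := QuotientGroup.mk'_surjective C X
    refine (QuotientGroup.eq_one_iff g).mpr (Subgroup.mem_centralizer_iff.mpr fun v hv => ?_)
    have h2 := congrArg (fun e : MulAut V => ((e ⟨v, hv⟩ : V) : G)) hX
    exact (mul_inv_eq_iff_eq_mul.mp h2).symm)
  have hTρ : ∀ a h, T a * ρ h = ρ (α a h) * T a := fun a h => by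
    obtain ⟨g, rfl⟩ := QuotientGroup.mk'_surjective C h
    show ModuleBC.bcRep ℓ _ * ModuleBC.bcRep ℓ _ = ModuleBC.bcRep ℓ _ * ModuleBC.bcRep ℓ _
    rw [← map_mul, ← map_mul]
    congr 1
    refine MulEquiv.ext fun v => Subtype.ext ?_
    show φ a (g * (v : G) * g⁻¹) = φ a g * φ a v * (φ a g)⁻¹
    rw [map_mul, map_mul, map_inv]
  have hsum : ∑ a, T a = 0 := by
    have h1 : ∑ a, ModuleBC.toEnd ℓ (resAct φ V hVA a) = 0 := by
      refine LinearMap.ext fun u => ?_
      rw [LinearMap.sum_apply, LinearMap.zero_apply]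
      obtain ⟨x, hx⟩ := Additive.ofMul.surjective (∑ a, ModuleBC.toEnd ℓ (resAct φ V hVA a) u)
      rw [← hx]
      have : x = 1 := Subtype.ext (hfpf _ fun c => by
        refine congrArg Subtype.val (Additive.ofMul.injective (?_ : Additive.ofMul (resAct φ V hVA c x) = _))
        rw [← ModuleBC.toEnd_apply ℓ, hx, map_sum]
        refine Fintype.sum_equiv (Equiv.mulLeft c) _ _ fun a => ?_
        rw [← Module.End.mul_apply, ← map_mul, ← map_mul]; rfl)
      rw [this, ofMul_one]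
    have := congrArg (Module.End.baseChangeHom (ZMod ℓ) (ModuleBC.Kbar ℓ) (Additive V)) h1
    rw [map_sum, map_zero] at this
    exact this
  have hdvdH : ∀ {n : ℕ}, ¬ n ∣ Nat.card G → ¬ n ∣ Nat.card (G ⧸ C) := fun hn h' =>
    hn (h'.trans (Dvd.intro _ (Subgroup.card_eq_card_quotient_mul_card_subgroup C).symm))
  have hpH := hdvdH hpG
  have hoH := hdvdH hoG
  have hfpfH := h.fpf_quot φ hpG hoG hfpf C hCmap
  have hnilH : Group.IsNilpotent (G ⧸ C) := by
    refine FittingReduction.nilpotent_of_centralizes α (ℓ := ℓ) ?_ (fun r _ => h.exists_sylow α hpH hoH r) ?_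
    · set N := (pCore ℓ (G ⧸ C)).comap (QuotientGroup.mk' C) with hN
      haveI : N.Normal := Subgroup.Normal.comap inferInstance _
      have hVN : V ⊓ Subgroup.centralizer (N : Set G) = V := by
        refine hmin _ inferInstance ?_ inf_le_left ?_
        · rintro a w ⟨hw1, hw2⟩
          refine ⟨hVA a w hw1, Subgroup.mem_centralizer_iff.mpr fun k hk => ?_⟩
          have hk' : φ a⁻¹ k ∈ N := by
            show α a⁻¹ (QuotientGroup.mk' C k) ∈ pCore ℓ (G ⧸ C)
            exact (Subgroup.characteristic_iff_map_eq.mp inferInstance (α a⁻¹)).le ⟨_, hk, rfl⟩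
          have := congrArg (φ a) (Subgroup.mem_centralizer_iff.mp hw2 _ hk')
          rwa [map_mul, map_mul, map_inv, MulAut.apply_inv_self] at this
        · letI : MulAction (G ⧸ C) V := MulAction.compHom V cj
          have h1 : (1 : V) ∈ MulAction.fixedPoints (pCore ℓ (G ⧸ C)) V := fun x => map_one (cj (x : G ⧸ C))
          obtain ⟨v, hv, hv1⟩ := (Core.isPGroup_pCore ℓ (G ⧸ C)).exists_fixed_point_of_prime_dvd_card_of_fixed_point
            V hℓV h1
          refine fun hb => hv1 (Subtype.ext ((Subgroup.eq_bot_iff_forall _).mp hb (v : G)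
            ⟨v.2, Subgroup.mem_centralizer_iff.mpr fun k hk => ?_⟩)).symm
          have h2 := congrArg Subtype.val (hv ⟨QuotientGroup.mk' C k, hk⟩)
          exact mul_inv_eq_iff_eq_mul.mp h2
      rw [Subgroup.eq_bot_iff_forall]
      intro X hX
      obtain ⟨g, rfl⟩ := QuotientGroup.mk'_surjective C X
      exact (QuotientGroup.eq_one_iff g).mpr (Subgroup.mem_centralizer_iff.mpr fun v hv =>
        ((Subgroup.mem_centralizer_iff.mp (hVN.ge hv).2) g hX).symm)
    · intro q r _ _ hqr hqℓ R hR hRA x hx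
      by_cases hq1 : pCore q (G ⧸ C) = ⊥
      · rw [hq1]
        exact Subgroup.mem_centralizer_iff.mpr fun y hy => by rw [Subgroup.mem_bot.mp hy, one_mul, mul_one]
      by_cases hr1 : R = ⊥
      · rw [hr1, Subgroup.mem_bot] at hx
        rw [hx]; exact Subgroup.one_mem _
      have hne : ∀ {s : ℕ} [Fact s.Prime] {S : Subgroup (G ⧸ C)}, IsPGroup s S → S ≠ ⊥ → ∀ {m : ℕ},
          ¬ m ∣ Nat.card (G ⧸ C) → m ≠ s := by
        intro s _ S hS hS1 m hm e
        subst e
        obtain ⟨j, hj⟩ := IsPGroup.iff_card.mp hS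
        rcases Nat.eq_zero_or_pos j with rfl | hj0
        · rw [pow_zero, Subgroup.card_eq_one] at hj
          exact hS1 hj
        · exact hm ((hj ▸ dvd_pow_self m hj0.ne').trans (Subgroup.card_subgroup_dvd_card S))
      have hℓne : ∀ {m : ℕ}, m.Prime → ¬ m ∣ Nat.card G → (m : ModuleBC.Kbar ℓ) ≠ 0 := fun {m} hm hmG =>
        ModuleBC.natCast_ne_zero ℓ fun hd => hmG (by
          rw [← (Nat.prime_dvd_prime_iff_eq hℓ hm).mp hd]
          exact hℓV.trans (Subgroup.card_subgroup_dvd_card V))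
      refine h.le_centralizer hqr (hne (Core.isPGroup_pCore q (G ⧸ C)) hq1 hpH)
        (hne (Core.isPGroup_pCore q (G ⧸ C)) hq1 hoH) (hne hR hr1 hpH) (hne hR hr1 hoH)
        (ModuleBC.natCast_ne_zero ℓ fun hd => hqℓ ((Nat.prime_dvd_prime_iff_eq hℓ Fact.out).mp hd).symm)
        (hℓne h.hp hpG) (hℓne h.ho hoG) α ρ hρ T hTρ hsum hfpfH _ R
        (Core.isPGroup_pCore q (G ⧸ C)) hR
        (fun a y hy => (Subgroup.characteristic_iff_map_eq.mp inferInstance (α a)).le ⟨y, hy, rfl⟩) hRA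
        (Subgroup.normalizer_eq_top (pCore q (G ⧸ C)) ▸ le_top) hx
  obtain ⟨k, hk⟩ := Subgroup.nilpotent_iff_lowerCentralSeries.mp hnilH
  refine ⟨k, fun g hg => (QuotientGroup.eq_one_iff g).mp ?_⟩
  have : QuotientGroup.mk' C g ∈ (⊤ : Subgroup (G ⧸ C)).lowerCentralSeries k := by
    rw [← Subgroup.map_top_of_surjective (QuotientGroup.mk' C) (QuotientGroup.mk'_surjective C),
      ← Subgroup.map_lowerCentralSeries]
    exact ⟨g, hg, rfl⟩
  rwa [hk, Subgroup.mem_bot] at this


end Cfsg.Agent.Transfer.PQ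

namespace Cfsg.Agent.Transfer.PQ

/-- A non-abelian group of order `p·o` with `o < p` has a normal subgroup of order `p`. -/
theorem exists_isPQ {A : Type*} [Group A] [Finite A] {p o : ℕ} (hp : p.Prime) (ho : o.Prime) (hlt : o < p)
    (hcard : Nat.card A = p * o) (hna : ¬ IsMulCommutative A) : ∃ σ : A, IsPQ p o σ := by
  classical
  haveI := Fact.mk hp
  obtain ⟨σ, hσ⟩ := exists_prime_orderOf_dvd_card' p (hcard ▸ dvd_mul_right p o : p ∣ Nat.card A)
  refine ⟨σ, ⟨hp, ho, hlt.ne', hσ, ?_, hcard, ?_⟩⟩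
  · refine Subgroup.normal_of_index_eq_minFac_card ?_
    have h1 : (Subgroup.zpowers σ).index * p = o * p := by
      conv_lhs => rw [← hσ, ← Nat.card_zpowers, Subgroup.index_mul_card, hcard]
      exact mul_comm _ _
    rw [Nat.eq_of_mul_eq_mul_right hp.pos h1, hcard]
    refine le_antisymm ?_ (Nat.minFac_le_of_dvd ho.two_le (dvd_mul_left o p))
    have hne : p * o ≠ 1 := by nlinarith [hp.two_le, ho.two_le]
    rcases (Nat.Prime.dvd_mul (Nat.minFac_prime hne)).mp (Nat.minFac_dvd (p * o)) with h | h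
    · rw [(Nat.prime_dvd_prime_iff_eq (Nat.minFac_prime hne) hp).mp h]; exact hlt.le
    · rw [(Nat.prime_dvd_prime_iff_eq (Nat.minFac_prime hne) ho).mp h]
  · by_contra h
    push Not at h
    exact hna ⟨⟨h⟩⟩

end Cfsg.Agent.Transfer.PQ
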