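/-
Operators forming a symmetric group of degree three: characters of a normal abelian subgroup all of whose
translates are fixed by an involution are fixed by the whole group.
-/
import Cfsg.Agent.Transfer.PQMain

set_option autoImplicit false
set_option linter.style.haveILetI false
set_option linter.unusedSectionVars false
set_option maxSynthPendingDepth 4

namespace Cfsg.Agent.Transfer.S3

open PQ Ward
open scoped commutatorElement

universe uA

variable {A : Type uA} [Group A] [Finite A] {σ : A}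

theorem sigma_pow (h : IsPQ 3 2 σ) : σ ^ 3 = 1 := by rw [← h.hσ, pow_orderOf_eq_one]

theorem sq_outside (h : IsPQ 3 2 σ) {b : A} (hb : b ∉ Subgroup.zpowers σ) : b * b = 1 := by
  rw [← pow_two, ← h.orderOf_outside hb, pow_orderOf_eq_one]

/-- The relation between the two generators. -/
theorem rel (h : IsPQ 3 2 σ) {b : A} (hb : b ∉ Subgroup.zpowers σ) : σ * b = b * σ ^ 2 := by
  obtain ⟨i, hi⟩ := (IsOfFinOrder.mem_powers_iff_mem_zpowers (isOfFinOrder_of_finite σ)).mpr
    (h.normal.conj_mem σ (Subgroup.mem_zpowers σ) b⁻¹)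
  have hmod : σ ^ i = σ ^ (i % 3) := by rw [← h.hσ, pow_mod_orderOf]
  have hi' : σ ^ (i % 3) = b⁻¹ * σ * b⁻¹⁻¹ := hmod ▸ hi
  have key : σ * b = b * σ ^ (i % 3) := by rw [hi', inv_inv]; group
  have hlt := Nat.mod_lt i (show 3 > 0 by norm_num)
  interval_cases hk : i % 3
  · exfalso
    refine h.sigma_ne_one ?_
    rw [pow_zero, inv_inv] at hi'
    calc σ = b * (b⁻¹ * σ * b) * b⁻¹ := by group
      _ = 1 := by rw [← hi']; group
  · exfalso
    rw [pow_one] at key
    have hcen : Subgroup.center A = ⊤ := by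
      have h1 : Subgroup.centralizer ({σ} : Set A) = ⊤ := h.top_of_mem
        (Subgroup.mem_centralizer_iff.mpr fun y hy => by rw [Set.mem_singleton_iff.mp hy])
        (Subgroup.mem_centralizer_iff.mpr fun y hy => by rw [Set.mem_singleton_iff.mp hy]; exact key) hb
      have h2 : Subgroup.centralizer ({b} : Set A) = ⊤ := h.top_of_mem
        (Subgroup.mem_centralizer_iff.mpr fun y hy => by rw [Set.mem_singleton_iff.mp hy]; exact key.symm)
        (Subgroup.mem_centralizer_iff.mpr fun y hy => by rw [Set.mem_singleton_iff.mp hy]) hb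
      exact h.top_of_mem
        (Subgroup.mem_center_iff.mpr fun x => (Subgroup.mem_centralizer_iff.mp (h1.ge (Subgroup.mem_top x)) σ rfl).symm)
        (Subgroup.mem_center_iff.mpr fun x => (Subgroup.mem_centralizer_iff.mp (h2.ge (Subgroup.mem_top x)) b rfl).symm) hb
    obtain ⟨x, y, hxy⟩ := h.nonab
    exact hxy (Subgroup.mem_center_iff.mp (hcen.ge (Subgroup.mem_top y)) x)
  · exact key

/-- Products over `⟨σ⟩`. -/
theorem prod_three (h : IsPQ 3 2 σ) [Fintype (Subgroup.zpowers σ)] {M : Type*} [CommMonoid M] (f : A → M) :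
    ∏ a : Subgroup.zpowers σ, f a = f 1 * f σ * f (σ ^ 2) := by
  let e : Fin 3 ≃ Subgroup.zpowers σ := (finCongr h.hσ.symm).trans (finEquivZPowers (isOfFinOrder_of_finite σ))
  rw [← e.prod_comp (fun a => f a), Fin.prod_univ_three]
  have he : ∀ k : Fin 3, ((e k : Subgroup.zpowers σ) : A) = σ ^ (k : ℕ) := fun k => by
    show ((finEquivZPowers (isOfFinOrder_of_finite σ) (finCongr h.hσ.symm k) : Subgroup.zpowers σ) : A) = _
    rw [finEquivZPowers_apply]
    rfl
  rw [he, he, he, show ((0 : Fin 3) : ℕ) = 0 from rfl, show ((1 : Fin 3) : ℕ) = 1 from rfl,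
    show ((2 : Fin 3) : ℕ) = 2 from rfl, pow_zero, pow_one]

/-- The identity behind the symmetric-group argument. -/
theorem cube_trick {X Y M : Type*} [CommGroup M] (c : X → Y → M) (sx tx : X → X) (sy : Y → Y) {x : X} {y : Y}
    (hb : ∀ x y, c (tx x) y = c x y)
    (hts : ∀ y, c (sx (tx x)) y = c (sx (sx x)) y) (hts2 : ∀ y, c (sx (sx (tx x))) y = c (sx x) y)
    (c1 : c x (sy y) * c (sx x) (sy y) * c (sx (sx x)) (sy y) = 1)
    (c2 : c x (sy (sy y)) * c (sx x) (sy (sy y)) * c (sx (sx x)) (sy (sy y)) = 1)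
    (hd : ∀ x, c x y * c (sx x) (sy y) * c (sx (sx x)) (sy (sy y)) = 1)
    (he : c x y * c x (sy y) * c x (sy (sy y)) = 1) : c x y ^ 3 = 1 := by
  have d1 := hd x
  have d2 := hd (tx x)
  rw [hts, hts2, hb] at d2
  have key : c x y ^ 3 *
      ((c x (sy y) * c (sx x) (sy y) * c (sx (sx x)) (sy y)) *
      (c x (sy (sy y)) * c (sx x) (sy (sy y)) * c (sx (sx x)) (sy (sy y)))) =
      (c x y * c x (sy y) * c x (sy (sy y))) *
      ((c x y * c (sx x) (sy y) * c (sx (sx x)) (sy (sy y))) *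
      (c x y * c (sx (sx x)) (sy y) * c (sx x) (sy (sy y)))) := by
    simp only [pow_succ, pow_zero, one_mul]
    ac_rfl
  rw [he, c1, c2, d1, d2, one_mul, one_mul, mul_one] at key
  exact key

variable {Q : Type*} [Group Q] [Finite Q] {M : Type*} [CommGroup M]

/-- Characters all of whose translates are fixed by one involution are fixed. -/
theorem translates_trivial (h : IsPQ 3 2 σ) [Group.IsNilpotent Q] (α : A →* MulAut Q)
    (h3 : ¬ 3 ∣ Nat.card Q) (h2 : ¬ 2 ∣ Nat.card Q) (hfpf : ∀ y, (∀ a, α a y = y) → y = 1)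
    (N : Subgroup Q) [N.Normal] (hN : ∀ a, ∀ y ∈ N, α a y ∈ N) (hNc : ∀ u v : N, u * v = v * u) (hder : ∀ u v : Q, ⁅u, v⁆ ∈ N)
    (hσN : ∀ x, x⁻¹ * α σ x ∈ N → x ∈ N) (ξ : N →* M) {b : A} (hb : b ∉ Subgroup.zpowers σ)
    (hfix : ∀ x : Q, cmp (resAct α N hN) b (cmp (MulAut.conjNormal (H := N)) x ξ) = cmp (MulAut.conjNormal (H := N)) x ξ)
    (x : Q) : cmp (MulAut.conjNormal (H := N)) x ξ = ξ := by
  classical
  haveI := Fintype.ofFinite (Subgroup.zpowers σ)
  set κ : Q →* MulAut N := MulAut.conjNormal (H := N) with hκ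
  set αN := resAct α N hN with hαN
  have hκv : ∀ x (y : N), ((κ x y : N) : Q) = x * y * x⁻¹ := fun x y => MulAut.conjNormal_apply x y
  have hαv : ∀ a (y : N), ((αN a y : N) : Q) = α a y := fun a y => rfl
  have hcompat : ∀ a x y, αN a (κ x y) = κ (α a x) (αN a y) := fun a x y => Subtype.ext (by
    rw [hαv, hκv, hκv, hαv, map_mul, map_mul, map_inv])
  have hξb : cmp αN b ξ = ξ := by have := hfix 1; rwa [cmp_one] at this
  have hfpfN : ∀ y, (∀ a, αN a y = y) → y = 1 := fun y hy => Subtype.ext (hfpf _ fun a => congrArg Subtype.val (hy a))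
  have hdiv : ∀ {n : ℕ}, ¬ n ∣ Nat.card Q → ¬ n ∣ Nat.card N := fun hn hd =>
    hn (hd.trans (Subgroup.card_subgroup_dvd_card N))
  -- products over `⟨σ⟩` of `τ`-fixed characters
  have hprod : ∀ μ : N →* M, cmp αN b μ = μ → ∀ y : N, μ y * μ (αN σ y) * μ (αN σ (αN σ y)) = 1 := by
    intro μ hμ y
    have h1 := h.prod_sigma_trivial αN (hdiv h3) (hdiv h2) hfpfN (Z := ⊤) (fun a z _ => Subgroup.mem_top _)
      (μ.comp (⊤ : Subgroup N).subtype) hb
      (MonoidHom.ext fun w => DFunLike.congr_fun hμ (w : N)) ⟨y, Subgroup.mem_top y⟩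
    rw [prod_three h (fun a => (μ.comp (⊤ : Subgroup N).subtype) ⟨αN a y, Subgroup.mem_top _⟩)] at h1
    simp only [MonoidHom.comp_apply, Subgroup.subtype_apply, map_one, MulAut.one_apply, pow_two, map_mul,
      MulAut.mul_apply] at h1
    exact h1
  -- the defect
  let c : Q → N → M := fun x y => ξ (κ x y) / ξ y
  have hcb : ∀ x y, c (α b x) y = c x y := fun x y => by
    obtain ⟨z, rfl⟩ := (αN b).surjective y
    show ξ (κ (α b x) (αN b z)) / ξ (αN b z) = ξ (κ x (αN b z)) / ξ (αN b z)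
    rw [← hcompat, show ξ (αN b (κ x z)) = ξ (κ x z) from DFunLike.congr_fun hξb (κ x z),
      show ξ (κ x (αN b z)) = ξ (κ x z) from DFunLike.congr_fun (hfix x) z]
  suffices hinv : ∀ (k i : ℕ), (⊤ : Subgroup Q).lowerCentralSeries (i + k) = ⊥ →
      ∀ y : N, (y : Q) ∈ (⊤ : Subgroup Q).lowerCentralSeries i → ∀ x, ξ (κ x y) = ξ y by
    obtain ⟨n, hn⟩ := Subgroup.nilpotent_iff_lowerCentralSeries.mp (inferInstance : Group.IsNilpotent Q)
    exact MonoidHom.ext fun y => hinv n 0 (by rwa [zero_add]) y (Subgroup.mem_top _) x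
  intro k
  induction k with
  | zero =>
    intro i hi y hy x
    rw [add_zero] at hi
    rw [hi, Subgroup.mem_bot] at hy
    rw [show y = 1 from Subtype.ext hy, map_one, map_one]
  | succ k ih =>
    intro i hi y hy x
    have hIH := ih (i + 1) (by rwa [show i + 1 + k = i + (k + 1) by ring])
    set L := (⊤ : Subgroup Q).lowerCentralSeries i
    have hLσ : ∀ z : N, (z : Q) ∈ L → ((αN σ z : N) : Q) ∈ L := fun z hz =>
      (Subgroup.characteristic_iff_map_eq.mp (inferInstance : L.Characteristic) (α σ)).le ⟨_, hz, rfl⟩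
    -- multiplicative in the first variable
    have hmul : ∀ u v (z : N), (z : Q) ∈ L → c (u * v) z = c u z * c v z := by
      intro u v z hz
      let w : N := κ v z * z⁻¹
      have hw : (w : Q) ∈ (⊤ : Subgroup Q).lowerCentralSeries (i + 1) := by
        rw [Subgroup.lowerCentralSeries_succ, show ((w : N) : Q) = ⁅(z : Q), v⁆⁻¹ by
          rw [Subgroup.coe_mul, hκv, Subgroup.coe_inv, commutatorElement_def]; group]
        exact Subgroup.inv_mem _ (Subgroup.commutator_mem_commutator hz (Subgroup.mem_top v))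
      have e : κ (u * v) z = κ u w * κ u z := by rw [← map_mul, inv_mul_cancel_right, map_mul, MulAut.mul_apply]
      have e2 : ξ w = ξ (κ v z) / ξ z := by rw [map_mul, map_inv, div_eq_mul_inv]
      show ξ _ / ξ z = ξ (κ u z) / ξ z * (ξ (κ v z) / ξ z)
      rw [e, map_mul, hIH w hw u, e2]
      simp [div_eq_mul_inv, mul_comm, mul_left_comm]
    have hcN : ∀ u ∈ N, ∀ z : N, c u z = 1 := fun u hu z => by
      show ξ _ / ξ z = 1
      rw [show κ u z = z from Subtype.ext (by
        rw [hκv, show u * (z : Q) = (z : Q) * u from congrArg Subtype.val (hNc ⟨u, hu⟩ z), mul_inv_cancel_right]),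
        div_self']
    have hnorm : ∀ u, u * α σ u * α σ (α σ u) ∈ N := fun u => by
      refine hσN _ ?_
      have e3 : α σ (α σ (α σ u)) = u := by
        rw [← MulAut.mul_apply, ← MulAut.mul_apply, ← map_mul, ← map_mul, ← pow_two, ← pow_succ, sigma_pow h,
          map_one, MulAut.one_apply]
      rw [map_mul, map_mul, e3, show (u * α σ u * α σ (α σ u))⁻¹ * (α σ u * α σ (α σ u) * u) =
        ⁅(α σ u * α σ (α σ u))⁻¹, u⁻¹⁆ by rw [commutatorElement_def]; group]
      exact hder _ _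
    have hc : ∀ u (z : N), (z : Q) ∈ L → c u z * c (α σ u) z * c (α σ (α σ u)) z = 1 := fun u z hz => by
      rw [← hmul _ _ z hz, ← hmul _ _ z hz]
      exact hcN _ (hnorm u) z
    have hd : ∀ u, c u y * c (α σ u) (αN σ y) * c (α σ (α σ u)) (αN σ (αN σ y)) = 1 := fun u => by
      have h1 := hprod ξ hξb (κ u y)
      rw [hcompat, hcompat] at h1
      show ξ _ / ξ _ * (ξ _ / ξ _) * (ξ _ / ξ _) = 1
      rw [div_mul_div_comm, div_mul_div_comm, h1, hprod ξ hξb y, div_one]
    have he : c x y * c x (αN σ y) * c x (αN σ (αN σ y)) = 1 := by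
      have h1 : ξ (κ x y) * ξ (κ x (αN σ y)) * ξ (κ x (αN σ (αN σ y))) = 1 := hprod _ (hfix x) y
      show ξ _ / ξ _ * (ξ _ / ξ _) * (ξ _ / ξ _) = 1
      rw [div_mul_div_comm, div_mul_div_comm, h1, hprod ξ hξb y, div_one]
    have hσb : ∀ u, α σ (α b u) = α b (α σ (α σ u)) := fun u => by
      simp only [← MulAut.mul_apply, ← map_mul]
      rw [rel h hb, pow_two]
    have hσσb : ∀ u, α σ (α σ (α b u)) = α b (α σ u) := fun u => by
      simp only [← MulAut.mul_apply, ← map_mul]
      rw [show σ * (σ * b) = b * σ ^ (3 + 1) by rw [rel h hb, ← mul_assoc, rel h hb, mul_assoc, ← pow_add],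
        pow_succ, sigma_pow h, one_mul]
    have h3c := cube_trick c (α σ) (α b) (αN σ) (x := x) (y := y) hcb
      (fun z => by rw [hσb, hcb]) (fun z => by rw [hσσb, hcb]) (hc x _ (hLσ y hy)) (hc x _ (hLσ _ (hLσ y hy))) hd he
    have hQc : c x y ^ Nat.card N = 1 := by
      show (ξ (κ x y) / ξ y) ^ Nat.card N = 1
      have hz : ∀ z : N, ξ z ^ Nat.card N = 1 := fun z => by rw [← map_pow ξ, pow_card_eq_one', map_one]
      rw [div_pow, hz, hz, div_one]
    refine div_eq_one.mp (orderOf_eq_one_iff.mp (Nat.eq_one_of_dvd_coprimes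
      ((Nat.Prime.coprime_iff_not_dvd Nat.prime_three).mpr (hdiv h3))
      (orderOf_dvd_of_pow_eq_one h3c) (orderOf_dvd_of_pow_eq_one hQc)))

end Cfsg.Agent.Transfer.S3
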