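/-
Symmetric group of degree three acting without fixed points on a q-group and a faithful module: the q-group is
abelian.
-/
import Cfsg.Agent.Transfer.S3Chars
import Cfsg.Agent.Transfer.PQStep

set_option autoImplicit false
set_option linter.style.haveILetI false
set_option linter.unusedSectionVars false
set_option maxSynthPendingDepth 4

namespace Cfsg.Agent.Transfer.S3

open Module PQ WardLocal Ward
open scoped commutatorElement

universe uA

variable {K : Type*} [Field K] [IsAlgClosed K] {W : Type*} [AddCommGroup W] [Module K W]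
  [FiniteDimensional K W] {Q : Type*} [Group Q] [Finite Q] {A : Type uA} [Group A] [Finite A] {σ : A} {q : ℕ}

theorem moved_pow_mem (φ : A →* MulAut Q) (s : A) {S : Subgroup Q} (hS : ∀ x, x⁻¹ * φ s x ∈ S) (i : ℕ) (x : Q) :
    x⁻¹ * φ (s ^ i) x ∈ S := by
  induction i with
  | zero => simp
  | succ i ih =>
    rw [pow_succ', map_mul, MulAut.mul_apply, show x⁻¹ * φ s (φ (s ^ i) x) =
      (x⁻¹ * φ (s ^ i) x) * ((φ (s ^ i) x)⁻¹ * φ s (φ (s ^ i) x)) by group]
    exact S.mul_mem ih (hS _)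

set_option maxHeartbeats 1000000 in
/-- A minimal non-abelian invariant group does not exist. -/
theorem false_of_minimal (h : IsPQ 3 2 σ) [Fintype A] (hq : q.Prime) (hq3 : q ≠ 3) (hq2 : q ≠ 2)
    (hQ : IsPGroup q Q) (hqK : (q : K) ≠ 0) (h3K : ((3 : ℕ) : K) ≠ 0) (h2K : ((2 : ℕ) : K) ≠ 0)
    (α : A →* MulAut Q) (ρ : Q →* Module.End K W) (hρ : Function.Injective ρ) (T : A →* Module.End K W)
    (hT : ∀ a y, T a * ρ y = ρ (α a y) * T a) (hsum : ∑ a, T a = 0)
    (hfpf : ∀ y, (∀ a, α a y = y) → y = 1) (hne : ∃ x y : Q, x * y ≠ y * x)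
    (hQmin : ∀ M : Subgroup Q, M ≠ ⊤ → (∀ a, ∀ y ∈ M, α a y ∈ M) → ∀ u v : M, u * v = v * u) : False := by
  classical
  haveI := Fact.mk hq
  haveI := Fact.mk Nat.prime_three
  haveI : Group.IsNilpotent Q := hQ.isNilpotent
  have h3Q := not_dvd_pgroup hq Nat.prime_three (Ne.symm hq3) hQ
  have h2Q := not_dvd_pgroup hq Nat.prime_two (Ne.symm hq2) hQ
  have h3sub : ∀ S : Subgroup Q, ¬ 3 ∣ Nat.card S := fun S hd => h3Q (hd.trans (Subgroup.card_subgroup_dvd_card S))
  obtain ⟨x₀, y₀, hxy₀⟩ := hne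
  haveI : Nontrivial Q := nontrivial_of_ne _ _ hxy₀
  obtain ⟨τ, hτ⟩ := h.exists_outside
  have hσcomm : ∀ a : A, ∃ i : ℕ, σ * a = a * σ ^ i := fun a => by
    obtain ⟨i, hi⟩ := (IsOfFinOrder.mem_powers_iff_mem_zpowers (isOfFinOrder_of_finite σ)).mpr
      (h.normal.conj_mem σ (Subgroup.mem_zpowers σ) a⁻¹)
    exact ⟨i, by rw [show σ ^ i = a⁻¹ * σ * a⁻¹⁻¹ from hi, inv_inv]; group⟩
  have hσpow : ∀ (i : ℕ) y, α σ y = y → α (σ ^ i) y = y := fun i y hy => by
    induction i with
    | zero => simp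
    | succ i ih => rw [pow_succ', map_mul, MulAut.mul_apply, ih, hy]
  -- the fixed points of `σ` commute
  let C : Subgroup Q := (α σ).toMonoidHom.eqLocus (MonoidHom.id Q)
  have hCA : ∀ a, ∀ z ∈ C, α a z ∈ C := fun a z (hz : α σ z = z) => by
    obtain ⟨i, hi⟩ := hσcomm a
    show α σ (α a z) = α a z
    rw [← MulAut.mul_apply, ← map_mul, hi, map_mul, MulAut.mul_apply, hσpow i z hz]
  have hCc : ∀ u v : C, u * v = v * u := by
    intro u v
    refine (MonoidHom.FixedPointFree.commute_all_of_involutive (φ := resAct α C hCA τ) ?_ ?_ u v).eq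
    · intro z hz
      refine Subtype.ext (hfpf _ fun a => ?_)
      let S : Subgroup A :=
        { carrier := {c | α c (z : Q) = z}
          one_mem' := by show α 1 (z : Q) = z; simp
          mul_mem' := fun {u v} (hu : α u (z : Q) = z) (hv : α v (z : Q) = z) => by
            show α (u * v) (z : Q) = z; rw [map_mul, MulAut.mul_apply, hv, hu]
          inv_mem' := fun {u} (hu : α u (z : Q) = z) => by
            show α u⁻¹ (z : Q) = z
            conv_lhs => rw [← hu]
            rw [map_inv, MulAut.inv_apply_self] }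
      exact ((h.top_of_mem (S := S) z.2 (show τ ∈ S from congrArg Subtype.val hz) hτ).ge (Subgroup.mem_top a) : a ∈ S)
    · intro z
      refine Subtype.ext ?_
      show α τ (α τ (z : Q)) = z
      rw [← MulAut.mul_apply, ← map_mul, sq_outside h hτ, map_one, MulAut.one_apply]
  -- `[Q, σ]`
  let B := Subgroup.closure (Set.range fun x : Q => x⁻¹ * α σ x)
  have hBmem : ∀ x, x⁻¹ * α σ x ∈ B := fun x => Subgroup.subset_closure ⟨x, rfl⟩
  haveI hBn : B.Normal := ⟨fun u hu g => by
    refine Subgroup.closure_induction (p := fun u _ => g * u * g⁻¹ ∈ B) ?_ ?_ ?_ ?_ hu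
    · rintro _ ⟨x, rfl⟩
      rw [show g * (x⁻¹ * α σ x) * g⁻¹ = ((x * g⁻¹)⁻¹ * α σ (x * g⁻¹)) * ((g⁻¹)⁻¹ * α σ g⁻¹)⁻¹ by
        rw [map_mul]; group]
      exact B.mul_mem (hBmem _) (B.inv_mem (hBmem _))
    · simp
    · intro u v _ _ hu hv
      rw [show g * (u * v) * g⁻¹ = (g * u * g⁻¹) * (g * v * g⁻¹) by group]; exact B.mul_mem hu hv
    · intro u _ hu
      rw [show g * u⁻¹ * g⁻¹ = (g * u * g⁻¹)⁻¹ by group]; exact B.inv_mem hu⟩
  have hBA : ∀ a, ∀ z ∈ B, α a z ∈ B := fun a z hz => by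
    refine Subgroup.closure_induction (p := fun u _ => α a u ∈ B) ?_ (by simp) ?_ ?_ hz
    · rintro _ ⟨x, rfl⟩
      obtain ⟨i, hi⟩ := hσcomm a⁻¹
      have e : α a (α σ x) = α (σ ^ i) (α a x) := by
        rw [← MulAut.mul_apply, ← MulAut.mul_apply, ← map_mul, ← map_mul]
        congr 2
        calc a * σ = a * (σ * a⁻¹) * a := by group
          _ = a * (a⁻¹ * σ ^ i) * a := by rw [hi]
          _ = σ ^ i * a := by group
      rw [map_mul, map_inv, e]
      exact moved_pow_mem α σ hBmem i _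
    · intro u v _ _ hu hv; rw [map_mul]; exact B.mul_mem hu hv
    · intro u _ hu; rw [map_inv]; exact B.inv_mem hu
  by_cases hBtop : B = ⊤
  swap
  · -- `C` centralizes `[Q, σ]`
    have hBc := hQmin B hBtop hBA
    refine hxy₀ ?_
    let αB := resAct α B hBA
    let αC := resAct α C hCA
    let κ : C →* MulAut B := (MulAut.conjNormal (H := B)).comp C.subtype
    have hκv : ∀ (u : C) (y : B), ((κ u y : B) : Q) = (u : Q) * y * (u : Q)⁻¹ := fun u y => MulAut.conjNormal_apply _ y
    have hρBc : ∀ u v : B, Commute ((ρ.comp B.subtype) u) ((ρ.comp B.subtype) v) := fun u v => by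
      show ρ (u : Q) * ρ (v : Q) = ρ (v : Q) * ρ (u : Q)
      rw [← map_mul, ← map_mul, show (u : Q) * v = v * u from congrArg Subtype.val (hBc u v)]
    obtain ⟨hexB, -, hstabB⟩ := weights (hQ.to_subgroup B) hqK (ρ.comp B.subtype) hρBc
    have hcent : ∀ (u : C) (y : B), κ u y = y := by
      intro u y
      by_contra hny
      obtain ⟨χ, hχ, hχo⟩ := hexB (y⁻¹ * κ u y) fun e => hny (inv_mul_eq_one.mp
        ((hρ.comp B.subtype_injective) (e.trans (map_one (ρ.comp B.subtype)).symm))).symm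
      have hfix := weights_fixed_commute h (h3sub B) (h3sub C) (αQ := αB) (αR := αC) (κ := κ)
        (fun a x z => Subtype.ext (by
          show α a (((κ x z : B)) : Q) = ((κ (αC a x) (αB a z) : B) : Q)
          rw [hκv, hκv, map_mul, map_mul, map_inv]; rfl))
        (fun x => Subtype.ext x.2)
        (fun z hz x => Subtype.ext (by
          rw [hκv]
          exact mul_inv_eq_of_eq_mul (congrArg Subtype.val (hCc x ⟨z, congrArg Subtype.val hz⟩))))
        (fun x hx => Subtype.ext (hfpf _ fun a => congrArg Subtype.val (hx a)))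
        (fun ψ => eig (ρ.comp B.subtype) ψ ≠ ⊥) (fun ψ hψ x => by
          obtain ⟨v, hv, hv0⟩ := (Submodule.ne_bot_iff _).mp hψ
          refine (Submodule.ne_bot_iff _).mpr ⟨ρ (x : Q)⁻¹ v, fun z => ?_, fun h => hv0 ?_⟩
          · show ρ (z : Q) (ρ (x : Q)⁻¹ v) = (ψ (κ x z) : K) • ρ (x : Q)⁻¹ v
            rw [← Module.End.mul_apply, ← map_mul, show (z : Q) * (x : Q)⁻¹ = (x : Q)⁻¹ * ((κ x z : B) : Q) by
              rw [hκv]; group, map_mul, Module.End.mul_apply, show ρ ((κ x z : B) : Q) v = _ from hv (κ x z),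
              map_smul]
          · have h2 := congrArg (ρ (x : Q)) h
            rwa [map_zero, ← Module.End.mul_apply, ← map_mul, mul_inv_cancel, map_one, Module.End.one_apply] at h2)
        (fun ψ hψ => by
          obtain ⟨a, ha, hfix⟩ := hstabB αB T (fun a z => hT a z) hsum ψ hψ
          exact ⟨a, ha, MonoidHom.ext hfix⟩) hχo u
      refine hχ ?_
      rw [map_mul, map_inv, show χ (κ u y) = χ y from DFunLike.congr_fun hfix y, inv_mul_cancel]
    -- every element is a product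
    have hsplit : ∀ x : Q, ∃ n : B, ∃ u : C, x = (u : Q) * (n : Q) := fun x => by
      obtain ⟨n, hn, hfix⟩ := lift_one Nat.prime_three h.hσ α B (h3sub B) (hBA σ) (hBmem x)
      exact ⟨⟨n⁻¹, B.inv_mem hn⟩, ⟨x * n, hfix⟩, by simp⟩
    obtain ⟨n, u, rfl⟩ := hsplit x₀
    obtain ⟨m, v, rfl⟩ := hsplit y₀
    have e : ∀ (w : C) (z : B), (w : Q) * z = z * w := fun w z => by
      have := congrArg Subtype.val (hcent w z)
      rw [hκv] at this
      exact mul_inv_eq_iff_eq_mul.mp this
    calc (u : Q) * n * ((v : Q) * m) = (u : Q) * ((n : Q) * v) * m := by group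
      _ = (u : Q) * ((v : Q) * n) * m := by rw [e v n]
      _ = ((u : Q) * v) * ((n : Q) * m) := by group
      _ = ((v : Q) * u) * ((m : Q) * n) := by
        rw [show (u : Q) * v = v * u from congrArg Subtype.val (hCc u v),
          show (n : Q) * m = m * n from congrArg Subtype.val (hBc n m)]
      _ = (v : Q) * ((u : Q) * m) * n := by group
      _ = (v : Q) * ((m : Q) * u) * n := by rw [e u m]
      _ = _ := by group
  -- `Q = [Q, σ]`
  let D : Subgroup Q := frattini Q
  have hDder : ∀ x y : Q, ⁅x, y⁆ ∈ D := fun x y => FGS3.commutator_le_frattini hQ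
    (Subgroup.commutator_mem_commutator (Subgroup.mem_top x) (Subgroup.mem_top y))
  have hDpow : ∀ y : Q, y ^ q ∈ D := fun y => FGS3.pow_mem_frattini hQ y
  have hDA : ∀ a, ∀ d ∈ D, α a d ∈ D := fun a d hd =>
    (Subgroup.characteristic_iff_map_eq.mp (inferInstance : (frattini Q).Characteristic) (α a)).le ⟨d, hd, rfl⟩
  haveI hDn : D.Normal := inferInstanceAs (frattini Q).Normal
  have hDtop : D ≠ ⊤ := fun e =>
    bot_ne_top (frattini_nongenerating (K := (⊥ : Subgroup Q)) (by rw [bot_sup_eq]; exact e))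
  have hDcomm := hQmin D hDtop hDA
  have hσD : ∀ x, x⁻¹ * α σ x ∈ D → x ∈ D := by
    have hcom : ∀ u v : Q ⧸ D, u * v = v * u := fun U V => by
      obtain ⟨u, rfl⟩ := QuotientGroup.mk'_surjective D U
      obtain ⟨v, rfl⟩ := QuotientGroup.mk'_surjective D V
      rw [← commutatorElement_eq_one_iff_mul_comm, ← map_commutatorElement]
      exact (QuotientGroup.eq_one_iff _).mpr (hDder u v)
    letI : CommGroup (Q ⧸ D) := { (inferInstance : Group (Q ⧸ D)) with mul_comm := hcom }
    let f : Q →* Q ⧸ D := MonoidHom.mk' (fun x => QuotientGroup.mk' D (x⁻¹ * α σ x)) fun u v => by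
      simp only [map_mul, map_inv, mul_inv_rev]
      ac_rfl
    have hker : D ≤ f.ker := fun d hd => by
      show QuotientGroup.mk' D (d⁻¹ * α σ d) = 1
      exact (QuotientGroup.eq_one_iff _).mpr (D.mul_mem (D.inv_mem hd) (hDA σ d hd))
    let g := QuotientGroup.lift D f hker
    have hgs : Function.Surjective g := by
      intro X
      obtain ⟨x, rfl⟩ := QuotientGroup.mk'_surjective D X
      have hle : B ≤ g.range.comap (QuotientGroup.mk' D) := by
        rw [Subgroup.closure_le]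
        rintro _ ⟨y, rfl⟩
        exact ⟨QuotientGroup.mk' D y, rfl⟩
      exact hle (hBtop ▸ Subgroup.mem_top x)
    intro x hx
    refine (QuotientGroup.eq_one_iff x).mp ((Finite.injective_iff_surjective.mpr hgs) ?_)
    rw [map_one]
    exact (QuotientGroup.eq_one_iff _).mpr hx
  -- `D` is central
  have hcen : ∀ d ∈ D, ∀ y, d * y = y * d := by
    let αD' := resAct α D hDA
    let κ : Q →* MulAut D := MulAut.conjNormal (H := D)
    have hκv : ∀ (u : Q) (y : D), ((κ u y : D) : Q) = u * y * u⁻¹ := fun u y => MulAut.conjNormal_apply u y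
    have hρDc : ∀ u v : D, Commute ((ρ.comp D.subtype) u) ((ρ.comp D.subtype) v) := fun u v => by
      show ρ (u : Q) * ρ (v : Q) = ρ (v : Q) * ρ (u : Q)
      rw [← map_mul, ← map_mul, show (u : Q) * v = v * u from congrArg Subtype.val (hDcomm u v)]
    obtain ⟨hexD, -, hstabD⟩ := weights (hQ.to_subgroup D) hqK (ρ.comp D.subtype) hρDc
    have hκD : ∀ u ∈ D, κ u = 1 := fun u hu => MulEquiv.ext fun z => Subtype.ext (by
      rw [hκv, MulAut.one_apply]
      exact mul_inv_eq_of_eq_mul (congrArg Subtype.val (hDcomm ⟨u, hu⟩ z)))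
    intro d hd y
    by_contra hny
    obtain ⟨χ, hχ, hχo⟩ := hexD ((⟨d, hd⟩ : D)⁻¹ * κ y ⟨d, hd⟩) fun e => hny (by
      have h1 := congrArg Subtype.val (inv_mul_eq_one.mp
        ((hρ.comp D.subtype_injective) (e.trans (map_one (ρ.comp D.subtype)).symm)))
      rw [hκv] at h1
      exact eq_mul_inv_iff_mul_eq.mp h1)
    have hfix : cmp κ y χ = χ := by
      rcases weights_orbit h (h3sub D) (fun hd' => h2Q (hd'.trans (Subgroup.card_subgroup_dvd_card D))) h3Q
          (αQ := αD') (αR := α) (κ := κ)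
          (fun a x z => Subtype.ext (by
            show α a ((κ x z : D) : Q) = ((κ (α a x) (αD' a z) : D) : Q)
            rw [hκv, hκv, map_mul, map_mul, map_inv]; rfl))
          (fun u v => by
            rw [show u * v = ⁅u, v⁆ * (v * u) by rw [commutatorElement_def]; group, map_mul, hκD _ (hDder u v),
              one_mul])
          (fun u hu => by
            obtain ⟨n, hn, hfix⟩ := lift_one Nat.prime_three h.hσ α κ.ker (h3sub _)
              (fun w hw => by
                rw [MonoidHom.mem_ker]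
                refine MulEquiv.ext fun z => ?_
                obtain ⟨z', rfl⟩ := (αD' σ).surjective z
                refine Subtype.ext ?_
                have h5 := congrArg (fun e : MulAut D => α σ ((e z' : D) : Q)) (show κ w = 1 from hw)
                simp only [hκv, map_mul, map_inv, MulAut.one_apply] at h5
                rw [hκv, MulAut.one_apply]
                exact h5)
              (x := u) (by rw [MonoidHom.mem_ker, map_mul, map_inv, hu, inv_mul_cancel])
            have hmem : u * n ∈ D := hσD _ (by rw [hfix, inv_mul_cancel]; exact D.one_mem)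
            have := hκD _ hmem
            rwa [map_mul, show κ n = 1 from hn, mul_one] at this)
          (fun z hz => Subtype.ext (hfpf _ fun a => congrArg Subtype.val (hz a)))
          (fun ψ => eig (ρ.comp D.subtype) ψ ≠ ⊥) (fun ψ hψ x => by
            obtain ⟨v, hv, hv0⟩ := (Submodule.ne_bot_iff _).mp hψ
            refine (Submodule.ne_bot_iff _).mpr ⟨ρ x⁻¹ v, fun z => ?_, fun h => hv0 ?_⟩
            · show ρ (z : Q) (ρ x⁻¹ v) = (ψ (κ x z) : K) • ρ x⁻¹ v
              rw [← Module.End.mul_apply, ← map_mul, show (z : Q) * x⁻¹ = x⁻¹ * ((κ x z : D) : Q) by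
                rw [hκv]; group, map_mul, Module.End.mul_apply, show ρ ((κ x z : D) : Q) v = _ from hv (κ x z),
                map_smul]
            · have h2 := congrArg (ρ x) h
              rwa [map_zero, ← Module.End.mul_apply, ← map_mul, mul_inv_cancel, map_one, Module.End.one_apply] at h2)
          (fun ψ hψ => by
            obtain ⟨a, ha, hfix⟩ := hstabD αD' T (fun a z => hT a z) hsum ψ hψ
            exact ⟨a, ha, MonoidHom.ext hfix⟩) hχo with h1 | ⟨b, hb, hbx⟩
      · exact h1 y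
      · exact translates_trivial h α h3Q h2Q hfpf D hDA hDcomm hDder hσD χ hb hbx y
    refine hχ ?_
    rw [map_mul, map_inv, show χ (κ y ⟨d, hd⟩) = χ ⟨d, hd⟩ from DFunLike.congr_fun hfix _, inv_mul_cancel]
  -- the character of a commutator
  let c : D := ⟨⁅x₀, y₀⁆, hDder x₀ y₀⟩
  have hDc : ∀ u v : D, Commute (ρ (u : Q)) (ρ (v : Q)) := fun u v => by
    show ρ (u : Q) * ρ (v : Q) = ρ (v : Q) * ρ (u : Q)
    rw [← map_mul, ← map_mul, hcen u u.2 v]
  obtain ⟨hexD, -, hstabD⟩ := weights (hQ.to_subgroup D) hqK (ρ.comp D.subtype) hDc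
  obtain ⟨χ, hχc, hχo⟩ := hexD c (fun h => hxy₀ (commutatorElement_eq_one_iff_mul_comm.mp
    (hρ (h.trans (map_one ρ).symm))))
  let αD : A →* MulAut D := MonoidHom.mk' (fun a =>
    { toFun := fun d => ⟨α a d, hDA a d d.2⟩
      invFun := fun d => ⟨α a⁻¹ d, hDA a⁻¹ d d.2⟩
      left_inv := fun d => Subtype.ext (by show α a⁻¹ (α a (d : Q)) = d; rw [map_inv, MulAut.inv_apply_self])
      right_inv := fun d => Subtype.ext (by show α a (α a⁻¹ (d : Q)) = d; rw [map_inv, MulAut.apply_inv_self])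
      map_mul' := fun u v => Subtype.ext (map_mul (α a) _ _) })
    fun a b => MulEquiv.ext fun d => Subtype.ext (by
      show α (a * b) (d : Q) = α a (α b d); rw [map_mul, MulAut.mul_apply])
  obtain ⟨a, ha, haχ⟩ := hstabD αD T (fun a d => hT a d) hsum χ hχo
  -- the stabilizer of `χ`
  let S : Subgroup A :=
    { carrier := {b | ∀ d : D, χ ⟨α b d, hDA b d d.2⟩ = χ d}
      one_mem' := fun d => congrArg χ (Subtype.ext (by show α 1 (d : Q) = d; simp))
      mul_mem' := fun {u v} hu hv d => by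
        rw [← hv d, ← hu ⟨α v d, hDA v d d.2⟩]
        exact congrArg χ (Subtype.ext (by show α (u * v) (d : Q) = α u (α v d); rw [map_mul, MulAut.mul_apply]))
      inv_mem' := fun {u} hu d => by
        rw [← hu ⟨α u⁻¹ d, hDA _ d d.2⟩]
        exact congrArg χ (Subtype.ext (by show α u (α u⁻¹ (d : Q)) = d; rw [map_inv, MulAut.apply_inv_self])) }
  have haS : a ∈ S := haχ
  have hStop : S ≠ ⊤ := fun htop => hχc (Units.ext (congrArg (fun u : Kˣ => (u : K))
    (h.char_trivial α h3Q h2Q hfpf hDA χ (fun b d => (htop.ge (Subgroup.mem_top b) : b ∈ S) d) c)))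
  -- a generator of prime order
  obtain ⟨a, haS, ha, m, hm, hmS, hS, hoa, haσ⟩ : ∃ a ∈ S, a ≠ 1 ∧ ∃ m : ℕ, m.Prime ∧ (m = 3 ∨ m = 2) ∧
      S = Subgroup.zpowers a ∧ orderOf a = m ∧ (a = σ ∨ a ∉ Subgroup.zpowers σ) := by
    by_cases haP : a ∈ Subgroup.zpowers σ
    · have hσS : σ ∈ S := by
        have : Subgroup.zpowers a ≤ S := Subgroup.zpowers_le.mpr haS
        rw [h.zpowers_of_mem haP ha] at this
        exact this (Subgroup.mem_zpowers σ)
      refine ⟨σ, hσS, h.sigma_ne_one, 3, Nat.prime_three, Or.inl rfl, le_antisymm (fun b hb => ?_)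
        (Subgroup.zpowers_le.mpr hσS), h.hσ, Or.inl rfl⟩
      by_contra hbP
      exact hStop (h.top_of_mem hσS hb hbP)
    · exact ⟨a, haS, ha, 2, Nat.prime_two, Or.inr rfl, (h.eq_zpowers_or_top haS haP).resolve_right hStop,
        h.orderOf_outside haP, Or.inr haP⟩
  have hmq : m ≠ q := by rcases hmS with rfl | rfl; exacts [Ne.symm hq3, Ne.symm hq2]
  have hmK : (m : K) ≠ 0 := by rcases hmS with rfl | rfl; exacts [h3K, h2K]
  set U1 := eig (ρ.comp D.subtype) χ with hU1
  have hU1Q : ∀ y, ∀ w ∈ U1, ρ y w ∈ U1 := fun y w hw d => by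
    show ρ (d : Q) (ρ y w) = _
    rw [← Module.End.mul_apply, ← map_mul, hcen d d.2 y, map_mul, Module.End.mul_apply,
      show ρ (d : Q) w = (χ d : K) • w from hw d, map_smul]
  have hU1T : ∀ b ∈ S, ∀ w ∈ U1, T b w ∈ U1 := fun b hb w hw d => by
    obtain ⟨d', rfl⟩ : ∃ d' : D, (⟨α b d', hDA b d' d'.2⟩ : D) = d :=
      ⟨(αD b).symm d, (αD b).apply_symm_apply d⟩
    show ρ (α b (d' : Q)) (T b w) = _
    rw [← Module.End.mul_apply, ← hT, Module.End.mul_apply,
      show ρ (d' : Q) w = (χ d' : K) • w from hw d', map_smul, hb d']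
  haveI : Nontrivial U1 := Submodule.nontrivial_iff_ne_bot.mpr hχo
  -- the sum over the stabilizer
  have hsumS : ∀ w ∈ U1, ∑ b : S, T b w = 0 := by
    letI : CommGroup D :=
      { (inferInstance : Group D) with mul_comm := fun u v => Subtype.ext (hcen u u.2 v) }
    haveI := Fintype.ofFinite D
    intro w hw
    have h := WeightSpace.sum_stabilizer_eq_zero (ρ.comp D.subtype) (by
        obtain ⟨k, hk⟩ := IsPGroup.iff_card.mp (hQ.to_subgroup D)
        rw [hk, Nat.cast_pow]; exact pow_ne_zero _ hqK)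
      αD (fun b => T b) (fun b d => hT b d) hsum (χ := χ) (v := w) hw
      (Finset.univ.filter (· ∈ S)) (fun b => by simp only [Finset.mem_filter, Finset.mem_univ, true_and]; rfl)
    rw [← h]
    exact (Finset.sum_subtype _ (fun b => by simp) (fun b => T b w)).symm
  -- the radical
  let ω₀ : Q → Q → Kˣ := fun u v => χ ⟨⁅u, v⁆, hDder u v⟩
  have hωl : ∀ u u' v, ω₀ (u * u') v = ω₀ u v * ω₀ u' v := fun u u' v => by
    show χ _ = χ _ * χ _
    rw [mul_comm, ← map_mul]
    congr 1
    refine Subtype.ext ?_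
    show ⁅u * u', v⁆ = ⁅u', v⁆ * ⁅u, v⁆
    have hc := hcen _ (hDder u' v) u
    simp only [commutatorElement_def] at hc ⊢
    calc u * u' * v * (u * u')⁻¹ * v⁻¹ = u * (u' * v * u'⁻¹ * v⁻¹) * (v * u⁻¹ * v⁻¹) := by group
      _ = (u' * v * u'⁻¹ * v⁻¹) * u * (v * u⁻¹ * v⁻¹) := by rw [hc]
      _ = _ := by group
  have hωr : ∀ u v v', ω₀ u (v * v') = ω₀ u v * ω₀ u v' := fun u v v' => by
    show χ _ = χ _ * χ _
    rw [← map_mul]
    congr 1
    refine Subtype.ext ?_
    show ⁅u, v * v'⁆ = ⁅u, v⁆ * ⁅u, v'⁆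
    have hc := hcen _ (hDder u v') v
    simp only [commutatorElement_def] at hc ⊢
    calc u * (v * v') * u⁻¹ * (v * v')⁻¹ = u * v * u⁻¹ * ((u * v' * u⁻¹ * v'⁻¹) * v⁻¹) := by group
      _ = u * v * u⁻¹ * (v⁻¹ * (u * v' * u⁻¹ * v'⁻¹)) := by
        congr 1
        calc (u * v' * u⁻¹ * v'⁻¹) * v⁻¹ = v⁻¹ * (v * (u * v' * u⁻¹ * v'⁻¹)) * v⁻¹ := by group
          _ = v⁻¹ * ((u * v' * u⁻¹ * v'⁻¹) * v) * v⁻¹ := by rw [hc]
          _ = _ := by group
      _ = _ := by group
  have hω1 : ∀ v, ω₀ 1 v = 1 ∧ ω₀ v 1 = 1 := fun v => by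
    constructor
    · have h := hωl 1 1 v; rwa [mul_one, left_eq_mul] at h
    · have h := hωr v 1 1; rwa [mul_one, left_eq_mul] at h
  let Z : Subgroup Q :=
    { carrier := {u | ∀ v, ω₀ u v = 1}
      one_mem' := fun v => (hω1 v).1
      mul_mem' := fun {u u'} hu hu' v => by rw [hωl, hu v, hu' v, one_mul]
      inv_mem' := fun {u} hu v => by
        have h := hωl u⁻¹ u v
        rwa [inv_mul_cancel, (hω1 v).1, hu v, mul_one, eq_comm] at h }
  have hDZ : D ≤ Z := fun d hd' v => by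
    show χ _ = 1
    rw [← map_one χ]
    congr 1
    exact Subtype.ext (commutatorElement_eq_one_iff_mul_comm.mpr (hcen d hd' v))
  have hωA : ∀ b ∈ S, ∀ u v, ω₀ (α b u) (α b v) = ω₀ u v := fun b hb u v => by
    show χ _ = χ _
    refine Eq.trans (congrArg χ (Subtype.ext ?_)) (hb ⟨⁅u, v⁆, hDder u v⟩)
    exact (map_commutatorElement (α b) u v).symm
  have hZS : ∀ b ∈ S, ∀ u ∈ Z, α b u ∈ Z := fun b hb u hu v => by
    obtain ⟨v', rfl⟩ := (α b).surjective v
    rw [hωA b hb]; exact hu v'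
  have hcommU1 : ∀ u v, ∀ w ∈ U1, ρ u (ρ v w) = (ω₀ u v : K) • ρ v (ρ u w) := by
    intro u v w hw
    have h1 : u * v = ⁅u, v⁆ * (v * u) := by rw [commutatorElement_def]; group
    rw [← Module.End.mul_apply, ← map_mul, h1, map_mul, map_mul, Module.End.mul_apply, Module.End.mul_apply]
    exact hU1Q v _ (hU1Q u w hw) ⟨⁅u, v⁆, hDder u v⟩
  set ρ1 := HHExceptional.restrictRep ρ U1 hU1Q with hρ1
  have hZcomm : ∀ u v : Z, Commute (ρ1 (u : Q)) (ρ1 (v : Q)) := fun u v => LinearMap.ext fun w => Subtype.ext (by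
    show ρ (u : Q) (ρ (v : Q) w) = ρ (v : Q) (ρ (u : Q) w)
    rw [hcommU1 _ _ _ w.2, u.2 v, Units.val_one, one_smul])
  obtain ⟨-, hexZ, hstabZ⟩ := weights (hQ.to_subgroup Z) hqK (ρ1.comp Z.subtype) hZcomm
  obtain ⟨ψ, hψo⟩ := hexZ inferInstance
  let TS : S →* Module.End K U1 :=
    { toFun := fun b => (T b).restrict (hU1T b b.2)
      map_one' := LinearMap.ext fun w => Subtype.ext (by simp [LinearMap.restrict_apply])
      map_mul' := fun u v => LinearMap.ext fun w => Subtype.ext (by simp [LinearMap.restrict_apply]) }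
  let αZ : S →* MulAut Z := MonoidHom.mk' (fun b =>
    { toFun := fun u => ⟨α b u, hZS b b.2 u u.2⟩
      invFun := fun u => ⟨α (b : A)⁻¹ u, hZS _ (S.inv_mem b.2) u u.2⟩
      left_inv := fun u => Subtype.ext (by
        show α (b : A)⁻¹ (α (b : A) (u : Q)) = u; rw [map_inv, MulAut.inv_apply_self])
      right_inv := fun u => Subtype.ext (by
        show α (b : A) (α (b : A)⁻¹ (u : Q)) = u; rw [map_inv, MulAut.apply_inv_self])
      map_mul' := fun u v => Subtype.ext (map_mul (α b) _ _) })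
    fun b b' => MulEquiv.ext fun u => Subtype.ext (by
      show α ((b : A) * b') (u : Q) = α b (α b' u); rw [map_mul, MulAut.mul_apply])
  have hTS : ∀ b z, TS b * (ρ1.comp Z.subtype) z = (ρ1.comp Z.subtype) (αZ b z) * TS b := fun b z =>
    LinearMap.ext fun w => Subtype.ext (LinearMap.congr_fun (hT b z) (w : W))
  have hsumTS : ∑ b, TS b = 0 := LinearMap.ext fun w => Subtype.ext (by
    rw [LinearMap.sum_apply, LinearMap.zero_apply, Submodule.coe_zero, Submodule.coe_sum]
    exact hsumS w w.2)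
  have hψa : ∀ z : Z, ψ ⟨α a z, hZS a haS z z.2⟩ = ψ z := by
    obtain ⟨b, hb1, hb⟩ := hstabZ αZ TS hTS hsumTS ψ hψo
    let F : Subgroup S :=
      { carrier := {c | ∀ z : Z, ψ (αZ c z) = ψ z}
        one_mem' := fun z => by rw [map_one]; rfl
        mul_mem' := fun {u v} hu hv z => by rw [map_mul, MulAut.mul_apply, hu, hv]
        inv_mem' := fun {u} hu z => by
          conv_rhs => rw [← MulAut.apply_inv_self Z (αZ u) z, hu]
          rw [map_inv] }
    have hcardS : Nat.card S = m := by rw [hS, Nat.card_zpowers, hoa]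
    haveI := Fact.mk hm
    haveI : Fact (Nat.card S).Prime := ⟨hcardS.symm ▸ hm⟩
    rcases F.eq_bot_or_eq_top_of_prime_card with h | h
    · exact absurd (Subgroup.mem_bot.mp (h ▸ (show b ∈ F from hb))) hb1
    · exact fun z => (h.ge (Subgroup.mem_top (⟨a, haS⟩ : S)) : (⟨a, haS⟩ : S) ∈ F) z
  -- the final subspace
  let U : Submodule K W :=
    { carrier := {w | w ∈ U1 ∧ ∀ z : Z, ρ (z : Q) w = (ψ z : K) • w}
      zero_mem' := ⟨zero_mem _, fun z => by simp⟩
      add_mem' := fun {u v} hu hv => ⟨add_mem hu.1 hv.1, fun z => by rw [map_add, hu.2 z, hv.2 z, smul_add]⟩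
      smul_mem' := fun e u hu => ⟨U1.smul_mem e hu.1, fun z => by rw [map_smul, hu.2 z, smul_comm]⟩ }
  have hUQ : ∀ y, ∀ w ∈ U, ρ y w ∈ U := fun y w hw => ⟨hU1Q y w hw.1, fun z => by
    rw [hcommU1 _ _ _ hw.1, z.2 y, Units.val_one, one_smul, hw.2 z, map_smul]⟩
  have hUT : ∀ w ∈ U, T a w ∈ U := fun w hw => ⟨hU1T a haS w hw.1, fun z => by
    obtain ⟨z', rfl⟩ : ∃ z' : Z, (⟨α a z', hZS a haS z' z'.2⟩ : Z) = z :=
      ⟨(αZ ⟨a, haS⟩).symm z, (αZ ⟨a, haS⟩).apply_symm_apply z⟩
    show ρ (α a (z' : Q)) (T a w) = _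
    rw [← Module.End.mul_apply, ← hT, Module.End.mul_apply, hw.2 z', map_smul, hψa]⟩
  haveI : Nontrivial U := by
    obtain ⟨v, hv, hv0⟩ := (Submodule.ne_bot_iff _).mp hψo
    refine nontrivial_of_ne (⟨(v : W), v.2, fun z => congrArg Subtype.val (hv z)⟩ : U) 0 ?_
    exact fun h => hv0 (Subtype.ext (congrArg (fun u : U => (u : W)) h))
  set ρU := HHExceptional.restrictRep ρ U hUQ with hρU
  haveI hZn : Z.Normal := ⟨fun u hu g => by
    rw [show g * u * g⁻¹ = ⁅g, u⁆ * u by rw [commutatorElement_def]; group]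
    exact Z.mul_mem (hDZ (hDder _ _)) hu⟩
  letI : CommGroup (Q ⧸ Z) :=
    { (inferInstance : Group (Q ⧸ Z)) with
      mul_comm := fun X Y => by
        obtain ⟨u, rfl⟩ := QuotientGroup.mk'_surjective Z X
        obtain ⟨v, rfl⟩ := QuotientGroup.mk'_surjective Z Y
        show QuotientGroup.mk' Z u * QuotientGroup.mk' Z v = QuotientGroup.mk' Z v * QuotientGroup.mk' Z u
        rw [← commutatorElement_eq_one_iff_mul_comm, ← map_commutatorElement]
        exact (QuotientGroup.eq_one_iff _).mpr (hDZ (hDder _ _)) }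
  let mk := QuotientGroup.mk' Z
  have hXexp : ∀ X : Q ⧸ Z, X ^ q = 1 := fun X => by
    obtain ⟨u, rfl⟩ := QuotientGroup.mk'_surjective Z X
    exact (QuotientGroup.eq_one_iff _).mpr (hDZ (hDpow u))
  haveI : Nontrivial (Q ⧸ Z) := by
    refine nontrivial_of_ne (mk x₀) 1 fun h => hχc ?_
    exact ((QuotientGroup.eq_one_iff _).mp h : x₀ ∈ Z) y₀
  let ω : Q ⧸ Z → Q ⧸ Z → K := fun X Y => (ω₀ X.out Y.out : K)
  have hωmk : ∀ u v, ω (mk u) (mk v) = (ω₀ u v : K) := by
    intro u v
    obtain ⟨z, hz⟩ := QuotientGroup.mk_out_eq_mul Z u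
    obtain ⟨z', hz'⟩ := QuotientGroup.mk_out_eq_mul Z v
    show (ω₀ (Quotient.out (mk u)) (Quotient.out (mk v)) : K) = _
    rw [show Quotient.out (mk u) = u * z from hz, show Quotient.out (mk v) = v * z' from hz', hωl, hωr,
      z.2 (v * (z' : Q)), mul_one]
    have hsk : ω₀ u (z' : Q) = (ω₀ (z' : Q) u)⁻¹ := by
      show χ _ = (χ _)⁻¹
      rw [← map_inv]
      exact congrArg χ (Subtype.ext (commutatorElement_inv _ _).symm)
    rw [hsk, z'.2 u, inv_one, mul_one]
  have hω : WardEndgame.IsPairing ω := by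
    refine ⟨fun X Y Z' => ?_, fun X Y Z' => ?_, fun X => ?_, fun X hX => ?_, fun X Y => (ω₀ _ _).ne_zero⟩
    all_goals
      obtain ⟨u, rfl⟩ := QuotientGroup.mk'_surjective Z X
    · obtain ⟨v, rfl⟩ := QuotientGroup.mk'_surjective Z Y
      obtain ⟨w, rfl⟩ := QuotientGroup.mk'_surjective Z Z'
      rw [← map_mul, hωmk, hωmk, hωmk, hωl, Units.val_mul]
    · obtain ⟨v, rfl⟩ := QuotientGroup.mk'_surjective Z Y
      obtain ⟨w, rfl⟩ := QuotientGroup.mk'_surjective Z Z'
      rw [← map_mul, hωmk, hωmk, hωmk, hωr, Units.val_mul]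
    · rw [hωmk]
      show ((χ _ : Kˣ) : K) = 1
      rw [show (⟨⁅u, u⁆, hDder u u⟩ : D) = 1 from Subtype.ext (commutatorElement_self u), map_one, Units.val_one]
    · exact (QuotientGroup.eq_one_iff u).mpr fun v => Units.ext (by rw [← hωmk]; exact hX (mk v))
  have hmapA : Z.map (α a).toMonoidHom = Z := Subgroup.eq_of_le_of_card_ge
    (Subgroup.map_le_iff_le_comap.mpr fun u hu => hZS a haS u hu) (Subgroup.card_map_of_injective (α a).injective).ge
  let aX : MulAut (Q ⧸ Z) := QuotientGroup.congr Z Z (α a) hmapA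
  have haX : ∀ u, aX (mk u) = mk (α a u) := fun u => rfl
  have ham : a ^ m = 1 := by rw [← hoa, pow_orderOf_eq_one]
  have haXp : aX ^ m = 1 := by
    have h : ∀ i u, (aX ^ i) (mk u) = mk (α (a ^ i) u) := by
      intro i
      induction i with
      | zero => intro u; simp
      | succ i ih => intro u; rw [pow_succ', MulAut.mul_apply, ih, haX, pow_succ', map_mul, MulAut.mul_apply]
    refine MulEquiv.ext fun X => ?_
    obtain ⟨u, rfl⟩ := QuotientGroup.mk'_surjective Z X
    rw [show QuotientGroup.mk' Z u = mk u from rfl, h, ham, map_one]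
    rfl
  have hinvA : ∀ X Y, ω (aX X) (aX Y) = ω X Y := fun X Y => by
    obtain ⟨u, rfl⟩ := QuotientGroup.mk'_surjective Z X
    obtain ⟨v, rfl⟩ := QuotientGroup.mk'_surjective Z Y
    rw [haX, haX, hωmk, hωmk, hωA a haS]
  have hcopX : (Nat.card (Q ⧸ Z)).Coprime m := by
    obtain ⟨k, hk⟩ := IsPGroup.iff_card.mp (hQ.to_quotient Z)
    rw [hk]; exact ((Nat.coprime_primes hq hm).mpr (Ne.symm hmq)).pow_left k
  -- Hall–Higman
  have hsumU : ∑ i ∈ Finset.range m, ((T a).restrict hUT) ^ i = 0 := by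
    refine LinearMap.ext fun w => Subtype.ext ?_
    rw [LinearMap.sum_apply, LinearMap.zero_apply, Submodule.coe_zero, Submodule.coe_sum]
    have h2 : ∀ i, ((((T a).restrict hUT) ^ i) w : W) = T (a ^ i) w := by
      intro i
      induction i with
      | zero => simp
      | succ i ih =>
        rw [pow_succ', pow_succ', map_mul, Module.End.mul_apply, Module.End.mul_apply,
          LinearMap.coe_restrict_apply, ih]
    simp only [h2]
    have h3 := hsumS w w.2.1
    have he : (Finset.univ.filter (· ∈ S)) = (Finset.range m).image (a ^ ·) := by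
      ext b
      simp only [Finset.mem_filter, Finset.mem_univ, true_and]
      rw [hS, ← hoa, ← IsOfFinOrder.mem_powers_iff_mem_zpowers (isOfFinOrder_of_finite a)]
      exact mem_powers_iff_mem_range_orderOf
    rw [← Finset.sum_subtype (Finset.univ.filter (· ∈ S)) (fun b => by simp) (fun b => T b (w : W)), he,
      Finset.sum_image (fun i hi j hj hij => pow_injOn_Iio_orderOf
        (by rw [hoa]; exact Finset.mem_range.mp hi) (by rw [hoa]; exact Finset.mem_range.mp hj) hij)] at h3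
    exact h3
  have hcommU : ∀ u v, ρU u * ρU v = (ω₀ u v : K) • (ρU v * ρU u) :=
    fun u v => LinearMap.ext fun w => Subtype.ext (hcommU1 u v w w.2.1)
  have hHH : HHPairing.HHBound q m ω aX := by
    intro M haM hMfpf hMnd hMne
    let Q1 := M.comap mk
    obtain ⟨h2, n, hn, hmn, hidx⟩ := HHPairing.hh_sub hm hmK hQ ρU ((T a).restrict hUT) (α a) hsumU
      (fun u => LinearMap.ext fun w => Subtype.ext (LinearMap.congr_fun (hT a u) (w : W))) ω₀ hcommU Z
      (fun z hz => ⟨ψ ⟨z, hz⟩, LinearMap.ext fun w => Subtype.ext (w.2.2 ⟨z, hz⟩)⟩) Q1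
      (fun u hu => show mk (α a u) ∈ M from haX u ▸ haM _ hu)
      (fun u hu h => (QuotientGroup.eq_one_iff u).mp (hMnd (mk u) hu fun Y hY => by
        obtain ⟨v, rfl⟩ := QuotientGroup.mk'_surjective Z Y
        rw [hωmk, h v hY, Units.val_one]))
      (fun u hu h => (QuotientGroup.eq_one_iff u).mp (hMfpf (mk u) hu (QuotientGroup.eq.mpr h).symm))
      (by
        obtain ⟨Y, hY, hY1⟩ := (Subgroup.ne_bot_iff_exists_ne_one.mp hMne).elim fun ⟨Y, hY⟩ h =>
          (⟨Y, hY, fun e => h (Subtype.ext e)⟩ : ∃ Y, Y ∈ M ∧ Y ≠ 1)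
        obtain ⟨u, rfl⟩ := QuotientGroup.mk'_surjective Z Y
        exact ⟨u, hY, fun h => hY1 ((QuotientGroup.eq_one_iff u).mpr h)⟩)
    refine ⟨h2, n, hn, hmn, ?_⟩
    have hker : Z.subgroupOf Q1 = (mk.comp Q1.subtype).ker := by
      ext u
      rw [Subgroup.mem_subgroupOf, MonoidHom.mem_ker]
      exact (QuotientGroup.eq_one_iff (u : Q)).symm
    rwa [hker, Subgroup.index_ker, MonoidHom.range_comp, Subgroup.range_subtype,
      Subgroup.map_comap_eq_self_of_surjective (QuotientGroup.mk'_surjective Z)] at hidx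
  have htriv : ∀ X, aX X = X := by
    refine (WardEndgame.moved_eq_bot_iff aX).mp ?_
    by_contra hmv
    exact hq2 (hHH.moved hω haXp hcopX hinvA hmv).1
  have hxc : x₀ ∉ Z := fun hz => hχc (hz y₀)
  rcases haσ with rfl | haσ
  · -- `σ` has no fixed point on the quotient
    have hall : (⊤ : Subgroup Q) ≤ Z := by
      rw [← hBtop, Subgroup.closure_le]
      rintro _ ⟨x, rfl⟩
      exact QuotientGroup.eq.mp (htriv (mk x)).symm
    exact hxc (hall (Subgroup.mem_top x₀))
  -- an involution acting trivially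
  have hb2 : a * a = 1 := sq_outside h haσ
  haveI := Fintype.ofFinite (Subgroup.zpowers σ)
  have hωa : ∀ u v, ω₀ (α a u) v = ω₀ u v := fun u v => Units.ext (by rw [← hωmk, ← hωmk, ← haX, htriv])
  have hsig : ∀ u, u * α σ u * α σ (α σ u) ∈ Z := fun u => by
    refine hDZ (hσD _ ?_)
    have e3 : α σ (α σ (α σ u)) = u := by
      rw [← MulAut.mul_apply, ← MulAut.mul_apply, ← map_mul, ← map_mul, ← pow_two, ← pow_succ, sigma_pow h,
        map_one, MulAut.one_apply]
    rw [map_mul, map_mul, e3, show (u * α σ u * α σ (α σ u))⁻¹ * (α σ u * α σ (α σ u) * u) =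
      ⁅(α σ u * α σ (α σ u))⁻¹, u⁻¹⁆ by rw [commutatorElement_def]; group]
    exact hDder _ _
  have hχσ : ∀ d : D, χ d * χ ⟨α σ d, hDA σ d d.2⟩ * χ ⟨α σ (α σ d), hDA σ _ (hDA σ d d.2)⟩ = 1 := fun d => by
    have h1 := h.prod_sigma_trivial α h3Q h2Q hfpf hDA χ haσ (MonoidHom.ext fun w => haS w) d
    rw [prod_three h (fun b => χ ⟨α b d, hDA b d d.2⟩)] at h1
    simp only [map_one, MulAut.one_apply, pow_two, map_mul, MulAut.mul_apply] at h1
    exact h1
  have hskew : ∀ u y, ω₀ u y = (ω₀ y u)⁻¹ := fun u y => by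
    show χ _ = (χ _)⁻¹
    rw [← map_inv]
    exact congrArg χ (Subtype.ext (commutatorElement_inv _ _).symm)
  have hd : ∀ u v, ω₀ u v * ω₀ (α σ u) (α σ v) * ω₀ (α σ (α σ u)) (α σ (α σ v)) = 1 := fun u v => by
    have h1 := hχσ ⟨⁅u, v⁆, hDder u v⟩
    simp only [map_commutatorElement] at h1
    exact h1
  have hnl : ∀ u v, ω₀ u v * ω₀ (α σ u) v * ω₀ (α σ (α σ u)) v = 1 := fun u v => by
    rw [← hωl, ← hωl]; exact hsig u v
  have hσb : ∀ u, α σ (α a u) = α a (α σ (α σ u)) := fun u => by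
    simp only [← MulAut.mul_apply, ← map_mul]
    rw [rel h haσ, pow_two]
  have hσσb : ∀ u, α σ (α σ (α a u)) = α a (α σ u) := fun u => by
    simp only [← MulAut.mul_apply, ← map_mul]
    rw [show σ * (σ * a) = a * σ ^ (3 + 1) by rw [rel h haσ, ← mul_assoc, rel h haσ, mul_assoc, ← pow_add],
      pow_succ, sigma_pow h, one_mul]
  have h3c : ω₀ x₀ y₀ ^ 3 = 1 := cube_trick ω₀ (α σ) (α a) (α σ) (x := x₀) (y := y₀) hωa
    (fun z => by rw [hσb, hωa]) (fun z => by rw [hσσb, hωa]) (hnl _ _) (hnl _ _) (fun u => hd u y₀) (by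
      have h1 := hnl y₀ x₀
      rw [hskew x₀ y₀, hskew x₀, hskew x₀, ← mul_inv, ← mul_inv, h1, inv_one])
  refine hχc (orderOf_eq_one_iff.mp (Nat.eq_one_of_dvd_coprimes
    ((Nat.Prime.coprime_iff_not_dvd Nat.prime_three).mpr (h3sub D))
    (orderOf_dvd_of_pow_eq_one h3c) (orderOf_dvd_of_pow_eq_one (?_ : χ c ^ Nat.card D = 1))))
  rw [← map_pow, pow_card_eq_one', map_one]

end Cfsg.Agent.Transfer.S3
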