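/-
A solvable group of order prime to 6 with fixed-point-free operators forming a symmetric group of degree three
has nilpotent derived group.
-/
import Cfsg.Agent.Transfer.S3Step

set_option autoImplicit false
set_option linter.style.haveILetI false
set_option linter.unusedSectionVars false
set_option maxSynthPendingDepth 4

namespace Cfsg.Agent.Transfer.S3

open Cfsg Module Ward PQ
open scoped commutatorElement TensorProduct

universe u uA

variable {A : Type uA} [Group A] [Finite A] {σ : A}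

section Local

variable {K : Type*} [Field K] [IsAlgClosed K] {W : Type*} [AddCommGroup W] [Module K W]
  [FiniteDimensional K W]

/-- The local step. -/
theorem abelian_of_fpf (h : IsPQ 3 2 σ) [Fintype A] {Q : Type*} [Group Q] [Finite Q] {q : ℕ} (hq : q.Prime)
    (hq3 : q ≠ 3) (hq2 : q ≠ 2) (hqK : (q : K) ≠ 0) (h3K : ((3 : ℕ) : K) ≠ 0) (h2K : ((2 : ℕ) : K) ≠ 0)
    (hQ : IsPGroup q Q) (α : A →* MulAut Q) (ρ : Q →* Module.End K W) (hρ : Function.Injective ρ)
    (T : A →* Module.End K W) (hT : ∀ a y, T a * ρ y = ρ (α a y) * T a) (hsum : ∑ a, T a = 0)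
    (hfpf : ∀ y, (∀ a, α a y = y) → y = 1) (x y : Q) : x * y = y * x := by
  by_contra hne
  obtain ⟨M, ⟨hMA, hMne⟩, hMmin⟩ := (Set.toFinite
    {M : Subgroup Q | (∀ a, ∀ z ∈ M, α a z ∈ M) ∧ ¬ ∀ u v : M, u * v = v * u}).exists_minimal
    ⟨⊤, fun _ _ _ => Subgroup.mem_top _, fun hc => hne (congrArg Subtype.val
      (hc ⟨x, Subgroup.mem_top x⟩ ⟨y, Subgroup.mem_top y⟩))⟩
  push Not at hMne
  refine false_of_minimal h hq hq3 hq2 (hQ.to_subgroup M) hqK h3K h2K (resAct α M hMA) (ρ.comp M.subtype)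
    (hρ.comp M.subtype_injective) T (fun a z => hT a z) hsum
    (fun z hz => Subtype.ext (hfpf _ fun a => congrArg Subtype.val (hz a))) hMne ?_
  intro N hN hNA u v
  by_contra huv
  refine hN (Subgroup.map_injective M.subtype_injective ?_)
  have hle : N.map M.subtype ≤ M := Subgroup.map_subtype_le N
  rw [← MonoidHom.range_eq_map, Subgroup.range_subtype]
  refine le_antisymm hle (hMmin ⟨?_, ?_⟩ hle)
  · rintro a _ ⟨z, hz, rfl⟩
    exact ⟨resAct α M hMA a z, hNA a z hz, rfl⟩
  · intro hc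
    have h2 := congrArg Subtype.val (hc ⟨_, (u : M), u.2, rfl⟩ ⟨_, (v : M), v.2, rfl⟩)
    exact huv (Subtype.ext (Subtype.ext h2))

end Local

/-- A finite nilpotent group with commutative Sylow subgroups is commutative. -/
theorem comm_of_sylow {H : Type*} [Group H] [Finite H] [Group.IsNilpotent H]
    (hS : ∀ (q : ℕ) [Fact q.Prime] (P : Sylow q H), ∀ u v : (P : Subgroup H), u * v = v * u) (x y : H) :
    x * y = y * x := by
  classical
  have key : ∀ S : Subgroup H, (∀ (r : ℕ) [Fact r.Prime], ∃ P : Sylow r H, (P : Subgroup H) ≤ S) → S = ⊤ := by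
    intro S hS'
    rw [← Subgroup.index_eq_one]
    by_contra hne
    obtain ⟨r, hr, hdvd⟩ := Nat.exists_prime_and_dvd hne
    haveI := Fact.mk hr
    obtain ⟨P, hP⟩ := hS' r
    exact P.not_dvd_index (hdvd.trans (Subgroup.index_dvd_of_le hP))
  have hcen : Subgroup.center H = ⊤ := key _ fun q _ => ⟨default, fun u hu => by
    refine Subgroup.mem_center_iff.mpr fun g => ?_
    have htop : Subgroup.centralizer ({u} : Set H) = ⊤ := key _ fun r _ => ⟨default, fun v hv => by
      refine Subgroup.mem_centralizer_iff.mpr fun w hw => ?_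
      rw [Set.mem_singleton_iff.mp hw]
      by_cases hrq : r = q
      · subst hrq
        exact congrArg Subtype.val (hS r default ⟨u, hu⟩ ⟨v, hv⟩)
      · refine (OddLocal.commute_of_coprime_orderOf ?_).eq
        obtain ⟨i, hi⟩ := IsPGroup.iff_orderOf.mp (default : Sylow q H).2 ⟨u, hu⟩
        obtain ⟨j, hj⟩ := IsPGroup.iff_orderOf.mp (default : Sylow r H).2 ⟨v, hv⟩
        rw [← Subgroup.orderOf_coe] at hi hj
        rw [show orderOf u = _ from hi, show orderOf v = _ from hj]
        exact Nat.Coprime.pow _ _ ((Nat.coprime_primes Fact.out Fact.out).mpr (Ne.symm hrq))⟩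
    exact (Subgroup.mem_centralizer_iff.mp (htop.ge (Subgroup.mem_top g)) u rfl).symm⟩
  exact Subgroup.mem_center_iff.mp (hcen.ge (Subgroup.mem_top y)) x

/-- If `G/C_G(V)` is nilpotent for every minimal invariant normal subgroup `V` in all sections, some
term of the lower central series is nilpotent. -/
theorem derived_nilpotent_of_local (hA : IsPQ 3 2 σ)
    (hloc : ∀ (G : Type u) [Group G] [Finite G], Group.IsSolvable G → ∀ φ : A →* MulAut G,
      ¬ 3 ∣ Nat.card G → ¬ 2 ∣ Nat.card G → (∀ x, (∀ a, φ a x = x) → x = 1) →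
      ∀ (V : Subgroup G) [V.Normal], V ≠ ⊥ → IsMulCommutative V → (∀ a, ∀ x ∈ V, φ a x ∈ V) →
        (∀ W : Subgroup G, W.Normal → (∀ a, ∀ x ∈ W, φ a x ∈ W) → W ≤ V → W ≠ ⊥ → W = V) →
        commutator G ≤ Subgroup.centralizer (V : Set G)) :
    ∀ (n : ℕ) (G : Type u) [Group G] [Finite G], Nat.card G ≤ n → Group.IsSolvable G →
      ∀ φ : A →* MulAut G, ¬ 3 ∣ Nat.card G → ¬ 2 ∣ Nat.card G → (∀ x, (∀ a, φ a x = x) → x = 1) →
        Group.IsNilpotent (commutator G) := by
  intro n
  induction n with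
  | zero => intro G _ _ h; exact absurd h (by simp [Nat.card_pos.ne'])
  | succ n ih =>
  intro G _ _ hcard hsol φ hp ho hfpf
  classical
  rcases subsingleton_or_nontrivial G with hs | hnt
  · exact inferInstance
  haveI := hsol
  obtain ⟨V, ⟨hVn, hVφ, hV1⟩, hVmin⟩ := (Set.toFinite
    {V : Subgroup G | V.Normal ∧ (∀ a, ∀ x ∈ V, φ a x ∈ V) ∧ V ≠ ⊥}).exists_minimal
    ⟨⊤, inferInstance, fun _ _ _ => Subgroup.mem_top _, top_ne_bot⟩
  haveI := hVn
  have hmin : ∀ W : Subgroup G, W.Normal → (∀ a, ∀ x ∈ W, φ a x ∈ W) → W ≤ V → W ≠ ⊥ → W = V :=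
    fun W h1 h2 h3 h4 => le_antisymm h3 (hVmin ⟨h1, h2, h4⟩ h3)
  have hVc : IsMulCommutative V := by
    rw [← Subgroup.commutator_self_eq_bot_iff]
    by_contra hne
    have heq : ⁅V, V⁆ = V := hmin _ inferInstance (fun a x hx => by
      have h : ⁅V, V⁆.map (φ a).toMonoidHom ≤ ⁅V, V⁆ := by
        rw [Subgroup.map_commutator, FittingReduction.map_eq_of_forall φ hVφ]
      exact h ⟨x, hx, rfl⟩) (Subgroup.commutator_le_self V) hne
    haveI : Nontrivial V := (Subgroup.nontrivial_iff_ne_bot V).mpr hV1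
    refine (Group.IsSolvable.commutator_lt_top_of_nontrivial V).ne ?_
    refine Subgroup.map_injective V.subtype_injective ?_
    rw [Subgroup.map_subtype_commutator, heq, ← MonoidHom.range_eq_map, Subgroup.range_subtype]
  have hk := hloc G hsol φ hp ho hfpf V hV1 hVc hVφ hmin
  have hmap := FittingReduction.map_eq_of_forall φ hVφ
  have hqlt : Nat.card (G ⧸ V) < Nat.card G := by
    rw [Subgroup.card_eq_card_quotient_mul_card_subgroup V]
    exact lt_mul_of_one_lt_right Nat.card_pos ((Subgroup.one_lt_card_iff_ne_bot V).mpr hV1)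
  have hm := ih (G ⧸ V) (by omega) inferInstance (FittingReduction.quotAct φ V hmap)
    (fun h => hp (h.trans (Dvd.intro _ (Subgroup.card_eq_card_quotient_mul_card_subgroup V).symm)))
    (fun h => ho (h.trans (Dvd.intro _ (Subgroup.card_eq_card_quotient_mul_card_subgroup V).symm)))
    (hA.fpf_quot φ hp ho hfpf V hmap)
  set L := commutator G
  have hLk : L ≤ Subgroup.centralizer (V : Set G) := hk
  let f : L →* commutator (G ⧸ V) :=
    ((QuotientGroup.mk' V).comp L.subtype).codRestrict _ fun x => by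
      rw [commutator_def, ← Subgroup.map_top_of_surjective (QuotientGroup.mk' V) (QuotientGroup.mk'_surjective V),
        ← Subgroup.map_commutator]
      exact ⟨x, x.2, rfl⟩
  haveI := hm
  refine Subgroup.isNilpotent_of_ker_le_center f fun x hx => Subgroup.mem_center_iff.mpr fun y => ?_
  have hxV : (x : G) ∈ V := (QuotientGroup.eq_one_iff _).mp (congrArg Subtype.val hx)
  exact Subtype.ext (Subgroup.mem_centralizer_iff.mp (hLk y.2) x hxV).symm

/-- The derived group is nilpotent. -/
theorem derived_nilpotent {A : Type uA} [Group A] [Finite A] {σ : A} (h : IsPQ 3 2 σ)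
    {G : Type u} [Group G] [Finite G] (hG : Group.IsSolvable G) (φ : A →* MulAut G)
    (hpG : ¬ 3 ∣ Nat.card G) (hoG : ¬ 2 ∣ Nat.card G) (hfpf : ∀ g : G, (∀ a, φ a g = g) → g = 1) :
    Group.IsNilpotent (commutator G) := by
  classical
  refine derived_nilpotent_of_local h ?_ (Nat.card G) G le_rfl hG φ hpG hoG hfpf
  intro G _ _ hG φ hpG hoG hfpf V _ hV1 hVc hVA hmin
  haveI := hG
  haveI := Fintype.ofFinite A
  obtain ⟨ℓ, hℓ, hℓV⟩ := Nat.exists_prime_and_dvd (mt Subgroup.card_eq_one.mp hV1)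
  haveI := Fact.mk hℓ
  haveI := hVc
  letI : CommGroup V := { (inferInstance : Group V) with mul_comm := hVc.1.1 }
  have hVe : ∀ v : V, v ^ ℓ = 1 := by
    let f : V →* V := powMonoidHom ℓ
    have hker : (f.ker).map V.subtype = V := by
      refine hmin _ ?_ ?_ (Subgroup.map_subtype_le _) ?_
      · haveI : (f.ker).Characteristic := Subgroup.characteristic_iff_comap_eq.mpr fun e => by
          ext v
          simp only [Subgroup.mem_comap, MonoidHom.mem_ker, f, powMonoidHom_apply, MulEquiv.coe_toMonoidHom,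
            ← map_pow, map_eq_one_iff e e.injective]
        infer_instance
      · rintro a _ ⟨v, hv, rfl⟩
        refine ⟨resAct φ V hVA a v, ?_, rfl⟩
        show (resAct φ V hVA a v) ^ ℓ = 1
        rw [← map_pow, show v ^ ℓ = 1 from hv, map_one]
      · intro hb
        rw [Subgroup.map_eq_bot_iff_of_injective _ V.subtype_injective] at hb
        obtain ⟨v, hv⟩ := exists_prime_orderOf_dvd_card' ℓ hℓV
        have : v = 1 := (Subgroup.eq_bot_iff_forall _).mp hb v (show v ^ ℓ = 1 by rw [← hv, pow_orderOf_eq_one])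
        rw [this, orderOf_one] at hv
        exact hℓ.ne_one hv.symm
    intro v
    obtain ⟨w, hw, he⟩ := hker.ge v.2
    rw [← show w = v from Subtype.ext he]
    exact hw
  letI : Module (ZMod ℓ) (Additive V) := ModuleBC.modOfExp hVe
  haveI : Finite (Additive V) := inferInstanceAs (Finite V)
  haveI : FiniteDimensional (ZMod ℓ) (Additive V) := Module.Finite.of_finite
  set C := Subgroup.centralizer (V : Set G) with hC
  have hCA : ∀ a, ∀ c ∈ C, φ a c ∈ C := fun a c hc => Subgroup.mem_centralizer_iff.mpr fun v hv => by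
    have h := congrArg (φ a) (Subgroup.mem_centralizer_iff.mp hc _ (hVA a⁻¹ v hv))
    rwa [map_mul, map_mul, map_inv, MulAut.apply_inv_self] at h
  have hCmap := FittingReduction.map_eq_of_forall φ hCA
  set α := FittingReduction.quotAct φ C hCmap with hα
  let cj : (G ⧸ C) →* MulAut V := QuotientGroup.lift C (MulAut.conjNormal (H := V)) (by
    intro c hc
    refine MulEquiv.ext fun v => Subtype.ext ?_
    rw [MulAut.conjNormal_apply, MulAut.one_apply,
      ← Subgroup.mem_centralizer_iff.mp hc v v.2, mul_inv_cancel_right])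
  let ρ := (ModuleBC.bcRep ℓ).comp cj
  let T := (ModuleBC.bcRep ℓ).comp (resAct φ V hVA)
  have hρ : Function.Injective ρ := (ModuleBC.bcRep_injective ℓ).comp ((injective_iff_map_eq_one cj).mpr fun X hX => by
    obtain ⟨g, rfl⟩ := QuotientGroup.mk'_surjective C X
    refine (QuotientGroup.eq_one_iff g).mpr (Subgroup.mem_centralizer_iff.mpr fun v hv => ?_)
    have h2 := congrArg (fun e : MulAut V => ((e ⟨v, hv⟩ : V) : G)) hX
    exact (mul_inv_eq_iff_eq_mul.mp h2).symm)
  have hTρ : ∀ a h, T a * ρ h = ρ (α a h) * T a := fun a h => by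
    obtain ⟨g, rfl⟩ := QuotientGroup.mk'_surjective C h
    show ModuleBC.bcRep ℓ _ * ModuleBC.bcRep ℓ _ = ModuleBC.bcRep ℓ _ * ModuleBC.bcRep ℓ _
    rw [← map_mul, ← map_mul]
    congr 1
    refine MulEquiv.ext fun v => Subtype.ext ?_
    show φ a (g * (v : G) * g⁻¹) = φ a g * φ a v * (φ a g)⁻¹
    rw [map_mul, map_mul, map_inv]
  have hsum : ∑ a, T a = 0 := by
    have h1 : ∑ a, ModuleBC.toEnd ℓ (resAct φ V hVA a) = 0 := by
      refine LinearMap.ext fun u => ?_
      rw [LinearMap.sum_apply, LinearMap.zero_apply]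
      obtain ⟨x, hx⟩ := Additive.ofMul.surjective (∑ a, ModuleBC.toEnd ℓ (resAct φ V hVA a) u)
      rw [← hx]
      have : x = 1 := Subtype.ext (hfpf _ fun c => by
        refine congrArg Subtype.val (Additive.ofMul.injective (?_ : Additive.ofMul (resAct φ V hVA c x) = _))
        rw [← ModuleBC.toEnd_apply ℓ, hx, map_sum]
        refine Fintype.sum_equiv (Equiv.mulLeft c) _ _ fun a => ?_
        rw [← Module.End.mul_apply, ← map_mul, ← map_mul]; rfl)
      rw [this, ofMul_one]
    have := congrArg (Module.End.baseChangeHom (ZMod ℓ) (ModuleBC.Kbar ℓ) (Additive V)) h1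
    rw [map_sum, map_zero] at this
    exact this
  have hdvdH : ∀ {n : ℕ}, ¬ n ∣ Nat.card G → ¬ n ∣ Nat.card (G ⧸ C) := fun hn h' =>
    hn (h'.trans (Dvd.intro _ (Subgroup.card_eq_card_quotient_mul_card_subgroup C).symm))
  have hpH := hdvdH hpG
  have hoH := hdvdH hoG
  have hfpfH := h.fpf_quot φ hpG hoG hfpf C hCmap
  have hnilH : Group.IsNilpotent (G ⧸ C) := by
    refine FittingReduction.nilpotent_of_centralizes α (ℓ := ℓ) ?_ (fun r _ => h.exists_sylow α hpH hoH r) ?_
    · set N := (pCore ℓ (G ⧸ C)).comap (QuotientGroup.mk' C) with hN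
      haveI : N.Normal := Subgroup.Normal.comap inferInstance _
      have hVN : V ⊓ Subgroup.centralizer (N : Set G) = V := by
        refine hmin _ inferInstance ?_ inf_le_left ?_
        · rintro a w ⟨hw1, hw2⟩
          refine ⟨hVA a w hw1, Subgroup.mem_centralizer_iff.mpr fun k hk => ?_⟩
          have hk' : φ a⁻¹ k ∈ N := by
            show α a⁻¹ (QuotientGroup.mk' C k) ∈ pCore ℓ (G ⧸ C)
            exact (Subgroup.characteristic_iff_map_eq.mp inferInstance (α a⁻¹)).le ⟨_, hk, rfl⟩
          have := congrArg (φ a) (Subgroup.mem_centralizer_iff.mp hw2 _ hk')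
          rwa [map_mul, map_mul, map_inv, MulAut.apply_inv_self] at this
        · letI : MulAction (G ⧸ C) V := MulAction.compHom V cj
          have h1 : (1 : V) ∈ MulAction.fixedPoints (pCore ℓ (G ⧸ C)) V := fun x => map_one (cj (x : G ⧸ C))
          obtain ⟨v, hv, hv1⟩ := (Core.isPGroup_pCore ℓ (G ⧸ C)).exists_fixed_point_of_prime_dvd_card_of_fixed_point
            V hℓV h1
          refine fun hb => hv1 (Subtype.ext ((Subgroup.eq_bot_iff_forall _).mp hb (v : G)
            ⟨v.2, Subgroup.mem_centralizer_iff.mpr fun k hk => ?_⟩)).symm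
          have h2 := congrArg Subtype.val (hv ⟨QuotientGroup.mk' C k, hk⟩)
          exact mul_inv_eq_iff_eq_mul.mp h2
      rw [Subgroup.eq_bot_iff_forall]
      intro X hX
      obtain ⟨g, rfl⟩ := QuotientGroup.mk'_surjective C X
      exact (QuotientGroup.eq_one_iff g).mpr (Subgroup.mem_centralizer_iff.mpr fun v hv =>
        ((Subgroup.mem_centralizer_iff.mp (hVN.ge hv).2) g hX).symm)
    · intro q r _ _ hqr hqℓ R hR hRA x hx
      by_cases hq1 : pCore q (G ⧸ C) = ⊥
      · rw [hq1]
        exact Subgroup.mem_centralizer_iff.mpr fun y hy => by rw [Subgroup.mem_bot.mp hy, one_mul, mul_one]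
      by_cases hr1 : R = ⊥
      · rw [hr1, Subgroup.mem_bot] at hx
        rw [hx]; exact Subgroup.one_mem _
      have hne : ∀ {s : ℕ} [Fact s.Prime] {S : Subgroup (G ⧸ C)}, IsPGroup s S → S ≠ ⊥ → ∀ {m : ℕ},
          ¬ m ∣ Nat.card (G ⧸ C) → m ≠ s := by
        intro s _ S hS hS1 m hm e
        subst e
        obtain ⟨j, hj⟩ := IsPGroup.iff_card.mp hS
        rcases Nat.eq_zero_or_pos j with rfl | hj0
        · rw [pow_zero, Subgroup.card_eq_one] at hj
          exact hS1 hj
        · exact hm ((hj ▸ dvd_pow_self m hj0.ne').trans (Subgroup.card_subgroup_dvd_card S))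
      have hℓne : ∀ {m : ℕ}, m.Prime → ¬ m ∣ Nat.card G → (m : ModuleBC.Kbar ℓ) ≠ 0 := fun {m} hm hmG =>
        ModuleBC.natCast_ne_zero ℓ fun hd => hmG (by
          rw [← (Nat.prime_dvd_prime_iff_eq hℓ hm).mp hd]
          exact hℓV.trans (Subgroup.card_subgroup_dvd_card V))
      refine h.le_centralizer hqr (hne (Core.isPGroup_pCore q (G ⧸ C)) hq1 hpH)
        (hne (Core.isPGroup_pCore q (G ⧸ C)) hq1 hoH) (hne hR hr1 hpH) (hne hR hr1 hoH)
        (ModuleBC.natCast_ne_zero ℓ fun hd => hqℓ ((Nat.prime_dvd_prime_iff_eq hℓ Fact.out).mp hd).symm)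
        (hℓne h.hp hpG) (hℓne h.ho hoG) α ρ hρ T hTρ hsum hfpfH _ R
        (Core.isPGroup_pCore q (G ⧸ C)) hR
        (fun a y hy => (Subgroup.characteristic_iff_map_eq.mp inferInstance (α a)).le ⟨y, hy, rfl⟩) hRA
        (Subgroup.normalizer_eq_top (pCore q (G ⧸ C)) ▸ le_top) hx
  haveI := hnilH
  have hOl : pCore ℓ (G ⧸ C) = ⊥ := by
    set N := (pCore ℓ (G ⧸ C)).comap (QuotientGroup.mk' C) with hN
    haveI : N.Normal := Subgroup.Normal.comap inferInstance _
    have hVN : V ⊓ Subgroup.centralizer (N : Set G) = V := by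
      refine hmin _ inferInstance ?_ inf_le_left ?_
      · rintro a w ⟨hw1, hw2⟩
        refine ⟨hVA a w hw1, Subgroup.mem_centralizer_iff.mpr fun k hk => ?_⟩
        have hk' : φ a⁻¹ k ∈ N := by
          show α a⁻¹ (QuotientGroup.mk' C k) ∈ pCore ℓ (G ⧸ C)
          exact (Subgroup.characteristic_iff_map_eq.mp inferInstance (α a⁻¹)).le ⟨_, hk, rfl⟩
        have := congrArg (φ a) (Subgroup.mem_centralizer_iff.mp hw2 _ hk')
        rwa [map_mul, map_mul, map_inv, MulAut.apply_inv_self] at this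
      · letI : MulAction (G ⧸ C) V := MulAction.compHom V cj
        have h1 : (1 : V) ∈ MulAction.fixedPoints (pCore ℓ (G ⧸ C)) V := fun x => map_one (cj (x : G ⧸ C))
        obtain ⟨v, hv, hv1⟩ := (Core.isPGroup_pCore ℓ (G ⧸ C)).exists_fixed_point_of_prime_dvd_card_of_fixed_point
          V hℓV h1
        refine fun hb => hv1 (Subtype.ext ((Subgroup.eq_bot_iff_forall _).mp hb (v : G)
          ⟨v.2, Subgroup.mem_centralizer_iff.mpr fun k hk => ?_⟩)).symm
        have h2 := congrArg Subtype.val (hv ⟨QuotientGroup.mk' C k, hk⟩)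
        exact mul_inv_eq_iff_eq_mul.mp h2
    rw [Subgroup.eq_bot_iff_forall]
    intro X hX
    obtain ⟨g, rfl⟩ := QuotientGroup.mk'_surjective C X
    exact (QuotientGroup.eq_one_iff g).mpr (Subgroup.mem_centralizer_iff.mpr fun v hv =>
      ((Subgroup.mem_centralizer_iff.mp (hVN.ge hv).2) g hX).symm)
  have hℓne : ∀ {m : ℕ}, m.Prime → ¬ m ∣ Nat.card G → (m : ModuleBC.Kbar ℓ) ≠ 0 := fun {m} hm hmG =>
    ModuleBC.natCast_ne_zero ℓ fun hd => hmG (by
      rw [← (Nat.prime_dvd_prime_iff_eq hℓ hm).mp hd]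
      exact hℓV.trans (Subgroup.card_subgroup_dvd_card V))
  have habH : ∀ X Y : G ⧸ C, X * Y = Y * X := by
    refine comm_of_sylow fun q _ P u v => ?_
    haveI : (P : Subgroup (G ⧸ C)).Normal :=
      Sylow.normal_of_normalizerCondition Group.normalizerCondition_of_isNilpotent P
    haveI := Sylow.characteristic_of_normal P inferInstance
    by_cases hP : (P : Subgroup (G ⧸ C)) = ⊥
    · refine Subtype.ext ?_
      rw [Subgroup.coe_mul, Subgroup.coe_mul, (Subgroup.eq_bot_iff_forall _).mp hP u u.2, one_mul, mul_one]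
    have hqℓ : q ≠ ℓ := fun e => hP (by
      subst e
      exact le_bot_iff.mp (hOl ▸ Core.le_pCore inferInstance P.2))
    have hne : ∀ {m : ℕ}, ¬ m ∣ Nat.card (G ⧸ C) → q ≠ m := by
      rintro m hm rfl
      obtain ⟨j, hj⟩ := IsPGroup.iff_card.mp P.2
      rcases Nat.eq_zero_or_pos j with rfl | hj0
      · rw [pow_zero, Subgroup.card_eq_one] at hj
        exact hP hj
      · exact hm ((hj ▸ dvd_pow_self q hj0.ne').trans (Subgroup.card_subgroup_dvd_card _))
    have hPA : ∀ a, ∀ z ∈ (P : Subgroup (G ⧸ C)), α a z ∈ (P : Subgroup (G ⧸ C)) := fun a z hz =>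
      (Subgroup.characteristic_iff_map_eq.mp inferInstance (α a)).le ⟨z, hz, rfl⟩
    exact abelian_of_fpf h (Fact.out : q.Prime) (hne hpH) (hne hoH)
      (ModuleBC.natCast_ne_zero ℓ fun hd => hqℓ ((Nat.prime_dvd_prime_iff_eq hℓ Fact.out).mp hd).symm)
      (hℓne Nat.prime_three hpG) (hℓne Nat.prime_two hoG) P.2 (resAct α _ hPA) (ρ.comp (P : Subgroup (G ⧸ C)).subtype)
      (hρ.comp (Subgroup.subtype_injective _)) T (fun a z => hTρ a z) hsum
      (fun z hz => Subtype.ext (hfpfH _ fun a => congrArg Subtype.val (hz a))) u v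
  rw [commutator_def, Subgroup.commutator_le]
  intro g _ k _
  refine (QuotientGroup.eq_one_iff _).mp ?_
  show QuotientGroup.mk' C ⁅g, k⁆ = 1
  rw [map_commutatorElement, commutatorElement_eq_one_iff_mul_comm]
  exact habH _ _

end Cfsg.Agent.Transfer.S3
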